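import Cfsg.Agent.L4.Lift2

/-!
Lifting a matrix representation of any degree to the complex numbers.
-/

set_option autoImplicit false
set_option linter.unusedSectionVars false

namespace Cfsg.Agent.L5.Lift
open Matrix Cfsg.Agent.L4.Lift

variable {P k R ι : Type*} [Group P] [Fintype P] [Field k] [CommRing R] [Fintype ι] [DecidableEq ι]

/-- Cocycles are coboundaries. -/
theorem cobound0 (m : P →* Matrix ι ι k) (θ : Matrix ι ι k →ₗ[k] Matrix ι ι k)
    (hθ : ∀ X : Matrix ι ι k, ∑ g, m g * θ (m g⁻¹ * X * m g) * m g⁻¹ = X)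
    (c : P → P → Matrix ι ι k)
    (hc : ∀ g h l, c (g * h) l + c g h = c g (h * l) + m g * c h l * m g⁻¹) :
    ∃ b : P → Matrix ι ι k, ∀ g h, c g h = b g + m g * b h * m g⁻¹ - b (g * h) := by
  let T : P → Matrix ι ι k → Matrix ι ι k := fun x X => m x * θ (m x⁻¹ * X * m x) * m x⁻¹
  have T1 : ∀ x X Y Z, T x (X + Y - Z) = T x X + T x Y - T x Z := fun x X Y Z => by
    simp only [T, mul_add, add_mul, mul_sub, sub_mul, map_add, map_sub]
  have T2 : ∀ g x X, T (g * x) (m g * X * m g⁻¹) = m g * T x X * m g⁻¹ := fun g x X => by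
    have e : m (g * x)⁻¹ * (m g * X * m g⁻¹) * m (g * x) = m x⁻¹ * X * m x := by
      rw [← mul_assoc, ← mul_assoc, ← map_mul, mul_assoc _ (m g⁻¹), ← map_mul]
      congr 3 <;> group
    simp only [T]
    rw [e, _root_.mul_inv_rev, map_mul m, map_mul m]
    simp only [mul_assoc]
  refine ⟨fun g => ∑ l, T (g * l) (c g l), fun g h => ?_⟩
  have e1 : c g h = ∑ l, T (g * h * l) (c g h) :=
    (hθ _).symm.trans (Equiv.sum_comp (Equiv.mulLeft (g * h)) fun x => T x (c g h)).symm
  have e3 : ∑ l, T (g * (h * l)) (c g (h * l)) = ∑ l, T (g * l) (c g l) :=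
    Equiv.sum_comp (Equiv.mulLeft h) fun x => T (g * x) (c g x)
  have e2 : ∀ l, T (g * h * l) (c g h) = T (g * (h * l)) (c g (h * l)) +
      m g * T (h * l) (c h l) * m g⁻¹ - T (g * h * l) (c (g * h) l) := fun l => by
    rw [← T2, ← mul_assoc, ← T1, ← hc, add_sub_cancel_left]
  rw [e1, Finset.sum_congr rfl fun l _ => e2 l, Finset.sum_sub_distrib, Finset.sum_add_distrib,
    e3, Finset.mul_sum, Finset.sum_mul]

/-- An approximate representation. -/
structure Ap0 (π : R →+* k) (t : R) (m : P →* Matrix ι ι k) (n : ℕ) (f : P → Matrix ι ι R) :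
    Prop where
  red : ∀ g, (f g).map π = m g
  mul : ∀ g h, ∃ C, f g * f h = f (g * h) + t ^ (n + 1) • C

variable {π : R →+* k} {t : R} (u : Unif π t)
include u

theorem start0 (m : P →* Matrix ι ι k) : ∃ f, Ap0 π t m 0 f := by
  choose f hf using fun g => u.exists_lift (m g)
  refine ⟨f, hf, fun g h => ?_⟩
  obtain ⟨C, hC⟩ := u.exists_of_map (A := f g * f h - f (g * h)) (by
    rw [Matrix.map_sub _ (map_sub π), Matrix.map_mul, hf, hf, hf, map_mul, sub_self])
  exact ⟨C, by rw [zero_add, pow_one, ← hC, add_sub_cancel]⟩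

theorem step0 (m : P →* Matrix ι ι k) (θ : Matrix ι ι k →ₗ[k] Matrix ι ι k)
    (hθ : ∀ X : Matrix ι ι k, ∑ g, m g * θ (m g⁻¹ * X * m g) * m g⁻¹ = X)
    {n : ℕ} {f : P → Matrix ι ι R} (hf : Ap0 π t m n f) :
    ∃ f', Ap0 π t m (n + 1) f' ∧ ∀ g, ∃ B, f' g = f g + t ^ (n + 1) • B := by
  choose C hC using hf.mul
  set s := t ^ (n + 1) with hs
  have hs0 : π s = 0 := u.pi_pow n
  let φ := π.mapMatrix (m := ι)
  have hφ : ∀ g, φ (f g) = m g := hf.red
  have hφs : ∀ A, φ (s • A) = 0 := fun A => by ext i j; simp [φ, hs0]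
  have mi : ∀ g, m g⁻¹ * m g = 1 := fun g => by rw [← map_mul, inv_mul_cancel, map_one]
  let c : P → P → Matrix ι ι k := fun g h => φ (C g h) * m (g * h)⁻¹
  have hc0 : ∀ g h, φ (C g h) = c g h * m (g * h) := fun g h => by
    simp only [c]; rw [mul_assoc, mi, mul_one]
  have hc : ∀ g h l, c (g * h) l + c g h = c g (h * l) + m g * c h l * m g⁻¹ := fun g h l => by
    have e : C (g * h) l + C g h * f l = C g (h * l) + f g * C h l := u.cancel (n + 1) (by
      have := mul_assoc (f g) (f h) (f l)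
      rw [hC, hC h, add_mul, mul_add, hC, hC, mul_assoc, add_assoc, add_assoc, add_right_inj,
        smul_mul_assoc, mul_smul_comm] at this
      rw [smul_add, smul_add]; exact this)
    have e' := congrArg (fun A => φ A * m (g * h * l)⁻¹) e
    simp only [map_add, map_mul, hφ, add_mul] at e'
    simp only [c]
    convert e' using 2
    · rw [mul_assoc, ← map_mul]; congr 2; group
    · rw [mul_assoc]
    · rw [mul_assoc, mul_assoc, mul_assoc, ← map_mul]; congr 3; group
  obtain ⟨β, hβ⟩ := cobound0 m θ hθ c hc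
  choose B hB using fun g => u.exists_lift (β g)
  have hB' : ∀ g, φ (B g) = β g := hB
  refine ⟨fun g => (1 + s • -B g) * f g, ⟨fun g => ?_, fun g h => ?_⟩,
    fun g => ⟨-B g * f g, by simp only [add_mul, one_mul, smul_mul_assoc]⟩⟩
  · show φ _ = _
    rw [map_mul, map_add, hφs, map_one, add_zero, one_mul, hφ]
  · obtain ⟨E, hE⟩ := u.exists_of_map (A := C g h - B g * f g * f h - f g * B h * f h +
        B (g * h) * f (g * h) + s • (B g * f g * B h * f h)) (by
      show φ _ = _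
      simp only [map_add, map_sub, map_mul φ, hφs, hφ, hB', hc0, hβ, add_zero]
      rw [sub_mul, add_mul, mul_assoc (m g * β h), ← map_mul, inv_mul_cancel_left, map_mul,
        mul_assoc (β g)]
      abel)
    refine ⟨E, ?_⟩
    rw [pow_succ t (n + 1), mul_smul, ← hE, ← hs]
    have e : f (g * h) = f g * f h - s • C g h := by rw [hC, add_sub_cancel_right]
    simp only [add_mul, mul_add, one_mul, smul_mul_assoc, mul_smul_comm, smul_add, smul_sub, neg_mul,
      mul_neg, smul_neg, neg_neg, mul_assoc]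
    conv_rhs => rw [e]
    rw [← e]
    abel_nf
    rw [e]
    abel

/-- The lifting theorem when all matrices form a projective module. -/
theorem lift0 [hR : IsAdicComplete (Ideal.span {t}) R] (m : P →* Matrix ι ι k)
    (θ : Matrix ι ι k →ₗ[k] Matrix ι ι k)
    (hθ : ∀ X : Matrix ι ι k, ∑ g, m g * θ (m g⁻¹ * X * m g) * m g⁻¹ = X) :
    ∃ M : P →* Matrix ι ι R, ∀ g, (M g).map π = m g := by
  obtain ⟨f₀, h₀⟩ := start0 u m
  choose nx h1 h2 using fun n (f : {f // Ap0 π t m n f}) => step0 u m θ hθ f.2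
  let F : ∀ n, {f // Ap0 π t m n f} := fun n => Nat.rec ⟨f₀, h₀⟩ (fun n f => ⟨nx n f, h1 n f⟩) n
  have hF : ∀ a b, a ≤ b → ∀ g i j, t ^ (a + 1) ∣ (F a).1 g i j - (F b).1 g i j := by
    intro a b hab g i j
    induction b, hab using Nat.le_induction with
    | base => simp
    | succ b hab ih =>
      obtain ⟨B, hB⟩ := h2 b (F b) g
      have e : (F (b + 1)).1 g i j = (F b).1 g i j + t ^ (b + 1) * B i j :=
        congrFun (congrFun hB i) j
      rw [e, ← sub_sub]
      exact dvd_sub ih ((pow_dvd_pow t (by omega)).mul_right _)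
  have hL : ∀ g i j, ∃ L : R, ∀ n, t ^ n ∣ (F n).1 g i j - L := fun g i j => by
    obtain ⟨L, hL⟩ := hR.toIsPrecomplete.prec (f := fun n => (F n).1 g i j) fun {a b} hab =>
      u.smod.2 ((pow_dvd_pow t a.le_succ).trans (hF a b hab g i j))
    exact ⟨L, fun n => u.smod.1 (hL n)⟩
  choose L hL using hL
  let q : ∀ n, R →+* R ⧸ Ideal.span {t ^ n} := fun n => Ideal.Quotient.mk _
  have hq : ∀ n x y, q n x = q n y ↔ t ^ n ∣ x - y := fun n x y => by
    rw [Ideal.Quotient.eq, Ideal.mem_span_singleton]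
  have hq0 : ∀ n, q n (t ^ (n + 1)) = 0 := fun n => by
    rw [← map_zero (q n), hq, sub_zero]; exact pow_dvd_pow t n.le_succ
  have haus : ∀ x y, (∀ n, q n x = q n y) → x = y := fun x y h =>
    (IsHausdorff.eq_iff_smodEq (I := Ideal.span {t})).2 fun n => u.smod.2 ((hq n x y).1 (h n))
  have hLF : ∀ n g, (q n).mapMatrix (Matrix.of (L g)) = (q n).mapMatrix ((F n).1 g) := fun n g => by
    ext i j
    exact ((hq n _ _).2 (hL g i j n)).symm
  have hmul : ∀ g h, Matrix.of (L (g * h)) = Matrix.of (L g) * Matrix.of (L h) := fun g h => by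
    ext i j
    refine haus _ _ fun n => ?_
    obtain ⟨C, hC⟩ := (F n).2.mul g h
    have e : (q n).mapMatrix (Matrix.of (L (g * h))) =
        (q n).mapMatrix (Matrix.of (L g) * Matrix.of (L h)) := by
      rw [map_mul, hLF, hLF, hLF, ← map_mul, hC, map_add]
      have : (q n).mapMatrix (t ^ (n + 1) • C) = 0 := by ext i j; simp [hq0 n, -map_pow]
      rw [this, add_zero]
    exact congrFun (congrFun e i) j
  have hred : ∀ g, (Matrix.of (L g)).map π = m g := fun g => by
    rw [← (F 1).2.red g]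
    ext i j
    have := (u.ker _).2 (pow_one t ▸ hL g i j 1)
    rw [map_sub, sub_eq_zero] at this
    exact this.symm
  have hone : Matrix.of (L 1) = 1 := by
    have hu : IsUnit (Matrix.of (L 1)) := (isUnit_iff_isUnit_det _).2 (u.unit _ (by
      rw [RingHom.map_det, RingHom.mapMatrix_apply, hred, map_one, det_one]; exact one_ne_zero))
    exact hu.mul_left_cancel (by rw [← hmul, mul_one, mul_one])
  exact ⟨⟨⟨fun g => Matrix.of (L g), hone⟩, hmul⟩, hred⟩

omit u in
theorem det_one_of_perf (perf : commutator P = ⊤) (M : P →* Matrix ι ι R) (g : P) :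
    (M g).det = 1 := by
  have : commutator P ≤ (GeneralLinearGroup.det.comp M.toHomUnits).ker :=
    Abelianization.commutator_subset_ker _
  exact congrArg Units.val (this (perf.ge (Subgroup.mem_top g)))

omit u in
/-- From the Witt vectors to the complex numbers. -/
theorem desc {p : ℕ} [Fact p.Prime] [CharP k p] [PerfectRing k p] {ρ : P →* Matrix ι ι k}
    (M : P →* Matrix ι ι (WittVector p k)) (h1 : ∀ g, (M g).map WittVector.constantCoeff = ρ g) :
    ∃ (A : Subring (WittVector p k)) (π : A →+* k) (j : A →+* ℂ) (B : P →* Matrix ι ι A),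
      Function.Injective j ∧ ∀ g, (B g).map π = ρ g := by
  haveI := charZero_witt p k
  obtain ⟨A, j, h3, h4⟩ := exists_sub fun t : P × ι × ι => M t.1 t.2.1 t.2.2
  let B : P → Matrix ι ι A := fun g => Matrix.of fun a b => ⟨M g a b, h3 (g, a, b)⟩
  have hB : ∀ g, A.subtype.mapMatrix (B g) = M g := fun _ => rfl
  have hi : Function.Injective (A.subtype.mapMatrix (m := ι)) :=
    Matrix.map_injective Subtype.val_injective
  exact ⟨A, WittVector.constantCoeff.comp A.subtype, j, ⟨⟨B, hi (by rw [hB, map_one, map_one])⟩,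
    fun g h => hi (by rw [map_mul, hB, hB, hB, map_mul])⟩, h4, h1⟩

omit u in
/-- The integral form of the lift. -/
theorem lift_int [IsAlgClosed k] {p : ℕ} [Fact p.Prime] [CharP k p] {ρ : P →* Matrix ι ι k}
    (hd : ∀ g, (ρ g).det = 1) (θ : Matrix ι ι k →ₗ[k] Matrix ι ι k)
    (hθ : ∀ X : Matrix ι ι k, X.trace = 0 ∨ (Fintype.card ι : k) = 0 →
      ∑ g, ρ g * θ (ρ g⁻¹ * X * ρ g) * ρ g⁻¹ = X) :
    ∃ (A : Subring (WittVector p k)) (π : A →+* k) (j : A →+* ℂ) (B : P →* Matrix ι ι A),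
      Function.Injective j ∧ ∀ g, (B g).map π = ρ g := by
  by_cases e : (Fintype.card ι : k) = 0
  · obtain ⟨M, h⟩ := lift0 (unif p k) ρ θ fun X => hθ X (.inr e)
    exact desc M h
  · obtain ⟨M, h, -⟩ := (unif p k).lift ρ hd e θ fun X hX => hθ X (.inl hX)
    exact desc M h

omit u in
/-- LIFT for any degree. -/
theorem lift_c [IsAlgClosed k] [Nonempty ι] {p : ℕ} [Fact p.Prime] [CharP k p]
    {ρ : P →* Matrix ι ι k} (inj : Function.Injective ρ) (hd : ∀ g, (ρ g).det = 1)
    (irr : ∀ X : Submodule k (ι → k), (∀ g, ∀ x ∈ X, ρ g *ᵥ x ∈ X) → X = ⊥ ∨ X = ⊤)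
    (θ : Matrix ι ι k →ₗ[k] Matrix ι ι k)
    (hθ : ∀ X : Matrix ι ι k, X.trace = 0 ∨ (Fintype.card ι : k) = 0 →
      ∑ g, ρ g * θ (ρ g⁻¹ * X * ρ g) * ρ g⁻¹ = X) :
    ∃ ρ₀ : P →* Matrix ι ι ℂ, Function.Injective ρ₀ ∧
      (∀ X : Submodule ℂ (ι → ℂ), (∀ g, ∀ x ∈ X, ρ₀ g *ᵥ x ∈ X) → X = ⊥ ∨ X = ⊤) ∧
      ∀ g h, (ρ₀ g).trace = (ρ₀ h).trace → (ρ g).trace = (ρ h).trace := by
  obtain ⟨A, π, j, B, h1, h2⟩ := lift_int (p := p) hd θ hθ
  refine ⟨j.mapMatrix.toMonoidHom.comp B, fun g g' e => inj ?_,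
    irr_transfer π j h1 B (fun x => by rw [h2, map_one, one_mulVec])
      (fun g g' x => by rw [h2, h2, h2, map_mul, mulVec_mulVec]) (by simpa only [h2] using irr),
    fun g g' e => ?_⟩
  · rw [← h2, ← h2, Matrix.map_injective h1 e]
  · have e1 : (B g).trace = (B g').trace := h1 (by
      rw [AddMonoidHom.map_trace, AddMonoidHom.map_trace]; exact e)
    rw [← h2, ← h2, ← AddMonoidHom.map_trace, ← AddMonoidHom.map_trace, e1]

end Cfsg.Agent.L5.Lift
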