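import Cfsg.Agent.L5.K0
import Cfsg.Agent.L5.Lift1
import Cfsg.Agent.H1.CharDecomp

/-!
Characteristic two with a four-group as Sylow subgroup: the lift and its character.
-/

set_option autoImplicit false
set_option linter.unusedSectionVars false

namespace Cfsg.Agent.L5.E

open Matrix Subgroup Module Finset

namespace Ch

section Pr
variable {P k : Type*} [Group P] [Fintype P] [Field k] {ρ : P →* M5 k}

/-- projectivity comes from a subgroup of index prime to the characteristic -/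
theorem proj_sub (S : Subgroup P) [Fintype S] (h : (S.index : k) ≠ 0) (θ : M5 k →ₗ[k] M5 k)
    (hθ : ∀ X : M5 k, X.trace = 0 ∨ (5 : k) = 0 →
      ∑ s : S, ρ s * θ (ρ (s : P)⁻¹ * X * ρ s) * ρ (s : P)⁻¹ = X) : Proj ρ := by
  classical
  let Q := P ⧸ S
  have h1 : (Fintype.card Q : k) ≠ 0 := by rwa [← Nat.card_eq_fintype_card]
  let φ : Q × S → P := fun x => x.1.out * x.2
  have hφ : Function.Bijective φ := by
    refine (Nat.bijective_iff_injective_and_card φ).2 ⟨?_, by
      rw [Nat.card_prod, card_eq_card_quotient_mul_card_subgroup S]⟩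
    rintro ⟨q, i⟩ ⟨q', j⟩ e
    have e1 : q = q' := by
      have := congrArg (QuotientGroup.mk : P → Q) e
      simpa [φ, Q, QuotientGroup.mk_mul_of_mem _ i.2, QuotientGroup.mk_mul_of_mem _ j.2] using this
    subst e1
    exact Prod.ext rfl (Subtype.ext (mul_left_cancel e))
  refine ⟨(Fintype.card Q : k)⁻¹ • θ, fun X hX => ?_⟩
  have e : ∀ q : Q, ∑ j : S, ρ (φ (q, j)) * θ (ρ (φ (q, j))⁻¹ * X * ρ (φ (q, j))) *
      ρ (φ (q, j))⁻¹ = X := fun q => by
    have := congrArg (fun Y => ρ q.out * Y * ρ q.out⁻¹) (hθ (ρ q.out⁻¹ * X * ρ q.out) (hX.imp_left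
      fun hX => by rw [trace_mul_comm, ← mul_assoc, ← map_mul, mul_inv_cancel, map_one, one_mul, hX]))
    simp only [Finset.mul_sum, Finset.sum_mul, mul_assoc] at this
    simp only [φ, _root_.mul_inv_rev, map_mul, mul_assoc]
    rw [this, ← map_mul, ← mul_assoc, ← map_mul]
    simp
  rw [← hφ.sum_comp, Fintype.sum_prod_type]
  simp only [LinearMap.smul_apply, mul_smul_comm, smul_mul_assoc, ← Finset.smul_sum, e, sum_const,
    card_univ]
  rw [← Nat.cast_smul_eq_nsmul k, smul_smul, inv_mul_cancel₀ h1, one_smul]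

theorem rank_one {f : M5 k} (h : 4 ≤ finrank k (LinearMap.ker f.mulVecLin)) (X : M5 k) :
    f * X * f = (f * X).trace • f := by
  have e := LinearMap.finrank_range_add_finrank_ker f.mulVecLin
  rw [finrank_fintype_fun_eq_card, Fintype.card_fin] at e
  obtain ⟨w, hw⟩ := finrank_le_one_iff.1 (show finrank k (LinearMap.range f.mulVecLin) ≤ 1 by omega)
  choose c hc using fun j => hw ⟨_, Pi.single j 1, rfl⟩
  have : f = vecMulVec w.1 c := by
    ext i j
    have := congrFun (congrArg Subtype.val (hc j)) i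
    simp [vecMulVec_apply, mul_comm] at this ⊢
    exact this.symm
  rw [this, vecMulVec_mul, vecMulVec_mul_vecMulVec, trace_vecMulVec, vecMulVec_smul, dotProduct_comm]

theorem split4 [CharP k 2] {a b : M5 k} (ha : a * a = 1) (hb : b * b = 1) (c : b * a = a * b)
    (reg : (a + 1) * (b + 1) ≠ 0) : ∃ π f : M5 k, π + a * π * a + b * π * b + a * b * π * (a * b) + f = 1 ∧
      a * f * a = f ∧ b * f * b = f ∧ ∀ X, f * X * f = (f * X).trace • f := by
  have h2 : (2 : k) = 0 := CharP.cast_eq_zero k 2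
  have two : ∀ X : M5 k, X + X = 0 := fun X => by rw [← two_smul k, h2, zero_smul]
  have ha' : ∀ X : M5 k, a * (a * X) = X := fun X => by rw [← mul_assoc, ha, one_mul]
  have hb' : ∀ X : M5 k, b * (b * X) = X := fun X => by rw [← mul_assoc, hb, one_mul]
  have c' : ∀ X : M5 k, b * (a * X) = a * (b * X) := fun X => by rw [← mul_assoc, c, mul_assoc]
  obtain ⟨i, j, hij⟩ : ∃ i j, ((a + 1) * (b + 1)) i j ≠ 0 := by
    by_contra e
    push Not at e
    exact reg (Matrix.ext e)
  let v : Fin 5 → k := Pi.single j 1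
  let φ : Fin 5 → k := Pi.single i (((a + 1) * (b + 1)) i j)⁻¹
  have hφ : φ ⬝ᵥ (((a + 1) * (b + 1)) *ᵥ v) = 1 := by
    simp only [φ, v]
    generalize (a + 1) * (b + 1) = N at hij
    simp [hij]
  clear_value v φ
  obtain ⟨C, hC⟩ : ∃ C, C = (φ ⬝ᵥ v) • (1 : M5 k) + (φ ⬝ᵥ a *ᵥ v) • a + (φ ⬝ᵥ b *ᵥ v) • b +
    (φ ⬝ᵥ (a * b) *ᵥ v) • (a * b) := ⟨_, rfl⟩
  have C2 : C * C = 1 := by
    simp only [add_mul, mul_add, one_mul, mul_one, add_mulVec, one_mulVec, dotProduct_add] at hφ
    rw [hC]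
    simp only [add_mul, mul_add, smul_mul_assoc, mul_smul_comm, one_mul, mul_one, mul_assoc, ha, hb, ha',
      hb', c, c']
    match_scalars <;> grind
  have Ca : C * a = a * C := by
    simp only [hC, add_mul, mul_add, smul_mul_assoc, mul_smul_comm, one_mul, mul_one, mul_assoc, c, c']
  have Cb : C * b = b * C := by
    simp only [hC, add_mul, mul_add, smul_mul_assoc, mul_smul_comm, one_mul, mul_one, mul_assoc, c, c']
  have Ca' : ∀ X : M5 k, C * (a * X) = a * (C * X) := fun X => by rw [← mul_assoc, Ca, mul_assoc]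
  obtain ⟨p, hp⟩ : ∃ p, p = vecMulVec v φ := ⟨_, rfl⟩
  obtain ⟨e, he⟩ : ∃ e, e = p + a * p * a + b * p * b + a * b * p * (a * b) := ⟨_, rfl⟩
  have ea : e * a = a * e := by
    simp only [he, add_mul, mul_add, mul_assoc, ha, ha', c, c', mul_one]
    abel
  have eb : e * b = b * e := by
    simp only [he, add_mul, mul_add, mul_assoc, hb, hb', c, c', mul_one]
    abel
  have eC : e * C = C * e := by
    simp only [hC, add_mul, mul_add, smul_mul_assoc, mul_smul_comm, one_mul, mul_one, ea, eb,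
      ← mul_assoc e a b, mul_assoc a e b, mul_assoc a b e]
  have ev : e *ᵥ v = C *ᵥ v := by
    simp only [he, hC, hp, add_mulVec, ← mulVec_mulVec, vecMulVec_mulVec, smul_mulVec, one_mulVec,
      mulVec_smul, op_smul_eq_smul]
  have fa : (1 - e * C) * a = a * (1 - e * C) := by
    rw [sub_mul, mul_sub, mul_assoc, Ca, ← mul_assoc, ea, mul_assoc, one_mul, mul_one]
  have fb : (1 - e * C) * b = b * (1 - e * C) := by
    rw [sub_mul, mul_sub, mul_assoc, Cb, ← mul_assoc, eb, mul_assoc, one_mul, mul_one]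
  have fv : (1 - e * C) *ᵥ v = 0 := by
    rw [sub_mulVec, eC, ← mulVec_mulVec, ev, mulVec_mulVec, C2, sub_self]
  refine ⟨p * C, 1 - e * C, ?_, by rw [← fa, mul_assoc, ha, mul_one],
    by rw [← fb, mul_assoc, hb, mul_one], rank_one ?_⟩
  · simp only [he, add_mul, mul_assoc, Ca, Cb, Ca']
    abel
  generalize 1 - e * C = f at fa fb fv
  have li : LinearIndependent k ![v, (a + 1) *ᵥ v, (b + 1) *ᵥ v, ((a + 1) * (b + 1)) *ᵥ v] := by
    have n0 : ((a + 1) * (b + 1)) *ᵥ v ≠ 0 := fun e => by simp [e] at hφ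
    have x2 : (a + 1) * (a + 1) = 0 := by
      rw [add_mul, mul_add, ha, mul_one, one_mul, add_comm a 1, two]
    have y2 : (b + 1) * (b + 1) = 0 := by
      rw [add_mul, mul_add, hb, mul_one, one_mul, add_comm b 1, two]
    have xy : (b + 1) * (a + 1) = (a + 1) * (b + 1) := by
      simp only [add_mul, mul_add, c, one_mul, mul_one]; abel
    generalize a + 1 = x at *
    generalize b + 1 = y at *
    have x3 : x * (x * y) = 0 := by rw [← mul_assoc, x2, zero_mul]
    have y3 : y * (x * y) = 0 := by rw [← mul_assoc, xy, mul_assoc, y2, mul_zero]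
    rw [Fintype.linearIndependent_iff]
    intro g e
    rw [Fin.sum_univ_four] at e
    have e1 := congrArg (x *ᵥ ·) e
    have e2 := congrArg (y *ᵥ ·) e
    have e3 := congrArg (y *ᵥ ·) e1
    simp [mulVec_add, mulVec_smul, x2, y2, xy, x3, y3, n0] at e e1 e2 e3
    simp [e3, n0] at e1 e2
    simp [e1, e2, e3, n0] at e
    intro i
    fin_cases i <;> assumption
  have := finrank_span_eq_card li
  rw [Fintype.card_fin] at this
  refine this.ge.trans (Submodule.finrank_mono (Submodule.span_le.2 ?_))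
  have fa' : f * (a + 1) = (a + 1) * f := by rw [mul_add, add_mul, fa, mul_one, one_mul]
  have fb' : f * (b + 1) = (b + 1) * f := by rw [mul_add, add_mul, fb, mul_one, one_mul]
  rintro _ ⟨i, rfl⟩
  fin_cases i
  · exact fv
  · show f *ᵥ (a + 1) *ᵥ v = 0
    rw [mulVec_mulVec, fa', ← mulVec_mulVec, fv, mulVec_zero]
  · show f *ᵥ (b + 1) *ᵥ v = 0
    rw [mulVec_mulVec, fb', ← mulVec_mulVec, fv, mulVec_zero]
  · show f *ᵥ ((a + 1) * (b + 1)) *ᵥ v = 0
    rw [mulVec_mulVec, ← mul_assoc, fa', mul_assoc, fb', ← mul_assoc, ← mulVec_mulVec, fv, mulVec_zero]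

theorem proj4 [CharP k 2] {z s : P} (iz : z * z = 1) (is : s * s = 1) (c : z * s = s * z)
    (syl : ¬ 8 ∣ Nat.card P) (reg : (ρ z + 1) * (ρ s + 1) ≠ 0) : Proj ρ := by
  classical
  have h2 : (2 : k) = 0 := CharP.cast_eq_zero k 2
  have two : ∀ X : M5 k, X + X = 0 := fun X => by rw [← two_smul k, h2, zero_smul]
  have ha : ρ z * ρ z = 1 := by rw [← map_mul, iz, map_one]
  have hb : ρ s * ρ s = 1 := by rw [← map_mul, is, map_one]
  have hc : ρ s * ρ z = ρ z * ρ s := by rw [← map_mul, ← c, map_mul]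
  have z1 : z ≠ 1 := fun e => reg (by rw [e, map_one, two, zero_mul])
  have s1 : s ≠ 1 := fun e => reg (by rw [e, map_one, two, mul_zero])
  have zs : z ≠ s := fun e => reg (by
    rw [← e, add_mul, mul_add, ha, mul_one, one_mul, add_comm (ρ z) 1, two])
  have iz' : ∀ x, z * (z * x) = x := fun x => by rw [← mul_assoc, iz, one_mul]
  have c' : ∀ x, s * (z * x) = z * (s * x) := fun x => by rw [← mul_assoc, ← c, mul_assoc]
  have zi : z⁻¹ = z := inv_eq_of_mul_eq_one_right iz
  have si : s⁻¹ = s := inv_eq_of_mul_eq_one_right is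
  have zsi : (z * s)⁻¹ = z * s := by rw [_root_.mul_inv_rev, zi, si, c]
  let S : Subgroup P :=
    { carrier := {x | x ∈ ({1, z, s, z * s} : Finset P)}
      one_mem' := by simp
      mul_mem' := fun {x y} hx hy => by
        simp only [Set.mem_setOf_eq, mem_insert, mem_singleton] at hx hy ⊢
        rcases hx with rfl | rfl | rfl | rfl <;> rcases hy with rfl | rfl | rfl | rfl <;>
          simp [mul_assoc, iz, is, iz', c', ← c]
      inv_mem' := fun {x} hx => by
        simp only [Set.mem_setOf_eq, mem_insert, mem_singleton] at hx ⊢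
        rcases hx with rfl | rfl | rfl | rfl <;> simp only [inv_one, zi, si, zsi, true_or, or_true] }
  have n1 : (1 : P) ∉ ({z, s, z * s} : Finset P) := by
    simp only [mem_insert, mem_singleton, not_or]
    exact ⟨z1.symm, s1.symm, fun e => zs (mul_left_cancel (iz.trans e))⟩
  have n2 : z ∉ ({s, z * s} : Finset P) := by simp [zs, s1]
  have n3 : s ∉ ({z * s} : Finset P) := by simp [z1]
  have sm : ∀ g : P → M5 k, ∑ x : S, g x = g 1 + (g z + (g s + g (z * s))) := fun g => by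
    rw [← sum_subtype (p := (· ∈ S)) ({1, z, s, z * s} : Finset P) (fun _ => Iff.rfl) g, sum_insert n1,
      sum_insert n2, sum_insert n3, sum_singleton]
  have cS : Nat.card S = 4 := by
    rw [Nat.card_eq_fintype_card, ← card_univ, card_eq_sum_ones]
    rw [← sum_subtype (p := (· ∈ S)) ({1, z, s, z * s} : Finset P) (fun _ => Iff.rfl) fun _ => 1,
      sum_insert n1, sum_insert n2, sum_insert n3, sum_singleton]
    rfl
  obtain ⟨π, f, e, fa, fb, hf⟩ := split4 ha hb hc reg
  obtain ⟨θ, hθ⟩ : ∃ θ : M5 k →ₗ[k] M5 k, ∀ X, θ X = π * X + f * (X * π) - (π * X).trace • f :=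
    ⟨LinearMap.mulLeft k π + LinearMap.mulLeft k f ∘ₗ LinearMap.mulRight k π -
      ((traceLinearMap _ k k) ∘ₗ LinearMap.mulLeft k π).smulRight f, fun X => rfl⟩
  refine proj_sub S (fun e => syl ?_) θ fun X hX => ?_
  · rw [← S.card_mul_index, cS]
    exact mul_dvd_mul_left 4 ((CharP.cast_eq_zero_iff k 2 _).1 e)
  have hX : X.trace = 0 := hX.resolve_right (by grind)
  refine (sm fun x => ρ x * θ (ρ x⁻¹ * X * ρ x) * ρ x⁻¹).trans ?_
  simp only [inv_one, zi, si, zsi, map_one, map_mul]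
  clear sm cS
  clear_value S
  generalize ρ z = a at ha hc e fa ⊢
  generalize ρ s = b at hb hc e fb ⊢
  have ha' : ∀ X : M5 k, a * (a * X) = X := fun X => by rw [← mul_assoc, ha, one_mul]
  have c' : ∀ X : M5 k, b * (a * X) = a * (b * X) := fun X => by rw [← mul_assoc, hc, mul_assoc]
  have key : ∀ g : M5 k, g * g = 1 → g * f * g = f → g * (π * (g * X * g) + f * (g * X * g * π) -
      (π * (g * X * g)).trace • f) * g = g * π * g * X + f * X * (g * π * g) -
      (g * π * g * X).trace • f := fun g g2 gf => by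
    rw [mul_sub, sub_mul, mul_smul_comm, smul_mul_assoc, gf, ← mul_assoc π, trace_mul_comm]
    simp only [mul_add, add_mul, mul_assoc, g2, mul_one]
    rw [← mul_assoc g f, ← mul_assoc (g * f) g, gf]
  simp only [hθ]
  rw [key 1 (mul_one _) (by simp), key a ha fa, key b hb fb, key (a * b) (by
    simp only [mul_assoc, c', ha', hb]) (by
    rw [show a * b * f * (a * b) = a * (b * f * b) * a by simp only [mul_assoc, hc], fb, fa])]
  have e1 := congrArg (· * X) e
  have e2 := congrArg (f * X * ·) e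
  have e3 := congrArg (fun Y => trace Y • f) e1
  simp only [add_mul, mul_add, one_mul, mul_one, trace_add, hf, hX, add_smul, zero_smul] at e1 e2 e3 ⊢
  linear_combination (norm := abel) e1 + e2 - e3

end Pr

section Cx
variable {H : Type*} [Group H]

/-- the representation given by matrices -/
noncomputable def rep (σ : H →* M5 ℂ) : Representation ℂ H (Fin 5 → ℂ) :=
  (toLinAlgEquiv' : M5 ℂ ≃ₐ[ℂ] _).toMonoidHom.comp σ

theorem rep_char (σ : H →* M5 ℂ) (g : H) : (rep σ).character g = (σ g).trace := trace_toLin'_eq _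

theorem nsq [Finite H] (σ : H →* M5 ℂ) (g : H) :
    (Complex.normSq (σ g).trace : ℂ) = (σ g).trace * (σ g⁻¹).trace := by
  rw [← rep_char, ← rep_char, ← H1.CharDecomp.conj_character, Complex.mul_conj]

theorem sum_irr [Fintype H] (σ : H →* M5 ℂ)
    (irr : ∀ X : Submodule ℂ (Fin 5 → ℂ), (∀ g, ∀ x ∈ X, σ g *ᵥ x ∈ X) → X = ⊥ ∨ X = ⊤) :
    ∑ g, Complex.normSq (σ g).trace = Nat.card H := by
  have : (rep σ).IsIrreducible :=
    haveI : Nontrivial (Subrepresentation (rep σ)) :=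
      ⟨⊥, ⊤, fun e => bot_ne_top (congrArg Subrepresentation.toSubmodule e)⟩
    ⟨fun X => (irr X.toSubmodule fun g _ hx => X.apply_mem_toSubmodule g hx).imp
      (fun e => Subrepresentation.toSubmodule_injective e)
      fun e => Subrepresentation.toSubmodule_injective e⟩
  have e1 := Representation.char_orthonormal (rep σ) (rep σ)
  rw [if_pos ⟨Representation.Equiv.refl _⟩, inv_mul_eq_one₀ (by simp)] at e1
  simp only [rep_char, ← nsq] at e1
  exact_mod_cast e1.symm

theorem tr_eq (E : M5 ℂ) (h : E * E = E) : E.trace = finrank ℂ (LinearMap.range (toLin' E)) := by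
  rw [← trace_toLin'_eq]
  exact (LinearMap.IsIdempotentElem.isProj_range _ (by
    show toLin' E ∘ₗ toLin' E = _
    rw [← toLin'_mul, h])).trace

theorem sum_ab [Fintype H] (σ : H →* M5 ℂ) (ab : ∀ a b : H, a * b = b * a) :
    5 * (Nat.card H : ℝ) ≤ ∑ g, Complex.normSq (σ g).trace := by
  classical
  letI : CommGroup H := { (inferInstance : Group H) with mul_comm := ab }
  have n0 : (Fintype.card H : ℂ) ≠ 0 := by simp
  have o : ∀ a : H, ∑ ψ : AddChar (Additive H) ℂ, ψ (.ofMul a) =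
      if a = 1 then (Fintype.card H : ℂ) else 0 := fun a => by
    simpa using AddChar.sum_apply_eq_ite (Additive.ofMul a)
  have hm : ∀ ψ : AddChar (Additive H) ℂ, ∃ m : ℕ,
      ∑ a, ψ (.ofMul a) * (σ a).trace = Fintype.card H * (m : ℂ) := fun ψ => by
    have := tr_eq ((Fintype.card H : ℂ)⁻¹ • ∑ a, ψ (.ofMul a) • σ a) (by
      rw [smul_mul_smul_comm, mul_smul, sum_mul_sum]
      congr 1
      rw [sum_congr rfl fun a _ => Fintype.sum_equiv (Equiv.mulLeft a) _
        (fun b => ψ (.ofMul b) • σ b) fun b => by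
          rw [smul_mul_smul_comm, Equiv.coe_mulLeft, ofMul_mul, AddChar.map_add_eq_mul, map_mul],
        sum_const, card_univ,
        ← Nat.cast_smul_eq_nsmul ℂ, smul_smul, inv_mul_cancel₀ n0, one_smul])
    exact ⟨_, by rw [← this]; simp [n0]⟩
  choose m hm using hm
  have e1 : ∑ ψ, (m ψ : ℂ) = 5 := mul_left_cancel₀ n0 (by
    rw [mul_sum, ← sum_congr rfl fun ψ _ => hm ψ, sum_comm]
    simp [← sum_mul, o])
  have e2 : Fintype.card H * ∑ ψ, (m ψ : ℂ) ^ 2 = ∑ g, (Complex.normSq (σ g).trace : ℂ) :=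
    mul_left_cancel₀ n0 (by
      have : ∀ ψ : AddChar (Additive H) ℂ, Fintype.card H * (Fintype.card H * (m ψ : ℂ) ^ 2) =
          ∑ a, ∑ b, ψ (.ofMul (a * b)) * ((σ a).trace * (σ b).trace) := fun ψ => by
        rw [show Fintype.card H * (Fintype.card H * (m ψ : ℂ) ^ 2) =
          Fintype.card H * (m ψ : ℂ) * (Fintype.card H * m ψ) by ring, ← hm, sum_mul_sum]
        exact sum_congr rfl fun a _ => sum_congr rfl fun b _ => by
          rw [ofMul_mul, AddChar.map_add_eq_mul]; ring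
      rw [mul_sum, mul_sum, sum_congr rfl fun ψ _ => this ψ, sum_comm, mul_sum]
      refine sum_congr rfl fun a _ => ?_
      rw [sum_comm]
      simp only [← sum_mul, o, mul_eq_one_iff_inv_eq, ite_mul, zero_mul, sum_ite_eq, mem_univ, if_true,
        nsq])
  have e3 : ∑ ψ, m ψ = 5 := by exact_mod_cast e1
  have e4 : ∑ ψ, m ψ ≤ ∑ ψ, m ψ ^ 2 := sum_le_sum fun ψ _ => Nat.le_self_pow two_ne_zero _
  have e5 : Fintype.card H * ((∑ ψ, m ψ ^ 2 : ℕ) : ℝ) = ∑ g, Complex.normSq (σ g).trace := by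
    exact_mod_cast e2
  rw [← e5, Nat.card_eq_fintype_card, mul_comm]
  exact mul_le_mul_of_nonneg_left (by exact_mod_cast e3 ▸ e4) (Nat.cast_nonneg _)

theorem top_of {A B A' B' : M5 ℂ} (ha : A' * A = 1) (hb : B' * B = 1) {ζ : ℂ} (z1 : ζ ≠ 1)
    (z5 : ζ ^ 5 = 1) (e : B * A = ζ • (A * B)) {W : Submodule ℂ (Fin 5 → ℂ)} (h0 : W ≠ ⊥)
    (hA : ∀ v ∈ W, A *ᵥ v ∈ W) (hB : ∀ v ∈ W, B *ᵥ v ∈ W) : W = ⊤ := by
  obtain ⟨μ, v, hv, v0, ev⟩ := K.ex_eig B h0 hB
  have m0 : μ ≠ 0 := fun f => K.mv_ne hb v0 (by rw [ev, f, zero_smul])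
  have k : ∀ n : ℕ, A ^ n *ᵥ v ∈ W ∧ A ^ n *ᵥ v ≠ 0 ∧ B *ᵥ (A ^ n *ᵥ v) = (ζ ^ n * μ) • (A ^ n *ᵥ v) :=
    fun n => by
      induction n with
      | zero => simpa using ⟨hv, v0, ev⟩
      | succ n ih =>
        rw [pow_succ', ← mulVec_mulVec]
        refine ⟨hA _ ih.1, K.mv_ne ha ih.2.1, ?_⟩
        rw [mulVec_mulVec, e, smul_mulVec, ← mulVec_mulVec, ih.2.2, mulVec_smul, smul_smul, pow_succ',
          mul_assoc]
  have pr : IsPrimitiveRoot ζ 5 := by
    have := Fact.mk Nat.prime_five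
    exact orderOf_eq_prime z5 z1 ▸ IsPrimitiveRoot.orderOf ζ
  have li := End.eigenvectors_linearIndependent' B.mulVecLin (fun i : Fin 5 => ζ ^ i.1 * μ)
    (fun i j e => Fin.ext (pr.pow_inj i.2 j.2 (mul_right_cancel₀ m0 e))) (fun i => A ^ i.1 *ᵥ v)
    fun i => ⟨End.mem_eigenspace_iff.2 (k i).2.2, (k i).2.1⟩
  refine eq_top_iff.2 ((li.span_eq_top_of_card_eq_finrank (by simp)).ge.trans (Submodule.span_le.2 ?_))
  rintro _ ⟨i, rfl⟩
  exact (k i).1

variable {P : Type*} [Group P] [Fintype P] {ρ : P →* M5 ℂ} (h : Hy0 ρ)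
include h

theorem cen_val {c : P} (hc : c ∈ center P) :
    ∃ ζ : ℂ, ρ c = ζ • 1 ∧ ζ ^ 5 = 1 ∧ Complex.normSq ζ = 1 := by
  obtain ⟨ζ, e⟩ := (K.center_iff h).1 hc
  have := h.det c
  rw [e, det_smul, det_one, mul_one, Fintype.card_fin] at this
  refine ⟨ζ, e, this, (pow_eq_one_iff_of_nonneg (Complex.normSq_nonneg ζ) (n := 5) (by omega)).1 ?_⟩
  rw [← map_pow, this, map_one]

theorem tr_four {z s : P} (iz : z * z = 1) (is : s * s = 1) (c : z * s = s * z) (z1 : z ≠ 1)
    (j1 : IsConj z s) (j2 : IsConj z (z * s)) : (ρ z).trace = 1 := by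
  have ha : ρ z * ρ z = 1 := by rw [← map_mul, iz, map_one]
  have hb : ρ s * ρ s = 1 := by rw [← map_mul, is, map_one]
  have hc : ρ s * ρ z = ρ z * ρ s := by rw [← map_mul, ← c, map_mul]
  obtain ⟨g1, e1⟩ := j1
  obtain ⟨g2, e2⟩ := j2
  have t1 := K.tr_conj (ρ := ρ) e1.eq
  have t2 := K.tr_conj (ρ := ρ) e2.eq
  rw [map_mul] at t2
  have a1 : ρ z ≠ 1 := fun e => z1 (h.inj (e.trans (map_one ρ).symm))
  generalize ρ z = a at *
  generalize ρ s = b at *
  have ha' : ∀ X : M5 ℂ, a * (a * X) = X := fun X => by rw [← mul_assoc, ha, one_mul]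
  have c' : ∀ X : M5 ℂ, b * (a * X) = a * (b * X) := fun X => by rw [← mul_assoc, hc, mul_assoc]
  have q0 := tr_eq ((4 : ℂ)⁻¹ • (1 + a + b + a * b)) (by
    simp only [smul_mul_smul_comm, add_mul, mul_add, mul_assoc, one_mul, mul_one, ha, hb, ha', hc, c']
    module)
  have q1 := tr_eq ((4 : ℂ)⁻¹ • (1 + a - b - a * b)) (by
    simp only [smul_mul_smul_comm, add_mul, mul_add, sub_mul, mul_sub, mul_assoc, one_mul, mul_one, ha,
      hb, ha', hc, c']
    module)
  have q2 := tr_eq ((2 : ℂ)⁻¹ • (1 - a)) (by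
    simp only [smul_mul_smul_comm, sub_mul, mul_sub, one_mul, mul_one, ha]
    module)
  have q3 : finrank ℂ (LinearMap.range (toLin' ((2 : ℂ)⁻¹ • (1 - a)))) ≠ 0 := fun e => by
    rw [Submodule.finrank_eq_zero, LinearMap.range_eq_bot, map_eq_zero_iff _ toLin'.injective] at e
    exact a1 (sub_eq_zero.1 ((smul_eq_zero.1 e).resolve_left (by simp))).symm
  obtain ⟨n2, q2, q3⟩ : ∃ n : ℕ, _ = (n : ℂ) ∧ n ≠ 0 := ⟨_, q2, q3⟩
  obtain ⟨n1, q1⟩ : ∃ n : ℕ, _ = (n : ℂ) := ⟨_, q1⟩
  obtain ⟨n0, q0⟩ : ∃ n : ℕ, _ = (n : ℂ) := ⟨_, q0⟩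
  simp only [trace_smul, trace_add, trace_sub, trace_one, t1, t2, Fintype.card_fin, smul_eq_mul] at q0 q1 q2
  have r1 : n0 + 3 * n1 = 5 := by
    have : (n0 + 3 * n1 : ℂ) = 5 := by push_cast at q0 q1; linear_combination -q0 - 3 * q1
    exact_mod_cast this
  have r2 : n2 = 2 * n1 := by
    have : (n2 : ℂ) = 2 * n1 := by push_cast at q1 q2; linear_combination -q2 + 2 * q1
    exact_mod_cast this
  obtain rfl : n1 = 1 := by omega
  push_cast at q1
  linear_combination -4 * q1

theorem sum_nab (B : Subgroup P) [Fintype B] (hZ : center P ≤ B)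
    (ab : ∀ a ∈ B, ∀ b ∈ B, (a * b)⁻¹ * (b * a) ∈ center P) {a b : P} (ha : a ∈ B) (hb : b ∈ B)
    (n : a * b ≠ b * a) : Nat.card B = 25 * Nat.card (center P) := by
  classical
  have k : ∀ a ∈ B, ∀ b ∈ B, a * b ≠ b * a → ∃ ζ : ℂ, ζ ≠ 1 ∧ ζ ^ 5 = 1 ∧
      ρ b * ρ a = ζ • (ρ a * ρ b) := fun a ha b hb n => by
    obtain ⟨ζ, e, e5, -⟩ := cen_val h (ab a ha b hb)
    refine ⟨ζ, fun z1 => n (inv_mul_eq_one.1 (h.inj (by rw [e, z1, one_smul, map_one]))), e5, ?_⟩
    rw [← map_mul, ← mul_inv_cancel_left (a * b) (b * a), map_mul, e, mul_smul_comm, mul_one, map_mul]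
  obtain ⟨ζ, z1, z5, e⟩ := k a ha b hb n
  have top := fun W => top_of (K.inv_l (ρ := ρ) a) (K.inv_l (ρ := ρ) b) z1 z5 e (W := W)
  have e1 := sum_irr (ρ.comp B.subtype) fun X hX => or_iff_not_imp_left.2 fun h0 =>
    top X h0 (hX ⟨a, ha⟩) (hX ⟨b, hb⟩)
  have e2 : ∀ x : B, Complex.normSq (ρ x).trace = if x.1 ∈ center P then 25 else 0 := fun x => by
    split_ifs with hx
    · obtain ⟨ζ, e, -, e1⟩ := cen_val h hx
      simp [e, e1]
      norm_num
    by_cases c : ∀ y ∈ B, x.1 * y = y * x.1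
    · obtain ⟨μ, hμ⟩ := End.exists_eigenvalue (ρ x).mulVecLin
      have iv : ∀ y ∈ B, ∀ v ∈ End.eigenspace (ρ x).mulVecLin μ,
          ρ y *ᵥ v ∈ End.eigenspace (ρ x).mulVecLin μ := fun y hy v hv => by
        rw [End.mem_eigenspace_iff, mulVecLin_apply] at hv ⊢
        rw [mulVec_mulVec, ← map_mul, c y hy, map_mul, ← mulVec_mulVec, hv, mulVec_smul]
      exact (hx ((K.center_iff h).2 ⟨μ, K.mat_ext fun v => by
        simpa [smul_mulVec] using End.mem_eigenspace_iff.1
          ((top _ hμ (iv a ha) (iv b hb)).ge (Submodule.mem_top (x := v)))⟩)).elim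
    push Not at c
    obtain ⟨y, hy, c⟩ := c
    obtain ⟨ζ, z1, -, e⟩ := k x x.2 y hy c
    have := congrArg (fun X => trace (X * ρ y⁻¹)) e
    simp only [smul_mul_assoc, trace_smul, mul_assoc, ← map_mul, mul_inv_cancel, mul_one,
      smul_eq_mul] at this
    rw [K.tr_conj (ρ := ρ) (a := x) (g := y) (by group)] at this
    rw [show (ρ x).trace = 0 from mul_left_cancel₀ (sub_ne_zero.2 z1) (by linear_combination -this),
      map_zero]
  have e3 : #{x : B | x.1 ∈ center P} = Nat.card (center P) := by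
    rw [← Nat.card_congr (subgroupOfEquivOfLe hZ).toEquiv, Nat.card_eq_fintype_card,
      Fintype.card_subtype]
    congr
  simp only [MonoidHom.comp_apply, coe_subtype, e2, sum_ite, sum_const, smul_zero, add_zero, e3] at e1
  rw [nsmul_eq_mul, mul_comm] at e1
  exact_mod_cast e1.symm

end Cx

end Ch

open Ch in
theorem chF {P k : Type*} [Group P] [Fintype P] [Field k] [IsAlgClosed k] [CharP k 2] {ρ : P →* M5 k}
    (h : Hy0 ρ) {z s : P} (iz : z * z = 1) (is : s * s = 1) (c : z * s = s * z)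
    (syl : ¬ 8 ∣ Nat.card P) (reg : (ρ z + 1) * (ρ s + 1) ≠ 0) (j1 : IsConj z s)
    (j2 : IsConj z (z * s)) : ∃ F : P ⧸ center P → ℝ, (∀ g, 0 ≤ F g) ∧
      (∀ g x, F (x * g * x⁻¹) = F g) ∧ F 1 = 25 ∧ F z = 1 ∧ ∑ᶠ g, F g = Nat.card (P ⧸ center P) ∧
      ∀ A : Subgroup (P ⧸ center P), (∀ a ∈ A, ∀ b ∈ A, a * b = b * a) →
        Nat.card A = 25 ∨ 5 * Nat.card A ≤ ∑ᶠ a : A, F a := by
  classical
  obtain ⟨θ, hθ⟩ := proj4 iz is c syl reg
  obtain ⟨σ, inj, irr, -⟩ := Lift.lift_c (p := 2) h.inj h.det h.irr θ (by simpa using hθ)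
  have H : Hy0 σ := ⟨inj, Lift.det_one_of_perf h.perf σ, h.perf, h.simp, irr⟩
  have z1 : z ≠ 1 := fun e => reg (by
    rw [e, map_one, ← two_smul k, show (2 : k) = 0 from CharP.cast_eq_zero k 2, zero_smul, zero_mul])
  let F : P ⧸ center P → ℝ := fun q => Complex.normSq (σ q.out).trace
  have hF : ∀ x : P, F x = Complex.normSq (σ x).trace := fun x => by
    obtain ⟨c, e⟩ := QuotientGroup.mk_out_eq_mul (center P) x
    obtain ⟨ζ, e1, -, e2⟩ := cen_val H c.2
    simp [F, e, e1, e2]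
  have p : (Nat.card (center P) : ℝ) ≠ 0 := by simp
  have fib : ∀ A : Subgroup (P ⧸ center P), ∀ f : P ⧸ center P → ℝ,
      ∑ x : A.comap (QuotientGroup.mk' (center P)), f x.1 = Nat.card (center P) * ∑ᶠ a : A, f a :=
    fun A f => by
      let π := (QuotientGroup.mk' (center P)).subgroupComap A
      have hπ : Function.Surjective π :=
        MonoidHom.subgroupComap_surjective_of_surjective _ _ (QuotientGroup.mk'_surjective _)
      have e3 : #{x | π x = 1} = Nat.card (center P) := by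
        rw [← Nat.card_congr (subgroupOfEquivOfLe (show center P ≤ A.comap (QuotientGroup.mk' (center P))
          from fun x hx => by simp [(QuotientGroup.eq_one_iff x).2 hx])).toEquiv,
          Nat.card_eq_fintype_card, Fintype.card_subtype]
        congr 1
        ext x
        rw [mem_filter_univ, mem_filter_univ, mem_subgroupOf, Subtype.ext_iff]
        exact QuotientGroup.eq_one_iff x.1
      rw [finsum_eq_sum_of_fintype]
      refine (sum_comp (fun a : A => f a) π).trans ?_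
      rw [image_univ_of_surjective hπ, mul_sum]
      exact sum_congr rfl fun a _ => by
        rw [nsmul_eq_mul, MonoidHom.card_fiber_eq_of_mem_range π (hπ a) (hπ 1), e3]
  have cd : ∀ A : Subgroup (P ⧸ center P), (Nat.card (A.comap (QuotientGroup.mk' (center P))) : ℝ) =
      Nat.card (center P) * Nat.card A := fun A => by
    have := fib A 1
    rw [finsum_eq_sum_of_fintype] at this
    simpa only [Pi.one_apply, sum_const, card_univ, nsmul_eq_mul, mul_one,
      ← Nat.card_eq_fintype_card] using this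
  refine ⟨F, fun g => Complex.normSq_nonneg _, fun g x => ?_, ?_, ?_, ?_, fun A ab => ?_⟩
  · obtain ⟨g, rfl⟩ := QuotientGroup.mk_surjective g
    obtain ⟨x, rfl⟩ := QuotientGroup.mk_surjective x
    rw [← QuotientGroup.mk_inv, ← QuotientGroup.mk_mul, ← QuotientGroup.mk_mul, hF, hF,
      K.tr_conj (ρ := σ) (a := g) (g := x) (by group)]
  · rw [← QuotientGroup.mk_one, hF]
    simp
    norm_num
  · rw [hF, tr_four H iz is c z1 j1 j2, map_one]
  · refine mul_left_cancel₀ p ?_
    have e1 := fib ⊤ F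
    have e2 := sum_irr (σ.comp (comap (QuotientGroup.mk' (center P)) ⊤).subtype) fun X hX =>
      irr X fun g => hX ⟨g, trivial⟩
    rw [cd, card_top] at e2
    simp only [hF] at e1
    rw [← e2, finsum_eq_sum_of_fintype] 
    refine Eq.trans ?_ e1.symm
    rw [finsum_eq_sum_of_fintype]
    exact congrArg _ (Fintype.sum_equiv topEquiv.toEquiv _ _ fun _ => rfl).symm
  by_cases c : ∀ a ∈ A.comap (QuotientGroup.mk' (center P)),
      ∀ b ∈ A.comap (QuotientGroup.mk' (center P)), a * b = b * a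
  · have e2 := sum_ab (σ.comp (comap (QuotientGroup.mk' (center P)) A).subtype)
      fun a b => Subtype.ext (c a a.2 b b.2)
    have e1 := fib A F
    simp only [hF] at e1
    rw [cd, mul_left_comm] at e2
    exact .inr (le_of_mul_le_mul_left (e2.trans_eq e1) (lt_of_le_of_ne (Nat.cast_nonneg _) p.symm))
  push Not at c
  obtain ⟨a, ha, b, hb, n⟩ := c
  have e := sum_nab H _ (fun x hx => by simp [(QuotientGroup.eq_one_iff x).2 hx])
    (fun a ha b hb => QuotientGroup.eq.1 (ab _ ha _ hb)) ha hb n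
  have e1 := cd A
  rw [e] at e1
  push_cast at e1
  exact .inl (by exact_mod_cast (mul_left_cancel₀ p (e1.symm.trans (mul_comm _ _))))

end Cfsg.Agent.L5.E
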