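import Cfsg.Agent.L4.R0
import Cfsg.Prelude.Def_Spor_Mathieu

/-!
Quasisimple subgroups of `SL₅`: the common set-up.
-/

set_option autoImplicit false

namespace Cfsg.Agent.L5
open Matrix

/-- Square matrices of size five. -/
abbrev M5 (k : Type*) := Matrix (Fin 5) (Fin 5) k

variable {P k : Type*} [Group P] [Field k]

/-- A quasisimple group acting faithfully and irreducibly with determinant one. -/
structure Hy0 (ρ : P →* M5 k) : Prop where
  inj : Function.Injective ρ
  det : ∀ g, (ρ g).det = 1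
  perf : commutator P = ⊤
  simp : ∀ N : Subgroup P, N.Normal → N ≤ Subgroup.center P ∨ N = ⊤
  irr : ∀ X : Submodule k (Fin 5 → k), (∀ g, ∀ x ∈ X, ρ g *ᵥ x ∈ X) → X = ⊥ ∨ X = ⊤

/-- The same, and the module is not self-dual. -/
structure Hy (ρ : P →* M5 k) : Prop extends Hy0 ρ where
  nsd : ∃ g, (ρ g⁻¹).trace ≠ (ρ g).trace

/-- There are no transvections. -/
def NoT (ρ : P →* M5 k) : Prop := ∀ g, (ρ g - 1).rank ≤ 1 → g = 1

/-- There are no quadratic unipotent elements. -/
def NoS (ρ : P →* M5 k) : Prop := ∀ g, (ρ g - 1) * (ρ g - 1) = 0 → g = 1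

/-- The traceless matrices (all matrices in characteristic five) form a projective module. -/
def Proj [Fintype P] (ρ : P →* M5 k) : Prop :=
  ∃ θ : M5 k →ₗ[k] M5 k, ∀ X : M5 k, X.trace = 0 ∨ (5 : k) = 0 →
    ∑ g, ρ g * θ (ρ g⁻¹ * X * ρ g) * ρ g⁻¹ = X

/-- The group `L₂(11)`. -/
def IsL211 (G : Type*) [Group G] : Prop :=
  Nonempty (G ≃* Matrix.ProjectiveSpecialLinearGroup (Fin 2) (ZMod 11))

/-- The unitary group of dimension `n` over the field with four elements. -/
def IsU2 (n : ℕ) (G : Type*) [Group G] : Prop :=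
  ∃ (K : Type) (_ : Field K) (_ : Fintype K), Fintype.card K = 4 ∧ Nonempty (G ≃* Cfsg.PSU n K 2)

/-- The groups which survive over the complex numbers. -/
def Good (G : Type*) [Group G] : Prop := IsL211 G ∨ IsU2 4 G

/-- The simple subgroups of `PGL₅` in characteristic two, as far as needed. -/
def List5 (G : Type*) [Group G] : Prop := L4.R.List2 G ∨ IsU2 5 G ∨ IsL211 G

end Cfsg.Agent.L5
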