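import Mathlib

/-!
Finite checks in small groups.
-/

set_option autoImplicit false
set_option maxRecDepth 100000

namespace Cfsg.Agent.L5.K

open Equiv Matrix

theorem real5 : ∀ a : alternatingGroup (Fin 5), ∃ g, g * a = a⁻¹ * g := by decide +kernel

theorem real6 : ∀ a : alternatingGroup (Fin 6), ∃ g, g * a = a⁻¹ * g := by decide +kernel

/-- A seven-cycle. -/
def x7 : alternatingGroup (Fin 7) :=
  ⟨c[0, 1, 2, 3, 4, 5, 6], Perm.mem_alternatingGroup.2 (by decide +kernel)⟩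

/-- An element normalising the seven-cycle. -/
def y7 : alternatingGroup (Fin 7) :=
  ⟨c[1, 2, 4] * c[3, 6, 5], Perm.mem_alternatingGroup.2 (by decide +kernel)⟩

theorem x7_facts : x7 ^ 7 = 1 ∧ x7 ≠ 1 ∧ y7 * x7 = x7 ^ 2 * y7 := by decide +kernel

theorem x7_cent (g : alternatingGroup (Fin 7)) (h : g * x7 = x7 * g) : ∃ i : Fin 7, g = x7 ^ i.1 := by
  have k : ∀ j : Fin 7, g.1 (j + 1) = g.1 j + 1 := fun j => by
    have e : ∀ j, x7.1 j = j + 1 := by decide +kernel
    rw [← e, ← e]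
    exact congrArg (fun s : alternatingGroup (Fin 7) => s.1 j) h
  have e : ∀ i j : Fin 7, (x7 ^ i.1).1 j = i + j := by decide +kernel
  refine ⟨g.1 0, Subtype.ext (Equiv.ext fun j => ?_)⟩
  rw [e]
  have k0 := k 0; have k1 := k 1; have k2 := k 2; have k3 := k 3; have k4 := k 4; have k5 := k 5
  fin_cases j <;> simp at * <;> simp [*, add_assoc]

/-- A Singer cycle. -/
def x3 : SpecialLinearGroup (Fin 3) (ZMod 2) := ⟨!![0, 0, 1; 1, 0, 1; 0, 1, 0], by decide +kernel⟩

/-- An element normalising the Singer cycle. -/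
def y3 : SpecialLinearGroup (Fin 3) (ZMod 2) := ⟨!![1, 0, 0; 0, 0, 1; 0, 1, 1], by decide +kernel⟩

theorem x3_facts : x3 ^ 7 = 1 ∧ x3 ≠ 1 ∧ y3 * x3 = x3 ^ 2 * y3 := by decide +kernel

theorem x3_cent (g : SpecialLinearGroup (Fin 3) (ZMod 2)) (h : g * x3 = x3 * g) :
    ∃ i : Fin 7, g = x3 ^ i.1 := by
  have : ∀ a b c d e f g i j : ZMod 2, !![a, b, c; d, e, f; g, i, j].det = 1 →
      !![a, b, c; d, e, f; g, i, j] * x3.1 = x3.1 * !![a, b, c; d, e, f; g, i, j] →
      ∃ n : Fin 7, !![a, b, c; d, e, f; g, i, j] = x3.1 ^ n.1 := by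
    decide +kernel
  have d := g.2
  have h' : g.1 * x3.1 = x3.1 * g.1 := congrArg Subtype.val h
  rw [eta_fin_three g.1] at h' d
  obtain ⟨n, hn⟩ := this _ _ _ _ _ _ _ _ _ d h'
  exact ⟨n, Subtype.ext (((eta_fin_three g.1).trans hn).trans (Matrix.SpecialLinearGroup.coe_pow x3 n.1).symm)⟩

theorem card_x3 : ¬ 25 ∣ Nat.card (SpecialLinearGroup (Fin 3) (ZMod 2)) := fun h => by
  have := h.trans (Subgroup.card_dvd_of_injective SpecialLinearGroup.toGL
    SpecialLinearGroup.toGL_injective)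
  rw [card_GL_field] at this
  revert this
  decide +kernel

end Cfsg.Agent.L5.K
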