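import Cfsg.Agent.L5.K1
import Cfsg.Agent.L5.K2
import Cfsg.Agent.L4.Kill3

/-!
Complex representations of degree five: the groups which survive.
-/

set_option autoImplicit false

namespace Cfsg.Agent.L5.K

open Matrix Subgroup Module Finset Cfsg.Agent.L4.R

theorem tr_eq (E : M5 ℂ) (h : E * E = E) :
    E.trace = finrank ℂ (LinearMap.range (toLin' E)) := by
  rw [← trace_toLin'_eq]
  exact (LinearMap.IsIdempotentElem.isProj_range _ (by
    show toLin' E ∘ₗ toLin' E = _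
    rw [← toLin'_mul, h])).trace

theorem tr_zero {E : M5 ℂ} (h : E * E = E) (h0 : E.trace = 0) : E = 0 := by
  rw [tr_eq E h, Nat.cast_eq_zero, Submodule.finrank_eq_zero, LinearMap.range_eq_bot] at h0
  exact toLin'.injective (by rw [h0, map_zero])

theorem tr_one {E X : M5 ℂ} (h : E * E = E) (h1 : E.trace = 1) (hX : X * E = E * X) :
    ∃ c : ℂ, X * E = c • E := by
  rw [tr_eq E h, Nat.cast_eq_one, finrank_eq_one_iff'] at h1
  obtain ⟨⟨_, v, rfl⟩, -, h2⟩ := h1
  obtain ⟨c, hc⟩ := h2 ⟨_, X *ᵥ v, rfl⟩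
  refine ⟨c, toLin'.injective (LinearMap.ext fun u => ?_)⟩
  obtain ⟨d, hd⟩ := h2 ⟨_, u, rfl⟩
  have hc := congrArg Subtype.val hc
  have hd := congrArg Subtype.val hd
  simp only [toLin'_apply, SetLike.val_smul] at hc hd ⊢
  rw [← mulVec_mulVec, smul_mulVec, ← hd, mulVec_smul, mulVec_mulVec, hX, ← mulVec_mulVec, ← hc,
    smul_comm]

theorem fix_nat {Y : M5 ℂ} {n : ℕ} (hn : n ≠ 0) (h : Y ^ n = 1) :
    ∃ m : ℕ, ∑ i ∈ range n, (Y ^ i).trace = n * m ∧ (m = 5 → Y = 1) := by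
  have n0 : (n : ℂ) ≠ 0 := Nat.cast_ne_zero.2 hn
  have e1 := mul_geom_sum Y n
  rw [h, sub_self, sub_mul, one_mul, sub_eq_zero] at e1
  have t := trace_sum (range n) fun i => Y ^ i
  have e2 : ∀ i, Y ^ i * ∑ i ∈ range n, Y ^ i = ∑ i ∈ range n, Y ^ i := fun i => by
    induction i with
    | zero => simp
    | succ i ih => rw [pow_succ, mul_assoc, e1, ih]
  have e3 : (∑ i ∈ range n, Y ^ i) * ∑ i ∈ range n, Y ^ i = (n : ℂ) • ∑ i ∈ range n, Y ^ i := by
    rw [sum_mul, sum_congr rfl fun i _ => e2 i, sum_const, card_range, Nat.cast_smul_eq_nsmul]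
  generalize ∑ i ∈ range n, Y ^ i = S at e1 e3 t
  have e4 : ((n : ℂ)⁻¹ • S) * ((n : ℂ)⁻¹ • S) = (n : ℂ)⁻¹ • S := by
    rw [smul_mul_smul_comm, e3, smul_smul, inv_mul_cancel_right₀ n0]
  have e5 := tr_eq _ e4
  refine ⟨_, by rw [← e5, ← t, trace_smul, smul_eq_mul, mul_inv_cancel_left₀ n0], fun e => ?_⟩
  have := tr_zero (E := 1 - (n : ℂ)⁻¹ • S) (by rw [mul_sub, sub_mul, sub_mul, e4]; simp)
    (by rw [trace_sub, e5, e]; simp)
  rw [sub_eq_zero] at this
  rw [← mul_one Y, this, mul_smul_comm, e1]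

variable {P : Type*} [Group P] {ρ : P →* M5 ℂ}

theorem not_K1 [Finite P] (h : Hy0 ρ) : ¬ K1 (P ⧸ center P) := by
  rintro ⟨E, c, h1, h2, h3, h4⟩
  obtain ⟨c, rfl⟩ := QuotientGroup.mk_surjective c
  have c2 : Nat.Coprime 2 5 := by decide
  choose s s1 s2 using fun e : E => ex_lift h c2 (a := e.1) (by rw [sq, h1 _ e.2])
  let σ : E → E := fun i => ⟨_, h3 _ i.2⟩
  obtain ⟨m, m0, m6, hm⟩ := L4.Kill.weights (W := Fin 5 → ℂ) (by simp)
    (fun i : E => toLin' (ρ (s i))) (fun i j => by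
      rw [Commute, SemiconjBy, End.mul_eq_comp, End.mul_eq_comp, ← toLin'_mul, ← toLin'_mul,
        ← map_mul, ← map_mul, rel h c2 (by
          rw [s1, s1, ← inv_eq_of_mul_eq_one_right (h1 _ (mul_mem i.2 j.2)), _root_.mul_inv_rev,
            inv_eq_of_mul_eq_one_right (h1 _ i.2), inv_eq_of_mul_eq_one_right (h1 _ j.2)])
          (s2 j) (s2 j)])
    (fun i => by rw [End.mul_eq_comp, ← toLin'_mul, ← map_mul, ← sq, s2, map_one, toLin'_one]; rfl) σ
    (Finite.surjective_of_injective fun i j e => Subtype.ext (conj_injective (congrArg Subtype.val e)))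
    (toLin' (ρ c⁻¹)) (Function.LeftInverse.injective (g := toLin' (ρ c)) fun v => by
      simp [← map_mul]) fun i => by
      rw [End.mul_eq_comp, End.mul_eq_comp, ← toLin'_mul, ← toLin'_mul, ← map_mul, ← map_mul,
        rel h c2 (z := c⁻¹) (by rw [s1, s1]; simp [σ, mul_assoc]) (s2 (σ i)) (s2 i)]
  have it : ∀ (n : ℕ) i, (σ^[n] i).1 = (c : P ⧸ center P) ^ n * i * ((c : P ⧸ center P) ^ n)⁻¹ :=
    fun n i => by
    induction n with
    | zero => simp
    | succ n ih =>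
      rw [Function.iterate_succ_apply']
      show (c : P ⧸ center P) * _ * _ = _
      rw [ih]
      group
  have := Fintype.ofFinite E
  have : Nontrivial E := Fintype.one_lt_card_iff_nontrivial.1 (by
    rw [← Nat.card_eq_fintype_card]; omega)
  obtain ⟨x, x1⟩ := exists_ne (1 : E)
  have p : Function.IsPeriodicPt σ m x :=
    Subtype.ext (by rw [← s1, h.inj (toLin'.injective (hm x)), s1])
  have := Nat.card_le_card_of_surjective (fun o : Option (Fin m) => o.elim (1 : E) fun n =>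
    σ^[n] x) fun e => by
      by_cases e1 : e = 1
      · exact ⟨none, e1.symm⟩
      obtain ⟨n, hn⟩ := h4 _ x.2 _ e.2 (fun f => x1 (Subtype.ext f)) fun f => e1 (Subtype.ext f)
      exact ⟨some ⟨n % m, Nat.mod_lt _ m0⟩, (p.iterate_mod_apply n).trans
        (Subtype.ext ((it n x).trans hn))⟩
  rw [Finite.card_option, Nat.card_fin] at this
  omega

theorem not_K2 (h : Hy0 ρ) : ¬ K2 (P ⧸ center P) := by
  classical
  rintro ⟨A, hc, h3, h4⟩
  have : Finite A := Nat.finite_of_card_ne_zero (by omega)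
  have := Fintype.ofFinite A
  have := Fact.mk Nat.prime_three
  have c3 : Nat.Coprime 3 5 := by decide
  choose s s1 s3 using fun a : A => ex_lift h c3 (h3 a a.2)
  have hm : ∀ a b, s (a * b) = s a * s b := fun a b => uniq h c3 (by simp [s1]) (s3 _) (by
    rw [Commute.mul_pow (rel h c3 (by
      rw [s1, s1]
      exact congrArg Subtype.val ((IsPGroup.isMulCommutative_of_card_eq_prime_sq (p := 3) hc).1.1 a b))
      (s3 b) (s3 b)), s3, s3, one_mul])
  have : Nontrivial A := Fintype.one_lt_card_iff_nontrivial.1 (by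
    rw [← Nat.card_eq_fintype_card]; omega)
  obtain ⟨x, x1⟩ := exists_ne (1 : A)
  have t : ∀ a, a ≠ 1 → (ρ (s a)).trace = (ρ (s x)).trace := fun a ha => by
    obtain ⟨n, -, hn⟩ := h4 x x.2 a a.2 (fun f => x1 (Subtype.ext f)) fun f => ha (Subtype.ext f)
    obtain ⟨n, rfl⟩ := QuotientGroup.mk_surjective n
    exact tr_conj (rel h c3 (z := n) (by rw [s1, s1, ← hn, inv_mul_cancel_right]) (s3 _) (s3 _))
  have e0 : s 1 = 1 := by simpa using hm 1 1
  obtain ⟨m, n⟩ : ∃ m : ℕ, ((9 : ℂ)⁻¹ • ∑ a, ρ (s a)).trace = m := ⟨_, tr_eq _ (by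
    have : ∀ a, ρ (s a) * ∑ b, ρ (s b) = ∑ b, ρ (s b) := fun a => by
      rw [mul_sum]
      exact Fintype.sum_equiv (Equiv.mulLeft a) _ _ fun b => by simp [hm]
    rw [smul_mul_smul_comm, sum_mul]
    simp only [this, sum_const, card_univ, ← Nat.card_eq_fintype_card, hc]
    module)⟩
  rw [trace_smul, trace_sum, ← add_sum_erase _ _ (mem_univ 1),
    sum_congr rfl fun a ha => t a (mem_erase.1 ha).1, sum_const, card_erase_of_mem (mem_univ _),
    card_univ, ← Nat.card_eq_fintype_card, hc, e0] at n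
  have t2 := t (x * x) fun e => x1 (by
    have : x ^ 3 = 1 := Subtype.ext (h3 x x.2)
    rwa [pow_three, e, mul_one] at this)
  rw [hm, map_mul] at t2
  have r3 : ρ (s x) ^ 3 = 1 := by rw [← map_pow, s3, map_one]
  obtain ⟨ω, hω⟩ : ∃ ω : ℂ, ω ^ 2 + ω + 1 = 0 := by
    obtain ⟨s, hs⟩ := IsAlgClosed.exists_pow_nat_eq (-3 : ℂ) (n := 2) two_pos
    exact ⟨(s - 1) / 2, by linear_combination hs / 4⟩
  obtain ⟨m0, a0, b0⟩ := fix_nat (by omega) r3
  obtain ⟨m1, a1, -⟩ := fix_nat (Y := ω • ρ (s x)) (n := 3) (by omega) (by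
    rw [smul_pow, r3, show ω ^ 3 = 1 by linear_combination (ω - 1) * hω, one_smul])
  simp [sum_range_succ, sq, t2] at n a0 a1
  have f1 : m0 + 2 * m1 = 5 := by
    exact_mod_cast (show (m0 : ℂ) + 2 * m1 = 5 by
      linear_combination -a0 / 3 - 2 * a1 / 3 + 2 * (ρ (s x)).trace * hω / 3)
  have f2 : 3 * m + 8 * m1 = 15 := by
    exact_mod_cast (show (3 * m : ℂ) + 8 * m1 = 15 by
      linear_combination -3 * n - 8 * a1 / 3 + 8 * (ρ (s x)).trace * hω / 3)
  refine x1 (Subtype.ext ?_)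
  rw [← s1, h.inj ((b0 (by omega)).trans (map_one ρ).symm)]
  rfl

theorem not_K3 (h : Hy0 ρ) : ¬ K3 (P ⧸ center P) := by
  rintro ⟨z0, z0', a, b, c, d, h1, h2, h3, h4, h5, h6, h7⟩
  have c2 : Nat.Coprime 2 5 := by decide
  obtain ⟨g, hg⟩ := isConj_iff.1 h4
  obtain ⟨g', hg'⟩ := isConj_iff.1 h5
  obtain ⟨g, rfl⟩ := QuotientGroup.mk_surjective g
  obtain ⟨g', rfl⟩ := QuotientGroup.mk_surjective g'
  obtain ⟨z, rfl, z2⟩ := ex_lift h c2 (a := z0) (by rw [sq, h1])
  obtain ⟨z', rfl, z2'⟩ := ex_lift h c2 (a := z0') (by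
    rw [← hg, conj_pow, sq, h1, mul_one, mul_inv_cancel])
  have zz := rel h c2 h3 z2' z2'
  have t1 := tr_conj (ρ := ρ) (rel h c2 (mul_inv_eq_iff_eq_mul.1 hg) z2 z2')
  have t2 := tr_conj (ρ := ρ) (rel h c2 (y := z * z') (mul_inv_eq_iff_eq_mul.1 hg') z2 (by
    rw [Commute.mul_pow zz, z2, z2', one_mul]))
  obtain ⟨m, m1, m2⟩ := fix_nat (Y := ρ z) (n := 2) (by omega) (by rw [← map_pow, z2, map_one])
  have f3 : m ≠ 5 := fun e => h2 (by rw [h.inj ((m2 e).trans (map_one ρ).symm)]; rfl)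
  rw [sq] at z2 z2'
  have q1 := congrArg ρ z2
  have q2 := congrArg ρ z2'
  have q3 := congrArg ρ zz
  simp only [map_mul, map_one] at q1 q2 q3 t2
  obtain ⟨x, hx⟩ := QuotientGroup.mk_surjective (cm a b)
  obtain ⟨y, hy⟩ := QuotientGroup.mk_surjective (cm c d)
  have k : ∀ (w : P) {x : P} {a b : P ⧸ center P}, w * w = 1 → a * w = w * a → b * w = w * b →
      x = cm a b → ρ x * ρ w = ρ w * ρ x := fun w x a b w2 ha hb e => by
    rw [← map_mul, ← map_mul, rel h c2 (e ▸ (((Commute.mul_left ha hb).mul_left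
      (Commute.inv_left ha)).mul_left (Commute.inv_left hb)).eq) ((sq w).trans w2) ((sq w).trans w2)]
  have x1 := k z z2 (h6 a (by simp)).1 (h6 b (by simp)).1 hx
  have x2 := k z' z2' (h6 a (by simp)).2 (h6 b (by simp)).2 hx
  have y1 := k z z2 (h6 c (by simp)).1 (h6 d (by simp)).1 hy
  have y2 := k z' z2' (h6 c (by simp)).2 (h6 d (by simp)).2 hy
  obtain ⟨l, hl⟩ := (center_iff h).1 (QuotientGroup.eq.1 (show (z : P ⧸ center P) = (cm x y : P) by
    rw [h7, ← hx, ← hy]; rfl))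
  have e : ρ x * ρ y = l • (ρ z * (ρ y * ρ x)) := by
    rw [← smul_mul_assoc, ← mul_one (ρ z), ← mul_smul_comm, ← hl, ← map_mul, ← map_mul, ← map_mul,
      ← map_mul, cm]
    congr 1
    group
  have ix := inv_l (ρ := ρ) x
  have iy := inv_l (ρ := ρ) y
  generalize ρ z = A, ρ z' = B, ρ x = X, ρ y = Y at *
  have e1 : A * (A * B) = B := by rw [← mul_assoc, q1, one_mul]
  have e2 : B * (A * B) = A := by rw [← mul_assoc, ← q3, mul_assoc, q2, mul_one]
  have e3 : A * B * A = B := by rw [mul_assoc, ← q3, e1]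
  have e4 : A * B * B = A := by rw [mul_assoc, q2, mul_one]
  have e5 : A * B * (A * B) = 1 := by rw [← mul_assoc, e3, q2]
  have id : ∀ s t : ℂ, s * s = 1 → t * t = 1 → ∃ E : M5 ℂ, E * E = E ∧ A * E = s • E ∧
      E.trace = 4⁻¹ * (5 + (s + t + s * t) * A.trace) ∧
      ∀ X, X * A = A * X → X * B = B * X → X * E = E * X := fun s t hs ht => by
    refine ⟨(4 : ℂ)⁻¹ • (1 + s • A + t • B + (s * t) • (A * B)), ?_, ?_, by simp [t1, t2]; ring,
      fun X hA hB => ?_⟩
    · simp only [mul_add, add_mul, smul_mul_assoc, mul_smul_comm, mul_one, one_mul, q1, q2, ← q3,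
        e1, e2, e3, e4, e5]
      match_scalars <;> grind
    · simp only [mul_add, mul_smul_comm, mul_one, q1, e1]
      match_scalars <;> grind
    · have : X * (A * B) = A * B * X := by rw [← mul_assoc, hA, mul_assoc, hB, mul_assoc]
      simp only [mul_add, add_mul, smul_mul_assoc, mul_smul_comm, mul_one, one_mul, hA, hB, this]
  have tA : A.trace = 1 := by
    obtain ⟨E, p1, -, p2, -⟩ := id 1 1 (by simp) (by simp)
    obtain ⟨E', p3, -, p4, -⟩ := id 1 (-1) (by simp) (by simp)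
    rw [tr_eq E p1] at p2
    rw [tr_eq E' p3] at p4
    generalize finrank ℂ (LinearMap.range (toLin' E)) = n at p2
    generalize finrank ℂ (LinearMap.range (toLin' E')) = n' at p4
    simp [sum_range_succ] at m1
    have f1 : n + 3 * n' = 5 := by
      exact_mod_cast (show (n : ℂ) + 3 * n' = 5 by linear_combination p2 + 3 * p4)
    have f2 : m + 2 * n' = 5 := by
      exact_mod_cast (show (m : ℂ) + 2 * n' = 5 by linear_combination -m1 / 2 + 2 * p4)
    obtain rfl : n' = 1 := by omega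
    linear_combination 4 * p4
  have key : ∀ s : ℂ, s * s = 1 → l * s = 1 := fun s hs => by
    obtain ⟨E, p1, p2, p3, p4⟩ := id s (-s) hs (by simpa)
    have p5 : E.trace = 1 := by rw [p3, tA]; linear_combination -hs / 4
    obtain ⟨u, hu⟩ := tr_one p1 p5 (p4 X x1 x2)
    obtain ⟨v, hv⟩ := tr_one p1 p5 (p4 Y y1 y2)
    have n0 : ∀ {X X' : M5 ℂ} {u : ℂ}, X' * X = 1 → X * E = u • E → u ≠ 0 := fun i e f => by
      have := congrArg trace (congrArg (_ * ·) e |>.symm.trans (by rw [← mul_assoc, i, one_mul]))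
      simp [f, p5] at this
    have := congrArg (fun M => (M * E).trace) e
    simp only [mul_assoc, smul_mul_assoc, hu, hv, mul_smul_comm, p2, trace_smul, p5,
      smul_eq_mul] at this
    exact mul_left_cancel₀ (mul_ne_zero (n0 ix hu) (n0 iy hv)) (by linear_combination -this)
  have := key 1 (by simp)
  have := key (-1) (by simp)
  grind

/-- The natural representation. -/
noncomputable def rV (ρ : P →* M5 ℂ) : Representation ℂ P (Fin 5 → ℂ) where
  toFun g := toLin' (ρ g)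
  map_one' := by rw [map_one, toLin'_one]; rfl
  map_mul' g g' := by rw [map_mul, toLin'_mul]; rfl

theorem norm_sum [Fintype P] (h : Hy0 ρ) :
    ∑ g, Complex.normSq (ρ g).trace = Fintype.card P := by
  have : (rV ρ).IsIrreducible :=
    haveI : Nontrivial (Subrepresentation (rV ρ)) :=
      ⟨⊥, ⊤, fun e => bot_ne_top (congrArg Subrepresentation.toSubmodule e)⟩
    ⟨fun X => (h.irr X.toSubmodule fun g _ hx => X.apply_mem_toSubmodule g hx).imp
      (fun e => Subrepresentation.toSubmodule_injective e)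
      fun e => Subrepresentation.toSubmodule_injective e⟩
  have e1 := Representation.char_orthonormal (rV ρ) (rV ρ)
  rw [if_pos ⟨Representation.Equiv.refl _⟩, inv_mul_eq_one₀ (by simp)] at e1
  simp only [← H1.CharDecomp.conj_character, Complex.mul_conj] at e1
  rw [← Nat.card_eq_fintype_card]
  simp only [← trace_toLin'_eq]
  exact_mod_cast e1.symm

theorem seven [Finite P] (h : Hy0 ρ) {x y : P} (h7 : x ^ 7 = 1) (h1 : x ≠ 1) (e : y * x = x ^ 2 * y)
    (hc : ∀ g, g * x = x * g → ∃ i : Fin 7, g = x ^ i.1) : False := by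
  classical
  have := Fintype.ofFinite P
  have f2 : ∀ m, (ρ x ^ (2 * m)).trace = (ρ x ^ m).trace := fun m => by
    rw [← map_pow, ← map_pow, pow_mul]
    exact tr_conj (SemiconjBy.pow_right e m)
  have r7 : ρ x ^ 7 = 1 := by rw [← map_pow, h7, map_one]
  have a2 := f2 1
  have a4 := f2 2
  have a6 := f2 3
  have a5 := f2 6
  rw [pow_eq_pow_mod _ r7] at a5
  have i6 : x⁻¹ = x ^ 6 := inv_eq_of_mul_eq_one_right (by rw [← pow_succ', h7])
  have pr := Complex.isPrimitiveRoot_exp 7 (by omega)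
  generalize Complex.exp _ = ζ at pr
  have z0 := pr.geom_sum_eq_zero (by omega)
  have z7 := pr.pow_eq_one
  obtain ⟨m0, b0, b⟩ := fix_nat (by omega) r7
  obtain ⟨m1, b1, -⟩ := fix_nat (Y := ζ • ρ x) (n := 7) (by omega) (by rw [smul_pow, r7, z7, one_smul])
  obtain ⟨m3, b3, -⟩ := fix_nat (Y := ζ ^ 6 • ρ x) (n := 7) (by omega) (by
    rw [smul_pow, r7, ← pow_mul, mul_comm, pow_mul, z7, one_pow, one_smul])
  have cj : starRingEnd ℂ (ρ x).trace = (ρ x ^ 3).trace := by
    rw [← a6, ← map_pow, ← i6, ← trace_toLin'_eq, ← trace_toLin'_eq]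
    exact H1.CharDecomp.conj_character (rV ρ) x
  simp only [← pow_mul, smul_pow, trace_smul, sum_range_succ, range_zero, Nat.reduceMul,
    sum_empty, smul_eq_mul, pow_zero, pow_one, trace_one, Fintype.card_fin] at b0 b1 b3 z0 a2
  rw [pow_eq_pow_mod 12 z7, pow_eq_pow_mod 18 z7, pow_eq_pow_mod 24 z7, pow_eq_pow_mod 30 z7,
    pow_eq_pow_mod 36 z7] at b3
  norm_num [a2, a4, a5, a6] at b0 b1 b3
  have ti : (ρ x⁻¹).trace = (ρ x ^ 3).trace := by rw [i6, map_pow, a6]
  generalize (ρ x ^ 3).trace = t' at *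
  have f0 : m0 + 3 * m1 + 3 * m3 = 5 := by
    exact_mod_cast (show (m0 : ℂ) + 3 * m1 + 3 * m3 = 5 by
      linear_combination -b0 / 7 - 3 * b1 / 7 - 3 * b3 / 7 + 3 * ((ρ x).trace + t') * z0 / 7)
  have f1 : m0 ≠ 5 := fun e => h1 (h.inj ((b e).trans (map_one ρ).symm))
  have f3 : ((ρ x).trace - t') ^ 2 = -7 := by
    have k : (ζ + ζ ^ 2 + ζ ^ 4 - (ζ ^ 3 + ζ ^ 5 + ζ ^ 6)) ^ 2 = -7 := by grind
    have k' : (ζ + ζ ^ 2 + ζ ^ 4 - (ζ ^ 3 + ζ ^ 5 + ζ ^ 6)) * ((ρ x).trace - t') = 7 * (m1 - m3) := by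
      linear_combination b1 - b3
    have k'' := congrArg (· ^ 2) k'
    simp only [mul_pow, k] at k''
    obtain ⟨rfl, rfl⟩ | ⟨rfl, rfl⟩ : m1 = 1 ∧ m3 = 0 ∨ m1 = 0 ∧ m3 = 1 := by omega
    all_goals push_cast at k''; linear_combination -k'' / 7
  obtain rfl : m0 = 2 := by omega
  have n1 : Complex.normSq (ρ x).trace = 4 := by
    have := Complex.mul_conj (ρ x).trace
    rw [cj] at this
    exact_mod_cast (show (Complex.normSq (ρ x).trace : ℂ) = 4 by
      push_cast at b0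
      linear_combination -this - f3 / 4 + ((ρ x).trace + t' + 3) * b0 / 12)
  have n2 : Complex.normSq t' = 4 := by rw [← cj, Complex.normSq_conj, n1]
  have cl : ∀ a : P, (∀ g, g * a = a * g → g * x = x * g) →
      Fintype.card P ≤ 7 * #(univ.image fun g => g * a * g⁻¹) := fun a ha =>
    card_le_mul_card_image _ 7 fun b hb => by
      obtain ⟨g, -, rfl⟩ := mem_image.1 hb
      refine (card_le_card (t := univ.image fun i : Fin 7 => g * x ^ i.1) fun g' hg' => ?_).trans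
        (card_image_le.trans (by simp))
      obtain ⟨i, hi⟩ := hc (g⁻¹ * g') (ha _ (by
        calc g⁻¹ * g' * a = g⁻¹ * (g' * a * g'⁻¹) * g' := by group
          _ = _ := by rw [(mem_filter.1 hg').2]; group))
      exact mem_image.2 ⟨i, mem_univ _, by rw [← hi, mul_inv_cancel_left]⟩
  have c1 := cl x fun _ e => e
  have c2 := cl x⁻¹ fun _ e => Commute.inv_right_iff.1 e
  have tr : ∀ a, ∀ b ∈ univ.image fun g => g * a * g⁻¹, (ρ b).trace = (ρ a).trace := fun a b hb => by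
    obtain ⟨g, -, rfl⟩ := mem_image.1 hb
    exact tr_conj (g := g) (inv_mul_cancel_right _ _).symm
  have l := sum_le_sum_of_subset_of_nonneg (f := fun g => Complex.normSq (ρ g).trace)
    (subset_univ ((univ.image fun g => g * x * g⁻¹) ∪ univ.image fun g => g * x⁻¹ * g⁻¹))
    fun _ _ _ => Complex.normSq_nonneg _
  rw [norm_sum h, sum_union (disjoint_left.2 fun b b1 b2 => by
    rw [← tr _ b b1, tr _ b b2, ti] at f3
    norm_num at f3), sum_eq_card_nsmul fun b hb => (congrArg _ (tr _ b hb)).trans n1,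
    sum_eq_card_nsmul fun b hb => (congrArg _ ((tr _ b hb).trans ti)).trans n2, ← add_smul,
    nsmul_eq_mul] at l
  have := Fintype.card_pos (α := P)
  have l' : (#(univ.image fun g => g * x * g⁻¹) + #(univ.image fun g => g * x⁻¹ * g⁻¹)) * 4 ≤
    Fintype.card P := by exact_mod_cast l
  omega

theorem seven' [Finite P] (h : Hy0 ρ) {Γ : Type*} [Group Γ] (e : P ≃* Γ) {x y : Γ}
    (t : x ^ 7 = 1 ∧ x ≠ 1 ∧ y * x = x ^ 2 * y)
    (hc : ∀ g, g * x = x * g → ∃ i : Fin 7, g = x ^ i.1) : False :=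
  seven h (x := e.symm x) (y := e.symm y) (by rw [← map_pow, t.1, map_one]) (by simpa using t.2.1)
    (by rw [← map_pow, ← map_mul, t.2.2, map_mul]) fun g hg =>
      (hc (e g) (by simpa using congrArg e hg)).imp fun i hi => e.injective (by simp [hi])

theorem real {k : Type*} [Field k] {ρ : P →* M5 k} (h : Hy ρ) {Γ : Type*} [Group Γ] (e : P ≃* Γ)
    (t : ∀ a : Γ, ∃ g, g * a = a⁻¹ * g) : False := by
  obtain ⟨g, hg⟩ := h.nsd
  obtain ⟨y, hy⟩ := t (e g)
  exact hg (tr_conj (g := e.symm y) (e.injective (by simp [hy])))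

theorem good [Finite P] (h : Hy ρ) (l : List5 (P ⧸ center P)) : Good (P ⧸ center P) := by
  have h0 := h.toHy0
  rcases l with (l | l | l | ⟨⟨e⟩⟩ | ⟨⟨e⟩⟩ | ⟨⟨e⟩⟩ | ⟨⟨e⟩⟩ | l) | l | l
  · exact (not_K1 h0 l).elim
  · exact (not_K2 h0 l).elim
  · exact (not_K3 h0 l).elim
  · exact (real h (eqv h0 e (by rw [nat_card_alternatingGroup]; simp [Nat.factorial])) real5).elim
  · exact (real h (eqv h0 e (by rw [nat_card_alternatingGroup]; simp [Nat.factorial])) real6).elim
  · exact (seven' h0 (eqv h0 e card_x3) x3_facts x3_cent).elim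
  · exact (seven' h0 (eqv h0 e (by rw [nat_card_alternatingGroup]; simp [Nat.factorial]))
      x7_facts x7_cent).elim
  · exact .inr l
  · exact (not_U5 h0 two_ne_zero l).elim
  · exact .inl l

end Cfsg.Agent.L5.K
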