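import Cfsg.Agent.L5.Defs
import Cfsg.Agent.L4.GA0

/-!
Quasisimple subgroups of `SL₅`: the centre, canonical lifts, eigenvectors.
-/

set_option autoImplicit false
set_option linter.unusedSectionVars false

namespace Cfsg.Agent.L5.K

open Matrix Subgroup Module

section Lin
variable {k ι : Type*} [Field k] [Fintype ι] [DecidableEq ι]

theorem ex_eig [IsAlgClosed k] (B : Matrix ι ι k) {W : Submodule k (ι → k)} (h0 : W ≠ ⊥)
    (hW : ∀ v ∈ W, B *ᵥ v ∈ W) : ∃ μ : k, ∃ v ∈ W, v ≠ 0 ∧ B *ᵥ v = μ • v := by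
  have := Submodule.nontrivial_iff_ne_bot.2 h0
  obtain ⟨μ, hμ⟩ := End.exists_eigenvalue (B.mulVecLin.restrict (p := W) (q := W) hW)
  obtain ⟨v, hv⟩ := hμ.exists_hasEigenvector
  exact ⟨μ, v, v.2, fun e => hv.2 (Subtype.ext e), congrArg Subtype.val hv.apply_eq_smul⟩

theorem ex_eig_ne [IsAlgClosed k] {A : Matrix ι ι k} {n : ℕ} (hn : (n : k) ≠ 0) (h : A ^ n = 1)
    (h1 : A ≠ 1) : ∃ (μ : k) (v : ι → k), μ ≠ 1 ∧ v ≠ 0 ∧ A *ᵥ v = μ • v := by
  obtain ⟨μ, _, ⟨u, rfl⟩, h2, h3⟩ := ex_eig A (W := LinearMap.range (A - 1).mulVecLin) (fun e => h1 (by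
    rw [LinearMap.range_eq_bot] at e
    exact sub_eq_zero.1 (toLin'.injective (e.trans (map_zero _).symm)))) (by
      rintro _ ⟨u, rfl⟩
      exact ⟨A *ᵥ u, by simp [mulVec_sub]⟩)
  refine ⟨μ, _, ?_, h2, h3⟩
  rintro rfl
  simp only [mulVecLin_apply, sub_mulVec, one_mulVec, one_smul] at h2 h3
  have : ∀ m : ℕ, A ^ m *ᵥ u = u + (m : k) • (A *ᵥ u - u) := fun m => by
    induction m with
    | zero => simp
    | succ m ih =>
      rw [pow_succ', ← mulVec_mulVec, ih, mulVec_add, mulVec_smul, h3]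
      push_cast
      module
  simpa [h, hn, h2] using this n

theorem eig_pow {A : Matrix ι ι k} {μ : k} {v : ι → k} (h : A *ᵥ v = μ • v) (n : ℕ) :
    A ^ n *ᵥ v = μ ^ n • v := by
  induction n with
  | zero => simp
  | succ n ih => rw [pow_succ', ← mulVec_mulVec, ih, mulVec_smul, h, smul_smul, pow_succ]

theorem eig_one {A : Matrix ι ι k} {μ : k} {v : ι → k} (h : A *ᵥ v = μ • v) (h0 : v ≠ 0) {n : ℕ}
    (e : A ^ n = 1) : μ ^ n = 1 := by
  have := eig_pow h n
  rw [e, one_mulVec] at this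
  exact smul_left_injective k h0 (this.symm.trans (one_smul _ _).symm)

theorem mv_ne {A A' : Matrix ι ι k} (h : A' * A = 1) {v : ι → k} (hv : v ≠ 0) : A *ᵥ v ≠ 0 :=
  fun e => hv (by rw [← one_mulVec v, ← h, ← mulVec_mulVec, e, mulVec_zero])

theorem mat_ext {A B : Matrix ι ι k} (h : ∀ x, A *ᵥ x = B *ᵥ x) : A = B :=
  toLin'.injective (LinearMap.ext h)

/-- an anticommuting pair halves the dimension -/
theorem dbl [IsAlgClosed k] (h2 : (2 : k) ≠ 0) {A B A' B' : Matrix ι ι k} (a1 : A' * A = 1)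
    (b1 : B' * B = 1) {W : Submodule k (ι → k)} (h0 : W ≠ ⊥) (hA : ∀ v ∈ W, A *ᵥ v ∈ W)
    (hB : ∀ v ∈ W, B *ᵥ v ∈ W) (e : ∀ v ∈ W, A *ᵥ (B *ᵥ v) = -(B *ᵥ (A *ᵥ v))) :
    ∃ W' ≤ W, W' ≠ ⊥ ∧ 2 * finrank k W' ≤ finrank k W ∧
      ∀ C : Matrix ι ι k, A * C = C * A → (∀ v ∈ W, C *ᵥ v ∈ W) → ∀ v ∈ W', C *ᵥ v ∈ W' := by
  obtain ⟨μ, v, hv, v0, ev⟩ := ex_eig A h0 hA
  have m0 : μ ≠ 0 := fun f => mv_ne a1 v0 (by rw [ev, f, zero_smul])
  have mW : ∀ a v, v ∈ End.eigenspace A.mulVecLin a ↔ A *ᵥ v = a • v := fun a v =>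
    End.mem_eigenspace_iff
  refine ⟨W ⊓ End.eigenspace A.mulVecLin μ, inf_le_left,
    (Submodule.ne_bot_iff _).2 ⟨v, ⟨hv, (mW ..).2 ev⟩, v0⟩, ?_, fun C hC hW v hv =>
      ⟨hW v hv.1, (mW ..).2 (by
        rw [mulVec_mulVec, hC, ← mulVec_mulVec, (mW ..).1 hv.2, mulVec_smul])⟩⟩
  generalize hU : W ⊓ End.eigenspace A.mulVecLin μ = U
  have mU : ∀ v ∈ U, v ∈ W ∧ A *ᵥ v = μ • v := fun v hv => by
    rw [← hU] at hv; exact ⟨hv.1, (mW ..).1 hv.2⟩
  have i1 : finrank k (U.map B.mulVecLin) = finrank k U :=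
    (Submodule.equivMapOfInjective _ (fun x y e => by
      simpa [b1] using congrArg (B' *ᵥ ·) e) U).finrank_eq.symm
  have i2 : U ⊓ U.map B.mulVecLin = ⊥ := by
    rw [eq_bot_iff]
    rintro _ ⟨h1, u, hu, rfl⟩
    have := (mU _ h1).2
    rw [mulVecLin_apply, e u (mU u hu).1, (mU u hu).2, mulVec_smul] at this
    have h3 : (2 * μ) • (B *ᵥ u) = 0 := by
      rw [mul_smul, two_smul]; exact add_eq_zero_iff_neg_eq.2 this
    simpa [h2, m0] using h3
  have i3 := Submodule.finrank_sup_add_finrank_inf_eq U (U.map B.mulVecLin)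
  have i4 : finrank k ↥(U ⊔ U.map B.mulVecLin) ≤ finrank k W := Submodule.finrank_mono (sup_le
    (fun v hv => (mU v hv).1) (by rintro _ ⟨u, hu, rfl⟩; exact hB u (mU u hu).1))
  rw [i2, finrank_bot, i1] at i3
  omega

/-- five cyclically permuted eigenvectors -/
theorem cyc5 {A T : M5 k} {v : Fin 5 → k} {μ : Fin 5 → k} (hμ : Function.Injective μ) (h0 : v ≠ 0)
    (hc : A ^ 5 = 1) (he : ∀ i : Fin 5, T *ᵥ (A ^ i.1 *ᵥ v) = μ i • (A ^ i.1 *ᵥ v)) :
    A.trace = 0 ∧ ∀ N : M5 k, (∀ i : Fin 5, N *ᵥ (A ^ i.1 *ᵥ v) = 0) → N = 0 := by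
  have li := End.eigenvectors_linearIndependent' T.mulVecLin μ hμ (fun i => A ^ i.1 *ᵥ v)
    fun i => ⟨End.mem_eigenspace_iff.2 (he i), mv_ne (A' := A ^ (5 - i.1))
      (by rw [← pow_add, Nat.sub_add_cancel i.2.le, hc]) h0⟩
  let b := basisOfLinearIndependentOfCardEqFinrank li (by simp)
  have hb : ∀ i, b i = A ^ i.1 *ᵥ v := fun i => by simp [b]
  refine ⟨?_, fun N hN => toLin'.injective (b.ext fun i => by simp [hb, hN])⟩
  have e : ∀ i, toLin' A (b i) = b (i + 1) := fun i => by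
    rw [hb, hb, toLin'_apply, mulVec_mulVec, ← pow_succ']
    fin_cases i <;> simp [hc]
  rw [← trace_toLin'_eq, LinearMap.trace_eq_matrix_trace k b, trace]
  refine Finset.sum_eq_zero fun i _ => ?_
  rw [diag_apply, LinearMap.toMatrix_apply, e, b.repr_self, Finsupp.single_eq_of_ne]
  revert i; decide

end Lin

variable {P k : Type*} [Group P] [Field k] {ρ : P →* M5 k}

theorem inv_l (g : P) : ρ g⁻¹ * ρ g = 1 := by rw [← map_mul, inv_mul_cancel, map_one]

theorem tr_conj {a b g : P} (e : g * a = b * g) : (ρ b).trace = (ρ a).trace := by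
  rw [← mul_inv_eq_iff_eq_mul.2 e, map_mul, map_mul, trace_mul_cycle, inv_l, one_mul]

variable [IsAlgClosed k] (h : Hy0 ρ)
include h

theorem center_iff {g : P} : g ∈ center P ↔ ∃ c : k, ρ g = c • 1 := by
  constructor
  · intro hg
    obtain ⟨c, hc⟩ := End.exists_eigenvalue (ρ g).mulVecLin
    refine ⟨c, ?_⟩
    rcases h.irr (End.eigenspace (ρ g).mulVecLin c) (fun x v hv => by
      rw [End.mem_eigenspace_iff, mulVecLin_apply] at hv ⊢
      rw [mulVec_mulVec, ← map_mul, ← mem_center_iff.1 hg x, map_mul, ← mulVec_mulVec, hv,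
        mulVec_smul]) with e | e
    · exact absurd e hc
    · exact mat_ext fun v => by
        simpa [smul_mulVec] using End.mem_eigenspace_iff.1 (e.ge (Submodule.mem_top (x := v)))
  · rintro ⟨c, hc⟩
    exact mem_center_iff.2 fun x => h.inj (by
      rw [map_mul, map_mul, hc, mul_smul_comm, smul_mul_assoc, mul_one, one_mul])

theorem cent5 {z : P} (hz : z ∈ center P) : z ^ 5 = 1 := by
  obtain ⟨c, hc⟩ := (center_iff h).1 hz
  have := h.det z
  rw [hc, det_smul, det_one, mul_one, Fintype.card_fin] at this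
  exact h.inj (by rw [map_pow, hc, smul_pow, this, one_pow, one_smul, map_one])

theorem uniq {n : ℕ} (hn : n.Coprime 5) {x y : P} (e : (x : P ⧸ center P) = y) (hx : x ^ n = 1)
    (hy : y ^ n = 1) : x = y := by
  have hz := QuotientGroup.eq.1 e
  have h3 : (x⁻¹ * y) ^ n = 1 := by
    rwa [← mul_inv_cancel_left x y, Commute.mul_pow (mem_center_iff.1 hz x), hx, one_mul] at hy
  exact inv_mul_eq_one.1 (orderOf_eq_one_iff.1 (Nat.eq_one_of_dvd_coprimes hn
    (orderOf_dvd_of_pow_eq_one h3) (orderOf_dvd_of_pow_eq_one (cent5 h hz))))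

theorem ex_lift {n : ℕ} (hn : n.Coprime 5) {a : P ⧸ center P} (ha : a ^ n = 1) :
    ∃ x : P, (x : P ⧸ center P) = a ∧ x ^ n = 1 := by
  obtain ⟨x, rfl⟩ := QuotientGroup.mk_surjective a
  obtain ⟨m, hm⟩ : ∃ m, 5 ∣ 1 + n * m := by
    obtain ⟨m, -, hm⟩ := Nat.exists_mul_mod_eq_of_coprime 4 hn (by omega)
    exact ⟨m, by omega⟩
  obtain ⟨l, hl⟩ := hm
  refine ⟨x ^ (1 + n * m), by rw [QuotientGroup.mk_pow, pow_add, pow_mul, ha, one_pow, mul_one,
    pow_one], ?_⟩
  rw [← pow_mul, mul_comm, pow_mul, hl, pow_mul, cent5 h ((QuotientGroup.eq_one_iff _).1 ha), one_pow]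

theorem rel {n : ℕ} (hn : n.Coprime 5) {x y z : P} (e : (z : P ⧸ center P) * x = y * z)
    (hx : x ^ n = 1) (hy : y ^ n = 1) : z * x = y * z :=
  mul_inv_eq_iff_eq_mul.1 (uniq h hn (by
    rw [QuotientGroup.mk_mul, QuotientGroup.mk_mul, e, QuotientGroup.mk_inv, mul_inv_cancel_right])
    (by rw [conj_pow, hx, mul_one, mul_inv_cancel]) hy)

theorem cent_bot [Finite P] (h25 : ¬ 25 ∣ Nat.card (P ⧸ center P)) {z : P} (hz : z ∈ center P) :
    z = 1 := by
  have := Fact.mk Nat.prime_five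
  obtain ⟨S⟩ : Nonempty (Sylow 5 (P ⧸ center P)) := inferInstance
  have : IsCyclic S := by
    obtain ⟨n, hn⟩ := IsPGroup.iff_card.1 S.isPGroup'
    have d : 5 ^ n ∣ Nat.card (P ⧸ center P) := hn ▸ S.1.card_subgroup_dvd_card
    obtain rfl | rfl | e : n = 0 ∨ n = 1 ∨ 2 ≤ n := by omega
    · exact isCyclic_of_card_dvd_prime (p := 5) (by simp [hn])
    · exact isCyclic_of_prime_card (p := 5) (by simp [hn])
    · exact absurd ((pow_dvd_pow 5 e).trans d) h25
  let H := S.1.comap (QuotientGroup.mk' (center P))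
  have : IsMulCommutative H := MonoidHom.isMulCommutative_of_isCyclic_of_ker_le_center
    ((QuotientGroup.mk' (center P)).subgroupComap S.1) fun a ha => mem_center_iff.2 fun b =>
      Subtype.ext (mem_center_iff.1 ((QuotientGroup.eq_one_iff _).1 (congrArg Subtype.val ha)) _)
  open scoped IsMulCommutative in
  have t := MonoidHom.transfer_eq_pow (MonoidHom.id H) z fun n g _ => by
    rw [mul_assoc, ← mem_center_iff.1 (pow_mem hz n), inv_mul_cancel_left]
  open scoped IsMulCommutative in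
  have t' : z ^ H.index = 1 := congrArg Subtype.val (t.symm.trans
    (Abelianization.commutator_subset_ker _ (h.perf.ge (mem_top z))))
  rw [index_comap_of_surjective _ (QuotientGroup.mk'_surjective _)] at t'
  exact uniq h (Nat.Coprime.symm ((Nat.Prime.coprime_iff_not_dvd Nat.prime_five).2 S.not_dvd_index))
    ((QuotientGroup.eq_one_iff _).2 hz) t' (one_pow _)

/-- The group is its own central quotient when `25` does not divide the order. -/
noncomputable def eqv [Finite P] {Γ : Type*} [Group Γ] (e : (P ⧸ center P) ≃* Γ)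
    (h25 : ¬ 25 ∣ Nat.card Γ) : P ≃* Γ :=
  (MulEquiv.ofBijective (QuotientGroup.mk' (center P)) ⟨(injective_iff_map_eq_one _).2 fun _ hz =>
    cent_bot h (Nat.card_congr e.toEquiv ▸ h25) ((QuotientGroup.eq_one_iff _).1 hz),
    QuotientGroup.mk'_surjective _⟩).trans e

omit [IsAlgClosed k] in
theorem fix_zero {v : Fin 5 → k} (hv : ∀ g, ∃ c : k, ρ g *ᵥ v = c • v) : v = 0 := by
  rcases h.irr (k ∙ v) (fun g x hx => by
    obtain ⟨c, rfl⟩ := Submodule.mem_span_singleton.1 hx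
    obtain ⟨d, hd⟩ := hv g
    rw [mulVec_smul, hd, smul_smul]
    exact Submodule.smul_mem _ _ (Submodule.mem_span_singleton_self v)) with e | e
  · simpa using e
  · have := finrank_span_le_card (R := k) ({v} : Set (Fin 5 → k))
    rw [e] at this
    simp at this

end Cfsg.Agent.L5.K
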