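import Cfsg.Agent.L5.K0
import Cfsg.Agent.L4.GU0

/-!
Unitary groups over the field with four elements: lifts and extraspecial subgroups.
-/

set_option autoImplicit false
set_option linter.unusedSectionVars false
set_option maxRecDepth 100000

namespace Cfsg.Agent.L5.K

open Matrix Subgroup Module Cfsg.Agent.L4.GU

/-- The matrix with a given code. -/
def mat (n c : ℕ) : Matrix (Fin n) (Fin n) Q4 := Matrix.of fun i j => Q4.of (c / 4 ^ (n * i.1 + j.1))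

/-- Unitary of determinant one. -/
def UN {n : ℕ} (M : Matrix (Fin n) (Fin n) Q4) : Prop := M.det = 1 ∧ Mᵀ * M.map (· ^ 2) = 1

instance iUN {n : ℕ} (M : Matrix (Fin n) (Fin n) Q4) : Decidable (UN M) :=
  inferInstanceAs (Decidable (_ ∧ _))

/-- The automorphism of order two. -/
def sq4 : Q4 →+* Q4 := ⟨⟨⟨(· ^ 2), by decide +kernel⟩, by decide +kernel⟩, by decide +kernel,
  by decide +kernel⟩

theorem UN.herm {n : ℕ} {M : Matrix (Fin n) (Fin n) Q4} (h : UN M) (u v : Fin n → Q4) :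
    hermForm n Q4 2 (M *ᵥ u) (M *ᵥ v) = hermForm n Q4 2 u v := by
  have e : (fun i => (M *ᵥ v) i ^ 2) = M.map (· ^ 2) *ᵥ fun i => v i ^ 2 :=
    funext fun i => sq4.map_mulVec M v i
  show (M *ᵥ u) ⬝ᵥ (fun i => (M *ᵥ v) i ^ 2) = u ⬝ᵥ fun i => v i ^ 2
  rw [e, ← vecMul_transpose, ← dotProduct_mulVec, mulVec_mulVec, h.2, one_mulVec]

variable {P k : Type*} [Group P] [Field k] {ρ : P →* M5 k} {n : ℕ}
  {f : SU n Q4 2 →* P ⧸ center P}

theorem IsU2.ex (e : IsU2 n (P ⧸ center P)) : ∃ f : SU n Q4 2 →* P ⧸ center P,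
    Function.Surjective f ∧ ∀ g, f g = 1 → g ∈ center _ := by
  obtain ⟨K, _, _, hK, ⟨e⟩⟩ := e
  let φ : Q4 ≃+* K := FiniteField.ringEquivOfCardEq (by rw [hK]; decide)
  exact ⟨(e.symm.toMonoidHom.comp (QuotientGroup.mk' _)).comp (suMap φ n 2),
    e.symm.surjective.comp ((QuotientGroup.mk'_surjective _).comp
      (Function.RightInverse.surjective (suMap_inv φ.symm n 2))), fun g hg =>
      mem_center_iff.2 fun a => Function.LeftInverse.injective (suMap_inv φ n 2) (by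
        rw [map_mul, map_mul]
        exact mem_center_iff.1 ((QuotientGroup.eq_one_iff _).1 (e.symm.map_eq_one_iff.1 hg)) _)⟩

variable (f) in
/-- The element `x` lies over the matrix `M`. -/
def Ov (x : P) (M : Matrix (Fin n) (Fin n) Q4) : Prop := ∃ g : SU n Q4 2, g.1.1 = M ∧ f g = x

variable {x y z : P} {M N M' : Matrix (Fin n) (Fin n) Q4}

theorem Ov.mul (h : Ov f x M) (h' : Ov f y N) : Ov f (x * y) (M * N) := by
  obtain ⟨g, rfl, e⟩ := h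
  obtain ⟨g', rfl, e'⟩ := h'
  exact ⟨g * g', rfl, by rw [map_mul, e, e', QuotientGroup.mk_mul]⟩

theorem Ov.one : Ov f 1 1 := ⟨1, rfl, map_one f⟩

theorem Ov.eq (h : Ov f x M) (h' : Ov f y M) : (x : P ⧸ center P) = y := by
  obtain ⟨g, rfl, e⟩ := h
  obtain ⟨g', e1, e'⟩ := h'
  rw [← e, ← e', show g' = g from Subtype.ext (Subtype.ext e1)]

theorem Ov.cent (hk : ∀ g, f g = 1 → g ∈ center _) (h : Ov f x M)
    (hx : x ∈ center P) (hN : UN N) : M * N = N * M := by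
  obtain ⟨g, rfl, e⟩ := h
  exact congrArg (·.1.1) (mem_center_iff.1 (hk g (e.trans ((QuotientGroup.eq_one_iff x).2 hx)))
    ⟨⟨N, hN.1⟩, hN.herm⟩).symm

/-- Invariant subspaces. -/
def Iv (ρ : P →* M5 k) (W : Submodule k (Fin 5 → k)) (c : P) : Prop := ∀ v ∈ W, ρ c *ᵥ v ∈ W

variable [IsAlgClosed k]

theorem step (h2 : (2 : k) ≠ 0) {a b : P} (e : b * a = z * a * b) {W : Submodule k (Fin 5 → k)}
    (h0 : W ≠ ⊥) (hz : ∀ v ∈ W, ρ z *ᵥ v = -v) (ha : Iv ρ W a) (hb : Iv ρ W b) :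
    ∃ W' ≤ W, W' ≠ ⊥ ∧ 2 * finrank k W' ≤ finrank k W ∧
      ∀ c, a * c = c * a → Iv ρ W c → Iv ρ W' c := by
  obtain ⟨W', h1, h3, h4, h5⟩ := dbl h2 (inv_l a) (inv_l b) h0 ha hb fun v hv => by
    rw [mulVec_mulVec v (ρ b), ← map_mul, e, map_mul, map_mul, ← mulVec_mulVec, ← mulVec_mulVec,
      hz _ (ha _ (hb v hv)), neg_neg]
  exact ⟨W', h1, h3, h4, fun c hc => h5 _ (by rw [← map_mul, hc, map_mul])⟩

omit [IsAlgClosed k] in
theorem neg_sp (h : Hy0 ρ) (z2 : z ^ 2 = 1) (z1 : z ≠ 1) : ∃ W : Submodule k (Fin 5 → k), W ≠ ⊥ ∧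
    (∀ v, v ∈ W ↔ ρ z *ᵥ v = -v) ∧ ∀ c, c * z = z * c → Iv ρ W c := by
  have mW : ∀ v, v ∈ End.eigenspace (ρ z).mulVecLin (-1) ↔ ρ z *ᵥ v = -v := fun v => by
    rw [End.mem_eigenspace_iff, neg_one_smul, mulVecLin_apply]
  refine ⟨_, fun e => z1 (h.inj (mat_ext fun v => ?_)), mW, fun c hc v hv => (mW _).2 (by
    rw [mulVec_mulVec, ← map_mul, ← hc, map_mul, ← mulVec_mulVec, (mW _).1 hv, mulVec_neg])⟩
  have := (mW (ρ z *ᵥ v - v)).2 (by
    rw [mulVec_sub, mulVec_mulVec, ← map_mul, ← sq, z2, map_one, one_mulVec, neg_sub])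
  rw [e, Submodule.mem_bot, sub_eq_zero] at this
  rw [this, map_one, one_mulVec]

variable (h : Hy0 ρ)
include h

theorem Ov.ex {m : ℕ} (hm : m.Coprime 5) (hM : UN M ∧ M ^ m = 1) : ∃ x, Ov f x M ∧ x ^ m = 1 := by
  obtain ⟨g, hg⟩ : ∃ g : SU n Q4 2, g.1.1 = M := ⟨⟨⟨M, hM.1.1⟩, hM.1.herm⟩, rfl⟩
  obtain ⟨x, h1, h2⟩ := ex_lift h hm (a := f g) (by
    rw [← map_pow, ← map_one f]
    exact congrArg f (Subtype.ext (Subtype.ext (by simpa [hg] using hM.2))))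
  exact ⟨x, ⟨_, hg, h1.symm⟩, h2⟩

theorem Ov.rel {m : ℕ} (hm : m.Coprime 5) (hz : Ov f z N) (hx : Ov f x M) (hy : Ov f y M')
    (e : N * M = M' * N) (x3 : x ^ m = 1) (y3 : y ^ m = 1) : z * x = y * z :=
  K.rel h hm ((hz.mul hx).eq (e ▸ hy.mul hz)) x3 y3

/-- An extraspecial subgroup. -/
def Ex (Z : Matrix (Fin n) (Fin n) Q4) {m : ℕ} (A B : Fin m → Matrix (Fin n) (Fin n) Q4) : Prop :=
  (UN Z ∧ Z ^ 2 = 1) ∧ (∀ i, (UN (A i) ∧ A i ^ 4 = 1) ∧ (UN (B i) ∧ B i ^ 4 = 1) ∧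
    A i * Z = Z * A i ∧ B i * Z = Z * B i ∧ B i * A i = Z * A i * B i) ∧
    ∀ i j, i < j → A j * A i = A i * A j ∧ B j * A i = A i * B j

theorem extra (h2 : (2 : k) ≠ 0) {Z : Matrix (Fin n) (Fin n) Q4} {m : ℕ}
    {A B : Fin m → Matrix (Fin n) (Fin n) Q4} (t : Ex Z A B) (hz : Ov f z Z) (z2 : z ^ 2 = 1)
    (z1 : z ≠ 1) : ∃ W : Submodule k (Fin 5 → k), (∀ v, v ∈ W ↔ ρ z *ᵥ v = -v) ∧
      2 ^ m ≤ finrank k W := by
  obtain ⟨-, t1, t2⟩ := t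
  have c4 : Nat.Coprime 4 5 := by decide
  have c2 : Nat.Coprime 2 5 := by decide
  choose a ha a4 using fun i => Ov.ex (f := f) h c4 (t1 i).1
  choose b hb b4 using fun i => Ov.ex (f := f) h c4 (t1 i).2.1
  have az := fun i => (ha i).rel h c2 hz hz (t1 i).2.2.1 z2 z2
  have bz := fun i => (hb i).rel h c2 hz hz (t1 i).2.2.2.1 z2 z2
  obtain ⟨W, w0, w1, w2⟩ := neg_sp h z2 z1
  refine ⟨W, w1, ?_⟩
  have key : ∀ l ≤ m, ∃ W' ≤ W, W' ≠ ⊥ ∧ 2 ^ l * finrank k W' ≤ finrank k W ∧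
      ∀ i : Fin m, l ≤ i.1 → Iv ρ W' (a i) ∧ Iv ρ W' (b i) := fun l hl => by
    induction l with
    | zero => exact ⟨W, le_rfl, w0, by simp, fun i _ => ⟨w2 _ (az i), w2 _ (bz i)⟩⟩
    | succ l ih =>
      obtain ⟨U, u1, u2, u3, u4⟩ := ih (by omega)
      obtain ⟨U', v1, v2, v3, v4⟩ := step h2 (z := z) ((hb ⟨l, hl⟩).rel h c4 (ha _) (hz.mul (ha _))
        (t1 _).2.2.2.2 (a4 _) (by
          rw [Commute.mul_pow (az _).symm, a4, show 4 = 2 * 2 from rfl, pow_mul, z2, one_pow, mul_one]))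
        u2 (fun v hv => (w1 v).1 (u1 hv)) (u4 _ le_rfl).1 (u4 _ le_rfl).2
      refine ⟨U', v1.trans u1, v2, by rw [pow_succ, mul_assoc]; nlinarith [Nat.two_pow_pos l],
        fun i hi => ⟨v4 _ ((ha i).rel h c4 (ha _) (ha _) (t2 ⟨l, hl⟩ i hi).1 (a4 _) (a4 _)).symm
          (u4 i (by omega)).1, v4 _ ((hb i).rel h c4 (ha _) (ha _) (t2 ⟨l, hl⟩ i hi).2 (a4 _)
          (a4 _)).symm (u4 i (by omega)).2⟩⟩
  obtain ⟨U, -, u2, u3, -⟩ := key m le_rfl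
  have := Submodule.one_le_finrank_iff.2 u2
  nlinarith [Nat.two_pow_pos m]

omit h in
theorem ex5 : Ex (mat 5 281543712965636)
    (fun i : Fin 3 => mat 5 (![287041271380235, 281549081753675, 281543718238235] i))
    (fun i => mat 5 (![292538830043915, 281554450593995, 281543723513915] i)) ∧
    UN (mat 5 281543700398081) ∧ mat 5 281543712965636 * mat 5 281543700398081 ≠
      mat 5 281543700398081 * mat 5 281543712965636 := by
  unfold Ex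
  decide +kernel

theorem not_U5 (h2 : (2 : k) ≠ 0) (e : IsU2 5 (P ⧸ center P)) : False := by
  obtain ⟨f, -, hk⟩ := IsU2.ex e
  obtain ⟨z, hz, z2⟩ := Ov.ex (f := f) h (by decide) ex5.1.1
  obtain ⟨W, -, hW⟩ := extra h h2 ex5.1 hz z2 fun e =>
    ex5.2.2 (hz.cent hk (e ▸ one_mem _) ex5.2.1)
  have := W.finrank_le
  rw [finrank_fin_fun] at this
  omega

end Cfsg.Agent.L5.K
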