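import Cfsg.Agent.L5.M4
import Cfsg.Agent.SE.KnD

/-!
The Mathieu group `M₁₁` is the automorphism group of the Steiner system `S(4, 5, 11)`.
-/

set_option autoImplicit false

namespace Cfsg.Agent.L5.M
open Equiv Cfsg.Spor Cfsg.Agent.SE.Kn
open scoped Pointwise

/-- The number of a point. -/
def idx : GolayPt → ℕ
  | none => 23
  | some x => x.val

/-- The point with a given number. -/
def uix (n : ℕ) : GolayPt := if n = 23 then none else some (n : ZMod 23)

/-- The word with a given table of bits. -/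
def wd (m : ℕ) : GolayPt → ZMod 2 := fun p => if m.testBit (idx p) then 1 else 0

theorem wd_xor (m n : ℕ) : wd (m ^^^ n) = wd m + wd n := funext fun p => by
  simp only [wd, Nat.testBit_xor, Pi.add_apply]
  cases m.testBit (idx p) <;> cases n.testBit (idx p) <;> decide

theorem wd_zero : wd 0 = 0 := funext fun p => by simp [wd]

theorem mem_wd (m : ℕ) (p : GolayPt) : p ∈ support₂ (wd m) ↔ m.testBit (idx p) = true := by
  simp [support₂, wd]

/-- All sums of elements of a list. -/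
def sp : List ℕ → List ℕ
  | [] => [0]
  | b :: l => sp l ++ (sp l).map (b ^^^ ·)

theorem sp_zero : ∀ l, 0 ∈ sp l
  | [] => by simp [sp]
  | _ :: l => List.mem_append_left _ (sp_zero l)

theorem sp_xor : ∀ (l : List ℕ) {m n : ℕ}, m ∈ sp l → n ∈ sp l → m ^^^ n ∈ sp l
  | [], _, _, h, h' => by simp_all [sp]
  | b :: l, _, _, h, h' => by
    simp only [sp, List.mem_append, List.mem_map] at h h' ⊢
    rcases h with h | ⟨m, h, rfl⟩ <;> rcases h' with h' | ⟨n, h', rfl⟩
    · exact .inl (sp_xor l h h')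
    · exact .inr ⟨_, sp_xor l h h', by
        rw [← Nat.xor_assoc, Nat.xor_comm b, Nat.xor_assoc]⟩
    · exact .inr ⟨_, sp_xor l h h', by rw [Nat.xor_assoc]⟩
    · refine .inl ?_
      rw [Nat.xor_assoc, ← Nat.xor_assoc m, Nat.xor_comm m, Nat.xor_assoc, Nat.xor_xor_cancel_left]
      exact sp_xor l h h'

theorem sp_ind (Q : ℕ → Prop) (h0 : Q 0) (hx : ∀ a b, Q a → Q b → Q (a ^^^ b)) :
    ∀ l : List ℕ, (∀ b ∈ l, Q b) → ∀ m ∈ sp l, Q m
  | [], _, _, h => by simp_all [sp]
  | b :: l, hl, _, h => by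
    simp only [sp, List.mem_append, List.mem_map] at h
    have := sp_ind Q h0 hx l fun c hc => hl c (List.mem_cons_of_mem _ hc)
    rcases h with h | ⟨m, h, rfl⟩
    exacts [this _ h, hx _ _ (hl b List.mem_cons_self) (this _ h)]

/-- The generating words. -/
def qm : List ℕ := [340831, 681662, 1363324, 2726648, 5453296, 2517985, 5035970, 1683333, 3366666, 6733332, 5078057, 1767507, 3535014, 7070028, 5751449, 3114291, 6228582, 4068557, 8137114, 7885621, 7382635, 6376663, 4364719]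

/-- A basis of the code. -/
def bm : List ℕ := [340831, 681662, 1363324, 2726648, 5453296, 2517985, 5035970, 1683333, 3366666, 6733332, 5078057, 16777215]

/-- The octads meeting the dodecad in six points, among them `0`. -/
def octs : List ℕ := [2564625, 1053483, 459847, 797449, 4264387, 2430217, 1413139, 4587803, 6557781, 5279, 45159, 2110153, 4470275, 140167, 4223245, 1647171, 786999, 334433, 1063445, 283537, 622863, 213833, 2183687, 95313, 39257, 57883, 663645, 2634003, 69395, 2173253, 530245, 210955, 4788761, 1065303, 272595, 352547, 4196943, 864389, 4563017, 1454401, 2162811, 3416079, 201013, 1312345, 75309, 99029, 806987, 5571333, 430605, 2392899, 4203377, 262637, 304405, 346141, 1122713, 8657159, 9240913, 9506893, 8663097, 8499969, 8398155, 8524371, 10486557, 8716939, 12656663, 8675909]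

theorem qr_eq (t : ZMod 23) : qrWord t = wd (qm.getD t.val 0) :=
  funext ((by decide +kernel : ∀ (t : ZMod 23) p, qrWord t p = wd (qm.getD t.val 0) p) t)

theorem one_eq : (1 : GolayPt → ZMod 2) = wd 16777215 := funext (by decide +kernel)

theorem code_sp {w : GolayPt → ZMod 2} (hw : w ∈ golayCode) : ∃ m ∈ sp bm, w = wd m := by
  induction hw using Submodule.span_induction with
  | mem w hw =>
    rcases hw with ⟨t, rfl⟩ | rfl
    · exact ⟨_, (by decide +kernel : ∀ t : ZMod 23, qm.getD t.val 0 ∈ sp bm) t, qr_eq t⟩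
    · exact ⟨_, by decide +kernel, one_eq⟩
  | zero => exact ⟨0, sp_zero _, wd_zero.symm⟩
  | add _ _ _ _ h h' =>
    obtain ⟨m, h1, rfl⟩ := h
    obtain ⟨n, h2, rfl⟩ := h'
    exact ⟨_, sp_xor _ h1 h2, (wd_xor ..).symm⟩
  | smul c _ _ h =>
    rcases (by decide : ∀ c : ZMod 2, c = 0 ∨ c = 1) c with rfl | rfl
    · exact ⟨0, sp_zero _, by rw [zero_smul, wd_zero]⟩
    · rwa [one_smul]

theorem sp_code : ∀ m ∈ sp bm, wd m ∈ golayCode :=
  sp_ind (fun m => wd m ∈ golayCode) (wd_zero ▸ zero_mem _)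
    (fun _ _ h h' => wd_xor .. ▸ add_mem h h') bm fun b hb => by
      rcases (by decide +kernel : ∀ b ∈ bm, b = 16777215 ∨ ∃ t : ZMod 23, b = qm.getD t.val 0) b hb
        with rfl | ⟨t, rfl⟩
      · exact one_eq ▸ Submodule.subset_span (.inr rfl)
      · exact qr_eq t ▸ Submodule.subset_span (.inl ⟨t, rfl⟩)

theorem min_wt (m : ℕ) (h : m ∈ sp bm) : m = 0 ∨ 8 ≤ (support₂ (wd m)).card :=
  of_decide_eq_true (List.all_eq_true.1 (by decide +kernel :
    (sp bm).all (fun m => decide (m = 0 ∨ 8 ≤ (support₂ (wd m)).card)) = true) m h)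

theorem oct_eq {w w' : GolayPt → ZMod 2} (hw : w ∈ golayCode) (hw' : w' ∈ golayCode)
    (c : (support₂ w).card = 8) (c' : (support₂ w').card = 8) {F : Finset GolayPt}
    (h : F ⊆ support₂ w) (h' : F ⊆ support₂ w') (hF : 5 ≤ F.card) : w = w' := by
  obtain ⟨m, hm, e⟩ := code_sp (add_mem hw hw')
  rcases min_wt m hm with rfl | h8
  · funext p
    exact (by decide : ∀ a b : ZMod 2, a + b = 0 → a = b) _ _ (congrFun (e.trans wd_zero) p)
  · have : support₂ (wd m) ⊆ (support₂ w \ F) ∪ (support₂ w' \ F) := fun p hp => by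
      have a := @h p
      have b := @h' p
      simp only [← e, support₂, Finset.mem_filter, Finset.mem_univ, true_and, Pi.add_apply,
        Finset.mem_union, Finset.mem_sdiff] at hp a b ⊢
      have := (by decide : ∀ a b : ZMod 2, a + b ≠ 0 → (a ≠ 0 ∨ b ≠ 0) ∧ ¬ (a ≠ 0 ∧ b ≠ 0)) _ _ hp
      tauto
    have h1 := (Finset.card_le_card this).trans (Finset.card_union_le _ _)
    rw [Finset.card_sdiff_of_subset h, Finset.card_sdiff_of_subset h'] at h1
    omega

theorem m24_code {σ : Perm GolayPt} (h : σ ∈ M24) {w : GolayPt → ZMod 2} (hw : w ∈ golayCode) :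
    ∃ w' ∈ golayCode, support₂ w' = σ • support₂ w := by
  have : σ • support₂ w ∈ σ • supports (golayCode : Set (GolayPt → ZMod 2)) :=
    Set.smul_mem_smul_set ⟨w, hw, rfl⟩
  rw [show σ • supports (golayCode : Set (GolayPt → ZMod 2)) = _ from h] at this
  exact this

theorem octs_ok : ∀ o ∈ octs, o ∈ sp bm ∧ (support₂ (wd o)).card = 8 := by decide +kernel

theorem oct_map {σ : Perm GolayPt} (h : σ ∈ M24) {o o' : ℕ} (ho : o ∈ octs) (ho' : o' ∈ octs)
    {F : Finset GolayPt} (hF : 5 ≤ F.card)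
    (h1 : ∀ p ∈ F, o.testBit (idx p) = true ∧ o'.testBit (idx (σ p)) = true) {p : GolayPt}
    (hp : o.testBit (idx p) = true) : o'.testBit (idx (σ p)) = true := by
  obtain ⟨w, hw, e⟩ := m24_code h (sp_code _ (octs_ok o ho).1)
  have := oct_eq hw (sp_code _ (octs_ok o' ho').1) (by rw [e, Finset.card_smul_finset, (octs_ok o ho).2])
    (octs_ok o' ho').2 (F := σ • F)
    (e ▸ Finset.smul_finset_subset_smul_finset fun p hp => (mem_wd ..).2 (h1 p hp).1)
    (fun q hq => by
      obtain ⟨p, hp, rfl⟩ := Finset.mem_smul_finset.1 hq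
      exact (mem_wd ..).2 (h1 p hp).2) (by rwa [Finset.card_smul_finset])
  rw [← mem_wd, ← this, e]
  exact Finset.smul_mem_smul_finset ((mem_wd ..).2 hp)

/-- The eleven points inside the dodecad. -/
def emb (i : Fin 11) : GolayPt := some (![1, 2, 3, 4, 12, 13, 8, 9, 18, 6, 16] i)

/-- The inverse map. -/
def dec (p : GolayPt) : Fin 11 :=
  ([0, 0, 1, 2, 3, 0, 9, 0, 6, 7, 0, 0, 4, 5, 0, 0, 10, 0, 8] : List (Fin 11)).getD (idx p) 0

theorem dec_emb : ∀ i, dec (emb i) = i := by decide +kernel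

theorem emb_dec : ∀ p ∈ squareDodecad, p ≠ some 0 → emb (dec p) = p := by decide +kernel

theorem emb_mem : ∀ i, emb i ∈ squareDodecad ∧ emb i ≠ some 0 := by decide +kernel

theorem mem_D (σ : M11) (p : GolayPt) : σ.1 p ∈ squareDodecad ↔ p ∈ squareDodecad := by
  conv_lhs => rw [← (σ.2.1.2 : σ.1 • squareDodecad = squareDodecad)]
  exact Finset.smul_mem_smul_finset_iff σ.1

theorem fix0 (σ : M11) : σ.1 (some 0) = some 0 := σ.2.2

theorem emb_dec' (σ : M11) (i : Fin 11) : emb (dec (σ.1 (emb i))) = σ.1 (emb i) :=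
  emb_dec _ ((mem_D σ _).2 (emb_mem i).1) fun e =>
    (emb_mem i).2 (σ.1.injective (e.trans (fix0 σ).symm))

/-- The action on eleven points. -/
def res : M11 →* Perm (Fin 11) := MonoidHom.toHomPerm
  { toFun := fun σ i => dec (σ.1 (emb i))
    map_one' := funext dec_emb
    map_mul' := fun σ τ => funext fun i => by
      show dec (σ.1 (τ.1 (emb i))) = dec (σ.1 (emb (dec (τ.1 (emb i)))))
      rw [emb_dec'] }

theorem emb_res (σ : M11) (i : Fin 11) : emb (res σ i) = σ.1 (emb i) := emb_dec' σ i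

theorem ex_oct : ∀ m < 2048, TB.testBit m = true → ∃ o ∈ octs, o.testBit 0 = true ∧
    ∀ e : Fin 11, o.testBit (idx (emb e)) = m.testBit e.1 := by decide +kernel

theorem res_mem (σ : M11) : res σ ∈ AutS := mem_AutS fun a b c d e e' h h' => by
  obtain ⟨o, ho, o0, oe⟩ := ex_oct _ (msk_lt ..) h.1
  obtain ⟨o', ho', o0', oe'⟩ := ex_oct _ (msk_lt ..) h'.1
  have ei : ∀ {x y}, emb x = emb y ↔ x = y := fun {x y} =>
    ⟨fun e => by rw [← dec_emb x, e, dec_emb], congrArg _⟩
  have e0 : ∀ x, some 0 ≠ emb x := fun x => (emb_mem x).2.symm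
  obtain ⟨-, ⟨h1, h2, h3, h4, h5, h6⟩, -⟩ := h
  rw [← oe', emb_res]
  refine oct_map σ.2.1.1 ho ho' (F := {some 0, emb a, emb b, emb c, emb d}) ?_ ?_ ?_
  · rw [Finset.card_insert_of_notMem, Finset.card_insert_of_notMem, Finset.card_insert_of_notMem,
      Finset.card_pair] <;> simp [ei, e0, *]
  · simp only [Finset.mem_insert, Finset.mem_singleton, forall_eq_or_imp, forall_eq, fix0,
      ← emb_res, oe, oe', msk_bit, true_or, or_true, and_true]
    exact ⟨o0, o0'⟩
  · simp only [oe, msk_bit, or_true]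

theorem res_inj : Function.Injective res := (injective_iff_map_eq_one _).2 fun σ h => by
  have hD : ∀ p ∈ squareDodecad, σ.1 p = p := fun p hp => by
    by_cases e : p = some 0
    · rw [e, fix0]
    · rw [← emb_dec p hp e, ← emb_res, h]; rfl
  have ho : ∀ o ∈ octs, ∀ p, o.testBit (idx p) = true → o.testBit (idx (σ.1 p)) = true :=
    fun o ho p hp => oct_map σ.2.1.1 ho ho (F := squareDodecad.filter fun p => o.testBit (idx p))
      ((by decide +kernel : ∀ o ∈ octs,
        5 ≤ (squareDodecad.filter fun p => o.testBit (idx p)).card) o ho)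
      (fun p hp => by rw [hD p (Finset.mem_filter.1 hp).1]; simpa using (Finset.mem_filter.1 hp).2) hp
  refine Subtype.ext (Equiv.ext fun p => ?_)
  by_cases hp : p ∈ squareDodecad
  · exact hD p hp
  obtain ⟨o, m, a, o', m', a', e⟩ := (by decide +kernel : ∀ p ∉ squareDodecad, ∃ o ∈ octs,
    o.testBit (idx p) = true ∧ ∃ o' ∈ octs, o'.testBit (idx p) = true ∧ ∀ q,
      o.testBit (idx q) = true → o'.testBit (idx q) = true → q ∉ squareDodecad → q = p) p hp
  exact e _ (ho o m p a) (ho o' m' p a') (mt (mem_D σ p).1 hp)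

/-- The permutation given by a list. -/
def pm (l : List ℕ) (p : GolayPt) : GolayPt := uix (l.getD (idx p) 0)

/-- The action on words. -/
def act (l : List ℕ) (b : ℕ) : ℕ :=
  ((List.range 24).map fun j => if b.testBit (l.getD j 0) then 2 ^ j else 0).sum

theorem pres_pm (l : List ℕ) (h1 : ∀ p, pm l (pm l p) = p)
    (h : ∀ b ∈ bm, act l b ∈ sp bm ∧ ∀ p, wd b (pm l p) = wd (act l b) p) : Pres (pm l) := ⟨h1, fun w hw => by
  obtain ⟨m, hm, rfl⟩ := code_sp hw
  refine sp_ind (fun m => wd m ∘ pm l ∈ golayCode) (by rw [wd_zero]; exact zero_mem _)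
    (fun _ _ h h' => by rw [wd_xor]; exact add_mem h h') bm (fun b hb => ?_) m hm
  rw [show wd b ∘ pm l = _ from funext (h b hb).2]
  exact sp_code _ (h b hb).1⟩

theorem pr0 : Pres (pm [0, 3, 2, 1, 8, 5, 9, 19, 4, 6, 15, 11, 16, 13, 23, 10, 12, 17, 18, 7, 21, 20, 22, 14]) :=
  pres_pm _ (by decide +kernel) (by decide +kernel)

/-- A generator. -/
def s0 : M11 := ⟨pr0.inv.toPerm,
  ⟨pr0.m24, (pr0.smul _).trans (congrArg _ (funext (by decide +kernel)))⟩, rfl⟩

theorem pr1 : Pres (pm [0, 2, 1, 16, 9, 5, 13, 14, 8, 4, 21, 23, 12, 6, 7, 15, 3, 20, 18, 19, 17, 10, 22, 11]) :=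
  pres_pm _ (by decide +kernel) (by decide +kernel)

/-- A generator. -/
def s1 : M11 := ⟨pr1.inv.toPerm,
  ⟨pr1.m24, (pr1.smul _).trans (congrArg _ (funext (by decide +kernel)))⟩, rfl⟩

theorem pr2 : Pres (pm [0, 9, 2, 3, 13, 7, 6, 5, 18, 1, 10, 22, 16, 4, 14, 15, 12, 19, 8, 17, 23, 21, 11, 20]) :=
  pres_pm _ (by decide +kernel) (by decide +kernel)

/-- A generator. -/
def s2 : M11 := ⟨pr2.inv.toPerm,
  ⟨pr2.m24, (pr2.smul _).trans (congrArg _ (funext (by decide +kernel)))⟩, rfl⟩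

theorem res_x : res (s0 * s1 * s0 * s2 * s1 * s2 * s0 * s1 * s0 * s1 * s0 * s2) *
    res (s0 * s1 * s0 * s2 * s1 * s2 * s0 * s1 * s0 * s1 * s0 * s2) = qq :=
  Equiv.ext (by decide +kernel)

theorem res_range : res.range = AutS :=
  full (by rintro _ ⟨σ, rfl⟩; exact res_mem σ)
    ⟨s0 * s1 * s0 * s1 * s0 * s2 * s0 * s2 * s1 * s0 * s1 * s2 * s0, Equiv.ext (by decide +kernel)⟩
    ⟨s1 * s0 * s2 * s1 * s0 * s1 * s2 * s0 * s2 * s1 * s0 * s1 * s0, Equiv.ext (by decide +kernel)⟩
    ⟨s2 * s1 * s2 * s0 * s2 * s1 * s0 * s2 * s1 * s2 * s1 * s2, Equiv.ext (by decide +kernel)⟩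
    ⟨s0, rfl⟩ ⟨s0 * s1, rfl⟩ (by decide +kernel) (by decide +kernel) (res_mem _) res_x

theorem iso_of {P : Type*} [Group P] (ψ : P →* Perm (Fin 11)) (hk : ψ.ker = Subgroup.center P)
    (h : ψ.range = AutS) : IsoM11 (P ⧸ Subgroup.center P) :=
  ⟨(QuotientGroup.quotientMulEquivOfEq hk.symm).trans <| (QuotientGroup.quotientKerEquivRange ψ).trans <|
    (MulEquiv.subgroupCongr (h.trans res_range.symm)).trans (MonoidHom.ofInjective res_inj).symm⟩

end Cfsg.Agent.L5.M
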