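import Cfsg.Agent.L5.M3
import Cfsg.Agent.L5.M5

/-!
The case of `M₁₁` in characteristic three: the identification.
-/

set_option autoImplicit false

namespace Cfsg.Agent.L5.M
open Matrix Subgroup L4.R

variable {P k : Type*} [Group P] [Field k] [CharP k 3] {ρ : P →* M5 k} {U : Subgroup P} {I : k}

variable (k) in
/-- The points over `k`. -/
def pk (n : Fin 11) : Fin 5 → k := fun l => ZMod.castHom (dvd_refl 3) k (pt n l)

theorem ch_inj : Function.Injective (ZMod.castHom (dvd_refl 3) k) :=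
  haveI : Fact (Nat.Prime 3) := ⟨by norm_num⟩
  RingHom.injective _

theorem pk_ne (n : Fin 11) : pk k n ≠ 0 := fun e => by
  obtain ⟨l, hl⟩ := (by decide +kernel : ∀ n, ∃ l, pt n l ≠ 0) n
  exact hl (ch_inj (k := k) ((congrFun e l).trans (map_zero _).symm))

theorem pk_uniq {i j : Fin 11} {a b : k} (ha : a ≠ 0) (e : a • pk k i = b • pk k j) : i = j := by
  by_contra h
  obtain ⟨l, l', h⟩ := pt_ind i j h
  refine h (ch_inj (k := k) (mul_left_cancel₀ ha ?_))
  have e1 : a * pk k i l = b * pk k j l := congrFun e l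
  have e2 : a * pk k i l' = b * pk k j l' := congrFun e l'
  rw [map_mul, map_mul]
  show a * (pk k i l * pk k j l') = a * (pk k i l' * pk k j l)
  linear_combination pk k j l' * e1 - pk k j l * e2

theorem co_ne {g : P} {i j : Fin 11} {a : k} (e : ρ g *ᵥ pk k i = a • pk k j) : a ≠ 0 := by
  rintro rfl
  exact K.mv_ne (K.inv_l g) (pk_ne i) (e.trans (zero_smul _ _))

section
variable (H : ∀ g n, ∃ (m : Fin 11) (a : k), ρ g *ᵥ pk k n = a • pk k m)

/-- The action on the eleven lines. -/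
noncomputable def psi : P →* Equiv.Perm (Fin 11) := MonoidHom.toHomPerm
  { toFun := fun g n => (H g n).choose
    map_one' := funext fun n => by
      obtain ⟨a, e⟩ := (H 1 n).choose_spec
      exact pk_uniq (b := 1) (co_ne e) (by rw [← e]; simp; rfl)
    map_mul' := fun g g' => funext fun n => by
      obtain ⟨a, e⟩ := (H (g * g') n).choose_spec
      obtain ⟨b, e'⟩ := (H g' n).choose_spec
      obtain ⟨c, e''⟩ := (H g (H g' n).choose).choose_spec
      refine pk_uniq (b := b * c) (co_ne e) ?_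
      rw [← e, mul_vec, e', mulVec_smul, e'', smul_smul]; rfl }

theorem psi_spec (g : P) (n : Fin 11) : ∃ a : k, ρ g *ᵥ pk k n = a • pk k (psi H g n) :=
  (H g n).choose_spec

theorem psi_eq {g : P} {n m : Fin 11} {a : k} (e : ρ g *ᵥ pk k n = a • pk k m) : psi H g n = m := by
  obtain ⟨b, e'⟩ := psi_spec H g n
  exact pk_uniq (co_ne e') (e'.symm.trans e)

theorem psi_mem (g : P) : psi H g ∈ AutS := mem_AutS fun a b c d e e' h h' => by
  obtain ⟨r, -, r1, r2⟩ := ex_rel _ (msk_lt ..) h.1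
  obtain ⟨f, -, f1⟩ := ex_fn _ (msk_lt ..) h'.1
  choose x hx using psi_spec H g
  let φ := ZMod.castHom (dvd_refl 3) k
  have h1 : ∑ i : Fin 11, φ (r.getD i 0) • pk k i = 0 := funext fun l => by
    simpa only [map_sum, map_mul, map_zero, Finset.sum_apply, Pi.smul_apply, smul_eq_mul, pk,
      Pi.zero_apply] using congrArg φ (r2 l)
  have h2 : ∀ i, (fun l : Fin 5 => φ (f.getD l 0)) ⬝ᵥ pk k i = φ (∑ l : Fin 5, f.getD l 0 * pt i l) :=
    fun i => by simp only [map_sum, map_mul]; rfl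
  have h3 := congrArg (fun v => (fun l : Fin 5 => φ (f.getD l 0)) ⬝ᵥ ρ g *ᵥ v) h1
  simp only [mulVec_sum, mulVec_smul, hx, dotProduct_sum, dotProduct_smul, h2, mulVec_zero,
    dotProduct_zero, smul_eq_mul] at h3
  rw [Finset.sum_eq_single e _ (by simp), mul_eq_zero, mul_eq_zero, map_eq_zero_iff _ ch_inj,
    map_eq_zero_iff _ ch_inj] at h3
  · exact (f1 _).1 ((h3.resolve_left ((r1 e).2 (by simp [msk_bit]))).resolve_left (co_ne (hx e)))
  · intro i _ hi
    by_cases hr : r.getD i 0 = 0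
    · rw [hr, map_zero, zero_mul]
    · have := (msk_bit ..).1 ((r1 i).1 hr)
      rw [(f1 (psi H g i)).2 ((msk_bit ..).2 (by rcases this with h | h | h | h | h <;> simp [h] at hi ⊢)),
        map_zero, mul_zero, mul_zero]

theorem psi_move (h : Hy0 ρ) (n : Fin 11) : ∃ g, 2 ≤ psi H g n := by
  by_contra hc
  push Not at hc
  simpa using van h.irr (fun φ g => (ρ g *ᵥ φ) 4) (fun _ _ _ => by simp [mulVec_add])
    (fun _ _ _ => by simp [mulVec_smul]) (fun g φ i => ⟨i * g, by rw [mul_vec]⟩) (pk_ne n) (fun g => by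
      obtain ⟨a, e⟩ := psi_spec H g n
      simp [e, pk, (by decide : ∀ m : Fin 11, m < 2 → pt m 4 = 0) _ (hc g)]) ![0, 0, 0, 0, 1] 1

include H in
theorem tr_fix (h : Hy0 ρ) (g : P) : (ρ g).trace ^ 3 = (ρ g).trace := by
  haveI : Fact (Nat.Prime 3) := ⟨by norm_num⟩
  have h3 : (3 : k) = 0 := CharP.cast_eq_zero k 3
  have fp : ∀ n, frobenius k 3 ∘ pk k n = pk k n := fun n => funext fun l => by
    simp only [Function.comp, pk, frobenius_def, ← map_pow, ZMod.pow_card]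
  have key : ∀ g, ∃ e : k, (ρ g).map (frobenius k 3) = e • ρ g := fun g => by
    choose x hx using psi_spec H g
    obtain ⟨N, hN⟩ : ∃ N, N = ρ g⁻¹ * (ρ g).map (frobenius k 3) := ⟨_, rfl⟩
    have e : ∀ n, N *ᵥ pk k n = x n ^ 2 • pk k n := fun n => by
      have : (ρ g).map (frobenius k 3) *ᵥ pk k n = x n ^ 2 • ρ g *ᵥ pk k n := funext fun l => by
        rw [← fp, ← RingHom.map_mulVec, fp, hx, Pi.smul_apply, smul_eq_mul, map_mul,
          show frobenius k 3 (pk k _ l) = _ from congrFun (fp _) l, frobenius_def]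
        simp only [Pi.smul_apply, smul_eq_mul]; ring
      rw [hN, ← mulVec_mulVec, this, mulVec_smul, inv_vec]
    refine ⟨x 2 ^ 2, ?_⟩
    have : N = x 2 ^ 2 • 1 := by
      have p : ∀ n i, N i 0 * pk k n 0 + N i 1 * pk k n 1 + N i 2 * pk k n 2 + N i 3 * pk k n 3 +
        N i 4 * pk k n 4 = x n ^ 2 * pk k n i := fun n i => (mv5 ..).symm.trans (congrFun (e n) i)
      have p0 := p 0
      have p1 := p 1
      have p2 := p 2
      have p3 := p 3
      have p4 := p 4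
      have p5 := p 5
      have p8 := p 8
      simp only [Fin.forall_fin_succ, pk, pt, cons_val_zero, cons_val_one, cons_val, map_zero, map_one,
        map_ofNat, Fin.succ_zero_eq_one, Fin.reduceSucc, IsEmpty.forall_iff] at p0 p1 p2 p3 p4 p5 p8
      ext i j
      fin_cases i <;> fin_cases j <;> simp <;> grind
    rw [← one_mul (Matrix.map _ _), ← ρ.map_one, ← mul_inv_cancel g, map_mul, mul_assoc, ← hN, this]
    simp
  choose e he using key
  have nz : ∀ (g : P) (a b : k), a • ρ g = b • ρ g → a = b := fun g a b h => by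
    simpa [← map_mul] using congrFun₂ (congrArg (· * ρ g⁻¹) h) 0 0
  let χ : P →* k :=
    { toFun := e
      map_one' := nz 1 _ _ (by rw [← he]; simp)
      map_mul' := fun a b => nz (a * b) _ _ (by
        rw [← he, map_mul, Matrix.map_mul, he, he, smul_mul_smul_comm]) }
  have : e g = 1 := congrArg Units.val
    (Abelianization.commutator_subset_ker χ.toHomUnits (h.perf ▸ mem_top g) :)
  rw [← frobenius_def, AddMonoidHom.map_trace (frobenius k 3), he, this, one_smul]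

theorem fin [IsAlgClosed k] (h : Hy0 ρ) (h1 : t1 ∈ (psi H).range) (h2 : t2 ∈ (psi H).range)
    (h3 : rh ∈ (psi H).range) : Spor.IsoM11 (P ⧸ center P) := by
  obtain ⟨g, e⟩ := psi_move H h 0
  obtain ⟨g', e'⟩ := psi_move H h 1
  refine iso_of (psi H) (le_antisymm ((h.simp _ inferInstance).resolve_right fun hk => ?_) fun z hz => ?_)
    (full (by rintro _ ⟨g, rfl⟩; exact psi_mem H g) h1 h2 h3 ⟨g, rfl⟩ ⟨g', rfl⟩ e e' (res_mem _) res_x)
  · rw [(hk ▸ mem_top g : g ∈ (psi H).ker)] at e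
    exact absurd e (by decide)
  · obtain ⟨a, e⟩ := (K.center_iff h).1 hz
    exact Equiv.ext fun n => psi_eq H (a := a) (by simp [e, smul_mulVec])

end

/-- The change of basis. -/
def Bm (I : k) : M5 k := !![1, I, 0, 0, 0; 1, -I, 0, 0, 0; 0, 0, 1, I, 0; 0, 0, 1, -I, 0; 0, 0, 0, 0, 1]

/-- Its inverse. -/
def Bm' (I : k) : M5 k :=
  !![-1, -1, 0, 0, 0; I, -I, 0, 0, 0; 0, 0, -1, -1, 0; 0, 0, I, -I, 0; 0, 0, 0, 0, 1]

theorem Bm_inv (h : I ^ 2 = -1) : Bm I * Bm' I = 1 := by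
  have h3 : (3 : k) = 0 := CharP.cast_eq_zero k 3
  ext i j
  fin_cases i <;> fin_cases j <;> simp [Bm, Bm', mul_apply, Fin.sum_univ_five] <;> grind

theorem Bm_pk (h : I ^ 2 = -1) (n : Fin 11) : Bm I *ᵥ pk k n = qt I n := by
  have h3 : (3 : k) = 0 := CharP.cast_eq_zero k 3
  ext i
  fin_cases n <;> fin_cases i <;> simp [Bm, pk, pt, qt, sv, mv5, map_ofNat] <;> grind

theorem N3.m11 [Finite P] [IsAlgClosed k] (h : Hy0 ρ) (c : N3 ρ U I) :
    Spor.IsoM11 (P ⧸ center P) ∧ ∀ g, (ρ g).trace ^ 3 = (ρ g).trace := by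
  have h3 : (3 : k) = 0 := CharP.cast_eq_zero k 3
  have sI := c.sI
  have hB := Bm_inv c.sI
  have e : ∀ {g n m} {a : k}, ρ g *ᵥ qt I n = a • qt I m → cj hB ρ g *ᵥ pk k n = a • pk k m :=
    fun {g n m a} e => by
      rw [cj_vec, Bm_pk c.sI, e, mulVec_smul, ← Bm_pk c.sI, mulVec_mulVec, mul_eq_one_comm.1 hB,
        one_mulVec]
  have H : ∀ g n, ∃ (m : Fin 11) (a : k), cj hB ρ g *ᵥ pk k n = a • pk k m := fun g n =>
    (c.lines h g n).imp fun _ h => h.imp fun _ => e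
  have r : ∀ (g : P) (π : Equiv.Perm (Fin 11)), (∀ n, ∃ a : k, ρ g *ᵥ qt I n = a • qt I (π n)) →
      π ∈ (psi H).range := fun g π hg =>
    ⟨g, Equiv.ext fun n => (hg n).elim fun _ h => psi_eq H (e h)⟩
  obtain ⟨u1, m1, a1⟩ := c.u1
  obtain ⟨u2, m2, a2⟩ := c.u2
  obtain ⟨g, l, eg, -⟩ := c.hh
  have s : ∀ {u}, u ∈ U → ∀ {s t : k}, s + ρ u 2 4 = t → ∃ a : k, ρ u *ᵥ sv s = a • sv t :=
    fun hu _ _ e => ⟨1, by rw [c.sv_u hu, e, one_smul]⟩
  have s' : ∀ {u}, u ∈ U → ∀ {v}, Soc v → ∃ a : k, ρ u *ᵥ v = a • v :=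
    fun hu _ e => ⟨1, by rw [c.fix hu e, one_smul]⟩
  have t : ∀ {s t : k}, I * s = t → ∃ a : k, ρ g *ᵥ sv s = a • sv t := fun e => ⟨l, by
    simp only [eg, dg_vec, sv, cons_val_zero, cons_val_one, cons_val, smul_cons, smul_empty, smul_eq_mul]
    apply v5 <;> grind⟩
  have t' : ∀ x y : k, ∃ a : k, ρ g *ᵥ ![x, y, 0, 0, 0] = a • ![x, y, 0, 0, 0] := fun x y =>
    ⟨l * I ^ 2, by simp [eg, dg_vec]⟩
  refine ⟨fin H (hy_cj h hB) (r u1 _ fun n => ?_) (r u2 _ fun n => ?_) (r g _ fun n => ?_),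
    fun g => cj_trace hB g ▸ tr_fix H (hy_cj h hB) g⟩
  · fin_cases n
    · exact s' m1 ⟨rfl, rfl, rfl⟩
    · exact s' m1 ⟨rfl, rfl, rfl⟩
    all_goals exact s m1 (by grind)
  · fin_cases n
    · exact s' m2 ⟨rfl, rfl, rfl⟩
    · exact s' m2 ⟨rfl, rfl, rfl⟩
    all_goals exact s m2 (by grind)
  · fin_cases n
    · exact t' _ _
    · exact t' _ _
    all_goals exact t (by grind)

/-- The identification of `M₁₁`. -/
theorem m11 [Finite P] [IsAlgClosed k] (h : Hy0 ρ) (c : M3 ρ U) :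
    Spor.IsoM11 (P ⧸ center P) ∧ ∀ g, (ρ g).trace ^ 3 = (ρ g).trace := by
  obtain ⟨_, _, h1, c1⟩ := c.n1
  obtain ⟨_, _, h2, c2⟩ := c1.n2
  obtain ⟨_, _, h3, c3, e⟩ := c2.scale
  have h' := hy_cj (hy_cj (hy_cj h h1) h2) h3
  obtain ⟨I, c4⟩ := c3.n3 h' e
  simpa only [cj_trace] using c4.m11 h'

end Cfsg.Agent.L5.M
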