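import Cfsg.Agent.L5.K0
import Cfsg.Agent.L4.R4

/-!
The case of `M₁₁` in characteristic three: the normal form of a Sylow normaliser.
-/

set_option autoImplicit false

namespace Cfsg.Agent.L5.M
open Matrix Subgroup L4.R

variable {P k : Type*} [Group P] [Field k] {ρ : P →* M5 k} {U : Subgroup P}

/-- The unipotent elements. -/
def uu (a b x y : k) : M5 k :=
  !![1, 0, a, 0, x; 0, 1, 0, b, y; 0, 0, 1, 0, a; 0, 0, 0, 1, b; 0, 0, 0, 0, 1]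

/-- The configuration leading to `M₁₁`. -/
structure M3 (ρ : P →* M5 k) (U : Subgroup P) : Prop where
  card : Nat.card U = 9
  syl : ¬ 3 ∣ U.index
  sh : ∀ u ∈ U, ρ u = uu (ρ u 2 4) (ρ u 3 4) (ρ u 0 4) (ρ u 1 4)
  ne : ∀ u ∈ U, u ≠ 1 → ρ u 2 4 ≠ 0 ∧ ρ u 3 4 ≠ 0
  ind : ∃ u ∈ U, ∃ v ∈ U, ρ u 2 4 * ρ v 3 4 ≠ ρ v 2 4 * ρ u 3 4

/-- The conjugate representation. -/
def cj {B B' : M5 k} (h : B * B' = 1) (ρ : P →* M5 k) : P →* M5 k where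
  toFun g := B' * ρ g * B
  map_one' := by rw [map_one, mul_one, mul_eq_one_comm.1 h]
  map_mul' g g' := by
    simp only [map_mul, mul_assoc]; rw [← mul_assoc B, h, one_mul]

theorem cj_of {B B' C : M5 k} (h : B * B' = 1) {g : P} (e : ρ g * B = B * C) : cj h ρ g = C := by
  show B' * ρ g * B = C
  rw [mul_assoc, e, ← mul_assoc, mul_eq_one_comm.1 h, one_mul]

theorem cj_trace {B B' : M5 k} (h : B * B' = 1) (g : P) : (cj h ρ g).trace = (ρ g).trace := by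
  show (B' * ρ g * B).trace = _
  rw [trace_mul_comm, ← mul_assoc, h, one_mul]

theorem cj_vec {B B' : M5 k} (h : B * B' = 1) (g : P) (v : Fin 5 → k) :
    cj h ρ g *ᵥ v = B' *ᵥ (ρ g *ᵥ (B *ᵥ v)) := by
  rw [mulVec_mulVec, mulVec_mulVec]; rfl

theorem hy_cj (h : Hy0 ρ) {B B' : M5 k} (hB : B * B' = 1) : Hy0 (cj hB ρ) where
  inj g g' e := h.inj (by
    have : B * (B' * ρ g * B) * B' = B * (B' * ρ g' * B) * B' := congrArg (B * · * B') e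
    simpa only [mul_assoc, hB, mul_one, ← mul_assoc B B', one_mul] using this)
  det g := by
    show (B' * ρ g * B).det = 1
    rw [det_mul, det_mul, h.det, mul_one, ← det_mul, mul_eq_one_comm.1 hB, det_one]
  perf := h.perf
  simp := h.simp
  irr X hX := irr_cj (σ := fun g x => ρ g *ᵥ x) B.mulVecLin B'.mulVecLin
    (fun x => by simp [hB]) (fun x => by simp [mul_eq_one_comm.1 hB]) h.irr X
    fun g x hx => by simpa only [cj_vec, mulVecLin_apply] using hX g x hx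

theorem mv5 (G : M5 k) (v : Fin 5 → k) (i : Fin 5) :
    (G *ᵥ v) i = G i 0 * v 0 + G i 1 * v 1 + G i 2 * v 2 + G i 3 * v 3 + G i 4 * v 4 := by
  simp [mulVec, dotProduct, Fin.sum_univ_five]

omit [Field k] in
theorem v5 {a b c d e a' b' c' d' e' : k} (h0 : a = a') (h1 : b = b') (h2 : c = c') (h3 : d = d')
    (h4 : e = e') : ![a, b, c, d, e] = ![a', b', c', d', e'] := by rw [h0, h1, h2, h3, h4]

omit [Field k] in
theorem eta5 (v : Fin 5 → k) : v = ![v 0, v 1, v 2, v 3, v 4] := by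
  ext i; fin_cases i <;> rfl

omit [Field k] in
theorem eta55 (G : M5 k) : G = !![G 0 0, G 0 1, G 0 2, G 0 3, G 0 4; G 1 0, G 1 1, G 1 2, G 1 3, G 1 4;
    G 2 0, G 2 1, G 2 2, G 2 3, G 2 4; G 3 0, G 3 1, G 3 2, G 3 3, G 3 4;
    G 4 0, G 4 1, G 4 2, G 4 3, G 4 4] := by
  ext i j; fin_cases i <;> fin_cases j <;> rfl

theorem uu_vec (a b x y : k) (v : Fin 5 → k) : uu a b x y *ᵥ v =
    ![v 0 + a * v 2 + x * v 4, v 1 + b * v 3 + y * v 4, v 2 + a * v 4, v 3 + b * v 4, v 4] := by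
  ext i; fin_cases i <;> simp [mv5, uu]

theorem uu_mul (a b x y a' b' x' y' : k) : uu a b x y * uu a' b' x' y' =
    uu (a + a') (b + b') (x + x' + a * a') (y + y' + b * b') := K.mat_ext fun v => by
  rw [← mulVec_mulVec, uu_vec, uu_vec, uu_vec]
  apply v5 <;> simp <;> ring

theorem uu_zero : (uu 0 0 0 0 : M5 k) = 1 := K.mat_ext fun v => by
  rw [uu_vec, one_mulVec]; simpa using (eta5 v).symm

theorem mul_vec (g g' : P) (v : Fin 5 → k) : ρ (g * g') *ᵥ v = ρ g *ᵥ (ρ g' *ᵥ v) := by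
  rw [map_mul, mulVec_mulVec]

theorem inv_vec (g : P) (v : Fin 5 → k) : ρ g⁻¹ *ᵥ (ρ g *ᵥ v) = v := by
  rw [← mul_vec, inv_mul_cancel, map_one, one_mulVec]

theorem vec_inv (g : P) (v : Fin 5 → k) : ρ g *ᵥ (ρ g⁻¹ *ᵥ v) = v := by
  rw [← mul_vec, mul_inv_cancel, map_one, one_mulVec]

/-- The socle. -/
def Soc (v : Fin 5 → k) : Prop := v 2 = 0 ∧ v 3 = 0 ∧ v 4 = 0

/-- The flag is preserved. -/
structure Fl (G : M5 k) : Prop where
  s : ∀ v, Soc v → Soc (G *ᵥ v)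
  w : ∀ v, v 4 = 0 → (G *ᵥ v) 4 = 0

namespace M3
variable (c : M3 ρ U)
include c

theorem vec {u : P} (hu : u ∈ U) (v : Fin 5 → k) : ρ u *ᵥ v =
    ![v 0 + ρ u 2 4 * v 2 + ρ u 0 4 * v 4, v 1 + ρ u 3 4 * v 3 + ρ u 1 4 * v 4,
      v 2 + ρ u 2 4 * v 4, v 3 + ρ u 3 4 * v 4, v 4] := by
  rw [← uu_vec, ← c.sh u hu]

theorem add {u v : P} (hu : u ∈ U) (hv : v ∈ U) :
    ρ (u * v) 2 4 = ρ u 2 4 + ρ v 2 4 ∧ ρ (u * v) 3 4 = ρ u 3 4 + ρ v 3 4 ∧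
    ρ (u * v) 0 4 = ρ u 0 4 + ρ v 0 4 + ρ u 2 4 * ρ v 2 4 ∧
    ρ (u * v) 1 4 = ρ u 1 4 + ρ v 1 4 + ρ u 3 4 * ρ v 3 4 := by
  have := uu_mul (ρ u 2 4) (ρ u 3 4) (ρ u 0 4) (ρ u 1 4) (ρ v 2 4) (ρ v 3 4) (ρ v 0 4) (ρ v 1 4)
  rw [← c.sh u hu, ← c.sh v hv, ← map_mul] at this
  rw [this]
  exact ⟨rfl, rfl, rfl, rfl⟩

theorem pw {u : P} (hu : u ∈ U) (n : ℕ) :
    ρ (u ^ n) 2 4 = n * ρ u 2 4 ∧ ρ (u ^ n) 3 4 = n * ρ u 3 4 := by
  induction n with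
  | zero => simp
  | succ n ih =>
    obtain ⟨h1, h2, -⟩ := c.add (pow_mem hu n) hu
    rw [pow_succ, h1, h2, ih.1, ih.2]
    constructor <;> push_cast <;> ring

theorem neg {u : P} (hu : u ∈ U) : ρ u⁻¹ 2 4 = -ρ u 2 4 ∧ ρ u⁻¹ 3 4 = -ρ u 3 4 := by
  obtain ⟨h1, h2, -⟩ := c.add hu (inv_mem hu)
  simp only [mul_inv_cancel, map_one, ne_eq, Fin.reduceEq, not_false_eq_true, one_apply_ne] at h1 h2
  exact ⟨by linear_combination -h1, by linear_combination -h2⟩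

theorem cube [CharP k 3] {u : P} (hu : u ∈ U) : u ^ 3 = 1 := by
  by_contra e
  exact (c.ne _ (pow_mem hu 3) e).1 (by rw [(c.pw hu 3).1, CharP.cast_eq_zero, zero_mul])

theorem ex_ne : ∃ u ∈ U, u ≠ 1 := by
  obtain ⟨u, hu, v, -, e⟩ := c.ind
  exact ⟨u, hu, by rintro rfl; simp at e⟩

omit c in
theorem _root_.Cfsg.Agent.L5.M.gen [Finite P] (c : Nat.card U = 9) (S : P → Prop) (h1 : S 1)
    (hm : ∀ a ∈ U, ∀ b ∈ U, S a → S b → S (a * b)) {u v : P} (hu : u ∈ U) (hv : v ∈ U) (su : S u)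
    (sv : S v) (u1 : u ≠ 1) (h : ∀ n : ℕ, v ≠ u ^ n) : ∀ w ∈ U, S w := by
  let K := fsub (fun w => w ∈ U ∧ S w) ⟨one_mem _, h1⟩
    fun a b ha hb => ⟨mul_mem ha.1 hb.1, hm a ha.1 b hb.1 ha.2 hb.2⟩
  have hK : K ≤ U := fun w hw => hw.1
  have hz : zpowers u ≤ K := zpowers_le.2 ⟨hu, su⟩
  have d1 := card_dvd_of_le hz
  have d2 := c ▸ card_dvd_of_le hK
  have d3 : Nat.card (zpowers u) ≠ 1 := by simpa using u1
  have d4 : Nat.card (zpowers u) ≠ Nat.card K := fun e => by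
    have : v ∈ zpowers u := eq_of_le_of_card_ge hz e.ge ▸ (⟨hv, sv⟩ : v ∈ K)
    obtain ⟨n, e⟩ := (mem_powers_iff_mem_zpowers.2 this : v ∈ Submonoid.powers u)
    exact h n e.symm
  have : Nat.card U ≤ Nat.card K := by
    have d5 := Nat.le_of_dvd (by norm_num) d2
    have d6 := Nat.le_of_dvd (Nat.pos_of_dvd_of_pos d2 (by norm_num)) d1
    rw [c]
    generalize Nat.card K = x at *
    generalize Nat.card (zpowers u) = y at *
    interval_cases x <;> interval_cases y <;> simp_all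
  intro w hw
  exact (eq_of_le_of_card_ge hK this ▸ hw : w ∈ K).2

theorem lin [Finite P] {f : P → k} (hf : ∀ u ∈ U, ∀ v ∈ U, f (u * v) = f u + f v) :
    ∃ s t : k, ∀ u ∈ U, f u = s * ρ u 2 4 + t * ρ u 3 4 := by
  obtain ⟨u, hu, v, hv, e⟩ := c.ind
  have e' := sub_ne_zero.2 e
  refine ⟨(f u * ρ v 3 4 - f v * ρ u 3 4) / (ρ u 2 4 * ρ v 3 4 - ρ v 2 4 * ρ u 3 4),
    (ρ u 2 4 * f v - ρ v 2 4 * f u) / (ρ u 2 4 * ρ v 3 4 - ρ v 2 4 * ρ u 3 4),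
    gen c.card _ ?_ (fun a ha b hb h h' => ?_) hu hv
      (by rw [div_mul_eq_mul_div, div_mul_eq_mul_div, ← add_div, eq_div_iff e']; ring)
      (by rw [div_mul_eq_mul_div, div_mul_eq_mul_div, ← add_div, eq_div_iff e']; ring)
      (by rintro rfl; simp at e) fun n hn => e ?_⟩
  · simpa using hf 1 (one_mem _) 1 (one_mem _)
  · rw [hf a ha b hb, h, h', (c.add ha hb).1, (c.add ha hb).2.1]; ring
  · rw [hn, (c.pw hu n).1, (c.pw hu n).2]; ring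

theorem fix {u : P} (hu : u ∈ U) {v : Fin 5 → k} (h : Soc v) : ρ u *ᵥ v = v := by
  ext i; fin_cases i <;> simp [c.vec hu, h.1, h.2.1, h.2.2]

theorem w_soc {u : P} (hu : u ∈ U) {v : Fin 5 → k} (h : v 4 = 0) : Soc (ρ u *ᵥ v - v) := by
  simp [Soc, c.vec hu, h]

theorem top {u : P} (hu : u ∈ U) (v : Fin 5 → k) : (ρ u *ᵥ v - v) 4 = 0 := by
  simp [c.vec hu]

theorem fl {g u : P} (hu : u ∈ U) (u1 : u ≠ 1) (h : g * u * g⁻¹ ∈ U) : Fl (ρ g) := by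
  obtain ⟨ha, hb⟩ := c.ne _ h (by simpa using u1)
  have e : ∀ v, ρ (g * u * g⁻¹) *ᵥ (ρ g *ᵥ v) = ρ g *ᵥ (ρ u *ᵥ v) := fun v => by
    rw [mul_vec, mul_vec, inv_vec]
  generalize g * u * g⁻¹ = w at *
  have hs : ∀ v, Soc v → Soc (ρ g *ᵥ v) := fun v hv => by
    have := e v
    rw [c.fix hu hv, c.vec h] at this
    have h4 : (ρ g *ᵥ v) 4 = 0 := by simpa [ha] using congrFun this 2
    exact ⟨by simpa [ha, h4] using congrFun this 0, by simpa [hb, h4] using congrFun this 1, h4⟩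
  refine ⟨hs, fun v hv => ?_⟩
  have := (hs _ (c.w_soc hu hv)).1
  rw [mulVec_sub, ← e, c.vec h] at this
  simpa [ha] using this

variable [Finite P] [CharP k 3]

theorem conj (hi : Function.Injective ρ) {g : P} (h : Fl (ρ g)) (h' : Fl (ρ g⁻¹)) {w : P}
    (hw : w ∈ U) : g * w * g⁻¹ ∈ U := by
  haveI : Fact (Nat.Prime 3) := ⟨by norm_num⟩
  have sp : ∀ (x y : P) v, ρ (x * y) *ᵥ v - v = (ρ x *ᵥ (ρ y *ᵥ v) - ρ y *ᵥ v) + (ρ y *ᵥ v - v) :=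
    fun x y v => by rw [mul_vec]; abel
  let R := fsub (fun x => ∀ v, (Soc v → ρ x *ᵥ v = v) ∧ (v 4 = 0 → Soc (ρ x *ᵥ v - v)) ∧
      (ρ x *ᵥ v - v) 4 = 0) (by simp [Soc]) fun x y hx hy v =>
    ⟨fun hv => by rw [mul_vec, (hy v).1 hv, (hx v).1 hv], fun hv => by
      obtain ⟨a1, a2, a3⟩ := (hy v).2.1 hv
      obtain ⟨b1, b2, b3⟩ := (hx (ρ y *ᵥ v)).2.1 (by simpa [hv] using (hy v).2.2)
      rw [sp]
      exact ⟨by rw [Pi.add_apply, a1, b1, add_zero], by rw [Pi.add_apply, a2, b2, add_zero],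
        by rw [Pi.add_apply, a3, b3, add_zero]⟩,
    by rw [sp, Pi.add_apply, (hx _).2.2, (hy _).2.2, add_zero]⟩
  have hU : U ≤ R := fun u hu v => ⟨c.fix hu, c.w_soc hu, c.top hu v⟩
  have hp : IsPGroup 3 R := fun x => ⟨1, Subtype.ext (hi (by
    haveI : CharP (M5 k) 3 := Matrix.charP 3
    show ρ (x.1 ^ 3 ^ 1) = ρ 1
    rw [pow_one, map_pow, map_one, ← sub_eq_zero, ← one_pow 3,
      ← sub_pow_char_of_commute 3 (Commute.one_right _)]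
    refine K.mat_ext fun v => ?_
    rw [pow_three, ← mulVec_mulVec, ← mulVec_mulVec, zero_mulVec]
    simp only [sub_mulVec, one_mulVec]
    exact sub_eq_zero.2 ((x.2 _).1 ((x.2 _).2.1 (x.2 _).2.2))))⟩
  have : R ≤ U := by
    obtain ⟨m, e⟩ := hp.exists_card_eq
    obtain ⟨j, -, e'⟩ := (Nat.dvd_prime_pow Nat.prime_three).1 (e ▸ (U.subgroupOf R).index_dvd_card)
    rcases j with _ | j
    · exact relIndex_eq_one.1 e'
    · exact absurd ((e' ▸ dvd_pow_self 3 j.succ_ne_zero :).trans (relIndex_dvd_index_of_le hU)) c.syl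
  have e : ∀ v, ρ (g * w * g⁻¹) *ᵥ v - v = ρ g *ᵥ (ρ w *ᵥ (ρ g⁻¹ *ᵥ v) - ρ g⁻¹ *ᵥ v) := fun v => by
    rw [mul_vec, mul_vec, mulVec_sub, vec_inv]
  exact this fun v => ⟨fun hv => by rw [← sub_eq_zero, e, c.fix hw (h'.s v hv), sub_self, mulVec_zero],
    fun hv => e v ▸ h.s _ (c.w_soc hw (h'.w v hv)), e v ▸ h.w _ (c.top hw _)⟩

theorem ti (hi : Function.Injective ρ) (g u : P) (hu : u ∈ U) (u1 : u ≠ 1) (h : g * u * g⁻¹ ∈ U) :
    g ∈ normalizer (U : Set P) := by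
  have f := c.fl hu u1 h
  have f' := c.fl (g := g⁻¹) h (by simpa using u1) (by simpa [mul_assoc] using hu)
  refine mem_normalizer_iff.2 fun w => ⟨c.conj hi f f', fun hw => ?_⟩
  simpa [mul_assoc] using c.conj hi f' (by simpa using f) hw

theorem tt (hi : Function.Injective ρ) {f : P → k}
    (hf : ∀ g, ∀ n ∈ normalizer (U : Set P), f (g * n) = f g)
    (hz : ∀ g, ∑ᶠ u : U, f (u * g) = 0) : tr (normalizer (U : Set P)) f = f 1 :=
  haveI : Fact (Nat.Prime 3) := ⟨by norm_num⟩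
  tr_eq (c.ti hi) (fun g u hu h => mem_of_norm c.syl (by rw [conj_pow, c.cube hu]; simp) h) hf hz

theorem tt' (hi : Function.Injective ρ) {f : P → k}
    (hf : ∀ g, ∀ n ∈ normalizer (U : Set P), f (g * n) = f g) (h : Dg U 4 f) :
    tr (normalizer (U : Set P)) f = f 1 :=
  haveI : Fact (Nat.Prime 3) := ⟨by norm_num⟩
  c.tt hi hf (Dg.sum_zero 3 (fun _ => c.cube) (r := 2) c.card le_rfl h)

end M3

/-- The normalised unipotent elements. -/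
def ww (a b : k) : M5 k := uu a b (-a ^ 2) (-b ^ 2)

/-- The diagonal elements. -/
def dg (l a b : k) : M5 k :=
  !![l * a ^ 2, 0, 0, 0, 0; 0, l * b ^ 2, 0, 0, 0; 0, 0, l * a, 0, 0; 0, 0, 0, l * b, 0; 0, 0, 0, 0, l]

/-- The interchanging elements. -/
def sw (l a b : k) : M5 k :=
  !![0, l * a ^ 2, 0, 0, 0; l * b ^ 2, 0, 0, 0, 0; 0, 0, 0, l * a, 0; 0, 0, l * b, 0, 0; 0, 0, 0, 0, l]

theorem dg_vec (l a b : k) (v : Fin 5 → k) : dg l a b *ᵥ v =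
    ![l * a ^ 2 * v 0, l * b ^ 2 * v 1, l * a * v 2, l * b * v 3, l * v 4] := by
  ext i; fin_cases i <;> simp [mv5, dg]

theorem sw_vec (l a b : k) (v : Fin 5 → k) : sw l a b *ᵥ v =
    ![l * a ^ 2 * v 1, l * b ^ 2 * v 0, l * a * v 3, l * b * v 2, l * v 4] := by
  ext i; fin_cases i <;> simp [mv5, sw]

/-- The first normalisation. -/
structure N1 (ρ : P →* M5 k) (U : Subgroup P) : Prop extends M3 ρ U where
  sq : ∀ u ∈ U, ρ u 0 4 = -ρ u 2 4 ^ 2 ∧ ρ u 1 4 = -ρ u 3 4 ^ 2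

/-- The second normalisation. -/
structure N2 (ρ : P →* M5 k) (U : Subgroup P) : Prop extends N1 ρ U where
  nn : ∀ n ∈ normalizer (U : Set P), ∃ u ∈ U, ∃ h ∈ normalizer (U : Set P), n = u * h ∧
    ∃ l a b : k, ρ h = dg l a b ∨ ρ h = sw l a b

/-- The correcting matrices. -/
def cc (a b c d : k) : M5 k :=
  !![1, 0, a, b, 0; 0, 1, c, d, 0; 0, 0, 1, 0, 0; 0, 0, 0, 1, 0; 0, 0, 0, 0, 1]

theorem cc_vec (a b c d : k) (v : Fin 5 → k) : cc a b c d *ᵥ v =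
    ![v 0 + a * v 2 + b * v 3, v 1 + c * v 2 + d * v 3, v 2, v 3, v 4] := by
  ext i; fin_cases i <;> simp [mv5, cc]

theorem M3.of_sh (c : M3 ρ U) {ρ' : P →* M5 k} (s t : k) (hs : s ≠ 0) (ht : t ≠ 0) (x y : P → k)
    (h : ∀ u ∈ U, ρ' u = uu (s * ρ u 2 4) (t * ρ u 3 4) (x u) (y u)) : M3 ρ' U where
  card := c.card
  syl := c.syl
  sh u hu := by rw [h u hu]; rfl
  ne u hu u1 := by
    rw [h u hu]; exact ⟨mul_ne_zero hs (c.ne u hu u1).1, mul_ne_zero ht (c.ne u hu u1).2⟩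
  ind := by
    obtain ⟨u, hu, v, hv, e⟩ := c.ind
    refine ⟨u, hu, v, hv, fun e' => e (mul_left_cancel₀ (mul_ne_zero hs ht) ?_)⟩
    rw [h u hu, h v hv] at e'
    have : s * ρ u 2 4 * (t * ρ v 3 4) = s * ρ v 2 4 * (t * ρ u 3 4) := e'
    linear_combination this

theorem M3.n1 [Finite P] [CharP k 3] (c : M3 ρ U) :
    ∃ (B B' : M5 k) (h : B * B' = 1), N1 (cj h ρ) U := by
  have h3 : (3 : k) = 0 := CharP.cast_eq_zero k 3
  obtain ⟨s, t, e⟩ := c.lin (f := fun u => ρ u 0 4 + ρ u 2 4 ^ 2) fun u hu v hv => by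
    simp only [c.add hu hv]; linear_combination ρ u 2 4 * ρ v 2 4 * h3
  obtain ⟨s', t', e'⟩ := c.lin (f := fun u => ρ u 1 4 + ρ u 3 4 ^ 2) fun u hu v hv => by
    simp only [c.add hu hv]; linear_combination ρ u 3 4 * ρ v 3 4 * h3
  have hB : cc s t s' t' * cc (-s) (-t) (-s') (-t') = 1 := K.mat_ext fun v => by
    rw [← mulVec_mulVec, cc_vec, cc_vec, one_mulVec, eta5 v]
    apply v5 <;> simp <;> ring
  have : ∀ u ∈ U, cj hB ρ u = uu (1 * ρ u 2 4) (1 * ρ u 3 4) (-ρ u 2 4 ^ 2) (-ρ u 3 4 ^ 2) :=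
    fun u hu => K.mat_ext fun v => by
      rw [cj_vec, c.vec hu, cc_vec, cc_vec, uu_vec]
      apply v5 <;> simp
      · linear_combination v 4 * e u hu
      · linear_combination v 4 * e' u hu
  exact ⟨_, _, hB, c.of_sh 1 1 one_ne_zero one_ne_zero _ _ this, fun u hu => by
    rw [this u hu]; simp [uu]⟩

theorem quad0 {A B C a b a' b' : k} (h : a * b' ≠ a' * b) (h1 : A * a ^ 2 + B * a * b + C * b ^ 2 = 0)
    (h2 : A * a' ^ 2 + B * a' * b' + C * b' ^ 2 = 0)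
    (h3 : A * (a + a') ^ 2 + B * (a + a') * (b + b') + C * (b + b') ^ 2 = 0) :
    A = 0 ∧ B = 0 ∧ C = 0 := by
  have := pow_ne_zero 2 (sub_ne_zero.2 h)
  exact ⟨mul_right_cancel₀ this (by linear_combination b' ^ 2 * h1 + b ^ 2 * h2 - b * b' * (h3 - h1 - h2)),
    mul_right_cancel₀ this (by linear_combination -2 * a' * b' * h1 - 2 * a * b * h2 +
      (a * b' + a' * b) * (h3 - h1 - h2)),
    mul_right_cancel₀ this (by linear_combination a' ^ 2 * h1 + a ^ 2 * h2 - a * a' * (h3 - h1 - h2))⟩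

theorem N1.shape [CharP k 3] (c : N1 ρ U) {h : P} (hh : h ∈ normalizer (U : Set P)) {l : k}
    (e : ρ h *ᵥ ![0, 0, 0, 0, 1] = l • ![0, 0, 0, 0, 1]) :
    ∃ a b : k, ρ h = dg l a b ∨ ρ h = sw l a b := by
  have h3 : (3 : k) = 0 := CharP.cast_eq_zero k 3
  have hn := mem_normalizer_iff.1 hh
  obtain ⟨u0, hu0, u1⟩ := c.ex_ne
  have f := c.fl hu0 u1 ((hn _).1 hu0)
  have nz : ∀ v, v ≠ 0 → ρ h *ᵥ v ≠ 0 := fun v => K.mv_ne (K.inv_l h)
  have hl : l ≠ 0 := by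
    rintro rfl
    exact nz _ (fun e => by simpa using congrFun e 4) (e.trans (zero_smul _ _))
  obtain ⟨f20, f30, f40⟩ := f.s ![1, 0, 0, 0, 0] ⟨rfl, rfl, rfl⟩
  obtain ⟨f21, f31, f41⟩ := f.s ![0, 1, 0, 0, 0] ⟨rfl, rfl, rfl⟩
  have f42 := f.w ![0, 0, 1, 0, 0] rfl
  have f43 := f.w ![0, 0, 0, 1, 0] rfl
  have f04 := congrFun e 0
  have f14 := congrFun e 1
  have f24 := congrFun e 2
  have f34 := congrFun e 3
  have f44 := congrFun e 4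
  simp [mv5] at f20 f30 f40 f21 f31 f41 f42 f43 f04 f14 f24 f34 f44
  have key : ∀ u ∈ U, ∀ i, ρ h i 0 * -ρ u 2 4 ^ 2 + ρ h i 1 * -ρ u 3 4 ^ 2 + ρ h i 2 * ρ u 2 4 +
      ρ h i 3 * ρ u 3 4 + ρ h i 4 = l * ρ (h * u * h⁻¹) i 4 := fun u hu i => by
    have : ρ h *ᵥ (ρ u *ᵥ ![0, 0, 0, 0, 1]) = l • ρ (h * u * h⁻¹) *ᵥ ![0, 0, 0, 0, 1] := by
      rw [← mulVec_smul, ← e, mul_vec, mul_vec, inv_vec]
    simpa [c.vec hu, mv5, c.sq u hu] using congrFun this i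
  have k0 : ∀ u ∈ U, (l * ρ h 0 0 - ρ h 2 2 ^ 2) * ρ u 2 4 ^ 2 + (-2 * ρ h 2 2 * ρ h 2 3) * ρ u 2 4 *
      ρ u 3 4 + (l * ρ h 0 1 - ρ h 2 3 ^ 2) * ρ u 3 4 ^ 2 = l * (ρ h 0 2 * ρ u 2 4 + ρ h 0 3 * ρ u 3 4) :=
    fun u hu => by
      have a := key u hu 0
      have b := key u hu 2
      rw [(c.sq _ ((hn _).1 hu)).1, f04] at a
      rw [f20, f21, f24] at b
      linear_combination -l * a - (ρ h 2 2 * ρ u 2 4 + ρ h 2 3 * ρ u 3 4 + l * ρ (h * u * h⁻¹) 2 4) * b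
  have k1 : ∀ u ∈ U, (l * ρ h 1 0 - ρ h 3 2 ^ 2) * ρ u 2 4 ^ 2 + (-2 * ρ h 3 2 * ρ h 3 3) * ρ u 2 4 *
      ρ u 3 4 + (l * ρ h 1 1 - ρ h 3 3 ^ 2) * ρ u 3 4 ^ 2 = l * (ρ h 1 2 * ρ u 2 4 + ρ h 1 3 * ρ u 3 4) :=
    fun u hu => by
      have a := key u hu 1
      have b := key u hu 3
      rw [(c.sq _ ((hn _).1 hu)).2, f14] at a
      rw [f30, f31, f34] at b
      linear_combination -l * a - (ρ h 3 2 * ρ u 2 4 + ρ h 3 3 * ρ u 3 4 + l * ρ (h * u * h⁻¹) 3 4) * b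
  have sol : ∀ A B C D E : k, (∀ u ∈ U, A * ρ u 2 4 ^ 2 + B * ρ u 2 4 * ρ u 3 4 + C * ρ u 3 4 ^ 2 =
      l * (D * ρ u 2 4 + E * ρ u 3 4)) → (A = 0 ∧ B = 0 ∧ C = 0) ∧ D = 0 ∧ E = 0 := fun A B C D E H => by
    have H1 : ∀ u ∈ U, A * ρ u 2 4 ^ 2 + B * ρ u 2 4 * ρ u 3 4 + C * ρ u 3 4 ^ 2 = 0 := fun u hu => by
      have := H _ (inv_mem hu)
      rw [(c.neg hu).1, (c.neg hu).2] at this
      linear_combination -this - H u hu + (A * ρ u 2 4 ^ 2 + B * ρ u 2 4 * ρ u 3 4 + C * ρ u 3 4 ^ 2) * h3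
    obtain ⟨u, hu, v, hv, e⟩ := c.ind
    have := mul_ne_zero hl (sub_ne_zero.2 e)
    refine ⟨quad0 e (H1 u hu) (H1 v hv) (by simpa only [c.add hu hv] using H1 _ (mul_mem hu hv)),
      mul_left_cancel₀ this ?_, mul_left_cancel₀ this ?_⟩
    · linear_combination ρ v 3 4 * (H1 u hu - H u hu) - ρ u 3 4 * (H1 v hv - H v hv)
    · linear_combination ρ u 2 4 * (H1 v hv - H v hv) - ρ v 2 4 * (H1 u hu - H u hu)
  obtain ⟨⟨a0, a1, a2⟩, f02, f03⟩ := sol _ _ _ _ _ k0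
  obtain ⟨⟨b0, b1, b2⟩, f12, f13⟩ := sol _ _ _ _ _ k1
  have a1 : ρ h 2 2 * ρ h 2 3 = 0 := by linear_combination a1 + ρ h 2 2 * ρ h 2 3 * h3
  have b1 : ρ h 3 2 * ρ h 3 3 = 0 := by linear_combination b1 + ρ h 3 2 * ρ h 3 3 * h3
  have d : ∀ {x y z : k}, l * x - y ^ 2 = 0 → y = l * z → x = l * z ^ 2 := fun h h' =>
    mul_left_cancel₀ hl (by rw [h'] at h; linear_combination h)
  have d0 : ∀ {x y : k}, l * x - y ^ 2 = 0 → y = 0 → x = 0 := fun h h' => by simpa [h', hl] using h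
  have d' : ∀ y : k, ∃ z, y = l * z := fun y => ⟨y / l, by field_simp⟩
  rcases mul_eq_zero.1 a1 with a | a <;> rcases mul_eq_zero.1 b1 with b | b
  · refine absurd (funext fun i => ?_) (nz ![0, 0, 1, 0, 0] fun e => by simpa using congrFun e 2)
    fin_cases i <;> simp [mv5, f02, f12, a, b, f42]
  · obtain ⟨x, hx⟩ := d' (ρ h 2 3)
    obtain ⟨y, hy⟩ := d' (ρ h 3 2)
    refine ⟨x, y, .inr ?_⟩
    rw [eta55 (ρ h), d0 a0 a, d a2 hx, f02, f03, f04, d b0 hy, d0 b2 b, f12, f13, f14, f20, f21, a, hx,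
      f24, f30, f31, hy, b, f34, f40, f41, f42, f43, f44, sw]
  · obtain ⟨x, hx⟩ := d' (ρ h 2 2)
    obtain ⟨y, hy⟩ := d' (ρ h 3 3)
    refine ⟨x, y, .inl ?_⟩
    rw [eta55 (ρ h), d a0 hx, d0 a2 a, f02, f03, f04, d0 b0 b, d b2 hy, f12, f13, f14, f20, f21, a, hx,
      f24, f30, f31, hy, b, f34, f40, f41, f42, f43, f44, dg]
  · refine absurd (funext fun i => ?_) (nz ![0, 0, 0, 1, 0] fun e => by simpa using congrFun e 3)
    fin_cases i <;> simp [mv5, f03, f13, a, b, f43]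

theorem N1.n2 [Finite P] [CharP k 3] (c : N1 ρ U) :
    ∃ (B B' : M5 k) (h : B * B' = 1), N2 (cj h ρ) U := by
  obtain ⟨u0, hu0, u1⟩ := c.ex_ne
  have f : ∀ n : normalizer (U : Set P), Fl (ρ n) := fun n =>
    c.fl hu0 u1 ((mem_normalizer_iff.1 n.2 _).1 hu0)
  have f4 : ∀ (n : normalizer (U : Set P)) v, (ρ n *ᵥ v) 4 = ρ n 4 4 * v 4 := fun n v => by
    have := (f n).w (v - v 4 • ![0, 0, 0, 0, 1]) (by simp)
    rw [mulVec_sub, mulVec_smul, Pi.sub_apply, sub_eq_zero] at this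
    rw [this, mul_comm]; simp [mv5]
  have fm : ∀ n m : normalizer (U : Set P), ρ (n * m :) 4 4 = ρ n 4 4 * ρ m 4 4 := fun n m => by
    have := f4 n (ρ m *ᵥ ![0, 0, 0, 0, 1])
    rw [← mul_vec] at this
    simpa [mv5] using this
  have f0 : ∀ n : normalizer (U : Set P), ρ n 4 4 ≠ 0 := fun n e => by
    simpa [e] using fm n n⁻¹
  have i3 : ¬ 3 ∣ (U.subgroupOf (normalizer (U : Set P))).index :=
    fun e => c.syl (e.trans (relIndex_dvd_index_of_le le_normalizer))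
  obtain ⟨H, hH⟩ := exists_right_complement'_of_coprime (N := U.subgroupOf (normalizer (U : Set P)))
    (by rw [Nat.card_congr (subgroupOfEquivOfLe le_normalizer).toEquiv, c.card]
        exact ((Nat.Prime.coprime_iff_not_dvd Nat.prime_three).2 i3).pow_left 2)
  have hc : (Nat.card H : k) ≠ 0 := by
    rwa [Ne, CharP.cast_eq_zero_iff k 3, ← hH.symm.index_eq_card]
  letI := Fintype.ofFinite H
  let A : Fin 5 → k := (Nat.card H : k)⁻¹ • ∑ h : H, (ρ h 4 4)⁻¹ • ρ h *ᵥ ![0, 0, 0, 0, 1]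
  have A4 : A 4 = 1 := by
    simp [A, f4, f0, ← Nat.card_eq_fintype_card, hc]
  have hA : ∀ h : H, ρ h *ᵥ A = ρ h 4 4 • A := fun h => by
    simp only [A, mulVec_smul, mulVec_sum, ← mul_vec]
    rw [smul_comm (ρ h 4 4), Finset.smul_sum (r := ρ h 4 4)]
    refine congrArg _ (Fintype.sum_equiv (Equiv.mulLeft h) _ _ fun x => ?_)
    simp only [Equiv.coe_mulLeft, coe_mul, smul_smul]
    rw [← coe_mul, fm, mul_inv, mul_inv_cancel_left₀ (f0 _)]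
  have hB : uu (A 2) (A 3) (A 0) (A 1) * uu (-A 2) (-A 3) (A 2 ^ 2 - A 0) (A 3 ^ 2 - A 1) = 1 := by
    rw [uu_mul, ← uu_zero]; congr 1 <;> ring
  have e1 : ∀ u ∈ U, cj hB ρ u = ρ u := fun u hu => cj_of hB (by
    rw [c.sh u hu, uu_mul, uu_mul]; congr 1 <;> ring)
  have c1 : N1 (cj hB ρ) U := ⟨c.of_sh 1 1 one_ne_zero one_ne_zero _ _ fun u hu => by
    rw [e1 u hu, one_mul, one_mul, ← c.sh u hu], fun u hu => by rw [e1 u hu]; exact c.sq u hu⟩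
  refine ⟨_, _, hB, c1, fun n hn => ?_⟩
  obtain ⟨⟨a, b⟩, e⟩ := hH.2 ⟨n, hn⟩
  refine ⟨a, a.2, b, b.1.2, (congrArg Subtype.val e).symm, ρ b 4 4, c1.shape b.1.2 ?_⟩
  have : uu (A 2) (A 3) (A 0) (A 1) *ᵥ ![0, 0, 0, 0, 1] = A := by
    rw [uu_vec, eta5 A]; simp [A4]
  have h2 := congrArg (uu (-A 2) (-A 3) (A 2 ^ 2 - A 0) (A 3 ^ 2 - A 1) *ᵥ ·) this
  simp only [mulVec_mulVec, mul_eq_one_comm.1 hB, one_mulVec] at h2
  rw [cj_vec, this, hA, mulVec_smul, ← h2]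

end Cfsg.Agent.L5.M
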