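import Cfsg.Agent.L5.M1

/-!
The case of `M₁₁` in characteristic three: the field with nine elements appears.
-/

set_option autoImplicit false

namespace Cfsg.Agent.L5.M
open Matrix Subgroup L4.R

variable {P k : Type*} [Group P] [Field k] {ρ : P →* M5 k} {U : Subgroup P}

theorem dg_det (l a b : k) : (dg l a b).det = l ^ 5 * (a * b) ^ 3 := by
  simp [dg, det_succ_row_zero, Fin.sum_univ_succ, Fin.succAbove]; ring

theorem sw_det (l a b : k) : (sw l a b).det = l ^ 5 * (a * b) ^ 3 := by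
  simp [sw, det_succ_row_zero, Fin.sum_univ_succ, Fin.succAbove]; ring

theorem sw_mul (l a b l' a' b' : k) : sw l a b * sw l' a' b' = dg (l * l') (a * b') (b * a') :=
  K.mat_ext fun v => by
    rw [← mulVec_mulVec, sw_vec, sw_vec, dg_vec]
    apply v5 <;> simp <;> ring

theorem dg_mul (l a b l' a' b' : k) : dg l a b * dg l' a' b' = dg (l * l') (a * a') (b * b') :=
  K.mat_ext fun v => by
    rw [← mulVec_mulVec, dg_vec, dg_vec, dg_vec]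
    apply v5 <;> simp <;> ring

theorem vm5 (G : M5 k) (v : Fin 5 → k) (i : Fin 5) :
    (v ᵥ* G) i = v 0 * G 0 i + v 1 * G 1 i + v 2 * G 2 i + v 3 * G 3 i + v 4 * G 4 i := by
  simp [vecMul, dotProduct, Fin.sum_univ_five]

theorem vec_mul (g g' : P) (v : Fin 5 → k) : v ᵥ* ρ (g * g') = v ᵥ* ρ g ᵥ* ρ g' := by
  rw [map_mul, vecMul_vecMul]

namespace M3
variable (c : M3 ρ U)
include c

theorem inj {u v : P} (hu : u ∈ U) (hv : v ∈ U) (e : ρ u 2 4 = ρ v 2 4) : u = v := by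
  by_contra h
  exact (c.ne _ (mul_mem hu (inv_mem hv)) (mt mul_inv_eq_one.1 h)).1
    (by rw [(c.add hu (inv_mem hv)).1, (c.neg hv).1, e, add_neg_cancel])

theorem act {h u : P} (hh : h ∈ normalizer (U : Set P)) (hu : u ∈ U) {l : k}
    (e : ρ h *ᵥ ![0, 0, 0, 0, 1] = ![0, 0, 0, 0, l]) :
    ρ h *ᵥ ![ρ u 0 4, ρ u 1 4, ρ u 2 4, ρ u 3 4, 1] = ![ρ (h * u * h⁻¹) 0 4 * l,
      ρ (h * u * h⁻¹) 1 4 * l, ρ (h * u * h⁻¹) 2 4 * l, ρ (h * u * h⁻¹) 3 4 * l, l] := by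
  have : ρ h *ᵥ (ρ u *ᵥ ![0, 0, 0, 0, 1]) = ρ (h * u * h⁻¹) *ᵥ ![0, 0, 0, 0, l] := by
    rw [← e, mul_vec, mul_vec, inv_vec]
  rw [c.vec hu, c.vec ((mem_normalizer_iff.1 hh _).1 hu)] at this
  generalize h * u * h⁻¹ = w at *
  simpa using this

theorem act_dg (hd : ∀ g, (ρ g).det = 1) {h u : P} (hh : h ∈ normalizer (U : Set P)) (hu : u ∈ U)
    {l x y : k} (e : ρ h = dg l x y) : l ^ 5 * (x * y) ^ 3 = 1 ∧
      ∃ w ∈ U, ρ w 2 4 = x * ρ u 2 4 ∧ ρ w 3 4 = y * ρ u 3 4 := by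
  have d : l ^ 5 * (x * y) ^ 3 = 1 := by rw [← dg_det, ← e, hd]
  have hl : l ≠ 0 := by rintro rfl; simp at d
  have := c.act hh hu (l := l) (by simp [e, dg_vec])
  refine ⟨d, _, (mem_normalizer_iff.1 hh _).1 hu, ?_⟩
  generalize h * u * h⁻¹ = w at *
  rw [e, dg_vec] at this
  have h2 : l * x * ρ u 2 4 = ρ w 2 4 * l := congrFun this 2
  have h3 : l * y * ρ u 3 4 = ρ w 3 4 * l := congrFun this 3
  exact ⟨mul_left_cancel₀ hl (by linear_combination -h2), mul_left_cancel₀ hl (by linear_combination -h3)⟩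

theorem act_sw (hd : ∀ g, (ρ g).det = 1) {h u : P} (hh : h ∈ normalizer (U : Set P)) (hu : u ∈ U)
    {l x y : k} (e : ρ h = sw l x y) : l ^ 5 * (x * y) ^ 3 = 1 ∧
      ∃ w ∈ U, ρ w 2 4 = x * ρ u 3 4 ∧ ρ w 3 4 = y * ρ u 2 4 := by
  have d : l ^ 5 * (x * y) ^ 3 = 1 := by rw [← sw_det, ← e, hd]
  have hl : l ≠ 0 := by rintro rfl; simp at d
  have := c.act hh hu (l := l) (by simp [e, sw_vec])
  refine ⟨d, _, (mem_normalizer_iff.1 hh _).1 hu, ?_⟩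
  generalize h * u * h⁻¹ = w at *
  rw [e, sw_vec] at this
  have h2 : l * x * ρ u 3 4 = ρ w 2 4 * l := congrFun this 2
  have h3 : l * y * ρ u 2 4 = ρ w 3 4 * l := congrFun this 3
  exact ⟨mul_left_cancel₀ hl (by linear_combination -h2), mul_left_cancel₀ hl (by linear_combination -h3)⟩

theorem vm {u : P} (hu : u ∈ U) (v : Fin 5 → k) : v ᵥ* ρ u = ![v 0, v 1, v 0 * ρ u 2 4 + v 2,
    v 1 * ρ u 3 4 + v 3, v 0 * ρ u 0 4 + v 1 * ρ u 1 4 + v 2 * ρ u 2 4 + v 3 * ρ u 3 4 + v 4] := by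
  rw [c.sh u hu]
  ext i; fin_cases i <;> simp [vm5, uu]

omit c in
theorem dstep {n : ℕ} {φ : Fin 5 → k} {i : Fin 5}
    (h : ∀ u ∈ U, Dg U n fun g => ((φ ᵥ* ρ u - φ) ᵥ* ρ g) i) : Dg U (n + 1) fun g => (φ ᵥ* ρ g) i :=
  fun u hu => (h u hu).congr fun g => by simp only [vec_mul, sub_vecMul, Pi.sub_apply]

theorem dl1 {φ : Fin 5 → k} (h0 : φ 0 = 0) (h1 : φ 1 = 0) (h2 : φ 2 = 0) (h3 : φ 3 = 0) (i : Fin 5) :
    Dg U 1 fun g => (φ ᵥ* ρ g) i :=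
  dstep fun u hu g => by simp only [vm5 (ρ g), Pi.sub_apply, c.vm hu]; simp [h0, h1, h2, h3]

theorem dl3 (φ : Fin 5 → k) (i : Fin 5) : Dg U 3 fun g => (φ ᵥ* ρ g) i :=
  dstep fun u hu => dstep fun v hv => by
    refine c.dl1 ?_ ?_ ?_ ?_ i <;> simp only [Pi.sub_apply, c.vm hu, c.vm hv] <;> simp

theorem sum0 [Finite P] [CharP k 3] {s t : k}
    (h : ∑ᶠ u : U, (s * ρ u 2 4 ^ 2 + t * ρ u 3 4 ^ 2) * ρ u 2 4 ^ 18 = 0) (p0 p1 p2 p3 q0 q1 q2 : k) :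
    ∑ᶠ u : U, (p0 + p1 * ρ u 2 4 + p2 * ρ u 3 4 - p3 * (s * ρ u 2 4 ^ 2 + t * ρ u 3 4 ^ 2)) *
      (q0 + q1 * ρ u 2 4 - q2 * ρ u 2 4 ^ 2) ^ 3 ^ 2 = 0 := by
  haveI : Fact (Nat.Prime 3) := ⟨by norm_num⟩
  have a : Dg (⊤ : Subgroup U) 2 fun u => ρ u 2 4 := fun v _ =>
    (Dg.const (ρ v 2 4)).congr fun u => by simp only [coe_mul, c.add v.2 u.2]; ring
  have b : Dg (⊤ : Subgroup U) 2 fun u => ρ u 3 4 := fun v _ =>
    (Dg.const (ρ v 3 4)).congr fun u => by simp only [coe_mul, c.add v.2 u.2]; ring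
  have l1 := ((Dg.const p0).succ.add (a.cmul p1)).add (b.cmul p2)
  have l2 := (Dg.const q0).succ.add (a.cmul q1)
  have hs := sum_top 3 (fun _ => c.cube) (r := 2) c.card le_rfl
    ((l1.mul ((l2.succ.sub ((a.mul a).cmul q2)).frob 3 2)).sub
      (((((a.mul a).cmul s).add ((b.mul b).cmul t)).cmul p3).mul (l2.frob 3 2)))
  letI := Fintype.ofFinite U
  rw [finsum_eq_sum_of_fintype] at h hs ⊢
  rw [← hs, ← add_zero (Finset.sum _ fun _ => _ - _), ← mul_zero (p3 * q2 ^ 9), ← h, Finset.mul_sum,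
    ← Finset.sum_add_distrib]
  refine Finset.sum_congr rfl fun u _ => ?_
  simp only [← sq, sub_pow_char_pow]
  ring

end M3

/-- A twisted bilinear form supported on the socle. -/
def Fm (m : Fin 4 → k) (x y : Fin 5 → k) : k :=
  m 0 * (x 0 * y 0 ^ 3 ^ 2) + m 1 * (x 1 * y 0 ^ 3 ^ 2) + m 2 * (x 0 * y 1 ^ 3 ^ 2) +
    m 3 * (x 1 * y 1 ^ 3 ^ 2)

theorem N1.kill [Finite P] [CharP k 3] (h : Hy0 ρ) (c : N1 ρ U) (m : Fin 4 → k)
    (hm : ∀ n ∈ normalizer (U : Set P), ∀ x y, Fm m (x ᵥ* ρ n) (y ᵥ* ρ n) = Fm m x y) {s t : k}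
    (hs : ∑ᶠ u : U, (s * ρ u 2 4 ^ 2 + t * ρ u 3 4 ^ 2) * ρ u 2 4 ^ 18 = 0) :
    m 0 * s + m 1 * t = 0 := by
  haveI : Fact (Nat.Prime 3) := ⟨by norm_num⟩
  have hf : ∀ φ χ g, ∀ n ∈ normalizer (U : Set P),
      Fm m (φ ᵥ* ρ (g * n)) (χ ᵥ* ρ (g * n)) = Fm m (φ ᵥ* ρ g) (χ ᵥ* ρ g) := fun φ χ g n hn => by
    rw [vec_mul, vec_mul, hm n hn]
  have h1 := van (σ := fun g x => x ᵥ* ρ g)
    (irr_adj (σ := fun g x => ρ g *ᵥ x) (fun g x y => dotProduct_mulVec _ _ _) h.irr)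
    (fun φ χ => tr (normalizer (U : Set P)) fun g => Fm m (φ ᵥ* ρ g) (χ ᵥ* ρ g))
    (fun φ φ' χ => by rw [← tr_add]; congr 1; ext g; simp only [Fm, add_vecMul, Pi.add_apply]; ring)
    (fun a φ χ => by
      rw [← tr_mul]; congr 1; ext g; simp only [Fm, smul_vecMul, Pi.smul_apply, smul_eq_mul]; ring)
    (fun g φ χ => ⟨χ ᵥ* ρ g⁻¹, by
      refine .trans ?_ (tr_left (hf φ (χ ᵥ* ρ g⁻¹)) g)
      simp only [← vec_mul, inv_mul_cancel_left]⟩)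
    (s := ![0, 0, 0, 0, 1]) (fun e => by simpa using congrFun e 4) (fun χ => by
      have : ∀ i j, Dg U 3 fun g => (![0, 0, 0, 0, 1] ᵥ* ρ g) i * (χ ᵥ* ρ g) j ^ 3 ^ 2 := fun i j =>
        (c.dl1 rfl rfl rfl rfl i).mul ((c.dl3 χ j).frob 3 2)
      refine (c.tt' h.inj (hf _ χ) (((((this 0 0).cmul _).add ((this 1 0).cmul _)).add
        ((this 0 1).cmul _)).add ((this 1 1).cmul _)).succ).trans ?_
      simp [Fm]) ![s, t, 0, 0, 0] ![1, 0, 0, 0, 0]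
  rw [c.tt h.inj (hf _ _) fun g => ?_] at h1
  · simpa [Fm] using h1
  have hz : ∀ i j, ∑ᶠ u : U, (![s, t, 0, 0, 0] ᵥ* ρ (u * g)) i *
      (![1, 0, 0, 0, 0] ᵥ* ρ (u * g)) j ^ 3 ^ 2 = 0 := fun i j => by
    refine (finsum_congr fun u => ?_).trans (c.sum0 hs (s * ρ g 0 i + t * ρ g 1 i) (s * ρ g 2 i)
      (t * ρ g 3 i) (ρ g 4 i) (ρ g 0 j) (ρ g 2 j) (ρ g 4 j))
    rw [vec_mul, vec_mul, c.vm u.2, c.vm u.2, vm5, vm5, (c.sq u u.2).1, (c.sq u u.2).2]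
    simp only [cons_val_zero, cons_val_one, cons_val]
    congr 1
    · ring
    · congr 1; ring
  letI := Fintype.ofFinite U
  simp only [finsum_eq_sum_of_fintype] at hz
  simp only [finsum_eq_sum_of_fintype, Fm, Finset.sum_add_distrib, ← Finset.mul_sum, hz, mul_zero,
    add_zero]

theorem N2.alpha [Finite P] [CharP k 3] (h : Hy0 ρ) (c : N2 ρ U) :
    ∃ g ∈ normalizer (U : Set P), ∃ l x y, ρ g = dg l x y ∧ x ^ 2 ≠ 1 := by
  by_contra hc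
  push Not at hc
  obtain ⟨u0, hu0, u1⟩ := c.ex_ne
  have h1 : ∀ g ∈ normalizer (U : Set P), ∀ l x y, ρ g = dg l x y → y ^ 2 = 1 := fun g hg l x y e => by
    obtain ⟨-, w, hw, a, b⟩ := c.act_dg h.det hg hu0 e
    have hb := (c.ne u0 hu0 u1).2
    rcases sq_eq_one_iff.1 (hc g hg l x y e) with rfl | rfl
    · rw [c.inj hw hu0 (by rw [a, one_mul])] at b
      rw [mul_right_cancel₀ hb (show y * _ = 1 * _ by rw [← b, one_mul]), one_pow]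
    · rw [c.inj hw (inv_mem hu0) (by rw [a, (c.neg hu0).1, neg_one_mul]), (c.neg hu0).2] at b
      rw [mul_right_cancel₀ hb (show y * _ = -1 * _ by rw [← b, neg_one_mul]), neg_one_sq]
  have h2 : ∀ g ∈ normalizer (U : Set P), ∀ l x y, ρ g = sw l x y → ∀ g' ∈ normalizer (U : Set P),
      ∀ l' x' y', ρ g' = sw l' x' y' → (x * y') ^ 2 = 1 := fun g hg l x y e g' hg' l' x' y' e' =>
    hc _ (mul_mem hg hg') _ _ _ (by rw [map_mul, e, e', sw_mul])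
  obtain ⟨e, e0, he⟩ : ∃ e : k, e ≠ 0 ∧ ∀ g ∈ normalizer (U : Set P), ∀ l x y, ρ g = sw l x y →
      x ^ 2 = e ∧ e * y ^ 2 = 1 := by
    by_cases hx : ∃ g ∈ normalizer (U : Set P), ∃ l x y, ρ g = sw l x y
    · obtain ⟨g, hg, l, x, y, e⟩ := hx
      have a := h2 g hg l x y e g hg l x y e
      refine ⟨x ^ 2, fun e => by simp [mul_pow, e] at a, fun g' hg' l' x' y' e' => ⟨?_, ?_⟩⟩
      · linear_combination x ^ 2 * h2 g' hg' l' x' y' e' g hg l x y e - x' ^ 2 * a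
      · linear_combination h2 g hg l x y e g' hg' l' x' y' e'
    · exact ⟨1, one_ne_zero, fun g hg l x y e => absurd ⟨g, hg, l, x, y, e⟩ hx⟩
  have hm : ∀ m : Fin 4 → k, m 0 = e ^ 10 * m 3 → m 1 = e ^ 8 * m 2 →
      ∀ n ∈ normalizer (U : Set P), ∀ x y, Fm m (x ᵥ* ρ n) (y ᵥ* ρ n) = Fm m x y :=
    fun m m0 m1 n hn x y => by
      obtain ⟨u, hu, g, hg, rfl, l, a, b, e' | e'⟩ := c.nn n hn
      · have d := (c.act_dg h.det hg hu e').1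
        have ha := hc g hg l a b e'
        have hb := h1 g hg l a b e'
        have hl : l ^ 10 = 1 := by
          have := congrArg (· ^ 2) d
          simpa only [mul_pow, ← pow_mul, show 3 * 2 = 2 * 3 from rfl, pow_mul _ 2 3, ha, hb, one_pow,
            mul_one] using this
        simp only [vec_mul, Fm, e', c.vm hu, vm5 (dg _ _ _)]
        simp [dg, ha, hb]
        linear_combination (m 0 * (x 0 * y 0 ^ 9) + m 1 * (x 1 * y 0 ^ 9) + m 2 * (x 0 * y 1 ^ 9) +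
          m 3 * (x 1 * y 1 ^ 9)) * hl
      · have d := (c.act_sw h.det hg hu e').1
        obtain ⟨ha, hb⟩ := he g hg l a b e'
        have hl : l ^ 10 = 1 := by
          linear_combination (l ^ 5 * (a * b) ^ 3 + 1) * d -
            l ^ 10 * ((a * b) ^ 4 + (a * b) ^ 2 + 1) * h2 g hg l a b e' g hg l a b e'
        have hb : b ^ 2 = e⁻¹ := eq_inv_of_mul_eq_one_right hb
        simp only [vec_mul, Fm, e', c.vm hu, vm5 (sw _ _ _)]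
        simp [sw, ha, hb, m0, m1]
        field_simp
        linear_combination (e ^ 10 * m 3 * (x 0 * y 0 ^ 9) + e ^ 8 * m 2 * (x 1 * y 0 ^ 9) +
          m 2 * (x 0 * y 1 ^ 9) + m 3 * (x 1 * y 1 ^ 9)) * hl
  obtain ⟨s, t, h0, hs⟩ : ∃ s t : k, ¬ (s = 0 ∧ t = 0) ∧
      ∑ᶠ u : U, (s * ρ u 2 4 ^ 2 + t * ρ u 3 4 ^ 2) * ρ u 2 4 ^ 18 = 0 := by
    letI := Fintype.ofFinite U
    simp only [finsum_eq_sum_of_fintype, add_mul, mul_assoc, Finset.sum_add_distrib, ← Finset.mul_sum]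
    generalize ∑ u : U, ρ u 2 4 ^ 2 * ρ u 2 4 ^ 18 = a
    generalize ∑ u : U, ρ u 3 4 ^ 2 * ρ u 2 4 ^ 18 = b
    by_cases ha : a = 0
    · exact ⟨1, 0, by simp, by simp [ha]⟩
    · exact ⟨b, -a, by simp [ha], by ring⟩
  exact h0 ⟨mul_left_cancel₀ (pow_ne_zero 10 e0) (by
      simpa only [cons_val_zero, cons_val_one, zero_mul, add_zero, mul_zero] using
        N1.kill h c.toN1 ![e ^ 10, 0, 0, 1] (hm _ (mul_one _).symm (mul_zero _).symm) hs),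
    mul_left_cancel₀ (pow_ne_zero 8 e0) (by
      simpa only [cons_val_zero, cons_val_one, zero_mul, zero_add, mul_zero] using
        N1.kill h c.toN1 ![0, e ^ 8, 1, 0] (hm _ (mul_zero _).symm (mul_one _).symm) hs)⟩

/-- The third normalisation. -/
structure N3 (ρ : P →* M5 k) (U : Subgroup P) (I : k) : Prop extends N2 ρ U where
  sI : I ^ 2 = -1
  fr : ∀ u ∈ U, ρ u 3 4 = ρ u 2 4 ^ 3 ∧ ρ u 2 4 ^ 9 = ρ u 2 4
  u1 : ∃ u ∈ U, ρ u 2 4 = 1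
  u2 : ∃ u ∈ U, ρ u 2 4 = I
  hh : ∃ (g : P) (l : k), ρ g = dg l I (-I) ∧ l ^ 5 = 1

theorem N2.scale (c : N2 ρ U) : ∃ (B B' : M5 k) (h : B * B' = 1), N2 (cj h ρ) U ∧
    ∃ u ∈ U, cj h ρ u 2 4 = 1 ∧ cj h ρ u 3 4 = 1 := by
  obtain ⟨u0, hu0, u1⟩ := c.ex_ne
  obtain ⟨ha, hb⟩ := c.ne u0 hu0 u1
  have hB : dg 1 (ρ u0 2 4) (ρ u0 3 4) * dg 1 (ρ u0 2 4)⁻¹ (ρ u0 3 4)⁻¹ = 1 := K.mat_ext fun v => by
    rw [dg_mul, dg_vec, one_mulVec, eta5 v]; simp [ha, hb]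
  have e : ∀ u ∈ U, cj hB ρ u = uu ((ρ u0 2 4)⁻¹ * ρ u 2 4) ((ρ u0 3 4)⁻¹ * ρ u 3 4)
      (-((ρ u0 2 4)⁻¹ * ρ u 2 4) ^ 2) (-((ρ u0 3 4)⁻¹ * ρ u 3 4) ^ 2) := fun u hu =>
    K.mat_ext fun v => by
      rw [cj_vec, c.vec hu, dg_vec, dg_vec, uu_vec, (c.sq u hu).1, (c.sq u hu).2]
      apply v5 <;> simp <;> field_simp
  refine ⟨_, _, hB, ⟨⟨c.of_sh _ _ (inv_ne_zero ha) (inv_ne_zero hb) _ _ e, fun u hu => by
    rw [e u hu]; exact ⟨rfl, rfl⟩⟩, fun n hn => ?_⟩, u0, hu0, by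
      rw [e u0 hu0]; exact ⟨inv_mul_cancel₀ ha, inv_mul_cancel₀ hb⟩⟩
  obtain ⟨u, hu, g, hg, rfl, l, a, b, e' | e'⟩ := c.nn n hn
  · refine ⟨u, hu, g, hg, rfl, l, a, b, .inl (cj_of hB ?_)⟩
    rw [e', dg_mul, dg_mul, mul_comm l, mul_comm a, mul_comm b]
  · refine ⟨u, hu, g, hg, rfl, l, a * ρ u0 3 4 / ρ u0 2 4, b * ρ u0 2 4 / ρ u0 3 4,
      .inr (K.mat_ext fun v => ?_)⟩
    rw [cj_vec, e', sw_vec, sw_vec, dg_vec, dg_vec]
    apply v5 <;> simp <;> field_simp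

theorem N2.n3 [Finite P] [CharP k 3] (h : Hy0 ρ) (c : N2 ρ U)
    (h1 : ∃ u ∈ U, ρ u 2 4 = 1 ∧ ρ u 3 4 = 1) : ∃ I, N3 ρ U I := by
  haveI : Fact (Nat.Prime 3) := ⟨by norm_num⟩
  have h3 : (3 : k) = 0 := CharP.cast_eq_zero k 3
  obtain ⟨u, hu, a1, b1⟩ := h1
  obtain ⟨g, hg, l, x, y, e, hx⟩ := c.alpha h
  obtain ⟨d, v, hv, a2, b2⟩ := c.act_dg h.det hg hu e
  obtain ⟨-, w, hw, a3, b3⟩ := c.act_dg h.det hg hv e
  rw [a1, mul_one] at a2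
  rw [b1, mul_one] at b2
  have x0 : x ≠ 0 := by rintro rfl; simp at d
  have n3 : ∀ n : ℕ, (n : k) ^ 3 = n := fun n => by
    induction n with
    | zero => simp
    | succ n ih => rw [Nat.cast_succ, add_pow_char, ih, one_pow]
  have x3 : x ^ 3 ≠ x := fun e => hx (mul_left_cancel₀ x0 (by linear_combination e))
  have G : ∀ z ∈ U, ∃ i j : k, i ^ 3 = i ∧ j ^ 3 = j ∧ ρ z 2 4 = i + j * x ∧ ρ z 3 4 = i + j * y :=
    gen c.card _ ⟨0, 0, by simp⟩ (fun a ha b hb ⟨i, j, e1, e2, e3, e4⟩ ⟨i', j', f1, f2, f3, f4⟩ =>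
      ⟨i + i', j + j', by rw [add_pow_char, e1, f1], by rw [add_pow_char, e2, f2],
        by rw [(c.add ha hb).1, e3, f3]; ring, by rw [(c.add ha hb).2.1, e4, f4]; ring⟩) hu hv
      ⟨1, 0, by simp [a1, b1]⟩ ⟨0, 1, by simp [a2, b2]⟩ (by rintro rfl; simp at a1)
      fun n hn => x3 (by rw [← a2, hn, (c.pw hu n).1, a1, mul_one, n3])
  have xy : x - y ≠ 0 := fun e => by
    obtain ⟨s, hs, t, ht, e'⟩ := c.ind
    obtain ⟨_, _, -, -, e1, e2⟩ := G s hs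
    obtain ⟨_, _, -, -, f1, f2⟩ := G t ht
    exact e' (by rw [e1, e2, f1, f2, sub_eq_zero.1 e, mul_comm])
  obtain ⟨m, n, hm, hn, e1, e2⟩ := G w hw
  rw [a3, a2] at e1
  rw [b3, b2] at e2
  have s1 : x + y = n := mul_left_cancel₀ xy (by linear_combination e1 - e2)
  have s2 : y = x ^ 3 := by
    have := congrArg (· ^ 3) e1
    simp only [add_pow_char, mul_pow, hm, hn] at this
    exact (mul_left_cancel₀ (sub_ne_zero.2 x3) (show (x ^ 3 - x) * x ^ 3 = (x ^ 3 - x) * y by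
      linear_combination this - e1 - (x ^ 3 - x) * s1)).symm
  have s3 : y ^ 3 = x := by
    have := congrArg (· ^ 3) s1
    simp only [add_pow_char, hn] at this
    linear_combination this - s1 + s2
  have x8 : x ^ 8 = 1 := mul_left_cancel₀ x0 (by rw [s2] at s3; linear_combination s3)
  have fr : ∀ u ∈ U, ρ u 3 4 = ρ u 2 4 ^ 3 ∧ ρ u 2 4 ^ 9 = ρ u 2 4 := fun z hz => by
    obtain ⟨i, j, e1, e2, e3, e4⟩ := G z hz
    have : ρ z 3 4 = ρ z 2 4 ^ 3 := by rw [e3, e4, add_pow_char, mul_pow, e1, e2, s2]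
    exact ⟨this, by rw [show 9 = 3 * 3 from rfl, pow_mul, ← this, e4, add_pow_char, mul_pow, e1, e2, s3, e3]⟩
  rw [s2] at d e
  by_cases h4 : x ^ 2 = -1
  · refine ⟨x, c, h4, fr, ⟨u, hu, a1⟩, ⟨v, hv, a2⟩, g, l, ?_, ?_⟩
    · rw [e, pow_succ, h4, neg_one_mul]
    · linear_combination d - l ^ 5 * x ^ 4 * x8 - l ^ 5 * (x ^ 2 - 1) * h4
  · have x4 : x ^ 4 = -1 := mul_left_cancel₀
      (mul_ne_zero (sub_ne_zero.2 hx) (mt eq_neg_of_add_eq_zero_left h4)) (by linear_combination x8)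
    refine ⟨x * x, c, by linear_combination x4, fr, ⟨u, hu, a1⟩, ⟨w, hw, by rw [a3, a2]⟩, g * g,
      l * l, ?_, ?_⟩
    · rw [map_mul, e, dg_mul]; congr 1; linear_combination x ^ 2 * x4
    · have : l ^ 5 = -1 := by linear_combination -d + l ^ 5 * x ^ 4 * x8 + l ^ 5 * x4
      linear_combination (l ^ 5 - 1) * this

end Cfsg.Agent.L5.M
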