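import Cfsg.Agent.L5.M2

/-!
The case of `M₁₁` in characteristic three: eleven lines are permuted.
-/

set_option autoImplicit false

namespace Cfsg.Agent.L5.M
open Matrix Subgroup L4.R

variable {P k : Type*} [Group P] [Field k] {ρ : P →* M5 k} {U : Subgroup P} {I : k}

/-- A trilinear form. -/
def T0 (v w z : Fin 5 → k) : k :=
  v 4 * w 2 * z 3 + v 4 * w 3 * z 2 + v 2 * w 4 * z 3 + v 3 * w 4 * z 2 + v 2 * w 3 * z 4 +
    v 3 * w 2 * z 4 - v 4 * w 0 * z 0 - v 0 * w 4 * z 0 - v 0 * w 0 * z 4 - v 4 * w 1 * z 1 -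
    v 1 * w 4 * z 1 - v 1 * w 1 * z 4 + v 2 * w 2 * z 0 + v 2 * w 0 * z 2 + v 0 * w 2 * z 2 +
    v 3 * w 3 * z 1 + v 3 * w 1 * z 3 + v 1 * w 3 * z 3

/-- A semilinear map. -/
def Fr (z : Fin 5 → k) : Fin 5 → k := ![z 1 ^ 3, z 0 ^ 3, z 3 ^ 3, z 2 ^ 3, z 4 ^ 3]

theorem T0_uu (h3 : (3 : k) = 0) {a b : k} (ha : a ^ 3 = b) (hb : b ^ 3 = a) (v w z : Fin 5 → k) :
    T0 (uu a b (-a ^ 2) (-b ^ 2) *ᵥ v) (uu a b (-a ^ 2) (-b ^ 2) *ᵥ w)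
      (uu a b (-a ^ 2) (-b ^ 2) *ᵥ z) = T0 v w z := by
  simp only [T0, uu_vec, cons_val_zero, cons_val_one, cons_val]
  grind

theorem Fr_uu [CharP k 3] {a b : k} (ha : a ^ 3 = b) (hb : b ^ 3 = a) (z : Fin 5 → k) :
    Fr (uu a b (-a ^ 2) (-b ^ 2) *ᵥ z) = uu a b (-a ^ 2) (-b ^ 2) *ᵥ Fr z := by
  haveI : Fact (Nat.Prime 3) := ⟨by norm_num⟩
  simp only [Fr, uu_vec, cons_val_zero, cons_val_one, cons_val, add_pow_char, mul_pow, ha, hb]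
  apply v5 <;> grind

theorem T0_dg {l x : k} (h : l ^ 5 * x ^ 4 = 1) (h8 : x ^ 8 = 1) (v w z : Fin 5 → k) :
    T0 (dg l x (x ^ 3) *ᵥ v) (dg l x (x ^ 3) *ᵥ w) (Fr (dg l x (x ^ 3) *ᵥ z)) = T0 v w (Fr z) := by
  simp only [T0, Fr, dg_vec, cons_val_zero, cons_val_one, cons_val]
  grind

theorem T0_sw {l x : k} (h : l ^ 5 * x ^ 4 = 1) (h8 : x ^ 8 = 1) (v w z : Fin 5 → k) :
    T0 (sw l x (x ^ 3) *ᵥ v) (sw l x (x ^ 3) *ᵥ w) (Fr (sw l x (x ^ 3) *ᵥ z)) = T0 v w (Fr z) := by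
  simp only [T0, Fr, sw_vec, cons_val_zero, cons_val_one, cons_val]
  grind

variable (ρ U) in
/-- The degree of a vector. -/
def Dv (n : ℕ) (v : Fin 5 → k) : Prop := ∀ i, Dg U n fun g => (ρ g⁻¹ *ᵥ v) i

theorem dv_step {n : ℕ} {v : Fin 5 → k} (h : ∀ u ∈ U, Dv ρ U n (ρ u *ᵥ v - v)) : Dv ρ U (n + 1) v :=
  fun i u hu => (h u⁻¹ (inv_mem hu) i).congr fun g => by
    simp only [_root_.mul_inv_rev, mul_vec, mulVec_sub, Pi.sub_apply]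

theorem M3.dv1 (c : M3 ρ U) {v : Fin 5 → k} (h : Soc v) : Dv ρ U 1 v :=
  dv_step fun u hu i g => by simp [c.fix hu h]

theorem M3.dv2 (c : M3 ρ U) {v : Fin 5 → k} (h : v 4 = 0) : Dv ρ U 2 v :=
  dv_step fun _ hu => c.dv1 (c.w_soc hu h)

theorem M3.dv3 (c : M3 ρ U) (v : Fin 5 → k) : Dv ρ U 3 v :=
  dv_step fun _ hu => c.dv2 (c.top hu v)

variable (ρ U) in
/-- The invariant form. -/
noncomputable def TT (v w z : Fin 5 → k) : k :=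
  tr (normalizer (U : Set P)) fun g => T0 (ρ g⁻¹ *ᵥ v) (ρ g⁻¹ *ᵥ w) (Fr (ρ g⁻¹ *ᵥ z))

theorem TT_comm (v w z : Fin 5 → k) : TT ρ U v w z = TT ρ U w v z := by
  unfold TT; congr 1; ext g; unfold T0; ring

variable [Finite P]

theorem TT_add (v v' w z : Fin 5 → k) : TT ρ U (v + v') w z = TT ρ U v w z + TT ρ U v' w z := by
  unfold TT; rw [← tr_add]; congr 1; ext g; simp only [T0, mulVec_add, Pi.add_apply]; ring

theorem TT_smul (a b c : k) (v w z : Fin 5 → k) :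
    TT ρ U (a • v) (b • w) (c • z) = a * b * c ^ 3 * TT ρ U v w z := by
  unfold TT; rw [← tr_mul]; congr 1; ext g
  simp only [T0, Fr, mulVec_smul, Pi.smul_apply, smul_eq_mul, cons_val_zero, cons_val_one, cons_val]
  ring

/-- The nine affine points. -/
def sv (s : k) : Fin 5 → k := ![-s ^ 2, -(s ^ 3) ^ 2, s, s ^ 3, 1]

/-- The eleven points. -/
def qt (I : k) : Fin 11 → Fin 5 → k :=
  ![![1 + I, 1 - I, 0, 0, 0], ![1 - I, 1 + I, 0, 0, 0], sv 0, sv I, sv (-I), sv 1, sv (1 + I),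
    sv (1 - I), sv (-1), sv (-1 + I), sv (-1 - I)]

namespace N3
variable [CharP k 3] (h : Hy0 ρ) (c : N3 ρ U I)
include c

omit [Finite P] [CharP k 3] in
theorem eq {u : P} (hu : u ∈ U) : ρ u 2 4 ^ 3 = ρ u 3 4 ∧ ρ u 3 4 ^ 3 = ρ u 2 4 ∧
    ρ u = uu (ρ u 2 4) (ρ u 3 4) (-ρ u 2 4 ^ 2) (-ρ u 3 4 ^ 2) :=
  ⟨(c.fr u hu).1.symm, by rw [(c.fr u hu).1, ← pow_mul, (c.fr u hu).2],
    by rw [← (c.sq u hu).1, ← (c.sq u hu).2, ← c.sh u hu]⟩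

omit [Finite P] in
theorem sv_u {u : P} (hu : u ∈ U) (s : k) : ρ u *ᵥ sv s = sv (s + ρ u 2 4) := by
  haveI : Fact (Nat.Prime 3) := ⟨by norm_num⟩
  have h3 : (3 : k) = 0 := CharP.cast_eq_zero k 3
  rw [c.vec hu, (c.sq u hu).1, (c.sq u hu).2, (c.fr u hu).1]
  simp only [sv, add_pow_char, cons_val_zero, cons_val_one, cons_val]
  apply v5 <;> grind

include h

omit [Finite P] in
theorem inv1 {n : P} (hn : n ∈ normalizer (U : Set P)) (v w z : Fin 5 → k) :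
    T0 (ρ n *ᵥ v) (ρ n *ᵥ w) (Fr (ρ n *ᵥ z)) = T0 v w (Fr z) := by
  obtain ⟨u, hu, g, hg, rfl, l, a, b, e⟩ := c.nn n hn
  obtain ⟨h1, h2, h3⟩ := c.eq hu
  obtain ⟨u1, m, a1⟩ := c.u1
  have b1 : ρ u1 3 4 = 1 := by rw [(c.fr u1 m).1, a1, one_pow]
  have : ∀ x ∈ U, ρ x 2 4 = a → ρ x 3 4 = b → l ^ 5 * (a * b) ^ 3 = 1 →
      b = a ^ 3 ∧ l ^ 5 * a ^ 4 = 1 ∧ a ^ 8 = 1 := fun x hx e1 e2 d => by
    obtain ⟨f1, f2⟩ := c.fr x hx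
    rw [e1] at f1 f2
    rw [e2] at f1
    have a0 : a ≠ 0 := by rintro rfl; simp at d
    have a8 : a ^ 8 = 1 := mul_left_cancel₀ a0 (by linear_combination f2)
    rw [f1] at d
    exact ⟨f1, by linear_combination d - l ^ 5 * a ^ 4 * a8, a8⟩
  simp only [mul_vec]
  rw [h3, Fr_uu h1 h2, T0_uu (CharP.cast_eq_zero k 3) h1 h2]
  rcases e with e | e
  · obtain ⟨d, x, hx, e1, e2⟩ := c.act_dg h.det hg m e
    obtain ⟨rfl, f1, f2⟩ := this x hx (by rw [e1, a1, mul_one]) (by rw [e2, b1, mul_one]) d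
    rw [e, T0_dg f1 f2]
  · obtain ⟨d, x, hx, e1, e2⟩ := c.act_sw h.det hg m e
    obtain ⟨rfl, f1, f2⟩ := this x hx (by rw [e1, b1, mul_one]) (by rw [e2, a1, mul_one]) d
    rw [e, T0_sw f1 f2]

omit [Finite P] in
theorem inv2 (v w z : Fin 5 → k) (g n : P) (hn : n ∈ normalizer (U : Set P)) :
    T0 (ρ (g * n)⁻¹ *ᵥ v) (ρ (g * n)⁻¹ *ᵥ w) (Fr (ρ (g * n)⁻¹ *ᵥ z)) =
      T0 (ρ g⁻¹ *ᵥ v) (ρ g⁻¹ *ᵥ w) (Fr (ρ g⁻¹ *ᵥ z)) := by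
  simp only [_root_.mul_inv_rev, mul_vec, c.inv1 h (inv_mem hn)]

omit [Finite P] in
theorem inv (g : P) (v w z : Fin 5 → k) :
    TT ρ U (ρ g *ᵥ v) (ρ g *ᵥ w) (ρ g *ᵥ z) = TT ρ U v w z := by
  refine .trans ?_ (tr_left (c.inv2 h v w z) g⁻¹)
  simp only [TT, _root_.mul_inv_rev, inv_inv, mul_vec]

theorem low {a b d : ℕ} {v w z : Fin 5 → k} (hv : Dv ρ U (a + 1) v) (hw : Dv ρ U (b + 1) w)
    (hz : Dv ρ U (d + 1) z) (e : a + b + d ≤ 3) : TT ρ U v w z = T0 v w (Fr z) := by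
  haveI : Fact (Nat.Prime 3) := ⟨by norm_num⟩
  have hz' : ∀ i, Dg U (d + 1) fun g => Fr (ρ g⁻¹ *ᵥ z) i := fun i => by
    fin_cases i
    exacts [(hz 1).frob 3 1, (hz 0).frob 3 1, (hz 3).frob 3 1, (hz 2).frob 3 1, (hz 4).frob 3 1]
  have m : ∀ i j l, Dg U 4 fun g => (ρ g⁻¹ *ᵥ v) i * (ρ g⁻¹ *ᵥ w) j * Fr (ρ g⁻¹ *ᵥ z) l :=
    fun i j l => (((hv i).mul (hw j)).mul (hz' l)).mono (by omega)
  refine (c.tt' h.inj (c.inv2 h v w z) ?_).trans (by simp)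
  unfold T0
  repeat' first | exact m _ _ _ | apply Dg.add | apply Dg.sub

theorem eig {g : P} {v w z : Fin 5 → k} {a b d : k} (hv : ρ g *ᵥ v = a • v) (hw : ρ g *ᵥ w = b • w)
    (hz : ρ g *ᵥ z = d • z) (e : a * b * d ^ 3 ≠ 1) : TT ρ U v w z = 0 := by
  have := c.inv h g v w z
  rw [hv, hw, hz, TT_smul] at this
  exact mul_left_cancel₀ (sub_ne_zero.2 e) (by linear_combination this)

theorem zeq : ∃ p q : k, ∀ w : Fin 5 → k, (∀ z, TT ρ U w w z = 0) → w 4 = 1 →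
    w 0 = -w 2 ^ 2 ∧ w 1 = -w 3 ^ 2 ∧ w 2 * p = w 3 ^ 3 ∧ w 3 * q = w 2 ^ 3 := by
  have h3 : (3 : k) = 0 := CharP.cast_eq_zero k 3
  have sI := c.sI
  obtain ⟨g, l, e, hl⟩ := c.hh
  have e0 : ρ g *ᵥ ![1, 0, 0, 0, 0] = (l * I ^ 2) • ![1, 0, 0, 0, 0] := by simp [e, dg_vec]
  have e1 : ρ g *ᵥ ![0, 1, 0, 0, 0] = (l * I ^ 2) • ![0, 1, 0, 0, 0] := by simp [e, dg_vec]
  have e2 : ρ g *ᵥ ![0, 0, 1, 0, 0] = (l * I) • ![0, 0, 1, 0, 0] := by simp [e, dg_vec]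
  have e3 : ρ g *ᵥ ![0, 0, 0, 1, 0] = (l * -I) • ![0, 0, 0, 1, 0] := by simp [e, dg_vec]
  have e4 : ρ g *ᵥ ![0, 0, 0, 0, 1] = l • ![0, 0, 0, 0, 1] := by simp [e, dg_vec]
  refine ⟨TT ρ U ![0, 0, 1, 0, 0] ![0, 0, 0, 0, 1] ![0, 0, 1, 0, 0],
    TT ρ U ![0, 0, 0, 1, 0] ![0, 0, 0, 0, 1] ![0, 0, 0, 1, 0], fun w hw w4 => ?_⟩
  have k1 : ∀ z, TT ρ U ![w 0, w 1, w 2, w 3, 0] ![w 0, w 1, w 2, w 3, 0] z +
      2 * TT ρ U ![w 0, w 1, w 2, w 3, 0] ![0, 0, 0, 0, 1] z +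
      TT ρ U ![0, 0, 0, 0, 1] ![0, 0, 0, 0, 1] z = 0 := fun z => by
    have := hw z
    rw [show w = ![w 0, w 1, w 2, w 3, 0] + ![0, 0, 0, 0, 1] by rw [eta5 w]; simp [w4], TT_add,
      TT_comm, TT_add, TT_comm ![0, 0, 0, 0, 1] (_ + _), TT_add, TT_comm ![0, 0, 0, 0, 1]] at this
    linear_combination this
  have k2 : ∀ z, TT ρ U ![w 0, w 1, w 2, w 3, 0] ![0, 0, 0, 0, 1] z =
      TT ρ U ![w 0, w 1, 0, 0, 0] ![0, 0, 0, 0, 1] z +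
      w 2 * TT ρ U ![0, 0, 1, 0, 0] ![0, 0, 0, 0, 1] z +
      w 3 * TT ρ U ![0, 0, 0, 1, 0] ![0, 0, 0, 0, 1] z := fun z => by
    have := fun a v => TT_smul (ρ := ρ) (U := U) a 1 1 v ![0, 0, 0, 0, 1] z
    simp only [one_smul, one_pow, mul_one] at this
    rw [← this, ← this, ← TT_add, ← TT_add]
    congr 1; simp
  have d2 : Dv ρ U 2 ![w 0, w 1, w 2, w 3, 0] := c.dv2 rfl
  have d1 : Dv ρ U 1 ![w 0, w 1, 0, 0, 0] := c.dv1 ⟨rfl, rfl, rfl⟩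
  have a0 := k1 ![1, 0, 0, 0, 0]
  have a1 := k1 ![0, 1, 0, 0, 0]
  have a2 := k1 ![0, 0, 1, 0, 0]
  have a3 := k1 ![0, 0, 0, 1, 0]
  rw [c.low h d2 d2 (c.dv1 ⟨rfl, rfl, rfl⟩) (by omega), c.low h d2 (c.dv3 _) (c.dv1 ⟨rfl, rfl, rfl⟩)
    (by omega)] at a0 a1
  rw [c.low h d2 d2 (c.dv2 rfl) (by omega), k2, c.low h d1 (c.dv3 _) (c.dv2 rfl) (by omega)] at a2 a3
  rw [c.eig h e4 e4 e0 (by grind)] at a0
  rw [c.eig h e4 e4 e1 (by grind)] at a1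
  rw [c.eig h e4 e4 e2 (by grind), c.eig h e3 e4 e2 (by grind)] at a2
  rw [c.eig h e4 e4 e3 (by grind), c.eig h e2 e4 e3 (by grind)] at a3
  simp only [T0, Fr, cons_val_zero, cons_val_one, cons_val] at a0 a1 a2 a3
  grind

theorem lines (g : P) (n : Fin 11) : ∃ (m : Fin 11) (a : k), ρ g *ᵥ qt I n = a • qt I m := by
  haveI : Fact (Nat.Prime 3) := ⟨by norm_num⟩
  have h3 : (3 : k) = 0 := CharP.cast_eq_zero k 3
  have sI := c.sI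
  obtain ⟨p, q, hz⟩ := c.zeq h
  have zg : ∀ g w, (∀ z, TT ρ U w w z = 0) → ∀ z, TT ρ U (ρ g *ᵥ w) (ρ g *ᵥ w) z = 0 :=
    fun g w hw z => by rw [← vec_inv (ρ := ρ) g z, c.inv h, hw]
  have zs : ∀ (a : k) w, (∀ z, TT ρ U w w z = 0) → ∀ z, TT ρ U (a • w) (a • w) z = 0 :=
    fun a w hw z => by rw [← one_smul k z, TT_smul, hw, mul_zero]
  have z0 : ∀ w, Soc w → ∀ z, TT ρ U w w z = -(w 0 ^ 2 + w 1 ^ 2) * z 4 ^ 3 := fun w hw z => by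
    rw [c.low h (c.dv1 hw) (c.dv1 hw) (c.dv3 z) (by omega)]
    simp only [T0, Fr, hw.1, hw.2.1, hw.2.2, cons_val_zero, cons_val_one, cons_val]
    ring
  have q0 : ∀ z, TT ρ U (qt I 0) (qt I 0) z = 0 := fun z => by
    rw [z0 _ ⟨rfl, rfl, rfl⟩]; simp only [qt, cons_val_zero, cons_val_one]; grind
  have q1 : ∀ z, TT ρ U (qt I 1) (qt I 1) z = 0 := fun z => by
    rw [z0 _ ⟨rfl, rfl, rfl⟩]; simp only [qt, cons_val_zero, cons_val_one]; grind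
  obtain ⟨w, hw, w4⟩ : ∃ w : Fin 5 → k, (∀ z, TT ρ U w w z = 0) ∧ w 4 = 1 := by
    obtain ⟨g, hg⟩ : ∃ g, (ρ g *ᵥ qt I 0) 4 ≠ 0 := by
      by_contra hc
      push Not at hc
      simpa using van h.irr (fun φ g => (ρ g *ᵥ φ) 4) (fun _ _ _ => by simp [mulVec_add])
        (fun _ _ _ => by simp [mulVec_smul]) (fun g φ i => ⟨i * g, by rw [mul_vec]⟩)
        (fun e => by
          have e0 : 1 + I = 0 := congrFun e 0
          grind) hc ![0, 0, 0, 0, 1] 1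
    exact ⟨_, zs ((ρ g *ᵥ qt I 0) 4)⁻¹ _ (zg g _ q0), inv_mul_cancel₀ hg⟩
  obtain ⟨u1, m1, a1⟩ := c.u1
  obtain ⟨u2, m2, a2⟩ := c.u2
  obtain ⟨rfl, rfl⟩ : p = 1 ∧ q = 1 := by
    obtain ⟨-, -, e1, e2⟩ := hz w hw w4
    obtain ⟨-, -, f1, f2⟩ := hz _ (zg u1 w hw) (by simp [c.vec m1, w4])
    simp only [c.vec m1, (c.fr u1 m1).1, a1, w4, add_pow_char, cons_val] at f1 f2
    grind
  have za : ∀ w : Fin 5 → k, (∀ z, TT ρ U w w z = 0) → w 4 = 1 → ∃ m, 2 ≤ m ∧ w = qt I m :=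
    fun w hw w4 => by
      obtain ⟨e0, e1, e2, e3⟩ := hz w hw w4
      have e : w = sv (w 2) := (eta5 w).trans (by rw [e0, e1, w4, sv, ← e3, mul_one])
      have : (w 2 - 0) * (w 2 - I) * (w 2 - -I) * (w 2 - 1) * (w 2 - (1 + I)) * (w 2 - (1 - I)) *
        (w 2 - -1) * (w 2 - (-1 + I)) * (w 2 - (-1 - I)) = 0 := by grind
      simp only [mul_eq_zero, sub_eq_zero, or_assoc] at this
      rcases this with a | a | a | a | a | a | a | a | a <;> rw [a] at e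
      exacts [⟨2, by decide, e⟩, ⟨3, by decide, e⟩, ⟨4, by decide, e⟩, ⟨5, by decide, e⟩,
        ⟨6, by decide, e⟩, ⟨7, by decide, e⟩, ⟨8, by decide, e⟩, ⟨9, by decide, e⟩, ⟨10, by decide, e⟩]
  have qu : ∀ m, 2 ≤ m → ∃ u ∈ U, qt I m = ρ u *ᵥ sv 0 := fun m hm => by
    have S : ∀ u ∈ U, ∀ s, ρ u 2 4 = s → ∃ u ∈ U, sv s = ρ u *ᵥ sv 0 := fun u hu s e =>
      ⟨u, hu, by rw [c.sv_u hu, zero_add, e]⟩
    have n1 := (c.neg m1).1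
    have n2 := (c.neg m2).1
    fin_cases m
    · simp at hm
    · simp at hm
    · exact S 1 (one_mem _) _ (by simp)
    · exact S _ m2 _ a2
    · exact S _ (inv_mem m2) _ (by rw [n2, a2])
    · exact S _ m1 _ a1
    · exact S _ (mul_mem m1 m2) _ (by rw [(c.add m1 m2).1, a1, a2])
    · exact S _ (mul_mem m1 (inv_mem m2)) _ (by rw [(c.add m1 (inv_mem m2)).1, n2, a1, a2]; ring)
    · exact S _ (inv_mem m1) _ (by rw [n1, a1])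
    · exact S _ (mul_mem (inv_mem m1) m2) _ (by rw [(c.add (inv_mem m1) m2).1, n1, a1, a2])
    · exact S _ (mul_mem (inv_mem m1) (inv_mem m2)) _
        (by rw [(c.add (inv_mem m1) (inv_mem m2)).1, n1, n2, a1, a2]; ring)
  have qz : ∀ z, TT ρ U (qt I n) (qt I n) z = 0 := by
    rcases (by decide : ∀ a : Fin 11, a = 0 ∨ a = 1 ∨ 2 ≤ a) n with rfl | rfl | hn
    · exact q0
    · exact q1
    obtain ⟨m, hm, e⟩ := za w hw w4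
    obtain ⟨u, -, e'⟩ := qu m hm
    obtain ⟨v, -, e''⟩ := qu n hn
    rw [e'']
    refine zg _ _ ?_
    rw [← inv_vec (ρ := ρ) u (sv 0), ← e', ← e]
    exact zg _ _ hw
  have hv := zg g _ qz
  generalize ρ g *ᵥ qt I n = v at hv
  by_cases v4 : v 4 = 0
  · have f := fun z hz => (c.low h (c.dv2 v4) (c.dv2 v4) (c.dv1 (v := z) hz) (by omega)).symm.trans (hv z)
    have f0 := f ![1, 0, 0, 0, 0] ⟨rfl, rfl, rfl⟩
    have f1 := f ![0, 1, 0, 0, 0] ⟨rfl, rfl, rfl⟩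
    simp [T0, Fr, v4] at f0 f1
    have f2 := (z0 v ⟨f1, f0, v4⟩ ![0, 0, 0, 0, 1]).symm.trans (hv _)
    simp only [cons_val] at f2
    rcases mul_eq_zero.1 (show (v 1 + I * v 0) * (v 1 - I * v 0) = 0 by grind) with e | e
    · refine ⟨0, v 0 * (I - 1), (eta5 v).trans ?_⟩
      simp only [qt, cons_val_zero, smul_cons, smul_empty, smul_eq_mul]
      apply v5 <;> grind
    · refine ⟨1, -v 0 * (I + 1), (eta5 v).trans ?_⟩
      simp only [qt, cons_val_zero, cons_val_one, smul_cons, smul_empty, smul_eq_mul]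
      apply v5 <;> grind
  · obtain ⟨m, -, e⟩ := za _ (zs (v 4)⁻¹ v hv) (inv_mul_cancel₀ v4)
    exact ⟨m, v 4, by rw [← e, smul_inv_smul₀ v4]⟩

end N3

end Cfsg.Agent.L5.M
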