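import Cfsg.Agent.L5.Tr1

/-!
Generators and automorphisms of `L₂(11)`; the ternary Golay code.
-/

set_option autoImplicit false
set_option maxRecDepth 100000

namespace Cfsg.Agent.L5.NM

open Matrix Subgroup Cfsg.Agent.L5.K Cfsg.Agent.L5.Tr Cfsg.Agent.L4.GA

/-- A generator of order eleven. -/
def xz : Sz := mk !![1, 1; 0, 1] (by decide +kernel)

/-- A generator of order four. -/
def tz : Sz := mk !![0, 10; 1, 0] (by decide +kernel)

/-- An element of order three modulo the centre. -/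
def cz : Sz := mk !![2, 4; 1, 8] (by decide +kernel)

/-- A diagonal element. -/
def yz : Sz := mk !![2, 0; 0, 6] (by decide +kernel)

/-- Three auxiliary elements. -/
def nz : Fin 3 → Sz := ![mk !![1, 3; 3, 10] (by decide +kernel), mk !![0, 5; 2, 2] (by decide +kernel),
  mk !![0, 1; 10, 3] (by decide +kernel)]

/-- Words in two generators. -/
def ev (l : List Bool) : Sz := (l.map fun b => bif b then tz else cz).prod

/-- The action on the cosets of a subgroup of index eleven. -/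
def wd : Fin 11 → ℕ × List Bool := ![(0, [true]), (1, [false, true, false, false]),
  (10, [true, false, true, false, false]), (7, [false, false, true, false, true, false, false]),
  (4, [true, false, false, true, false, true, false, false, true, false, true]),
  (6, [true, false, false, true, false, true, false]),
  (5, [true, false, true, false, true, false, false, true]),
  (3, [false, true, false, false, true, false]), (9, [false]), (8, [false, false]),
  (2, [false, true, false, false, true])]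

theorem facts : (∀ i : Fin 11, pm (tz * xz ^ i.1).1 (xz ^ (wd i).1 * ev (wd i).2).1) ∧
    xz ^ 11 = 1 ∧ pm (tz * tz).1 (1 : Sz).1 ∧ pm (cz ^ 3).1 (1 : Sz).1 ∧
    pm ((tz * cz) ^ 5).1 (1 : Sz).1 ∧ pm (yz ^ 5).1 (1 : Sz).1 ∧ xz * yz = yz * xz ^ 3 ∧
    pm ((tz * xz) ^ 3).1 (1 : Sz).1 ∧ pm (tz * nz 0).1 (nz 0 * tz).1 ∧
    pm (nz 1 * tz).1 (nz 0 * nz 1).1 ∧ pm (nz 2 * tz).1 (tz * nz 0 * nz 2).1 ∧
    tz * xz ≠ xz * tz ∧ xz * (tz * cz) ≠ tz * cz * xz := by decide +kernel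

theorem gen (Q : Sz → Prop) (hm : ∀ a b, Q a → Q b → Q (a * b)) (ht : Q tz) (hx : Q xz) (y : Sz) :
    Q y := by
  have k : ∀ n : ℕ, Q (xz ^ n) := fun n => by
    induction n with
    | zero => convert hm _ _ (hm _ _ ht ht) (hm _ _ ht ht) using 1; decide +kernel
    | succ n ih => exact pow_succ xz n ▸ hm _ _ ih hx
  have := Fact.mk (show Nat.Prime 11 by norm_num)
  have e : ∀ (i j : Fin 2) (h : i ≠ j) (c : ZMod 11), ∃ n : Fin 11,
      Matrix.SpecialLinearGroup.transvection h c = xz ^ n.1 ∨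
      Matrix.SpecialLinearGroup.transvection h c = tz * xz ^ n.1 * tz * tz * tz := by decide +kernel
  refine Matrix.SL2.transvection_induction Q (fun i j h c => ?_) hm y
  obtain ⟨n, e | e⟩ := e i j h c <;> rw [e]
  exacts [k _, hm _ _ (hm _ _ (hm _ _ (hm _ _ ht (k _)) ht) ht) ht]

theorem pm_of {A : Sz} (h : A ∈ center Sz) : pm A.1 1 := by
  have := Fact.mk (show Nat.Prime 11 by norm_num)
  obtain ⟨r, h1, h2⟩ := Matrix.SpecialLinearGroup.mem_center_iff.1 h
  rw [← h2]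
  rcases sq_eq_one_iff.1 (show r ^ 2 = 1 by simpa using h1) with rfl | rfl
  exacts [.inl (map_one _), .inr (by rw [map_neg, map_one])]

theorem uni0 : ∀ a b c d : ZMod 11, a * d - b * c = 1 → (a + d) ^ 2 = 4 → pm !![a, b; c, d] 1 ∨
    ∃ B : Mz, (∃ l q, B = !![l, 0; 0, q] ∨ B = !![l * (a - d), q; 2 * l * c, 0]) ∧ B.det = 1 ∧
      (pm (!![a, b; c, d] * B) (B * xz.1) ∨ pm (!![a, b; c, d] * B) (B * (xz ^ 10).1)) := by
  have : ∀ a b c d : ZMod 11, a * d - b * c = 1 → (a + d) ^ 2 = 4 → pm !![a, b; c, d] 1 ∨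
      ∃ l q, l * q = 1 ∧ (pm (!![a, b; c, d] * !![l, 0; 0, q]) (!![l, 0; 0, q] * xz.1) ∨
        pm (!![a, b; c, d] * !![l, 0; 0, q]) (!![l, 0; 0, q] * (xz ^ 10).1)) ∨
      -(q * (2 * l * c)) = 1 ∧
        (pm (!![a, b; c, d] * !![l * (a - d), q; 2 * l * c, 0]) (!![l * (a - d), q; 2 * l * c, 0] * xz.1) ∨
        pm (!![a, b; c, d] * !![l * (a - d), q; 2 * l * c, 0])
          (!![l * (a - d), q; 2 * l * c, 0] * (xz ^ 10).1)) := by decide +kernel
  intro a b c d h1 h2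
  refine (this a b c d h1 h2).imp_right ?_
  rintro ⟨l, q, ⟨h3, h4⟩ | ⟨h3, h4⟩⟩
  exacts [⟨_, ⟨l, q, .inl rfl⟩, by simp [h3], h4⟩, ⟨_, ⟨l, q, .inr rfl⟩, by simp [h3], h4⟩]

theorem inv0 : ∀ a b c d : ZMod 11, a * d - b * c = 1 → pm (!![a, b; c, d] * !![a, b; c, d]) 1 →
    pm ((!![a, b; c, d] * xz.1) ^ 3) 1 →
    ∃ i : Fin 11, pm (!![a, b; c, d] * (xz ^ i.1).1) (xz ^ i.1 * tz).1 := by decide +kernel

variable {P : Type*} [Group P] {ψ : Sz →* P} (h : ψ (-1) = 1) (hk : ∀ A, ψ A = 1 → A ∈ center Sz)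
  (s : Function.Surjective ψ)
include h hk s

theorem uni {g : P} (h1 : g ^ 11 = 1) (h2 : g ≠ 1) :
    ∃ b, g * b = b * ψ xz ∨ g * b = b * (ψ xz)⁻¹ := by
  obtain ⟨A, rfl⟩ := s g
  have := Fact.mk (show Nat.Prime 11 by norm_num)
  have t : (A.1 ^ 11).trace = A.1.trace := by rw [trace_pow_char, ZMod.pow_card]
  have := uni0 (A 0 0) (A 0 1) (A 1 0) (A 1 1) (by rw [← det_fin_two]; exact A.2) (by
    rw [← trace_fin_two, ← t]
    rcases pm_of (hk (A ^ 11) (by rw [map_pow, h1])) with e | e <;>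
      rw [show A.1 ^ 11 = _ from e] <;> simp <;> norm_num)
  rw [← eta_fin_two A.1] at this
  rcases this with e | ⟨B, -, d, e⟩
  · exact absurd ((pm.eq h (B := 1) e).trans (map_one ψ)) h2
  refine ⟨ψ (mk B d), e.imp (fun e => ?_) fun e => ?_⟩
  · rw [← map_mul, ← map_mul]; exact pm.eq h e
  · rw [← map_inv, inv_eq_of_mul_eq_one_right (show xz * xz ^ 10 = 1 by
      rw [← pow_succ', facts.2.1]), ← map_mul, ← map_mul]
    exact pm.eq h e

theorem exp330 (g : P) : g ^ 330 = 1 := by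
  obtain ⟨A, rfl⟩ := s g
  rcases cls h hk A with ⟨e, -⟩ | ⟨-, e | ⟨e, -⟩⟩
  · rw [show 330 = 11 * 30 from rfl, pow_mul, e, one_pow]
  · rw [show 330 = 6 * 55 from rfl, pow_mul, e, one_pow]
  · rw [show 330 = 5 * 66 from rfl, pow_mul, e, one_pow]

theorem inner {k : Type*} [Field k] {ρ : P →* M5 k} (n : ∃ g, (ρ g⁻¹).trace ≠ (ρ g).trace)
    (φ : P ≃* P) (t : ∀ g, (ρ (φ g)).trace = (ρ g).trace) : ∃ b, ∀ g, φ g * b = b * g := by
  have one : ∀ {A : Sz}, pm A.1 (1 : Sz).1 → ψ A = 1 := fun e => (pm.eq h e).trans (map_one ψ)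
  obtain ⟨-, f1, f2, -, -, -, -, f3, -, -, -, f4, -⟩ := facts
  have x11 : ψ xz ^ 11 = 1 := by rw [← map_pow, f1, map_one]
  have nr : (ρ (ψ xz)⁻¹).trace ≠ (ρ (ψ xz)).trace := fun e => by
    obtain ⟨g, hg⟩ := n
    obtain ⟨A, rfl⟩ := s g
    rcases cls h hk A with ⟨e', -⟩ | ⟨⟨b, e'⟩, -⟩
    · obtain ⟨b, f | f⟩ := uni h hk s e' fun f => hg (by rw [f, inv_one])
      · rw [tr_conj f.symm, tr_conj (SemiconjBy.inv_right f.symm)] at hg
        exact hg e
      · rw [tr_conj f.symm, tr_conj (SemiconjBy.inv_right f.symm), inv_inv] at hg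
        exact hg e.symm
    · exact hg (tr_conj e')
  obtain ⟨b, e | e⟩ := uni h hk s (g := φ (ψ xz)) (by rw [← map_pow, x11, map_one]) fun e =>
    f4 (mem_center_iff.1 (hk _ (φ.map_eq_one_iff.1 e)) _)
  swap
  · exact absurd ((tr_conj e.symm).symm.trans (t _)) nr
  obtain ⟨A, hA⟩ := s (b⁻¹ * φ (ψ tz) * b)
  have := inv0 (A 0 0) (A 0 1) (A 1 0) (A 1 1) (by rw [← det_fin_two]; exact A.2)
  rw [← eta_fin_two A.1] at this
  obtain ⟨i, hi⟩ := this (pm_of (hk (A * A) (by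
      rw [map_mul, hA, mul_assoc, mul_assoc, mul_assoc, mul_inv_cancel_left, ← mul_assoc (φ _),
        ← map_mul, ← map_mul, one f2]; simp)))
    (pm_of (hk ((A * xz) ^ 3) (by
      rw [map_pow, map_mul, hA, mul_assoc, ← e, ← mul_assoc, mul_assoc b⁻¹, ← map_mul, ← map_mul,
        ← inv_inv b, inv_inv b⁻¹, conj_pow, ← map_pow, ← map_pow, one f3]; simp)))
  have hi := pm.eq h (A := A * xz ^ i.1) hi
  simp only [map_mul, map_pow, hA] at hi
  refine ⟨b * ψ xz ^ i.1, fun g => ?_⟩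
  obtain ⟨B, rfl⟩ := s g
  refine gen (fun B => φ (ψ B) * (b * ψ xz ^ i.1) = b * ψ xz ^ i.1 * ψ B) (fun a c ha hc => ?_)
    ?_ ?_ B
  · rw [map_mul, map_mul, mul_assoc, hc, ← mul_assoc, ha, mul_assoc]
  · rw [mul_assoc, ← hi]; group
  · rw [← mul_assoc, e]; group

end Cfsg.Agent.L5.NM
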