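import Cfsg.Agent.L5.K0

/-!
A fixed vector of the group generated by an involution and an element of order three.
-/

set_option autoImplicit false

namespace Cfsg.Agent.L5.NM

open Matrix Module Cfsg.Agent.L5.K

variable {F : Type*} [Field F]

/-- The vectors negated by a matrix. -/
def ng (S : M5 F) : Submodule F (Fin 5 → F) := LinearMap.ker (S + 1).mulVecLin

theorem mem_ng {S : M5 F} {v : Fin 5 → F} : v ∈ ng S ↔ S *ᵥ v = -v := by
  simp [ng, add_eq_zero_iff_eq_neg]

theorem two_zero (h2 : (2 : F) ≠ 0) {v : Fin 5 → F} (e : v = -v) : v = 0 := by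
  have : (2 : F) • v = 0 := by rw [two_smul]; exact add_eq_zero_iff_eq_neg.2 e
  simpa [h2] using this

theorem four (h2 : (2 : F) ≠ 0) {A B C : M5 F} (a : A * A = 1) (e : A * B = C) (e' : C * A = B)
    (e'' : A * C = B) : finrank F (ng C) = finrank F ↥(ng C ⊓ ng A) + finrank F ↥(ng B ⊓ ng C) ∧
      finrank F ↥(ng A ⊓ ng B) + finrank F (ng C) ≤ 5 := by
  have z : ∀ v, v ∈ ng A → v ∈ ng B → v ∈ ng C → v = 0 := fun v h1 h3 h4 => by
    rw [mem_ng] at h1 h3 h4
    rw [← e, ← mulVec_mulVec, h3, mulVec_neg, h1, neg_neg] at h4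
    exact two_zero h2 h4
  constructor
  · have := Submodule.finrank_sup_add_finrank_inf_eq (ng C ⊓ ng A) (ng B ⊓ ng C)
    rw [show ng C ⊓ ng A ⊓ (ng B ⊓ ng C) = ⊥ from eq_bot_iff.2 fun v h => z v h.1.2 h.2.1 h.1.1,
      finrank_bot, le_antisymm (show ng C ⊓ ng A ⊔ ng B ⊓ ng C ≤ ng C from
        sup_le inf_le_left inf_le_right) fun v h => ?_] at this
    · exact this
    have h := mem_ng.1 h
    have c : C *ᵥ A *ᵥ v = -(A *ᵥ v) := by
      rw [mulVec_mulVec, e', ← e'', ← mulVec_mulVec, h, mulVec_neg]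
    have a' : A *ᵥ A *ᵥ v = v := by rw [mulVec_mulVec, a, one_mulVec]
    rw [show v = (2 : F)⁻¹ • ((v - A *ᵥ v) + (v + A *ᵥ v)) by
      rw [sub_add_add_cancel, ← two_smul F, smul_smul, inv_mul_cancel₀ h2, one_smul]]
    refine Submodule.smul_mem _ _ (Submodule.add_mem_sup ⟨mem_ng.2 ?_, mem_ng.2 ?_⟩
      ⟨mem_ng.2 ?_, mem_ng.2 ?_⟩)
    · rw [mulVec_sub, h, c]; abel
    · rw [mulVec_sub, a', neg_sub]
    · rw [← e'', ← mulVec_mulVec, mulVec_add, h, c, mulVec_add, mulVec_neg, mulVec_neg, a']; abel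
    · rw [mulVec_add, h, c]; abel
  · have := Submodule.finrank_sup_add_finrank_inf_eq (ng A ⊓ ng B) (ng C)
    rw [show ng A ⊓ ng B ⊓ ng C = ⊥ from eq_bot_iff.2 fun v h => z v h.1.1 h.1.2 h.2,
      finrank_bot] at this
    have := Submodule.finrank_le (ng A ⊓ ng B ⊔ ng C)
    rw [finrank_fin_fun] at this
    omega

theorem ng_conj {A B N N' : M5 F} (n : N' * N = 1) (e : N * A = B * N) :
    finrank F (ng A) ≤ finrank F (ng B) :=
  LinearMap.finrank_le_finrank_of_injective (f := N.mulVecLin.restrict (p := ng A) (q := ng B)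
    fun v h => mem_ng.2 (by
      rw [mulVecLin_apply, mulVec_mulVec, ← e, ← mulVec_mulVec, mem_ng.1 h, mulVec_neg]))
    fun x y h => Subtype.ext (by simpa [n] using congrArg (fun z : ng B => N' *ᵥ z.1) h)

theorem ng_two (h2 : (2 : F) ≠ 0) {A B : M5 F} (a : A * A = 1) (b : B * B = 1) (c : A * B = B * A)
    (e1 : finrank F (ng A) = finrank F (ng B)) (e2 : finrank F (ng A) = finrank F (ng (A * B))) :
    finrank F (ng A) ≤ 2 := by
  have l : A * (A * B) = B := by rw [← mul_assoc, a, one_mul]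
  have r : A * B * B = A := by rw [mul_assoc, b, mul_one]
  have h1 := four h2 a rfl (c ▸ by rw [mul_assoc, a, mul_one]) l
  have h3 := four h2 b (C := A) (B := A * B) (by rw [← mul_assoc, ← c, r]) rfl c.symm
  have h4 := four h2 (A := A * B) (B := A) (C := B) (by rw [mul_assoc, ← mul_assoc B, ← c, r, a])
    (c ▸ by rw [mul_assoc, a, mul_one]) (by rw [← mul_assoc, ← c, r]) r
  omega

theorem rank_three {N : M5 F} (h : N * N * N = 0) : finrank F (LinearMap.range N.mulVecLin) ≤ 3 := by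
  have h1 := rank_add_rank_le_card_of_mul_eq_zero h
  have h2 := (N.mulVecLin.domRestrict (LinearMap.range N.mulVecLin)).finrank_range_add_finrank_ker
  have h3 := N.mulVecLin.finrank_range_add_finrank_ker
  have h4 := Submodule.finrank_mono
    (Submodule.map_comap_le (LinearMap.range N.mulVecLin).subtype (LinearMap.ker N.mulVecLin))
  rw [Submodule.finrank_map_subtype_eq, ← LinearMap.ker_domRestrict] at h4
  rw [LinearMap.range_domRestrict, ← LinearMap.range_comp, ← mulVecLin_mul] at h2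
  simp only [Matrix.rank, Fintype.card_fin, finrank_fin_fun] at h1 h3
  omega

theorem scott {S C : M5 F} (a : S * S = 1) (h1 : finrank F (ng S) ≤ 2)
    (h : (C - 1) * (C - 1) * (C - 1) = 0) {y : Fin 5 → F} (y0 : y ≠ 0) (e : (S * C) *ᵥ y = y) :
    ∃ w : Fin 5 → F, w ≠ 0 ∧ (S *ᵥ w = w ∧ C *ᵥ w = w ∨ w ᵥ* S = w ∧ w ᵥ* C = w) := by
  have h2 := rank_three h
  have m : ∀ v, S *ᵥ v - v ∈ ng S := fun v => mem_ng.2 (by
    rw [mulVec_sub, mulVec_mulVec, a, one_mulVec, neg_sub])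
  by_cases t : ng S ⊔ LinearMap.range (C - 1).mulVecLin = ⊤
  · have := Submodule.finrank_sup_add_finrank_inf_eq (ng S) (LinearMap.range (C - 1).mulVecLin)
    rw [t, finrank_top, finrank_fin_fun] at this
    have b := Submodule.finrank_eq_zero.1
      (show finrank F ↥(ng S ⊓ LinearMap.range (C - 1).mulVecLin) = 0 by omega)
    have e' : C *ᵥ y = S *ᵥ y := by
      conv_rhs => rw [← e, mulVec_mulVec, ← mul_assoc, a, one_mul]
    have := sub_eq_zero.1 (b.le (Submodule.mem_inf.2 ⟨m y, y, by simp [e']⟩))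
    exact ⟨y, y0, .inl ⟨this, e'.trans this⟩⟩
  obtain ⟨f, f0, hf⟩ := Submodule.exists_le_ker_of_lt_top _ (lt_top_iff_ne_top.2 t)
  have h1 : ∀ x, f x = (fun i => f (Pi.single i 1)) ⬝ᵥ x := fun x => by
    rw [LinearMap.pi_apply_eq_sum_univ, dotProduct_comm]
    exact Finset.sum_congr rfl fun i _ => by congr 2; ext j; simp [Pi.single_apply, eq_comm]
  refine ⟨fun i => f (Pi.single i 1), fun e => f0 (LinearMap.ext fun x => by rw [h1, e]; simp),
    .inr ⟨?_, ?_⟩⟩ <;> refine sub_eq_zero.1 (dotProduct_eq_zero _ fun v => ?_) <;>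
    rw [sub_dotProduct, ← dotProduct_mulVec, ← dotProduct_sub, ← h1]
  exacts [hf (Submodule.mem_sup_left (m v)),
    hf (Submodule.mem_sup_right ⟨v, by simp⟩)]

theorem fix5 {Y : M5 F} (h5 : (5 : F) ≠ 0) (e : Y ^ 5 = 1)
    (t : ∀ i : Fin 4, (Y ^ (i.1 + 1)).trace = 0) : ∃ y : Fin 5 → F, y ≠ 0 ∧ Y *ᵥ y = y := by
  by_contra! c
  have : 1 + Y + Y ^ 2 + Y ^ 3 + Y ^ 4 = 0 := mat_ext fun v => by
    by_contra h
    refine c _ (zero_mulVec (α := F) v ▸ h) ?_
    rw [mulVec_mulVec]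
    congr 1
    simp only [mul_add, mul_one, ← pow_succ', ← sq, e]
    abel
  have t1 : Y.trace = 0 := by simpa using t 0
  have t2 : (Y ^ 2).trace = 0 := t 1
  have t3 : (Y ^ 3).trace = 0 := t 2
  have t4 : (Y ^ 4).trace = 0 := t 3
  have := congrArg trace this
  simp [t1, t2, t3, t4, h5] at this

end Cfsg.Agent.L5.NM
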