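import Cfsg.Agent.L5.R42

/-!
Jordan blocks `4, 1` do not occur when the Sylow subgroup is not cyclic.
-/

set_option autoImplicit false
set_option linter.unusedSectionVars false

namespace Cfsg.Agent.L5.R
open Finset Matrix
open Subgroup (normalizer)

variable {P k : Type*} [Group P] [Field k] {ρ : P →* M5 k} {U H : Subgroup P} {p r : ℕ}

theorem jordan41 {N : M5 k} (h4 : N ^ 4 = 0) (h3 : N ^ 3 ≠ 0) :
    ∃ B B' : M5 k, B * B' = 1 ∧ (N + 1) * B = B * sh 1 0 0 0 0 0 := by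
  obtain ⟨v, hv⟩ : ∃ v, N ^ 3 *ᵥ v ≠ 0 := by
    by_contra! e
    exact h3 (K.mat_ext fun x => by rw [e, zero_mulVec])
  have e4 : ∀ x, N *ᵥ (N *ᵥ (N *ᵥ (N *ᵥ x))) = 0 := fun x => by
    simpa [pow_succ, mul_assoc] using congrArg (· *ᵥ x) h4
  have f4 := e4 v
  rw [pow_succ, sq, ← mulVec_mulVec, ← mulVec_mulVec] at hv
  generalize f1 : N *ᵥ v = v1 at hv f4
  generalize f2 : N *ᵥ v1 = v2 at hv f4
  generalize f3 : N *ᵥ v2 = v3 at hv f4
  have li : LinearIndependent k ![v3, v2, v1, v] := by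
    refine Fintype.linearIndependent_iff.2 fun c hc => ?_
    replace hc : c 0 • v3 + c 1 • v2 + c 2 • v1 + c 3 • v = 0 := by simpa [Fin.sum_univ_four] using hc
    have e1 := congrArg (N *ᵥ ·) hc
    have e2 := congrArg (N *ᵥ ·) e1
    have e3 := congrArg (N *ᵥ ·) e2
    simp only [mulVec_add, mulVec_smul, f1, f2, f3, f4, mulVec_zero, smul_zero, zero_add,
      smul_eq_zero, hv, or_false] at e1 e2 e3
    simp only [e3, zero_smul, add_zero, smul_eq_zero, hv, or_false] at hc e1 e2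
    simp only [e2, zero_smul, add_zero, smul_eq_zero, hv, or_false] at hc e1
    simp only [e1, zero_smul, add_zero, smul_eq_zero, hv, or_false] at hc
    intro i; fin_cases i <;> assumption
  obtain ⟨y, hy⟩ := exists_linearIndependent_cons_of_lt_finrank li (by simp)
  have li' : ∀ a b c d e : k, a • v3 + b • v2 + c • y + d • v1 + e • v = 0 →
      a = 0 ∧ b = 0 ∧ c = 0 ∧ d = 0 ∧ e = 0 := fun a b c d e h => by
    have := Fintype.linearIndependent_iff.1 hy ![c, a, b, d, e] (by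
      refine Eq.trans ?_ h
      simp [Fin.sum_univ_succ]; abel)
    exact ⟨this 1, this 2, this 0, this 3, this 4⟩
  obtain ⟨a, b, c, d, e, e1⟩ : ∃ a b c d e : k, N *ᵥ y = a • v3 + b • v2 + c • y + d • v1 + e • v := by
    obtain ⟨c, hc⟩ := (Submodule.mem_span_range_iff_exists_fun k).1
      ((hy.span_eq_top_of_card_eq_finrank' (by simp)).ge (Submodule.mem_top (x := N *ᵥ y)))
    exact ⟨c 1, c 2, c 0, c 3, c 4, by rw [← hc]; simp [Fin.sum_univ_succ]; abel⟩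
  have e5 := e4 y
  simp only [e1, mulVec_add, mulVec_smul, f1, f2, f3, f4, mulVec_zero] at e5
  obtain ⟨h5, -, h6, -⟩ := li' (e + c * d + c ^ 2 * b + c ^ 3 * a) (c * e + c ^ 2 * d + c ^ 3 * b) (c ^ 4)
    (c ^ 2 * e + c ^ 3 * d) (c ^ 3 * e) (by rw [← e5]; module)
  obtain rfl : c = 0 := eq_zero_of_pow_eq_zero h6
  obtain rfl : e = 0 := by simpa using h5
  obtain ⟨B', hB⟩ := cols_inv (v := ![v3, v2, y - a • v2 - b • v1 - d • v, v1, v]) fun x hx => by
    obtain ⟨g1, g2, g3, g4, g5⟩ := li' (x 0) (x 1 - x 2 * a) (x 2) (x 3 - x 2 * b) (x 4 - x 2 * d) (by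
      rw [← hx]; simp only [Fin.sum_univ_five, cons_val_zero, cons_val_one, Matrix.cons_val]; module)
    simp only [g3, zero_mul, sub_zero] at g2 g4 g5
    intro i; fin_cases i <;> assumption
  refine ⟨_, B', hB, ?_⟩
  have e6 : N *ᵥ (y - a • v2 - b • v1 - d • v) = 0 := by
    simp only [mulVec_sub, mulVec_smul, e1, f1, f2, f3]; module
  generalize y - a • v2 - b • v1 - d • v = w at e6
  ext i j
  have g : ∀ V : Fin 5 → Fin 5 → k, ((N + 1) * (of V)ᵀ) i j = (N *ᵥ V j) i + V j i := fun V => by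
    rw [add_mul, one_mul]; rfl
  rw [g]
  fin_cases j <;> simp [f1, f2, f3, f4, e6, sh, mul_apply, Fin.sum_univ_five]

theorem tri {G : M5 k} {a b b' c x y : k} (e : G * sh 1 0 0 0 0 0 = sh a b b' c x y * G)
    (hd : G.det = 1) : G 1 0 = 0 ∧ G 2 0 = 0 ∧ G 3 0 = 0 ∧ G 4 0 = 0 ∧ G 2 1 = 0 ∧ G 3 1 = 0 ∧
      G 4 1 = 0 ∧ G 3 2 = 0 ∧ G 4 2 = 0 ∧ G 4 3 = 0 := by
  have f := fun i j => congrFun (congrFun e i) j
  have f41 := f 4 1; have f43 := f 4 3; have f44 := f 4 4; have f32 := f 3 2; have f31 := f 3 1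
  have f33 := f 3 3; have f21 := f 2 1; have f23 := f 2 3; have f11 := f 1 1; have f12 := f 1 2
  have f01 := f 0 1
  simp [sh, mul_apply, Fin.sum_univ_five] at f41 f43 f44
  simp [sh, mul_apply, Fin.sum_univ_five, f41, f43, f44] at f31 f33 f21 f23
  simp [sh, mul_apply, Fin.sum_univ_five, f41, f43, f44, f31, f33, f21, f23] at f11 f32 f12 f01
  have a0 : a ≠ 0 := by
    rintro rfl
    rw [det_eq_zero_of_column_eq_zero 0 (fun i => by fin_cases i <;> simp_all)] at hd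
    exact zero_ne_one hd
  simp_all

theorem cen41 {A : M5 k} (e1 : A * sh 1 0 0 0 0 0 = sh 1 0 0 0 0 0 * A) (hd : A.det = 1)
    (e3 : A *ᵥ Pi.single 0 1 = A 0 0 • Pi.single 0 1 → A 0 0 = 1) : ∃ a b c x y, A = sh a b b c x y := by
  obtain ⟨g1, g2, g3, g4, g5, g6, g7, g8, g9, g10⟩ := tri e1 hd
  have f := fun i j => congrFun (congrFun e1 i) j
  have f01 := f 0 1; have f13 := f 1 3; have f34 := f 3 4; have f03 := f 0 3; have f14 := f 1 4
  have f04 := f 0 4; have f02 := f 0 2; have f24 := f 2 4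
  simp [sh, mul_apply, Fin.sum_univ_five, g1, g2, g3, g4, g5, g6, g7, g8, g9, g10]
    at f01 f13 f34 f03 f14 f04 f02 f24
  have d0 := e3 (by ext i; fin_cases i <;> simp [*])
  have d1 : A 1 1 = 1 := by linear_combination d0 - f01
  have d3 : A 3 3 = 1 := by linear_combination d1 - f13
  have d4 : A 4 4 = 1 := by linear_combination d3 - f34
  have a1 : A 1 3 = A 3 4 := by linear_combination f14
  have a0 : A 0 1 = A 3 4 := by linear_combination f03 + f14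
  have b1 : A 1 4 = A 0 3 := by linear_combination -f04
  rw [det_of_upperTriangular (fun i j hij => by
    fin_cases i <;> fin_cases j <;> first | assumption | exact absurd hij (by decide)),
    Fin.prod_univ_five, d0, d1, d3, d4] at hd
  simp only [one_mul, mul_one] at hd
  refine ⟨A 3 4, A 0 3, A 0 4, A 2 4, A 0 2, ?_⟩
  clear f f01 f13 f34 f03 f14 f04 e1 e3
  ext i j; fin_cases i <;> fin_cases j <;> simp [sh, *]

/-- The levels of the full flag. -/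
def l5 : Fin 5 → ℕ := ![4, 3, 2, 1, 0]

theorem pl5 (A : M5 k) : A ∈ Pl l5 ↔ A 1 0 = 0 ∧ A 2 0 = 0 ∧ A 3 0 = 0 ∧ A 4 0 = 0 ∧ A 2 1 = 0 ∧
    A 3 1 = 0 ∧ A 4 1 = 0 ∧ A 3 2 = 0 ∧ A 4 2 = 0 ∧ A 4 3 = 0 :=
  ⟨fun h => by refine ⟨?_, ?_, ?_, ?_, ?_, ?_, ?_, ?_, ?_, ?_⟩ <;> exact h _ _ (by decide),
    fun h i j e => by fin_cases i <;> fin_cases j <;> simp [l5, h] at e ⊢⟩

theorem cj41 {A B : M5 k} {a b c x y : k} (e : sh a b b c x y * B = B * A) (b1 : B ∈ Pl l5)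
    (i4 : ∀ i, B i i = 1) (i1 : A ∈ Pl l5) (i3 : ∀ i, A i i = 1) :
    ∃ b b' c x y, A = sh a b b' c x y := by
  have f := fun i j => congrFun (congrFun e i) j
  rw [pl5] at i1 b1
  have f01 := f 0 1; have f12 := f 1 2; have f23 := f 2 3; have f34 := f 3 4; have f13 := f 1 3
  simp [sh, mul_apply, Fin.sum_univ_five, i1, b1, i3, i4] at f01 f12 f23 f34 f13
  have a0 : A 0 1 = a := by linear_combination -f01
  have a1 : A 3 4 = a := by linear_combination -f34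
  have a2 : A 1 3 = a := by linear_combination -f13 - B 1 2 * f23
  refine ⟨A 0 3, A 1 4, A 0 4, A 2 4, A 0 2, ?_⟩
  clear f f01 f34 f13 e
  ext i j; fin_cases i <;> fin_cases j <;> simp [sh, *]

variable [Finite P] [IsAlgClosed k] [hp : Fact p.Prime] [CharP k p]

theorem ex_n4 (h : Hy0 ρ) (c : Gx p r U H) {z : P} (hz : z ∈ U) (e : ρ z = sh 1 0 0 0 0 0) :
    ∃ (B B' : M5 k) (hB : B * B' = 1), N4 (cj hB ρ) U H := by
  have up : ∀ u ∈ U, ∃ a b c x y, ρ u = sh a b b c x y := fun u hu =>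
    cen41 (by rw [← e, ← map_mul, ← map_mul, c.comm u hu z hz]) (h.det u) fun e1 =>
      sub_eq_zero.1 (eq_zero_of_pow_eq_zero (n := p) (by
        rw [sub_pow_char, K.eig_one e1 (by simp) (by rw [← map_pow, c.exp u hu, map_one])]; simp))
  obtain ⟨B, B', hB, b1, -, b2, -, b3, b4⟩ := lev (ρ := ρ) c.cop l5 fun x hx => by
    obtain ⟨a, b, c', x', y, e1⟩ := up _ (c.conj hx hz)
    exact (pl5 _).2 (tri (by rw [← e1, ← e]; simp [← map_mul]) (h.det x))
  have dd : ∀ A : M5 k, ∀ i, Dl l5 A i i = A i i := fun A i => by simp [Dl_apply]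
  have key : ∀ u ∈ U, ∃ b b' c x y, cj hB ρ u = sh (ρ u 3 4) b b' c x y := fun u hu => by
    obtain ⟨a, b, c', x, y, e1⟩ := up u hu
    obtain ⟨i1, i2⟩ := b4 u ((pl5 _).2 (by simp [e1, sh]))
    rw [show ρ u 3 4 = a by rw [e1]; rfl]
    exact cj41 (e1 ▸ cj_mul hB u) b1 (fun i => by rw [← dd B, b2, one_apply_eq]) i1 fun i => by
      rw [← dd (cj hB ρ u), i2, dd, e1]; fin_cases i <;> rfl
  refine ⟨B, B', hB, fun u hu => ?_, fun x hx => ⟨fun i => ρ x i i, ?_⟩, z, hz, ?_⟩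
  · obtain ⟨b, b', c, x, y, e⟩ := key u hu
    exact ⟨_, _, _, _, _, _, e⟩
  · rw [b3 x hx]
    ext i j; fin_cases i <;> fin_cases j <;> simp [Dl_apply, l5]
  · obtain ⟨b, b', c, x, y, e'⟩ := key z hz
    simp [e', e, sh]

theorem i4 (h2 : p ≠ 2) (h : Hy0 ρ) (hS : NoS ρ) (c : Gx p r U H) (hr : 2 ≤ r)
    (h4 : ∀ u ∈ U, (ρ u - 1) ^ 4 = 0) (h3 : ∃ u ∈ U, (ρ u - 1) ^ 3 ≠ 0) : False := by
  obtain ⟨z, hz, h3⟩ := h3
  obtain ⟨B, B', hB, e⟩ := jordan41 (h4 z hz) h3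
  rw [sub_add_cancel] at e
  obtain ⟨C, C', hC, t⟩ := ex_n4 (h.cj hB) c hz (cj_of hB e)
  by_cases hi : ∀ u ∈ U, cj hC (cj hB ρ) u 3 4 = 0 → u = 1
  · exact t.caseB ((h.cj hB).cj hC) c h2 hi hr
  · push Not at hi
    obtain ⟨u, hu, e1, e2⟩ := hi
    exact t.caseC ((h.cj hB).cj hC) c h2 ((hS.cj hB).cj hC) hu e2 e1

end Cfsg.Agent.L5.R
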