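import Cfsg.Agent.L5.RM

/-!
Jordan blocks `4, 1`: the normal form and the atoms.
-/

set_option autoImplicit false
set_option linter.unusedSectionVars false

namespace Cfsg.Agent.L5.R
open Finset Matrix
open Subgroup (normalizer)
open Cfsg.Agent.L4.R (Dg tr)

variable {P k : Type*} [Group P] [Field k] {ρ : P →* M5 k} {U H : Subgroup P} {p r : ℕ}

/-- A semi-invariant function of degree at most `n`. -/
structure SI (U H : Subgroup P) (n : ℕ) (f χ : P → k) : Prop where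
  dg : DgA U (n + 1) f
  u : ∀ u ∈ U, ∀ g, f (g * u) = f g
  h : ∀ h ∈ H, ∀ g, f (g * h) = χ h * f g

namespace SI
variable {m n : ℕ} {f f' χ χ' : P → k}

theorem one : SI U H 0 (fun _ => (1 : k)) fun _ => 1 := ⟨DgA.const 1, fun _ _ _ => rfl, by simp⟩

theorem mul (a : SI U H m f χ) (b : SI U H n f' χ') :
    SI U H (m + n) (fun g => f g * f' g) fun g => χ g * χ' g :=
  ⟨a.dg.mul b.dg, fun u hu g => by rw [a.u u hu, b.u u hu],
    fun x hx g => by rw [a.h x hx, b.h x hx]; ring⟩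

theorem pw (p : ℕ) [ExpChar k p] (a : SI U H n f χ) (l : List ℕ) : SI U H (n * l.length)
    (fun g => f g ^ (l.map (p ^ ·)).sum) fun g => χ g ^ (l.map (p ^ ·)).sum :=
  ⟨a.dg.pw p l, fun u hu g => by rw [a.u u hu], fun x hx g => by rw [a.h x hx, mul_pow]⟩

theorem kc [Finite P] [Fact p.Prime] [CharP k p] (c : Gx p r U H) (a : SI U H m f χ)
    (b : SI U H n f' χ') (hD : m + n < r * (p - 1)) (e : ∀ h ∈ H, χ h * χ' h = 1) (f1 : f 1 = 0)
    (R1 : f' 1 ≠ 0) (g : P) : f g = 0 :=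
  KC c a.dg b.dg hD (fun x hx => by
    obtain ⟨u, hu, h, hh, rfl⟩ := c.fac x hx
    exact ⟨χ h, χ' h, e h hh, fun g => by rw [← mul_assoc, a.h h hh, a.u u hu],
      fun g => by rw [← mul_assoc, b.h h hh, b.u u hu]⟩) f1 R1 g

end SI

theorem sum_pos {l : List ℕ} (hp : 0 < p) (h : l ≠ []) : (l.map (p ^ ·)).sum ≠ 0 := by
  obtain ⟨a, l, rfl⟩ := List.exists_cons_of_ne_nil h
  have := pow_pos hp a
  simp only [List.map_cons, List.sum_cons]; omega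

/-- The shape of the elements of `U`. -/
def sh (a b b' c x y : k) : M5 k :=
  !![1, a, y, b, c; 0, 1, 0, a, b'; 0, 0, 1, 0, x; 0, 0, 0, 1, a; 0, 0, 0, 0, 1]

/-- The normal form. -/
structure N4 (ρ : P →* M5 k) (U H : Subgroup P) : Prop where
  up : ∀ u ∈ U, ∃ a b b' c x y, ρ u = sh a b b' c x y
  dg : ∀ h ∈ H, ∃ d, ρ h = diagonal d
  ex : ∃ u ∈ U, ρ u 3 4 ≠ 0

/-- The levels. -/
def l4 : Fin 5 → ℕ := ![3, 2, 1, 1, 0]

theorem diag_inv {h : P} {d : Fin 5 → k} (e : ρ h = diagonal d) :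
    (∀ i, d i ≠ 0) ∧ ρ h⁻¹ = diagonal fun i => (d i)⁻¹ := by
  have h1 := K.inv_l (ρ := ρ) h
  rw [e] at h1
  have h2 : ∀ i, d i ≠ 0 := fun i h0 => by simpa [h0] using congrFun (congrFun h1 i) i
  refine ⟨h2, ?_⟩
  rw [← mul_one (ρ h⁻¹), ← diagonal_one, show (fun _ => 1) = fun i => d i * (d i)⁻¹ from
    funext fun i => (mul_inv_cancel₀ (h2 i)).symm, ← diagonal_mul_diagonal, ← mul_assoc, h1, one_mul]

theorem diag_conj {h : P} {d : Fin 5 → k} (e : ρ h = diagonal d) (u : P) (i j : Fin 5) :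
    ρ (h * u * h⁻¹) i j = d i / d j * ρ u i j := by
  rw [map_mul, map_mul, (diag_inv e).2, e, mul_diagonal, diagonal_mul]; ring

/-- The reversal of the basis. -/
def Jr : M5 k := of fun i j => if i = j.rev then 1 else 0

theorem Jr_mul (A : M5 k) (i j : Fin 5) : ((Jr : M5 k) * A) i j = A i.rev j := by
  simp [Jr, mul_apply, Fin.rev_eq_iff, ← Fin.rev_eq_iff (i := i), eq_comm]

theorem mul_Jr (A : M5 k) (i j : Fin 5) : (A * (Jr : M5 k)) i j = A i j.rev := by simp [Jr, mul_apply]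

theorem Jr_sq : (Jr : M5 k) * Jr = 1 := by
  ext i j; rw [Jr_mul]; simp [Jr, one_apply]

/-- The dual representation in the reversed basis. -/
def du (ρ : P →* M5 k) : P →* M5 k := cj Jr_sq (dl ρ)

theorem du_apply (g : P) (i j : Fin 5) : du ρ g i j = ρ g⁻¹ j.rev i.rev := by
  rw [du, cj_apply, mul_Jr, Jr_mul, dl_apply, transpose_apply]

theorem rev5 : (0 : Fin 5).rev = 4 ∧ (1 : Fin 5).rev = 3 ∧ (2 : Fin 5).rev = 2 ∧ (3 : Fin 5).rev = 1 ∧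
    (4 : Fin 5).rev = 0 := by decide

namespace N4
variable (t : N4 ρ U H)
include t

theorem lv : ∀ u ∈ U, ∀ i j, l4 i ≤ l4 j → (ρ u - 1) i j = 0 := fun u hu i j e => by
  obtain ⟨a, b, b', c, x, y, h⟩ := t.up u hu
  fin_cases i <;> fin_cases j <;> simp [l4, h, sh] at e ⊢

theorem add_a : ∀ u ∈ U, ∀ v ∈ U, ρ (u * v) 3 4 = ρ u 3 4 + ρ v 3 4 := fun u hu v hv => by
  obtain ⟨a, b, b', c, x, y, h⟩ := t.up u hu
  obtain ⟨a', d, d', c', x', y', h'⟩ := t.up v hv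
  simp [h, h', sh, mul_apply, Fin.sum_univ_five, add_comm]

theorem add_x : ∀ u ∈ U, ∀ v ∈ U, ρ (u * v) 2 4 = ρ u 2 4 + ρ v 2 4 := fun u hu v hv => by
  obtain ⟨a, b, b', c, x, y, h⟩ := t.up u hu
  obtain ⟨a', d, d', c', x', y', h'⟩ := t.up v hv
  simp [h, h', sh, mul_apply, Fin.sum_univ_five, add_comm]

theorem add_y : ∀ u ∈ U, ∀ v ∈ U, ρ (u * v) 0 2 = ρ u 0 2 + ρ v 0 2 := fun u hu v hv => by
  obtain ⟨a, b, b', c, x, y, h⟩ := t.up u hu
  obtain ⟨a', d, d', c', x', y', h'⟩ := t.up v hv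
  simp [h, h', sh, mul_apply, Fin.sum_univ_five, add_comm]

theorem du : N4 (du ρ) U H := by
  refine ⟨fun u hu => ?_, fun h hh => ?_, ?_⟩
  · obtain ⟨a, b, b', c, x, y, h⟩ := t.up _ (inv_mem hu)
    refine ⟨a, b', b, c, y, x, ?_⟩
    ext i j; rw [du_apply, h]; fin_cases i <;> fin_cases j <;> simp [sh, rev5]
  · obtain ⟨d, h⟩ := t.dg _ (inv_mem hh)
    refine ⟨d ∘ Fin.rev, ?_⟩
    ext i j; rw [du_apply, h]; by_cases e : i = j <;> simp [diagonal_apply, eq_comm, e]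
  · obtain ⟨u, hu, h⟩ := t.ex
    obtain ⟨a, b, b', c, x, y, e⟩ := t.up _ hu
    exact ⟨u⁻¹, inv_mem hu, by rw [du_apply, inv_inv]; simpa [e, sh, rev5] using h⟩

theorem du_a {u : P} (hu : u ∈ U) : R.du ρ u 3 4 = ρ u⁻¹ 3 4 := by
  obtain ⟨a, b, b', c, x, y, e⟩ := t.up _ (inv_mem hu)
  simp [du_apply, e, sh, rev5]

/-- The weights. -/
theorem wt (hd : ∀ g, (ρ g).det = 1) (hc : ∀ h ∈ H, ∀ u ∈ U, h * u * h⁻¹ ∈ U) {h : P} (hh : h ∈ H) :
    ∃ τ l m : k, τ ≠ 0 ∧ l ≠ 0 ∧ m ≠ 0 ∧ ρ h = diagonal ![τ * l ^ 3, τ * l ^ 2, τ * m, τ * l, τ] ∧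
      τ ^ 5 * l ^ 6 * m = 1 ∧ (∀ u, ρ (h * u * h⁻¹) 3 4 = l * ρ u 3 4) ∧
      (∀ u, ρ (h * u * h⁻¹) 2 4 = m * ρ u 2 4) ∧ ∀ u, ρ (h * u * h⁻¹) 0 2 = l ^ 3 / m * ρ u 0 2 := by
  obtain ⟨d, e⟩ := t.dg h hh
  have h0 := (diag_inv e).1
  obtain ⟨u, hu, h1⟩ := t.ex
  have e1 := diag_conj e u 0 1
  have e2 := diag_conj e u 1 3
  have e3 := diag_conj e u 3 4
  obtain ⟨a, b, b', c, x, y, h2⟩ := t.up u hu
  obtain ⟨a', d1, d', c', x', y', h3⟩ := t.up _ (hc h hh u hu)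
  rw [h2] at h1
  rw [h2, h3] at e1 e2 e3
  have f1 : d 0 / d 1 = d 3 / d 4 := mul_right_cancel₀ h1 (e1.symm.trans e3)
  have f2 : d 1 / d 3 = d 3 / d 4 := mul_right_cancel₀ h1 (e2.symm.trans e3)
  have h4 := h0 4
  have h5 := h0 3
  rw [div_eq_iff h5] at f2
  rw [div_eq_iff (h0 1), f2] at f1
  have e4 : d = ![d 4 * (d 3 / d 4) ^ 3, d 4 * (d 3 / d 4) ^ 2, d 4 * (d 2 / d 4), d 4 * (d 3 / d 4),
      d 4] := by
    ext i; fin_cases i <;> simp [f1, f2] <;> field_simp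
  have e5 := hd h
  rw [e, det_diagonal, Fin.prod_univ_five, f1, f2] at e5
  refine ⟨d 4, d 3 / d 4, d 2 / d 4, h4, div_ne_zero h5 h4, div_ne_zero (h0 2) h4, e.trans (by rw [← e4]),
    by rw [← e5]; field_simp, fun u => diag_conj e u 3 4, fun u => diag_conj e u 2 4, fun u => ?_⟩
  have := h0 2
  rw [diag_conj e, f1]; field_simp

theorem col {f : Fin 5} (hf : ∀ u ∈ U, ∀ i, i ≠ f → ρ u i f = 0) (i : Fin 5) :
    SI U H 3 (fun g => ρ g i f) fun h => ρ h f f := by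
  refine ⟨dgA_entry l4 t.lv (fun j => by fin_cases j <;> simp [l4]) i f, fun u hu g => ?_,
    fun h hh g => ?_⟩
  · have : ρ u f f = 1 := sub_eq_zero.1 (by simpa using t.lv u hu f f le_rfl)
    rw [map_mul, mul_apply, sum_eq_single f (fun j _ e => by rw [hf u hu j e, mul_zero]) (by simp),
      this, mul_one]
  · obtain ⟨d, e⟩ := t.dg h hh
    rw [map_mul, e, mul_diagonal, diagonal_apply_eq, mul_comm]

theorem c0 (i : Fin 5) : SI U H 3 (fun g => ρ g i 0) fun h => ρ h 0 0 :=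
  t.col (fun u hu i e => by
    obtain ⟨a, b, b', c, x, y, h⟩ := t.up u hu
    fin_cases i <;> simp [h, sh] at e ⊢) i

theorem c2 (hy : ∀ u ∈ U, ρ u 0 2 = 0) (i : Fin 5) : SI U H 3 (fun g => ρ g i 2) fun h => ρ h 2 2 :=
  t.col (fun u hu i e => by
    have := hy u hu
    obtain ⟨a, b, b', c, x, y, h⟩ := t.up u hu
    fin_cases i <;> simp [h, sh] at e this ⊢
    exact this) i

theorem c4 (i : Fin 5) : SI U H 3 (fun g => ρ g⁻¹ 4 i) fun h => ρ h⁻¹ 4 4 := by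
  simpa [du_apply, rev5] using t.du.c0 i.rev

theorem m01 (i j : Fin 5) : SI U H 4 (fun g => ρ g i 0 * ρ g j 1 - ρ g j 0 * ρ g i 1)
    fun h => ρ h 0 0 * ρ h 1 1 := by
  refine ⟨dgA_min l4 t.lv (lo := 1) (by decide) (by decide) i j 0 1, fun u hu g => ?_, fun h hh g => ?_⟩
  · obtain ⟨a, b, b', c, x, y, h⟩ := t.up u hu
    simp [h, sh, mul_apply, Fin.sum_univ_five]; ring
  · obtain ⟨d, e⟩ := t.dg h hh
    simp only [map_mul, e, mul_diagonal, diagonal_apply_eq]; ring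

theorem m34 : SI U H 4 (fun g => ρ g⁻¹ 4 4 * ρ g⁻¹ 3 3 - ρ g⁻¹ 4 3 * ρ g⁻¹ 3 4)
    fun h => ρ h⁻¹ 4 4 * ρ h⁻¹ 3 3 := by
  simpa [du_apply, rev5] using t.du.m01 0 1

variable [Finite P] [hp : Fact p.Prime] [CharP k p] (h : Hy0 ρ) (c : Gx p r U H)
include h c

theorem kA {l : List ℕ} (hl : l ≠ []) {n : ℕ} {R χ : P → k} (b : SI U H n R χ) (R1 : R 1 ≠ 0)
    (hD : 3 * l.length + n < r * (p - 1))
    (e : ∀ x ∈ H, ρ x 0 0 ^ (l.map (p ^ ·)).sum * χ x = 1) : False := by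
  obtain ⟨g, hg⟩ := col_ne h 4 0
  exact hg (eq_zero_of_pow_eq_zero (((t.c0 4).pw p l).kc c b hD e (by simp [sum_pos hp.out.pos hl]) R1 g))

theorem kB {l : List ℕ} (hl : l ≠ []) {n : ℕ} {R χ : P → k} (b : SI U H n R χ) (R1 : R 1 ≠ 0)
    (hD : 4 * l.length + n < r * (p - 1))
    (e : ∀ x ∈ H, (ρ x 0 0 * ρ x 1 1) ^ (l.map (p ^ ·)).sum * χ x = 1) : False := by
  obtain ⟨g, hg⟩ := col_ne h 4 0
  have := fun j => eq_zero_of_pow_eq_zero (((t.m01 4 j).pw p l).kc c b hD e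
    (by simp [sum_pos hp.out.pos hl]) R1 g)
  refine K.mv_ne (K.inv_l (ρ := ρ) g) (v := ![-ρ g 4 1, ρ g 4 0, 0, 0, 0]) (fun e => hg (congrFun e 1)) ?_
  ext j
  simp [mulVec, dotProduct, Fin.sum_univ_five]
  linear_combination this j

/-- The general product when the weights are `θ ^ 2` and `θ ^ 3`. -/
theorem kG (l l' z : List ℕ) (h0 : l ≠ [] ∨ l' ≠ [] ∨ z ≠ [])
    (hD : 3 * l.length + 3 * l'.length + 4 * z.length < r * (p - 1))
    (h5 : p = 5 ∨ ((l.map (p ^ ·)).sum + 2 * (z.map (p ^ ·)).sum) % 5 = (l'.map (p ^ ·)).sum % 5)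
    (e : ∀ x ∈ H, ∀ τ a m : k, a ≠ 0 → ρ x = diagonal ![τ * a ^ 3, τ * a ^ 2, τ * m, τ * a, τ] →
      m ^ 2 = a ^ 3 ∧ m ^ ((l.map (p ^ ·)).sum + (l'.map (p ^ ·)).sum) *
        a ^ (2 * (z.map (p ^ ·)).sum) = 1) : False := by
  have key : ∀ x ∈ H, ρ x 0 0 ^ (l.map (p ^ ·)).sum * ρ x⁻¹ 4 4 ^ (l'.map (p ^ ·)).sum *
      (ρ x 0 0 * ρ x 1 1) ^ (z.map (p ^ ·)).sum = 1 := fun x hx => by
    obtain ⟨τ, a, m, t0, a0, m0, e1, e2, -⟩ := t.wt h.det (fun _ a _ => c.conj a) hx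
    obtain ⟨e3, e4⟩ := e x hx τ a m a0 e1
    rw [(diag_inv e1).2, e1]
    generalize (l.map (p ^ ·)).sum = X at *
    generalize (l'.map (p ^ ·)).sum = Y at *
    generalize (z.map (p ^ ·)).sum = Z at *
    have e5 : (τ * m) ^ 5 = 1 := by linear_combination e2 + τ ^ 5 * m * (m ^ 2 + a ^ 3) * e3
    have e6 : (τ * m) ^ (X + 2 * Z) = (τ * m) ^ Y := by
      rcases h5 with rfl | h5
      · have : τ * m = 1 := sub_eq_zero.1 (eq_zero_of_pow_eq_zero (n := 5) (by rw [sub_pow_char, e5]; simp))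
        rw [this, one_pow, one_pow]
      · rw [pow_eq_pow_mod _ e5, h5, ← pow_eq_pow_mod _ e5]
    have e7 : τ * a ^ 3 = τ * m * m := by linear_combination -τ * e3
    have e8 : τ * m * m * (τ * a ^ 2) = (τ * m) ^ 2 * a ^ 2 := by ring
    have e9 : τ⁻¹ = m / (τ * m) := by field_simp
    simp only [diagonal_apply_eq, cons_val_zero, cons_val_one, Matrix.cons_val]
    rw [e7, e8, e9, div_pow, mul_pow (τ * m), mul_pow (_ ^ 2), ← pow_mul, ← pow_mul, ← e6]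
    have := mul_ne_zero t0 m0
    rw [pow_add] at e4 ⊢
    field_simp
    exact e4
  rcases h0 with h0 | h0 | h0
  · exact t.kA h c h0 (((t.c4 4).pw p l').mul ((t.m01 0 1).pw p z)) (by simp) (by omega)
      fun x hx => by rw [← mul_assoc, key x hx]
  · refine t.du.kA (h.dl.cj _) c h0 (((t.c0 0).pw p l).mul ((t.m01 0 1).pw p z)) (by simp) (by omega)
      fun x hx => ?_
    rw [← key x hx, du_apply, rev5.1]; ring
  · exact t.kB h c h0 (((t.c0 0).pw p l).mul ((t.c4 4).pw p l')) (by simp) (by omega)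
      fun x hx => by rw [mul_comm, key x hx]

end N4

end Cfsg.Agent.L5.R
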