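import Cfsg.Agent.L5.R40

/-!
Jordan blocks `4, 1`: the cyclic module with a socle of dimension two.
-/

set_option autoImplicit false
set_option linter.unusedSectionVars false

namespace Cfsg.Agent.L5.R
open Finset Matrix
open Subgroup (normalizer)
open Cfsg.Agent.L4.R (Dg tr)

variable {P k : Type*} [Group P] [Field k] {ρ : P →* M5 k} {U H : Subgroup P} {p r : ℕ}

theorem ex_list (p r : ℕ) : ∀ j : ℕ, ∃ L : List ℕ, L.length = r * j ∧
    (L.map (p ^ ·)).sum = j * ((List.range r).map (p ^ ·)).sum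
  | 0 => ⟨[], by simp⟩
  | j + 1 => by
    obtain ⟨L, h1, h2⟩ := ex_list p r j
    exact ⟨L ++ List.range r, by simp [h1, mul_add], by simp [h2, add_mul]⟩

theorem sum_shift (p a : ℕ) (L : List ℕ) :
    ((L.map (· + a)).map (p ^ ·)).sum = (L.map (p ^ ·)).sum * p ^ a := by
  induction L with
  | nil => simp
  | cons b L ih => simp only [List.map_cons, List.sum_cons, ih, pow_add, add_mul]

theorem five_eq {t l t' l' : k} (h2 : (2 : k) ≠ 0) (t0 : t ≠ 0) (h5 : l ^ 5 = 1) (h1 : l ≠ 1)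
    (h5' : l' ^ 5 = 1) (h1' : l' ≠ 1)
    (e1 : t' * l' ^ 3 + t' * l' ^ 2 + t' * l' + t' * l' + t' = t * l ^ 3 + t * l ^ 2 + t * l + t * l + t)
    (e2 : (t' * l' ^ 3) ^ 2 + (t' * l' ^ 2) ^ 2 + (t' * l') ^ 2 + (t' * l') ^ 2 + t' ^ 2 =
      (t * l ^ 3) ^ 2 + (t * l ^ 2) ^ 2 + (t * l) ^ 2 + (t * l) ^ 2 + t ^ 2) : t' = t ∧ l' = l := by
  have g : ∀ {x : k}, x ^ 5 = 1 → x ≠ 1 → x ^ 4 + x ^ 3 + x ^ 2 + x + 1 = 0 := fun {x} a b =>
    mul_left_cancel₀ (sub_ne_zero.2 b) (by linear_combination a)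
  have g1 := g h5 h1
  have g2 := g h5' h1'
  have l0 : l ≠ 0 := by rintro rfl; simp at h5
  have f1 : t' * (l' - l' ^ 4) = t * (l - l ^ 4) := by linear_combination e1 - t' * g2 + t * g1
  have f0 : t * (l - l ^ 4) ≠ 0 := mul_ne_zero t0 fun e => h1 (by
    have : l ^ 3 = 1 := mul_left_cancel₀ l0 (by linear_combination -e)
    linear_combination (l ^ 3 + 1) * this - l * h5)
  have f2 : t' * (l' + l' ^ 4) = t * (l + l ^ 4) := mul_left_cancel₀ f0 (by
    linear_combination e2 - t' * (l' + l' ^ 4) * f1 - t' ^ 2 * g2 + t ^ 2 * g1 -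
      t' ^ 2 * (l' + l' ^ 3) * h5' + t ^ 2 * (l + l ^ 3) * h5)
  have f3 : t' * l' = t * l := mul_left_cancel₀ h2 (by linear_combination f1 + f2)
  have f4 : t' * l' ^ 4 = t * l ^ 4 := mul_left_cancel₀ h2 (by linear_combination f2 - f1)
  have f5 : l' ^ 3 = l ^ 3 := mul_left_cancel₀ (mul_ne_zero t0 l0) (by
    linear_combination f4 - l' ^ 3 * f3)
  have f6 : l' = l := by linear_combination (l' ^ 3 + l ^ 3) * f5 - l' * h5' + l * h5
  subst f6
  exact ⟨mul_right_cancel₀ l0 f3, rfl⟩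

namespace N4
variable [Finite P] [IsAlgClosed k] [hp : Fact p.Prime] [CharP k p] (t : N4 ρ U H) (h : Hy0 ρ)
  (c : Gx p r U H)
include t h c

theorem p5 (h2 : p ≠ 2) : 5 ≤ p := by
  refine hp.out.five_le_of_ne_two_of_ne_three h2 ?_
  rintro rfl
  obtain ⟨u, hu, h1⟩ := t.ex
  obtain ⟨a, b, b', c', x, y, e⟩ := t.up u hu
  have h3 : (ρ u - 1) ^ 3 = 0 := by
    rw [sub_pow_char_of_commute 3 (Commute.one_right _), ← map_pow, c.exp u hu]; simp
  have := congrFun (congrFun h3 0) 4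
  simp [e, sh, pow_succ, mul_apply, Fin.sum_univ_five] at this h1
  exact h1 this

theorem indec (h5 : 5 ≤ p) (hx : ∀ u ∈ U, ρ u 2 4 = 0) (hy : ∀ u ∈ U, ρ u 0 2 = 0) : False := by
  have := G2tr h c (norm_of c (m := 4) (by have := c.pos; nlinarith [Nat.sub_add_cancel hp.out.one_le])
    fun i j => (dgA_entry l4 t.lv (fun j => by fin_cases j <;> simp [l4]) i j).dg)
    (π := single 2 2 1) (fun u hu => ?_) (s := Pi.single 0 1) (by simp) (fun u hu => ?_)
    (fun x hx => ?_) (y := 0) (by ext i; simp [single_mulVec, Function.update_apply])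
  · simp at this
  · have h1 := hx u hu
    have h2 := hy u hu
    obtain ⟨a, b, b', c', x, y, e⟩ := t.up u hu
    rw [e] at h1 h2 ⊢
    obtain rfl : x = 0 := h1
    obtain rfl : y = 0 := h2
    ext i j; fin_cases i <;> fin_cases j <;> simp [sh, mul_apply, Fin.sum_univ_five]
  · obtain ⟨a, b, b', c', x, y, e⟩ := t.up u hu
    ext i; fin_cases i <;> simp [e, sh]
  · obtain ⟨d, e⟩ := t.dg x hx
    exact ⟨d 0, by ext i; fin_cases i <;> simp [e]⟩

variable (hi : ∀ u ∈ U, ρ u 3 4 = 0 → u = 1) (hx : ∃ u ∈ U, ρ u 2 4 ≠ 0)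
include hi hx

theorem wtA {x : P} (hh : x ∈ H) : ∃ τ l m : k, τ ≠ 0 ∧ l ≠ 0 ∧
    ρ x = diagonal ![τ * l ^ 3, τ * l ^ 2, τ * m, τ * l, τ] ∧ τ ^ 5 * l ^ 6 * m = 1 ∧
    (∀ j n : ℕ, l ^ j = n → m ^ j = n) ∧ (l ^ ((List.range r).map (p ^ ·)).sum) ^ (p - 1) = 1 ∧
    m ^ ((List.range r).map (p ^ ·)).sum = l ^ ((List.range r).map (p ^ ·)).sum := by
  obtain ⟨τ, l, m, t0, l0, -, e1, e2, e3, e4, -⟩ := t.wt h.det (fun _ a _ => c.conj a) hh
  have h1 : ∀ j n : ℕ, l ^ j = n → m ^ j = n := fun j n =>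
    wt_rel t.add_a hi t.add_x hx (fun _ => c.conj hh) (fun u _ => e3 u) fun u _ => e4 u
  have h2 := wt_root' t.add_a hi l0 (fun _ => c.conj hh) fun u _ => e3 u
  rw [c.card, ← geom, pow_mul] at h2
  obtain ⟨n, hn⟩ := pow_eq_self_nat (p := p) (x := l ^ ((List.range r).map (p ^ ·)).sum) (by
    rw [← pow_sub_one_mul hp.out.ne_zero, h2, one_mul])
  exact ⟨τ, l, m, t0, l0, e1, e2, h1, h2, by rw [h1 _ n hn, hn]⟩

theorem no5 (h11 : p = 11) {x : P} (hh : x ∈ H) {τ l m : k}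
    (e : ρ x = diagonal ![τ * l ^ 3, τ * l ^ 2, τ * m, τ * l, τ]) (h5 : l ^ 5 = 1) : l = 1 := by
  subst h11
  by_contra h1
  have key : ∀ {x : P} {τ l m : k}, x ∈ H → ρ x = diagonal ![τ * l ^ 3, τ * l ^ 2, τ * m, τ * l, τ] →
      l ^ 5 = 1 → τ ≠ 0 ∧ m = l ∧ τ ^ 25 = 1 := fun {x τ l m} hh e h5 => by
    obtain ⟨τ', l', m', t0, -, e1, e2, e3, -⟩ := t.wtA h c hi hx hh
    have e4 := congrFun (diagonal_injective (e.symm.trans e1))
    obtain rfl : τ = τ' := e4 4
    obtain rfl : l = l' := mul_left_cancel₀ t0 (e4 3)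
    obtain rfl : m = m' := mul_left_cancel₀ t0 (e4 2)
    obtain ⟨n, hn⟩ := pow_eq_self_nat (p := 11) (x := l) (by linear_combination l * (l ^ 5 + 1) * h5)
    obtain rfl : m = l := by simpa [← hn] using e3 1 n (by simpa using hn)
    refine ⟨t0, rfl, ?_⟩
    have := congrArg (· ^ 5) e2
    simp only [mul_pow, one_pow, h5, pow_right_comm m 6, ← pow_mul, mul_one] at this
    simpa [h5, pow_mul' m 6 5] using this
  obtain ⟨t0, rfl, t25⟩ := key hh e h5
  have m0 : m ≠ 0 := by rintro rfl; simp at h5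
  have e5 : ρ (x ^ 5) = τ ^ 5 • 1 := by
    rw [map_pow, e, diagonal_pow, smul_one_eq_diagonal]
    congr 1; ext i; fin_cases i <;> simp [mul_pow, pow_right_comm m _ 5, h5]
  haveI := Fact.mk Nat.prime_five
  have := BU2 h (l := 5) (fun a ha b hb => h.inj (by
    obtain ⟨d, e⟩ := t.dg a ha
    obtain ⟨d', e'⟩ := t.dg b hb
    rw [map_mul, map_mul, e, e', diagonal_mul_diagonal, diagonal_mul_diagonal]
    simp only [mul_comm])) hh (j := 2) (h.inj (by
      rw [sq, pow_mul, map_pow, e5, smul_pow, ← pow_mul, t25]; simp)) fun g hg => ?_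
  · rw [this, map_one, ← diagonal_one] at e
    have e4 := congrFun (diagonal_injective e)
    obtain rfl : 1 = τ := e4 4
    exact h1 (by simpa using (e4 3).symm)
  obtain ⟨τ', l', m', t0', -, e1, -⟩ := t.wtA h c hi hx hg
  have e6 : ρ ((g * x * g⁻¹) ^ 5) = τ ^ 5 • 1 := by
    rw [conj_pow, map_mul, map_mul, e5]; simp [← map_mul]
  rw [map_pow, e1, diagonal_pow, smul_one_eq_diagonal] at e6
  have e7 := congrFun (diagonal_injective e6)
  have h5' : l' ^ 5 = 1 := mul_left_cancel₀ (pow_ne_zero 5 t0') (by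
    simpa [mul_pow] using (e7 3).trans (e7 4).symm)
  obtain ⟨-, rfl, -⟩ := key hg e1 h5'
  have e8 : ρ g * ρ x = ρ (g * x * g⁻¹) * ρ g := by simp [← map_mul]
  have h1' : m' ≠ 1 := by
    rintro rfl
    have : ρ x = τ' • 1 := by
      rw [← one_mul (ρ x), ← K.inv_l (ρ := ρ) g, mul_assoc, e8, show ρ (g * x * g⁻¹) = τ' • 1 by
        rw [e1, smul_one_eq_diagonal]; congr 1; ext i; fin_cases i <;> simp]
      simp [← map_mul]
    rw [e, smul_one_eq_diagonal] at this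
    have e4 := congrFun (diagonal_injective this)
    exact h1 (mul_left_cancel₀ t0 (((e4 3).trans (e4 4).symm).trans (mul_one _).symm))
  have t1 := K.tr_conj (ρ := ρ) (a := x) (b := g * x * g⁻¹) (g := g) (by simp)
  have t2 := K.tr_conj (ρ := ρ) (a := x ^ 2) (b := (g * x * g⁻¹) ^ 2) (g := g) (by simp [conj_pow])
  rw [map_pow, map_pow, e, e1, diagonal_pow, diagonal_pow] at t2
  rw [e, e1] at t1
  simp only [trace_diagonal, Fin.sum_univ_five, Pi.pow_apply] at t1 t2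
  obtain ⟨rfl, rfl⟩ := five_eq (fun e => absurd ((CharP.cast_eq_zero_iff k 11 2).1 e) (by decide))
    t0 h5 h1 h5' h1' t1 t2
  have e9 : ∀ i, (![τ' * m' ^ 3, τ' * m' ^ 2, τ' * m', τ' * m', τ'] : Fin 5 → k) i = τ' * m' ^ l4 i :=
    fun i => by fin_cases i <;> simp [l4]
  have l5 : ∀ i, l4 i ∈ Set.Iio 5 := by decide
  have ho : orderOf m' = 5 := orderOf_eq_prime h5 h1
  have b1 : ∀ i j, l4 i ≠ l4 j → ρ g i j = 0 := fun i j hij => by
    have := congrFun (congrFun e8 i) j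
    rw [e, e1, mul_diagonal, diagonal_mul, e9, e9, mul_comm] at this
    by_contra e0
    exact hij (pow_injOn_Iio_orderOf (ho ▸ l5 i) (ho ▸ l5 j)
      (mul_left_cancel₀ t0 (mul_right_cancel₀ e0 this)).symm)
  obtain ⟨u, hu, y, hy, rfl⟩ := c.fac g ((stab h.inj c.syl l4 t.lv).2 g fun i j e => b1 i j e.ne)
  obtain ⟨d, e10⟩ := t.dg y hy
  have := b1 3 4 (by decide)
  rw [map_mul, e10, mul_diagonal, mul_eq_zero] at this
  rw [hi u hu (this.resolve_right ((diag_inv e10).1 4)), one_mul]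
  exact hy

variable (hy : ∀ u ∈ U, ρ u 0 2 = 0)
include hy

theorem kC {j : ℕ} (hj : p - 1 = 6 * (j + 1)) (e : ∀ T N : k, T ^ 5 * N ^ 6 * N = 1 →
    N ^ (p - 1) = 1 → (T * N ^ 3) ^ (j + 1) * (T * N) ^ ((j + 1) * p ^ 2) = 1) : False := by
  obtain ⟨r, rfl⟩ := Nat.exists_eq_succ_of_ne_zero c.pos.ne'
  obtain ⟨L, h1, h2⟩ := ex_list p (r + 1) j
  obtain ⟨L', h3, h4⟩ := ex_list p (r + 1) (j + 1)
  set S := ((List.range (r + 1)).map (p ^ ·)).sum with hS
  let l := (List.range r).map (· + 1) ++ L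
  have h5 : l.length = r + (r + 1) * j := by simp [l, h1]
  have h6 : 1 + (l.map (p ^ ·)).sum = (j + 1) * S := by
    rw [List.range_succ_eq_map] at hS
    simp only [l, List.map_append, List.sum_append, h2, add_mul, one_mul]
    simp only [List.map_cons, List.sum_cons, pow_zero] at hS
    rw [add_comm _ S, ← add_assoc]; congr 1; exact hS.symm
  have b := ((t.c0 0).pw p l).mul ((t.c2 hy 2).pw p (L'.map (· + 2)))
  have := AT1 h c 0 (Pi.single 0 1) _ (fun u hu => ?_) (fun g u hu => b.u u hu g) (fun x hh => ?_)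
    (s := Pi.single 4 1) (by simp) (fun u hu => ?_) (by simp)
    (b.dg.sum_zero c (by rw [hj, h5, List.length_map, h3]; nlinarith)) (Pi.single 0 1) (fun g => ?_)
    (by simp)
  · simp at this
  · obtain ⟨a, b, b', c', x, y, e⟩ := t.up u hu
    ext i; fin_cases i <;> simp [e, sh]
  · obtain ⟨τ, a, m, -, -, e1, e2, -, e3, e4⟩ := t.wtA h c hi hx hh
    refine ⟨τ * a ^ 3, by ext i; fin_cases i <;> simp [e1], ?_⟩
    rw [← hS] at e3 e4
    have := e (τ ^ S) (a ^ S) (by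
      nth_rewrite 2 [← e4]; rw [← one_pow S, ← e2]; simp only [mul_pow, ← pow_mul, mul_comm]) e3
    simp only [e1, diagonal_apply_eq, cons_val_zero, Matrix.cons_val, map_one, one_apply_eq, one_pow,
      pow_zero, pow_one, mul_one, sum_shift, h4]
    rw [← mul_assoc, ← pow_succ', add_comm _ 1, h6, ← this]
    nth_rewrite 2 [← e4]
    ring
  · obtain ⟨a, b, b', c', x, y, e⟩ := t.up u hu
    ext i; fin_cases i <;> simp [e, sh]
  · have := ((dg_entry l4 t.lv 0 0).mul (((dg_entry l4 t.lv 0 0).pw p l).mul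
      ((dg_entry l4 t.lv 2 2).pw p (L'.map (· + 2))))).sum_zero p c.exp c.card
      (by rw [hj, h5, List.length_map, h3]; simp [l4]; nlinarith) g
    simpa only [← entry_eq, pow_zero, pow_one] using this

theorem caseA (h2 : p ≠ 2) : False := by
  have h5 := t.p5 h c h2
  have r0 : List.range r ≠ [] := by simpa using c.pos.ne'
  have hr := c.pos
  set S := ((List.range r).map (p ^ ·)).sum with hS
  have pS : ∀ {τ a m : k}, τ ^ 5 * a ^ 6 * m = 1 → (τ ^ S) ^ 5 * (a ^ S) ^ 6 * m ^ S = 1 :=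
    fun {τ a m} e => by rw [← one_pow S, ← e]; simp only [mul_pow, ← pow_mul, mul_comm]
  by_cases e5 : p = 5
  · subst e5
    refine t.kA h c r0 SI.one one_ne_zero (by simp; omega) fun x hh => ?_
    obtain ⟨τ, a, m, -, -, e1, e2, -, e3, e4⟩ := t.wtA h c hi hx hh
    have := pS e2
    rw [e4] at this
    simp only [e1, diagonal_apply_eq, cons_val_zero, mul_one, mul_pow, pow_right_comm a 3]
    refine sub_eq_zero.1 (eq_zero_of_pow_eq_zero (n := 5) ?_)
    rw [sub_pow_char]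
    linear_combination (a ^ S) ^ 8 * this + ((a ^ S) ^ 4 + 1) * e3
  by_cases e7 : p = 7
  · subst e7
    refine t.kC h c hi hx hy (j := 0) rfl fun T N e1 e2 => ?_
    have e3 : T ^ 5 * N = 1 := by linear_combination e1 - T ^ 5 * N * e2
    rw [show (T * N ^ 3) ^ (0 + 1) * (T * N) ^ ((0 + 1) * 7 ^ 2) = (T ^ 5 * N) ^ 10 * (N ^ (7 - 1)) ^ 7 by
      ring, e3, e2]; simp
  by_cases e13 : p = 13
  · subst e13
    refine t.kC h c hi hx hy (j := 1) rfl fun T N e1 e2 => ?_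
    have : (T * N ^ 3) ^ (1 + 1) * (T * N) ^ ((1 + 1) * 13 ^ 2) * (N ^ (13 - 1)) ^ 11 =
      (T ^ 5 * N ^ 6 * N) ^ 68 := by ring
    simpa [e1, e2] using this
  by_cases e11 : p = 11
  · refine t.kB h c r0 (t.m34.pw p (List.range r)) (by simp) (by simp [e11]; omega) fun x hh => ?_
    obtain ⟨τ, a, m, t0, a0, e1, e2, -, e3, e4⟩ := t.wtA h c hi hx hh
    have := t.no5 h c hi hx e11 (pow_mem hh (S * 2)) (τ := τ ^ (S * 2)) (l := a ^ (S * 2))
      (m := m ^ (S * 2)) (by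
        rw [map_pow, e1, diagonal_pow]; congr 1; ext i
        fin_cases i <;> simp [mul_pow, pow_right_comm a _ (S * 2)]) (by
        rw [← hS, e11] at e3; rw [← e3]; ring)
    rw [(diag_inv e1).2, e1, ← mul_pow]
    simp only [diagonal_apply_eq, cons_val_zero, cons_val_one, Matrix.cons_val]
    rw [show τ * a ^ 3 * (τ * a ^ 2) * (τ⁻¹ * (τ * a)⁻¹) = a ^ 4 by field_simp]
    linear_combination (a ^ (S * 2) + 1) * this
  have h17 : 17 ≤ p := by
    by_contra e
    have := hp.out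
    interval_cases p <;> simp_all (config := {decide := true})
  obtain ⟨L, h1, h3⟩ := ex_list p r 4
  refine t.kA h c r0 ((t.c2 hy 2).pw p L) (by simp) (by
    rw [h1, List.length_range]; nlinarith [Nat.sub_add_cancel hp.out.one_le]) fun x hh => ?_
  obtain ⟨τ, a, m, -, -, e1, e2, -, e3, e4⟩ := t.wtA h c hi hx hh
  have := pS e2
  rw [← hS] at e4
  simp only [e1, diagonal_apply_eq, cons_val_zero, Matrix.cons_val, mul_pow, pow_right_comm a 3, h3,
    pow_mul', ← hS, e4] at this ⊢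
  linear_combination this

end N4

end Cfsg.Agent.L5.R
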