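import Cfsg.Agent.L5.R41

/-!
Jordan blocks `4, 1`: the remaining cases.
-/

set_option autoImplicit false
set_option linter.unusedSectionVars false

namespace Cfsg.Agent.L5.R
open Finset Matrix
open Subgroup (normalizer)
open Cfsg.Agent.L4.R (Dg tr)

variable {P k : Type*} [Group P] [Field k] {ρ : P →* M5 k} {U H : Subgroup P} {p r : ℕ}

theorem th {a m : k} (a0 : a ≠ 0) (e : m ^ 2 = a ^ 3) : ∃ θ : k, a = θ ^ 2 ∧ m = θ ^ 3 :=
  ⟨m / a, by rw [div_pow, e]; field_simp, by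
    rw [div_pow, ← e, eq_div_iff (e ▸ pow_ne_zero 3 a0)]; ring⟩

theorem signs' (h5 : ¬ 5 ∣ p) (s : ℕ) (L : List ℕ) (h : 4 ≤ L.length) : ∃ l l' : List ℕ,
    (l ≠ [] ∨ l' ≠ []) ∧ l.length + l'.length = L.length ∧
    (l.map (p ^ ·)).sum + (l'.map (p ^ ·)).sum = (L.map (p ^ ·)).sum ∧
    ((l.map (p ^ ·)).sum + s) % 5 = (l'.map (p ^ ·)).sum % 5 := by
  obtain ⟨l, l', h1, h2⟩ := signs h5 s L h
  refine ⟨l, l', by_contra fun e => ?_, h1, h2⟩
  push Not at e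
  simp [e.1, e.2] at h1; omega

namespace N4

theorem wt' (t : N4 ρ U H) (h : Hy0 ρ) (c : Gx p r U H) {x : P} (hx : x ∈ H) {τ a m : k}
    (e : ρ x = diagonal ![τ * a ^ 3, τ * a ^ 2, τ * m, τ * a, τ]) : m ≠ 0 ∧
    (∀ u, ρ (x * u * x⁻¹) 3 4 = a * ρ u 3 4) ∧ (∀ u, ρ (x * u * x⁻¹) 2 4 = m * ρ u 2 4) ∧
      ∀ u, ρ (x * u * x⁻¹) 0 2 = a ^ 3 / m * ρ u 0 2 := by
  obtain ⟨τ', l', m', t0, -, m0, e1, -, e2⟩ := t.wt h.det (fun _ a _ => c.conj a) hx
  have e4 := congrFun (diagonal_injective (e.symm.trans e1))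
  obtain rfl : τ = τ' := e4 4
  obtain rfl : a = l' := mul_left_cancel₀ t0 (e4 3)
  obtain rfl : m = m' := mul_left_cancel₀ t0 (e4 2)
  exact ⟨m0, e2⟩

theorem rel (t : N4 ρ U H) (c : Gx p r U H) {u v w : P} (hu : u ∈ U) (hv : v ∈ U) (hw : w ∈ U) :
    ρ u 3 4 * (ρ v 0 2 * ρ w 2 4 - ρ w 0 2 * ρ v 2 4) + ρ v 3 4 * (ρ w 0 2 * ρ u 2 4 - ρ u 0 2 * ρ w 2 4) +
      ρ w 3 4 * (ρ u 0 2 * ρ v 2 4 - ρ v 0 2 * ρ u 2 4) = 0 := by
  have e1 := congrArg (fun g => ρ g 0 4) (c.comm u hu v hv)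
  have e2 := congrArg (fun g => ρ g 0 4) (c.comm v hv w hw)
  have e3 := congrArg (fun g => ρ g 0 4) (c.comm w hw u hu)
  obtain ⟨a1, b1, d1, c1, x1, y1, h1⟩ := t.up u hu
  obtain ⟨a2, b2, d2, c2, x2, y2, h2⟩ := t.up v hv
  obtain ⟨a3, b3, d3, c3, x3, y3, h3⟩ := t.up w hw
  simp [h1, h2, h3, sh, mul_apply, Fin.sum_univ_five] at e1 e2 e3 ⊢
  linear_combination a3 * e1 + a1 * e2 + a2 * e3

variable [Finite P] [IsAlgClosed k] [hp : Fact p.Prime] [CharP k p] (t : N4 ρ U H) (h : Hy0 ρ)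
  (c : Gx p r U H) (h2 : p ≠ 2)
include t h c h2

section
variable (hi : ∀ u ∈ U, ρ u 3 4 = 0 → u = 1)
include hi

omit h c h2 in
theorem du_i : ∀ u ∈ U, R.du ρ u 3 4 = 0 → u = 1 := fun u hu e =>
  inv_eq_one.1 (hi _ (inv_mem hu) (by rwa [t.du_a hu] at e))

theorem caseY (hy : ∀ u ∈ U, ρ u 0 2 = 0) : False := by
  by_cases hx : ∃ u ∈ U, ρ u 2 4 ≠ 0
  · exact t.caseA h c hi hx hy h2
  · push Not at hx
    exact t.indec h c (t.p5 h c h2) hx hy

theorem caseS {β : k} (hx : ∀ u ∈ U, ρ u 2 4 = β * ρ u 3 4) : False := by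
  have hB : (!![1, 0, 0, 0, 0; 0, 1, 0, 0, 0; 0, 0, 1, β, 0; 0, 0, 0, 1, 0; 0, 0, 0, 0, 1] : M5 k) *
      !![1, 0, 0, 0, 0; 0, 1, 0, 0, 0; 0, 0, 1, -β, 0; 0, 0, 0, 1, 0; 0, 0, 0, 0, 1] = 1 := by
    ext i j; fin_cases i <;> fin_cases j <;> simp [mul_apply, Fin.sum_univ_five]
  have h1 : ∀ u ∈ U, ∃ b b' c y, cj hB ρ u = sh (ρ u 3 4) b b' c 0 y := fun u hu => by
    have h0 := hx u hu
    obtain ⟨a, b, b', c', x, y, e⟩ := t.up u hu
    rw [e] at h0
    obtain rfl : x = β * a := h0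
    refine ⟨β * y + b, b', c', y, cj_of hB ?_⟩
    ext i j; fin_cases i <;> fin_cases j <;> simp [e, sh, mul_apply, Fin.sum_univ_five, mul_comm]
  obtain ⟨u, hu, h0⟩ := t.ex
  have t' : N4 (cj hB ρ) U H := ⟨fun u hu => by
    obtain ⟨b, b', c, y, e⟩ := h1 u hu
    exact ⟨_, _, _, _, _, _, e⟩, fun x hh => by
      obtain ⟨τ, l, m, -, -, -, e, -, e1, e2, -⟩ := t.wt h.det (fun _ a _ => c.conj a) hh
      have e3 := hx _ (c.conj hh hu)
      rw [e1, e2, hx u hu, ← mul_assoc, ← mul_assoc] at e3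
      have e4 := mul_right_cancel₀ h0 e3
      refine ⟨![τ * l ^ 3, τ * l ^ 2, τ * m, τ * l, τ], cj_of hB ?_⟩
      ext i j; fin_cases i <;> fin_cases j <;> simp [e, mul_diagonal, diagonal_mul]
      linear_combination τ * e4, u, hu, by
      obtain ⟨b, b', c, y, e⟩ := h1 u hu
      rwa [e]⟩
  refine t'.du.caseY ((h.cj hB).dl.cj _) c h2 (t'.du_i fun u hu e => hi u hu ?_) fun u hu => ?_
  · obtain ⟨b, b', c, y, e'⟩ := h1 u hu
    rwa [e'] at e
  · obtain ⟨b, b', c, y, e'⟩ := h1 _ (inv_mem hu)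
    simp [du_apply, rev5, e', sh]

theorem caseB (hr : 2 ≤ r) : False := by
  by_cases hx : ∃ β, ∀ u ∈ U, ρ u 2 4 = β * ρ u 3 4
  · exact hx.elim fun β => t.caseS h c h2 hi
  by_cases hy : ∃ β, ∀ u ∈ U, ρ u 0 2 = β * ρ u 3 4
  · obtain ⟨β, hy⟩ := hy
    refine t.du.caseS (h.dl.cj _) c h2 (t.du_i hi) (β := β) fun u hu => ?_
    rw [t.du_a hu, du_apply, ← hy _ (inv_mem hu), rev5.2.2.1, rev5.2.2.2.2]
  push Not at hx hy
  obtain ⟨u, hu, h0⟩ := t.ex
  obtain ⟨v, hv, h1⟩ := hx (ρ u 2 4 / ρ u 3 4)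
  obtain ⟨w, hw, h3⟩ := hy (ρ u 0 2 / ρ u 3 4)
  rw [div_mul_eq_mul_div, Ne, eq_div_iff h0, ← sub_eq_zero] at h1 h3
  have hx' : ∃ u ∈ U, ρ u 2 4 ≠ 0 := (hx 0).imp fun u e => by simpa using e
  have h5 := t.p5 h c h2
  set S := ((List.range r).map (p ^ ·)).sum with hS
  have key : ∀ x ∈ H, ∀ τ a m : k, a ≠ 0 → ρ x = diagonal ![τ * a ^ 3, τ * a ^ 2, τ * m, τ * a, τ] →
      m ^ 2 = a ^ 3 ∧ m ^ S = 1 ∧ (r = 2 → p = 7 → m = 1) := fun x hh τ a m a0 e => by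
    obtain ⟨m0, e1, e2, e3⟩ := t.wt' h c hh e
    have f1 := t.rel c hu hv hw
    have f2 := t.rel c hu hw (c.conj hh hu)
    have f3 := t.rel c hu hw (c.conj hh hv)
    rw [e1, e2, e3] at f2 f3
    have f4 : m ^ 2 = a ^ 3 := by
      obtain ⟨n, hn⟩ : ∃ n, n = a ^ 3 / m := ⟨_, rfl⟩
      rw [← hn] at f2 f3
      have : (m - n) * ((ρ v 2 4 * ρ u 3 4 - ρ u 2 4 * ρ v 3 4) *
        (ρ w 0 2 * ρ u 3 4 - ρ u 0 2 * ρ w 3 4)) = 0 := by
        linear_combination ρ u 3 4 * f3 - ρ v 3 4 * f2 + n * ρ u 3 4 * f1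
      rw [mul_eq_zero, sub_eq_zero, hn, eq_div_iff m0] at this
      rw [sq, this.resolve_right (mul_ne_zero h1 h3)]
    obtain ⟨τ', l', m', t0, -, g1, -, g2, -, g3⟩ := t.wtA h c hi hx' hh
    have e4 := congrFun (diagonal_injective (e.symm.trans g1))
    obtain rfl : τ = τ' := e4 4
    obtain rfl : a = l' := mul_left_cancel₀ t0 (e4 3)
    obtain rfl : m = m' := mul_left_cancel₀ t0 (e4 2)
    rw [← hS] at g3
    have g4 : a ^ S = 1 := mul_left_cancel₀ (pow_ne_zero 2 (pow_ne_zero S a0)) (by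
      rw [← pow_succ, pow_right_comm, ← f4, pow_right_comm, g3, mul_one])
    refine ⟨f4, g3.trans g4, ?_⟩
    rintro rfl rfl
    have g5 : ∀ j, a ^ j = 1 → m ^ j = 1 := fun j e => by simpa using g2 j 1 (by simpa using e)
    rw [g4, show S = 8 from rfl] at g3
    rw [show S = 8 from rfl] at g4
    obtain ⟨θ, rfl, rfl⟩ := th a0 f4
    have i1 : θ ^ 8 = 1 := by linear_combination g3 - θ ^ 8 * g4
    have i2 : θ ^ 4 = 1 := by linear_combination g5 4 (by linear_combination i1) - θ ^ 4 * i1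
    have i3 : θ ^ 2 = 1 := by linear_combination g5 2 (by linear_combination i2) - θ ^ 2 * i2
    simpa using g5 1 (by simpa using i3)
  have r0 : List.range r ≠ [] := by simpa using c.pos.ne'
  by_cases e5 : p = 5
  · exact t.kG h c (List.range r) [] [] (.inl r0) (by simp [e5]; omega) (.inl e5)
      fun x hh τ a m a0 e => by simpa using ⟨(key x hh τ a m a0 e).1, (key x hh τ a m a0 e).2.1⟩
  by_cases e7 : p = 7
  · subst e7
    rcases hr.eq_or_lt with rfl | hr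
    · exact t.kG h c [0] [0] [] (by simp) (by simp) (by simp) fun x hh τ a m a0 e =>
        ⟨(key x hh τ a m a0 e).1, by simp [(key x hh τ a m a0 e).2.2]⟩
    rcases (show 3 ≤ r from hr).eq_or_lt with rfl | hr
    · exact t.kG h c [0] [1, 2] [] (by simp) (by simp) (by simp) fun x hh τ a m a0 e =>
        ⟨(key x hh τ a m a0 e).1, by simpa [show S = 57 from rfl] using (key x hh τ a m a0 e).2.1⟩
    obtain ⟨l, l', g0, g1, g2, g3⟩ := signs' (p := 7) (by decide) 0 (List.range r) (by simp; omega)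
    exact t.kG h c l l' [] (by tauto) (by simp at g1 ⊢; omega) (.inr (by simpa using g3))
      fun x hh τ a m a0 e => ⟨(key x hh τ a m a0 e).1, by simp [g2, ← hS, (key x hh τ a m a0 e).2.1]⟩
  have h8 : 8 ≤ p := by
    by_contra e
    have := hp.out
    interval_cases p <;> simp_all (config := {decide := true})
  exact t.kG h c (List.range r) (List.range r) [] (.inl r0) (by
    simp only [List.length_range, List.length_nil]; nlinarith [Nat.sub_add_cancel hp.out.one_le])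
    (by simp) fun x hh τ a m a0 e => ⟨(key x hh τ a m a0 e).1, by
      simp [pow_add, ← hS, (key x hh τ a m a0 e).2.1]⟩

end

theorem caseC (hS : NoS ρ) {u : P} (hu : u ∈ U) (u1 : u ≠ 1) (ua : ρ u 3 4 = 0) : False := by
  have nz : ∀ u ∈ U, ρ u 3 4 = 0 → ρ u 0 2 * ρ u 2 4 = 0 → u = 1 := fun u hu e1 e2 => hS u (by
    obtain ⟨a, b, b', c', x, y, e⟩ := t.up u hu
    rw [e] at e1 e2 ⊢
    obtain rfl : a = 0 := e1
    ext i j; fin_cases i <;> fin_cases j <;> simp [sh, mul_apply, Fin.sum_univ_five, one_apply]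
    simpa [sh] using e2)
  obtain ⟨w, hw, w0⟩ := t.ex
  let V := kr U (fun u => ρ u 3 4) t.add_a
  have hV : V ≤ U := fun x hx => hx.1
  obtain ⟨r2, h3, h4⟩ := (Nat.dvd_prime_pow hp.out).1 (c.card ▸ Subgroup.card_dvd_of_le hV)
  obtain ⟨r1, rfl⟩ := Nat.exists_eq_add_of_le' h3
  have p1 : 0 < r1 := Nat.pos_of_ne_zero fun e => w0 ((Subgroup.eq_of_le_of_card_ge hV
    (by rw [c.card, h4, e, zero_add])).ge hw).2
  have p2 : 0 < r2 := Nat.pos_of_ne_zero fun e => u1 ((Subgroup.card_eq_one.1 (by rw [h4, e, pow_zero])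
    ).le (show u ∈ V from ⟨hu, ua⟩))
  have h5 := t.p5 h c h2
  have key : ∀ x ∈ H, ∀ τ a m : k, a ≠ 0 → ρ x = diagonal ![τ * a ^ 3, τ * a ^ 2, τ * m, τ * a, τ] →
      ∃ θ : k, a = θ ^ 2 ∧ m = θ ^ 3 ∧ θ ^ (((List.range r1).map (p ^ ·)).sum * (p - 1) * 2) = 1 ∧
        θ ^ (((List.range r2).map (p ^ ·)).sum * (p - 1) * 3) = 1 := fun x hh τ a m a0 e => by
    obtain ⟨m0, e1, e2, e3⟩ := t.wt' h c hh e
    have f1 := t.rel c hw hu (c.conj hh hu)
    rw [e1, e2, e3, ua] at f1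
    have f2 : (m - a ^ 3 / m) * (ρ w 3 4 * (ρ u 0 2 * ρ u 2 4)) = 0 := by linear_combination f1
    rw [mul_eq_zero, sub_eq_zero, eq_div_iff m0, ← sq] at f2
    obtain ⟨θ, rfl, rfl⟩ := th a0 (f2.resolve_right (mul_ne_zero w0 fun e => u1 (nz u hu ua e)))
    refine ⟨θ, rfl, rfl, ?_, ?_⟩
    · rw [pow_mul', geom]
      exact wt_root t.add_a a0 (fun _ => c.conj hh) (fun u _ => e1 u) (by rw [h4, c.card, pow_add])
    · rw [pow_mul', geom, ← h4]
      exact wt_root' (a := fun u => ρ u 2 4) (fun u a v b => t.add_x u (hV a) v (hV b))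
        (fun u a e => nz u a.1 a.2 (mul_eq_zero_of_right _ e)) m0
        (fun u a => ⟨c.conj hh a.1, (e1 u).trans (mul_eq_zero_of_right _ a.2)⟩) fun u _ => e2 u
  have fin : ∀ l l' z : List ℕ, (l ≠ [] ∨ l' ≠ [] ∨ z ≠ []) →
      3 * l.length + 3 * l'.length + 4 * z.length < (r1 + r2) * (p - 1) →
      (p = 5 ∨ ((l.map (p ^ ·)).sum + 2 * (z.map (p ^ ·)).sum) % 5 = (l'.map (p ^ ·)).sum % 5) →
      (∀ θ : k, θ ^ (((List.range r1).map (p ^ ·)).sum * (p - 1) * 2) = 1 →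
        θ ^ (((List.range r2).map (p ^ ·)).sum * (p - 1) * 3) = 1 →
        θ ^ (3 * ((l.map (p ^ ·)).sum + (l'.map (p ^ ·)).sum) + 4 * (z.map (p ^ ·)).sum) = 1) → False :=
    fun l l' z a b d e => t.kG h c l l' z a b d fun x hh τ a m a0 e' => by
      obtain ⟨θ, rfl, rfl, f1, f2⟩ := key x hh τ a m a0 e'
      exact ⟨by ring, by rw [← e θ f1 f2]; ring⟩
  have r0 : ∀ {r}, 0 < r → List.range r ≠ [] := fun h => by simpa using h.ne'
  by_cases e5 : p = 5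
  · subst e5
    have two : ∀ s, 0 < s → 2 * s < r1 + r2 → (s = r1 ∨ s = r2) → False := fun s s0 s1 s2 =>
      fin [] [] (List.range s ++ (List.range s).map (· + 1)) (by simp [s0.ne']) (by simp; omega)
        (.inl rfl) fun θ f1 f2 => by
          rw [List.map_append, List.sum_append, sum_shift]
          rcases s2 with rfl | rfl
          · rw [← one_pow (M := k) 3, ← f1, ← pow_mul]; congr 1; simp; ring
          · rw [← one_pow (M := k) 2, ← f2, ← pow_mul]; congr 1; simp; ring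
    rcases lt_trichotomy r1 r2 with e | rfl | e
    · exact two r1 p1 (by omega) (.inl rfl)
    · refine fin [] [] (List.range r1) (by simp [p1.ne']) (by simp; omega) (.inl rfl) fun θ f1 f2 => ?_
      rw [pow_mul] at f1 f2
      rw [pow_succ, f1, one_mul] at f2
      simpa [mul_comm] using f2
    · exact two r2 p2 (by omega) (.inr rfl)
  by_cases e7 : p = 7 ∧ r1 = 1
  · obtain ⟨rfl, rfl⟩ := e7
    rcases (show 1 ≤ r2 from p2).eq_or_lt with rfl | e
    · refine fin [0] [0] [] (by simp) (by simp) (by simp) fun θ f1 f2 => ?_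
      simp at f1 f2 ⊢
      linear_combination f2 - θ ^ 6 * f1
    · exact fin [0, 0] [0, 0] [] (by simp) (by simp; omega) (by simp) fun θ f1 _ => by simpa using f1
  by_cases e11 : p = 11 ∧ r1 = 1
  · obtain ⟨rfl, rfl⟩ := e11
    refine fin [] [1, 0] [0] (by simp) (by simp; omega) (by simp) fun θ f1 _ => ?_
    simp at f1 ⊢
    linear_combination (θ ^ 20 + 1) * f1
  obtain ⟨j, ε, g1, g2⟩ : ∃ j ε, p = 3 * j + 4 * ε + 4 ∧ 4 ≤ r1 * (j + 1) := by
    have a2 := hp.out.eq_one_or_self_of_dvd 2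
    have a3 := hp.out.eq_one_or_self_of_dvd 3
    have a4 : ∀ j, 1 ≤ j → (r1 = 1 → 3 ≤ j) → 4 ≤ r1 * (j + 1) := fun j a b => by
      rcases (show 1 ≤ r1 from p1).eq_or_lt with e | e
      · have := b e.symm; nlinarith
      · nlinarith
    by_cases e : p % 3 = 1
    · exact ⟨(p - 4) / 3, 0, by omega, a4 _ (by omega) (by omega)⟩
    · exact ⟨(p - 8) / 3, 1, by omega, a4 _ (by omega) (by omega)⟩
  obtain ⟨L, g3, g4⟩ := ex_list p r1 j
  obtain ⟨z, g5, g6⟩ := ex_list p r1 ε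
  obtain ⟨l, l', i0, i1, i2, i3⟩ := signs' (p := p) (fun e => e5
    ((Nat.prime_dvd_prime_iff_eq Nat.prime_five hp.out).1 e).symm) (2 * (z.map (p ^ ·)).sum)
    (L ++ (List.range r1).map (· + 1)) (by simp [g3]; linarith)
  have i4 : p - 1 = 3 * j + 4 * ε + 3 := by omega
  refine fin l l' z (by tauto) ?_ (.inr i3) fun θ f1 _ => ?_
  · simp only [List.length_append, List.length_map, List.length_range, g3] at i1
    rw [g5, i4]; nlinarith
  · rw [i2, List.map_append, List.sum_append, sum_shift, g4, g6, ← one_pow (M := k) 2, ← f1, ← pow_mul, i4]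
    congr 1
    generalize ((List.range r1).map (p ^ ·)).sum = S
    rw [g1]; ring

end N4

end Cfsg.Agent.L5.R
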