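import Cfsg.Agent.L4.R2

/-!
Weighted degrees of functions on an elementary abelian group with a distinguished coordinate.
-/

set_option autoImplicit false

namespace Cfsg.Agent.L5.R.I5
open Finset Matrix
open Cfsg.Agent.L4.R (Dg)

variable {G k : Type*} [Group G] [Field k]

/-- Functions of weight at most `n`, in which the coordinate `x` has weight one and all other
coordinates have weight two, and in which the exponent of `x` is at most `M`. -/
inductive Wt (x : G → k) (n M : ℕ) : (G → k) → Prop
  | base (α a b : ℕ) (f : G → k) : Dg ⊤ (a + 1) (fun g => x g ^ α) → Dg ⊤ (b + 1) f →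
      a + 2 * b ≤ n → α ≤ M → Wt x n M fun g => x g ^ α * f g
  | add {f f' : G → k} : Wt x n M f → Wt x n M f' → Wt x n M fun g => f g + f' g

namespace Wt
variable {x f f' : G → k} {n M n' M' : ℕ}

theorem congr (h : Wt x n M f) (e : ∀ g, f' g = f g) : Wt x n M f' := (funext e : f' = f) ▸ h

theorem mono (h : Wt x n M f) (e : n ≤ n') (e' : M ≤ M') : Wt x n' M' f := by
  induction h with
  | base α a b f h1 h2 h3 h4 => exact base α a b f h1 h2 (h3.trans e) (h4.trans e')
  | add _ _ i1 i2 => exact i1.add i2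

theorem of_dg {b : ℕ} (h : Dg ⊤ (b + 1) f) : Wt x (2 * b) 0 f :=
  (base 0 0 b f (by simpa using L4.R.Dg.const 1) h (by omega) le_rfl).congr fun g => by simp

theorem const (c : k) : Wt x n M fun _ => c :=
  (of_dg (b := 0) (L4.R.Dg.const c)).mono (by omega) (by omega)

theorem self (h : Dg ⊤ 2 x) : Wt x 1 1 x :=
  (base 1 1 0 _ (by simpa using h) (L4.R.Dg.const 1) le_rfl le_rfl).congr fun g => by simp

theorem mul (h : Wt x n M f) (h' : Wt x n' M' f') : Wt x (n + n') (M + M') fun g => f g * f' g := by
  induction h with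
  | base α a b f h1 h2 h3 h4 =>
    induction h' with
    | base α' a' b' f' g1 g2 g3 g4 =>
      exact (base (α + α') (a + a') (b + b') _ (by simpa only [pow_add] using h1.mul g1) (h2.mul g2)
        (by omega) (by omega)).congr fun g => by ring
    | add _ _ i1 i2 => exact (i1.add i2).congr fun g => by ring
  | add _ _ i1 i2 => exact (i1.add i2).congr fun g => by ring

theorem cmul (c : k) (h : Wt x n M f) : Wt x n M fun g => c * f g := by
  simpa using (const (n := 0) (M := 0) c).mul h

theorem sub (h : Wt x n M f) (h' : Wt x n M f') : Wt x n M fun g => f g - f' g :=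
  (h.add (h'.cmul (-1))).congr fun g => by ring

theorem frob (p : ℕ) [ExpChar k p] (i : ℕ) (h : Wt x n M f) :
    Wt x n (M * p ^ i) fun g => f g ^ p ^ i := by
  induction h with
  | base α a b f h1 h2 h3 h4 =>
    exact (base (α * p ^ i) a b _ (by simpa only [pow_mul] using h1.frob p i) (h2.frob p i) h3
      (Nat.mul_le_mul_right _ h4)).congr fun g => by rw [mul_pow, pow_mul]
  | add _ _ i1 i2 => exact (i1.add i2).congr fun g => add_pow_expChar_pow ..

theorem pw (p : ℕ) [ExpChar k p] (h : Wt x n M f) : ∀ l : List ℕ,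
    Wt x (n * l.length) (M * (l.map (p ^ ·)).sum) fun g => f g ^ (l.map (p ^ ·)).sum
  | [] => by simpa using const 1
  | a :: l => by
    have := (h.frob p a).mul (h.pw p l)
    simp only [List.length_cons, List.map_cons, List.sum_cons, pow_add, mul_add, mul_one]
    rwa [add_comm (n * l.length)]

theorem sum {ι : Type*} (s : Finset ι) (f : ι → G → k) (h : ∀ i ∈ s, Wt x n M (f i)) :
    Wt x n M fun g => ∑ i ∈ s, f i g := by
  classical
  induction s using Finset.induction_on with
  | empty => simpa using const 0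
  | insert a s ha ih =>
    simp only [sum_insert ha]
    exact (h a (mem_insert_self _ _)).add (ih fun i hi => h i (mem_insert_of_mem hi))

end Wt

theorem sum_quot [Finite G] (V : Subgroup G) (f : G → k) :
    ∑ᶠ g, f g = ∑ᶠ q : G ⧸ V, ∑ᶠ v : V, f (q.out * v) := by
  let φ : (G ⧸ V) × V → G := fun x => x.1.out * x.2
  have hφ : Function.Bijective φ := by
    refine (Nat.bijective_iff_injective_and_card φ).2 ⟨?_, by
      rw [Nat.card_prod, Subgroup.card_eq_card_quotient_mul_card_subgroup V]⟩
    rintro ⟨q, v⟩ ⟨q', v'⟩ e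
    have e1 := congrArg (QuotientGroup.mk : G → G ⧸ V) e
    simp only [φ, QuotientGroup.mk_mul_of_mem _ (SetLike.coe_mem _), QuotientGroup.out_eq'] at e1
    subst e1
    exact Prod.ext rfl (Subtype.ext (mul_left_cancel e))
  letI := Fintype.ofFinite G
  letI := Fintype.ofFinite V
  letI := Fintype.ofFinite (G ⧸ V)
  simp only [finsum_eq_sum_of_fintype]
  rw [← hφ.sum_comp, Fintype.sum_prod_type]

/-- A function of small weight sums to zero. -/
theorem Wt.sum_zero [Finite G] (p : ℕ) [Fact p.Prime] [CharP k p] (hc : ∀ a b : G, a * b = b * a)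
    (he : ∀ u : G, u ^ p = 1) (X : G →* Multiplicative k) {s t : ℕ} (hG : Nat.card G = p ^ (s + t))
    (hV : Nat.card X.ker = p ^ t) {n M : ℕ}
    (hn : n < (s + 2 * t) * (p - 1) ∨ n ≤ (s + 2 * t) * (p - 1) ∧ M + 1 < p ^ s) {f : G → k}
    (h : Wt (fun g => (X g).toAdd) n M f) : ∑ᶠ g, f g = 0 := by
  induction h with
  | add _ _ i1 i2 => rw [finsum_add_distrib (Set.toFinite _) (Set.toFinite _), i1, i2, add_zero]
  | base α a b f h1 h2 h3 h4 =>
    have he' : ∀ u ∈ (⊤ : Subgroup G), u ^ p = 1 := fun u _ => he u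
    by_cases e : a + b < (s + t) * (p - 1)
    · have := (h1.mul h2).sum_zero p he' (r := s + t) (by simpa using hG) e 1
      rw [← this, ← finsum_comp_equiv Subgroup.topEquiv.toEquiv]
      simp
    have h5 := h2.sum_sub p he' t X.ker le_top hV
    have h6 : ∀ q : G ⧸ X.ker, ∑ᶠ v : X.ker, (X (q.out * v)).toAdd ^ α * f (q.out * v) =
        (QuotientGroup.kerLift X q).toAdd ^ α * ∑ᶠ v : X.ker, f (v * q.out) := fun q => by
      rw [mul_finsum]
      refine finsum_congr fun v => ?_
      rw [map_mul, show X v = 1 from v.2, mul_one, hc, ← QuotientGroup.kerLift_mk, QuotientGroup.out_eq']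
    rw [sum_quot X.ker, finsum_congr h6]
    rw [add_mul, mul_assoc] at hn
    rw [add_mul] at e
    by_cases e' : b < t * (p - 1)
    · rw [show b + 1 - t * (p - 1) = 0 by omega] at h5
      simp [h5 _]
    rw [show b + 1 - t * (p - 1) = 1 by omega] at h5
    have h7 : ∀ g : G, ∑ᶠ v : X.ker, f (v * g) = ∑ᶠ v : X.ker, f (v * 1) := fun g => by
      simpa [sub_eq_zero] using h5 g trivial 1
    have h8 : Nat.card (G ⧸ X.ker) = p ^ s := by
      have := Subgroup.card_eq_card_quotient_mul_card_subgroup X.ker
      rw [hG, hV, pow_add] at this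
      exact (Nat.eq_of_mul_eq_mul_right (pow_pos (Fact.out : p.Prime).pos t) this).symm
    have h9 := L4.R.pow_sum (U := ⊤) (x := fun q => (QuotientGroup.kerLift X q).toAdd)
      (fun u _ v _ => by simp) (fun u _ e => QuotientGroup.kerLift_injective X (by simpa using e))
      (m := α) (by rw [Subgroup.card_top, h8]; omega)
    simp only [h7]
    rw [← finsum_mul, ← finsum_comp_equiv Subgroup.topEquiv.toEquiv]
    simp at h9 ⊢
    exact Or.inl h9

section Mat
variable {x : G → k} {A : G → Matrix (Fin 5) (Fin 5) k}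

theorem wt_entry (h : ∀ i j : Fin 5, Wt x (j - i) (j - i) fun g => A g i j)
    (Y Z : Matrix (Fin 5) (Fin 5) k) (a b : Fin 5) : Wt x 4 4 fun g => (Y * A g * Z) a b := by
  refine (Wt.sum univ _ fun j _ => Wt.sum univ _ fun i _ =>
    ((h i j).mono (by omega) (by omega)).cmul (Y a i * Z j b)).congr fun g => ?_
  simp only [mul_apply, Finset.sum_mul]
  exact sum_congr rfl fun j _ => sum_congr rfl fun i _ => by ring

theorem wt_minor (h : ∀ i j : Fin 5, Wt x (j - i) (j - i) fun g => A g i j)
    (Y Z : Matrix (Fin 5) (Fin 5) k) (a b a' b' : Fin 5) : Wt x 6 6 fun g =>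
      (Y * A g * Z) a b * (Y * A g * Z) a' b' - (Y * A g * Z) a b' * (Y * A g * Z) a' b := by
  have h1 : ∀ i i' j j' : Fin 5, Wt x 6 6 fun g => A g i j * A g i' j' - A g i j' * A g i' j := by
    intro i i' j j'
    by_cases e : i = i' ∨ j = j'
    · refine (Wt.const 0).congr fun g => ?_
      rcases e with rfl | rfl <;> ring
    · rw [not_or, ← Fin.val_inj, ← Fin.val_inj] at e
      exact (((h i j).mul (h i' j')).mono (by omega) (by omega)).sub
        (((h i j').mul (h i' j)).mono (by omega) (by omega))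
  refine (Wt.sum univ _ fun j _ => Wt.sum univ _ fun j' _ => Wt.sum univ _ fun i _ =>
    Wt.sum univ _ fun i' _ => (h1 i i' j j').cmul (Y a i * Y a' i' * Z j b * Z j' b')).congr
      fun g => ?_
  simp only [mul_apply]
  rw [mul_comm (∑ j, _ * Z j b'), sum_mul_sum, sum_mul_sum, ← sum_sub_distrib]
  refine sum_congr rfl fun j _ => ?_
  rw [← sum_sub_distrib]
  refine sum_congr rfl fun j' _ => ?_
  simp only [Fin.sum_univ_five]
  ring

end Mat

end Cfsg.Agent.L5.R.I5
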