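import Cfsg.Agent.L5.RI

/-!
The normal form of a Sylow subgroup with a regular unipotent element.
-/

set_option autoImplicit false
set_option linter.unusedSectionVars false

namespace Cfsg.Agent.L5.R.I5
open Finset Matrix

variable {P k : Type*} [Group P] [Field k] {ρ : P →* M5 k} {U H : Subgroup P} {p r : ℕ}

/-- The Toeplitz matrices. -/
def tq (t a b c e : k) : M5 k :=
  !![t, a, b, c, e; 0, t, a, b, c; 0, 0, t, a, b; 0, 0, 0, t, a; 0, 0, 0, 0, t]

/-- The diagonal matrices with geometric diagonal. -/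
def dq (x l : k) : M5 k := diagonal ![x * l ^ 4, x * l ^ 3, x * l ^ 2, x * l, x]

/-- The nilpotent Jordan block. -/
abbrev jn : M5 k := tq 0 1 0 0 0

theorem tq_mul (t a b c e t' a' b' c' e' : k) : tq t a b c e * tq t' a' b' c' e' =
    tq (t * t') (t * a' + a * t') (t * b' + a * a' + b * t') (t * c' + a * b' + b * a' + c * t')
      (t * e' + a * c' + b * b' + c * a' + e * t') := by
  ext i j; fin_cases i <;> fin_cases j <;> simp [tq, mul_apply, Fin.sum_univ_five]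

theorem tq_comm (t a b c e t' a' b' c' e' : k) : tq t a b c e * tq t' a' b' c' e' =
    tq t' a' b' c' e' * tq t a b c e := by
  rw [tq_mul, tq_mul]; congr 1 <;> ring

theorem tq_sub (a b c e : k) : tq 1 a b c e - 1 = tq 0 a b c e := by
  ext i j; fin_cases i <;> fin_cases j <;> simp [tq]

theorem tq_zero : tq (0 : k) 0 0 0 0 = 0 := by
  ext i j; fin_cases i <;> fin_cases j <;> simp [tq]

theorem tq_four (a b c e : k) : tq 0 a b c e ^ 4 = tq 0 0 0 0 (a ^ 4) := by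
  simp only [pow_succ, pow_zero, one_mul, tq_mul]; congr 1 <;> ring

theorem tq_of {A : M5 k} (h : A * jn = jn * A) : A = tq (A 0 0) (A 0 1) (A 0 2) (A 0 3) (A 0 4) := by
  simp [← Matrix.ext_iff, tq, mul_apply, vecMul, dotProduct, Fin.sum_univ_five, Fin.forall_fin_succ]
    at h ⊢
  grind

theorem dq_of {A : M5 k} {x l : k} (h : A * jn = l • (jn * A))
    (h' : A *ᵥ Pi.single 4 1 = x • Pi.single 4 1) : A = dq x l := by
  simp [← Matrix.ext_iff, funext_iff, tq, dq, mul_apply, vecMul, dotProduct, Fin.sum_univ_five,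
    Fin.forall_fin_succ] at h h' ⊢
  grind

theorem jb {n : M5 k} (h5 : n ^ 5 = 0) {v : Fin 5 → k} (hv : (n ^ 4) *ᵥ v ≠ 0) :
    ∃ (B B' : M5 k) (_ : B * B' = 1), n * B = B * jn ∧ B *ᵥ Pi.single 4 1 = v := by
  have h0 : n *ᵥ (n *ᵥ (n *ᵥ (n *ᵥ (n *ᵥ v)))) = 0 := by
    simp only [mulVec_mulVec]; rw [show n * (n * (n * (n * n))) = n ^ 5 by noncomm_ring, h5, zero_mulVec]
  have h1 : n *ᵥ (n *ᵥ (n *ᵥ (n *ᵥ v))) ≠ 0 := by
    simp only [mulVec_mulVec]; rwa [show n * (n * (n * n)) = n ^ 4 by noncomm_ring]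
  obtain ⟨B', hB⟩ := cols_inv (v := ![n *ᵥ (n *ᵥ (n *ᵥ (n *ᵥ v))), n *ᵥ (n *ᵥ (n *ᵥ v)), n *ᵥ (n *ᵥ v),
    n *ᵥ v, v]) fun c e => by
      simp only [Fin.sum_univ_five, Matrix.cons_val] at e
      have e1 := congrArg (n *ᵥ ·) e
      simp only [mulVec_add, mulVec_smul, h0, smul_zero, mulVec_zero, zero_add] at e1
      have e2 := congrArg (n *ᵥ ·) e1
      simp only [mulVec_add, mulVec_smul, h0, smul_zero, mulVec_zero, zero_add] at e2
      have e3 := congrArg (n *ᵥ ·) e2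
      simp only [mulVec_add, mulVec_smul, h0, smul_zero, mulVec_zero, zero_add] at e3
      have e4 := congrArg (n *ᵥ ·) e3
      simp only [mulVec_add, mulVec_smul, h0, smul_zero, mulVec_zero, zero_add] at e4
      have c4 := (smul_eq_zero.1 e4).resolve_right h1
      rw [c4, zero_smul, add_zero] at e e1 e2 e3
      have c3 := (smul_eq_zero.1 e3).resolve_right h1
      rw [c3, zero_smul, add_zero] at e e1 e2
      have c2 := (smul_eq_zero.1 e2).resolve_right h1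
      rw [c2, zero_smul, add_zero] at e e1
      have c1 := (smul_eq_zero.1 e1).resolve_right h1
      rw [c1, zero_smul, add_zero] at e
      have c0 := (smul_eq_zero.1 e).resolve_right h1
      intro i; fin_cases i <;> assumption
  refine ⟨_, B', hB, ?_, by ext i; simp⟩
  ext i j
  have e : ∀ w : Fin 5 → k, ∑ x, n i x * w x = (n *ᵥ w) i := fun w => rfl
  rw [mul_apply, mul_apply (M := _ᵀ), Fin.sum_univ_five (f := fun x => _ * (jn : M5 k) x j)]
  fin_cases j <;> simp [-mulVec_mulVec, e, h0, tq]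

theorem eav [Finite P] (hc : (Nat.card H : k) ≠ 0) {M : Type*} [AddCommGroup M] [Module k M]
    (σ : P → M →ₗ[k] M) (hσ : ∀ a b w, σ (a * b) w = σ a (σ b w)) (χ : P → k)
    (hχ : ∀ a ∈ H, ∀ b ∈ H, χ (a * b) = χ a * χ b) (h1 : χ 1 = 1) (w : M) (S : Submodule k M)
    (hS : ∀ h ∈ H, σ h w - χ h • w ∈ S) : ∃ w', w' - w ∈ S ∧ ∀ h ∈ H, σ h w' = χ h • w' := by
  letI := Fintype.ofFinite H
  refine ⟨(Nat.card H : k)⁻¹ • ∑ h : H, χ (h : P)⁻¹ • σ h w, ?_, fun h hh => ?_⟩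
  · have := S.smul_mem (Nat.card H : k)⁻¹ (sum_mem fun (h : H) (_ : h ∈ univ) =>
      S.smul_mem (χ (h : P)⁻¹) (hS h h.2))
    simp only [smul_sub, smul_smul, ← hχ _ (inv_mem (SetLike.coe_mem _)) _ (SetLike.coe_mem _),
      inv_mul_cancel, h1, one_smul, sum_sub_distrib, sum_const, card_univ] at this
    rwa [← Nat.cast_smul_eq_nsmul k, smul_smul, ← Nat.card_eq_fintype_card, inv_mul_cancel₀ hc,
      one_smul] at this
  · rw [map_smul, smul_comm, map_sum, smul_sum (r := χ h),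
      ← Equiv.sum_comp (Equiv.mulLeft (⟨h, hh⟩ : H)) fun x : H => χ h • χ (x : P)⁻¹ • σ x w]
    congr 1
    refine sum_congr rfl fun x _ => ?_
    rw [map_smul, smul_smul, mul_comm, ← hχ _ (inv_mem (SetLike.coe_mem _)) _ hh, ← hσ]
    simp

/-- The normal form. -/
structure J (ρ : P →* M5 k) (U H : Subgroup P) : Prop where
  tq : ∀ u ∈ U, ∃ a b c e, ρ u = tq 1 a b c e
  dq : ∀ h ∈ H, ∃ x l, ρ h = dq x l
  reg : ∃ u ∈ U, ρ u 0 1 ≠ 0

variable [hp : Fact p.Prime] [CharP k p]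

theorem nil (he : ∀ u ∈ U, u ^ p = 1) {u : P} (hu : u ∈ U) : (ρ u - 1) ^ p = 0 := by
  haveI : CharP (M5 k) p := charP_of_injective_algebraMap (algebraMap k _).injective p
  rw [sub_pow_char_of_commute p (Commute.one_right _), ← map_pow, he u hu, map_one, one_pow, sub_self]

theorem five_le (h2 : p ≠ 2) (he : ∀ u ∈ U, u ^ p = 1) (h : ∃ u ∈ U, (ρ u - 1) ^ 4 ≠ 0) : 5 ≤ p := by
  obtain ⟨u, hu, h⟩ := h
  by_contra e
  exact h (pow_eq_zero_of_le (by omega) (nil he hu))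

theorem utq (he : ∀ u ∈ U, u ^ p = 1) {u : P} (hu : u ∈ U) (h : ρ u * jn = jn * ρ u) :
    ∃ a b c e, ρ u = tq 1 a b c e := by
  have h1 := tq_of h
  have h2 := K.eig_one (A := ρ u) (μ := ρ u 0 0) (v := Pi.single 0 1) (by
    rw [h1]; ext i; fin_cases i <;> simp [tq]) (by simp) (n := p) (by rw [← map_pow, he u hu, map_one])
  have h3 : ρ u 0 0 = 1 := by
    have : (ρ u 0 0 - 1) ^ p = 0 := by rw [sub_pow_char, h2, one_pow, sub_self]
    exact sub_eq_zero.1 (pow_eq_zero_iff hp.out.ne_zero |>.1 this)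
  exact ⟨_, _, _, _, h3 ▸ h1⟩

theorem ex1 (he : ∀ u ∈ U, u ^ p = 1) {z : P} (hz : z ∈ U) (h : (ρ z - 1) ^ 4 ≠ 0) :
    ∃ (B B' : M5 k) (hB : B * B' = 1), cj hB ρ z - 1 = jn := by
  have h5 : (ρ z - 1) ^ 5 = 0 := by
    have := (ρ z - 1).aeval_self_charpoly
    rw [sub_eq_zero.1 (isNilpotent_charpoly_sub_pow_of_isNilpotent ⟨p, nil he hz⟩).eq_zero] at this
    simpa using this
  obtain ⟨v, hv⟩ : ∃ v, ((ρ z - 1) ^ 4) *ᵥ v ≠ 0 := by
    by_contra! e
    exact h (K.mat_ext (by simpa using e))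
  obtain ⟨B, B', hB, e, -⟩ := jb h5 hv
  exact ⟨B, B', hB, by rw [cj_sub, mul_assoc, e, ← mul_assoc, mul_eq_one_comm.1 hB, one_mul]⟩

theorem ex2 [Finite P] (c : Gx p r U H) {z : P} (hz : z ∈ U) (z0 : ρ z - 1 = jn) :
    ∃ (B B' : M5 k) (hB : B * B' = 1), J (cj hB ρ) U H := by
  have z1 : ρ z = jn + 1 := sub_eq_iff_eq_add.1 z0
  have hU : ∀ u ∈ U, ∃ a b c e, ρ u = tq 1 a b c e := fun u hu => utq c.exp hu (by
    have := congrArg ρ (c.comm u hu z hz)
    simpa [z1, mul_add, add_mul] using this)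
  have cjg : ∀ h u : P, ρ h * ρ u = ρ (h * u * h⁻¹) * ρ h := fun h u => by simp [← map_mul]
  have h4 : ∀ h ∈ H, (ρ h 4 0 = 0 ∧ ρ h 4 1 = 0 ∧ ρ h 4 2 = 0 ∧ ρ h 4 3 = 0) ∧ ρ h 3 0 = 0 ∧
      ρ h 3 1 = 0 ∧ ρ h 3 2 = 0 ∧ ρ h 3 3 = ρ (h * z * h⁻¹) 0 1 * ρ h 4 4 := fun h hh => by
    obtain ⟨a, b, c', e, e1⟩ := hU _ (c.conj hh hz)
    have e2 := cjg h z
    rw [e1, z1] at e2
    have e3 := congrFun e2 3
    have e4 := congrFun e2 4
    simp [funext_iff, tq, mul_apply, vecMul, dotProduct, Fin.sum_univ_five, Fin.forall_fin_succ,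
      one_apply] at e3 e4
    simp [e1, tq]
    grind
  have x1 : ∀ a ∈ H, ∀ b ∈ H, ρ (a * b) 4 4 = ρ a 4 4 * ρ b 4 4 := fun a ha b _ => by
    simp [mul_apply, Fin.sum_univ_five, (h4 a ha).1]
  have x0 : ∀ a ∈ H, ρ a 4 4 ≠ 0 := fun a ha e => by simpa [e] using x1 a ha _ (inv_mem ha)
  have l1 : ∀ h ∈ H, ∀ u ∈ U, ρ (h * u * h⁻¹) 0 1 = ρ (h * z * h⁻¹) 0 1 * ρ u 0 1 := fun h hh u hu => by
    obtain ⟨a, b, c', e, e1⟩ := hU _ (c.conj hh hu)
    obtain ⟨a', b', c'', e', e2⟩ := hU _ hu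
    have e3 := congrFun (congrFun (cjg h u) 3) 4
    obtain ⟨-, g1, g2, g3, g4⟩ := h4 h hh
    rw [e1, e2] at e3 ⊢
    simp [tq, mul_apply, Fin.sum_univ_five, g1, g2, g3, g4] at e3 ⊢
    exact mul_right_cancel₀ (x0 h hh) (by linear_combination -e3)
  obtain ⟨n, n1, n2⟩ := eav c.card_ne
    (fun a => LinearMap.mulLeft k (ρ a) ∘ₗ LinearMap.mulRight k (ρ a⁻¹)) (fun a b w => by simp [mul_assoc])
    (fun h => ρ (h * z * h⁻¹) 0 1) (fun a ha b hb => by
      rw [← l1 a ha _ (c.conj hb hz)]; simp [mul_assoc]) (by simp [z1, tq]) jn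
    { carrier := {X | ∃ b c e, X = tq 0 0 b c e}
      add_mem' := by
        rintro _ _ ⟨b, c, e, rfl⟩ ⟨b', c', e', rfl⟩
        exact ⟨b + b', c + c', e + e', by ext i j; fin_cases i <;> fin_cases j <;> simp [tq]⟩
      zero_mem' := ⟨0, 0, 0, tq_zero.symm⟩
      smul_mem' := by
        rintro t _ ⟨b, c, e, rfl⟩
        exact ⟨t * b, t * c, t * e, by ext i j; fin_cases i <;> fin_cases j <;> simp [tq]⟩ }
    fun h hh => by
      obtain ⟨a, b, c', e, e1⟩ := hU _ (c.conj hh hz)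
      refine ⟨b, c', e, ?_⟩
      have e2 : ρ h * (jn * ρ h⁻¹) = tq 0 a b c' e := by
        rw [← tq_sub, ← e1, ← z0]; simp [mul_sub, sub_mul, ← map_mul, mul_assoc]
      simp only [LinearMap.comp_apply, LinearMap.mulLeft_apply, LinearMap.mulRight_apply, e2, e1]
      ext i j; fin_cases i <;> fin_cases j <;> simp [tq]
  obtain ⟨b, c', e, n1⟩ := n1
  obtain rfl : n = tq 0 1 b c' e := by
    rw [sub_eq_iff_eq_add.1 n1]; ext i j; fin_cases i <;> fin_cases j <;> simp [tq]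
  obtain ⟨v, v1, v2⟩ := eav c.card_ne (fun a => (ρ a).mulVecLin) (fun a b w => by simp)
    (fun h => ρ h 4 4) x1 (by simp) (Pi.single 4 1) (LinearMap.ker (LinearMap.proj (4 : Fin 5)))
    fun h hh => by simp
  have v3 : v 4 = 1 := by simpa [sub_eq_zero] using v1
  obtain ⟨B, B', hB, e1, e2⟩ := jb (n := tq 0 1 b c' e) (v := v)
    (by rw [pow_succ, tq_four, tq_mul]; simp [tq_zero]) (by
      rw [tq_four]; intro e0; simpa [tq, mulVec, dotProduct, Fin.sum_univ_five, v3] using congrFun e0 0)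
  have hB' := mul_eq_one_comm.1 hB
  have e3 : (jn : M5 k) = B' * tq 0 1 b c' e * B := by rw [mul_assoc, e1, ← mul_assoc, hB', one_mul]
  have e4 : ∀ X Y : M5 k, B' * X * B * (B' * Y * B) = B' * (X * Y) * B := fun X Y => by
    simp only [mul_assoc]; rw [← mul_assoc B, hB, one_mul]
  have hU' : ∀ u ∈ U, ∃ a b c e, cj hB ρ u = tq 1 a b c e := fun u hu => utq c.exp hu (by
    obtain ⟨a, b, c', e, e1⟩ := hU _ hu
    rw [cj_apply, e3, e4, e4, e1, tq_comm])
  refine ⟨B, B', hB, hU', fun h hh => ⟨ρ h 4 4, ρ (h * z * h⁻¹) 0 1, dq_of ?_ ?_⟩, z, hz, fun e0 => ?_⟩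
  · have := congrArg (· * ρ h) (n2 h hh)
    simp only [LinearMap.comp_apply, LinearMap.mulLeft_apply, LinearMap.mulRight_apply, mul_assoc,
      ← map_mul, inv_mul_cancel, map_one, mul_one] at this
    rw [cj_apply, e3, e4, e4, this, smul_mul_assoc, mul_smul_comm, smul_mul_assoc, mul_assoc h]
  · have := v2 h hh
    rw [mulVecLin_apply] at this
    rw [cj_apply, ← mulVec_mulVec, ← mulVec_mulVec, e2, this, mulVec_smul, ← e2, mulVec_mulVec, hB',
      one_mulVec]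
  · obtain ⟨a, b, c', e, e1⟩ := hU' z hz
    have := (cj_pow_eq (ρ := ρ) hB z 4).1 (by
      rw [e1] at e0 ⊢
      rw [tq_sub, tq_four, show a = 0 from e0]; simp [tq_zero])
    rw [z0, tq_four] at this
    simpa [tq] using congrFun (congrFun this 0) 4

end Cfsg.Agent.L5.R.I5
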