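import Mathlib

/-!
The arithmetic of the invariant products for a regular unipotent Sylow subgroup.
-/

set_option autoImplicit false

namespace Cfsg.Agent.L5.R.I5

variable {k : Type*} [Field k] {p s t : ℕ} {l : k}

/-- The exponent given by a list of digits. -/
def sm (p : ℕ) (L : List ℕ) : ℕ := (L.map (p ^ ·)).sum

@[simp] theorem sm_nil : sm p [] = 0 := rfl

@[simp] theorem sm_cons (a : ℕ) (L : List ℕ) : sm p (a :: L) = p ^ a + sm p L := by simp [sm]

/-- There is no invariant product of small weight. -/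
def At (p s t : ℕ) (l : k) : Prop := ∀ l1 l2 l3 l4 : List ℕ, (l1 ≠ [] ∨ l3 ≠ []) →
  (p = 5 ∨ 5 ∣ sm p l1 + 4 * sm p l2 + 2 * sm p l3 + 3 * sm p l4) →
  l ^ (2 * (sm p l1 + sm p l2) + 3 * (sm p l3 + sm p l4)) = 1 →
  (4 * (l1.length + l2.length) + 6 * (l3.length + l4.length) < (s + 2 * t) * (p - 1) ∨
    4 * (l1.length + l2.length) + 6 * (l3.length + l4.length) ≤ (s + 2 * t) * (p - 1) ∧
      4 * (sm p l1 + sm p l2) + 6 * (sm p l3 + sm p l4) + 1 < p ^ s) → False

/-- The reachable residues. -/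
def Rc (p : ℕ) (L L' : List ℕ) (z : ZMod 5) : Prop := ∃ l1 l2 l3 l4 : List ℕ,
  l1.length + l2.length = L.length ∧ sm p l1 + sm p l2 = sm p L ∧
  l3.length + l4.length = L'.length ∧ sm p l3 + sm p l4 = sm p L' ∧
  ((sm p l1 + 4 * sm p l2 + 2 * sm p l3 + 3 * sm p l4 : ℕ) : ZMod 5) = z

theorem grow : ∀ T : Finset (ZMod 5), ∀ w : ZMod 5, w ≠ 0 → T.card ≠ 0 →
    min 5 (T.card + 1) ≤ (T.image (· + w) ∪ T.image (· + 4 * w)).card := by decide +kernel

theorem two5 : (2 : ZMod 5) ≠ 0 := by decide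

theorem cnt_step {n : ℕ} {Q Q' : ZMod 5 → Prop} {w : ZMod 5} (hw : w ≠ 0)
    (h : ∃ T : Finset (ZMod 5), min 5 (n + 1) ≤ T.card ∧ ∀ z ∈ T, Q z)
    (e : ∀ z, Q z → Q' (z + w) ∧ Q' (z + 4 * w)) :
    ∃ T : Finset (ZMod 5), min 5 (n + 1 + 1) ≤ T.card ∧ ∀ z ∈ T, Q' z := by
  obtain ⟨T, h1, h2⟩ := h
  refine ⟨_, le_trans (by omega) (grow T w hw (by omega)), fun z hz => ?_⟩
  rcases Finset.mem_union.1 hz with hz | hz <;> obtain ⟨y, hy, rfl⟩ := Finset.mem_image.1 hz
  exacts [(e y (h2 y hy)).1, (e y (h2 y hy)).2]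

theorem cnt (hp : (p : ZMod 5) ≠ 0) : ∀ L L' : List ℕ,
    ∃ T : Finset (ZMod 5), min 5 (L.length + L'.length + 1) ≤ T.card ∧ ∀ z ∈ T, Rc p L L' z
  | [], [] => ⟨{0}, by simp, fun z hz => ⟨[], [], [], [], by simpa using (Finset.mem_singleton.1 hz).symm⟩⟩
  | [], a :: L' => by
    haveI : Fact (Nat.Prime 5) := ⟨by norm_num⟩
    refine cnt_step (w := 2 * (p : ZMod 5) ^ a) (mul_ne_zero two5 (pow_ne_zero _ hp))
      (cnt hp [] L') ?_
    rintro z ⟨l1, l2, l3, l4, h1, h2, h3, h4, rfl⟩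
    refine ⟨⟨l1, l2, a :: l3, l4, h1, h2, by simp; omega, by simp; omega, by simp; ring⟩,
      l1, l2, l3, a :: l4, h1, h2, by simp; omega, by simp; omega, ?_⟩
    have h5 : (5 : ZMod 5) = 0 := rfl
    simp only [sm_cons]; push_cast
    linear_combination (-(p : ZMod 5) ^ a) * h5
  | a :: L, L' => by
    haveI : Fact (Nat.Prime 5) := ⟨by norm_num⟩
    rw [show (a :: L).length + L'.length = L.length + L'.length + 1 by simp; omega]
    refine cnt_step (w := (p : ZMod 5) ^ a) (pow_ne_zero _ hp) (cnt hp L L') ?_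
    rintro z ⟨l1, l2, l3, l4, h1, h2, h3, h4, rfl⟩
    exact ⟨⟨a :: l1, l2, l3, l4, by simp; omega, by simp; omega, h3, h4, by simp; ring⟩,
      l1, a :: l2, l3, l4, by simp; omega, by simp; omega, h3, h4, by simp; ring⟩

/-- The version with free signs. -/
theorem At.signs (h : At p s t l) (hp : p.Prime) (L L' : List ℕ) (h0 : 0 < L.length + L'.length)
    (h4 : p = 5 ∨ 4 ≤ L.length + L'.length) (hl : l ^ (2 * sm p L + 3 * sm p L') = 1)
    (hn : 4 * L.length + 6 * L'.length < (s + 2 * t) * (p - 1) ∨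
      4 * L.length + 6 * L'.length ≤ (s + 2 * t) * (p - 1) ∧ 4 * sm p L + 6 * sm p L' + 1 < p ^ s) :
    False := by
  by_cases h5 : p = 5
  · exact h L [] L' [] (by rw [← List.length_pos_iff, ← List.length_pos_iff]; omega) (Or.inl h5)
      (by simpa using hl) (by simpa using hn)
  obtain ⟨T, h1, h2⟩ := cnt (p := p) (fun e => h5 ((Nat.prime_dvd_prime_iff_eq (by norm_num) hp).1
    ((ZMod.natCast_eq_zero_iff p 5).1 e)).symm) L L'
  have h3 : T = Finset.univ := Finset.eq_univ_of_card T (by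
    have := T.card_le_univ
    rw [ZMod.card] at this ⊢; omega)
  obtain ⟨l1, l2, l3, l4, e1, e2, e3, e4, e5⟩ := h2 0 (h3 ▸ Finset.mem_univ _)
  rw [ZMod.natCast_eq_zero_iff] at e5
  by_cases e : l1 ≠ [] ∨ l3 ≠ []
  · exact h l1 l2 l3 l4 e (Or.inr e5) (by rwa [e2, e4]) (by rwa [e1, e2, e3, e4])
  · refine h l2 l1 l4 l3 ?_ (Or.inr (by omega)) ?_ ?_
    · simp only [← List.length_pos_iff] at e ⊢; omega
    · rwa [add_comm (sm p l2), add_comm (sm p l4), e2, e4]
    · rwa [add_comm (sm p l2), add_comm (sm p l4), add_comm l2.length, add_comm l4.length, e1, e2,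
        e3, e4]

theorem half {q : ℕ} : ∀ f : ℕ, ∃ L : List ℕ, L.length = f * q ∧ 2 * sm (2 * q + 1) L + 1 = (2 * q + 1) ^ f
  | 0 => ⟨[], by simp, by simp⟩
  | f + 1 => by
    obtain ⟨L, h1, h2⟩ := half (q := q) f
    refine ⟨List.replicate q f ++ L, by simp [h1]; ring, ?_⟩
    have : sm (2 * q + 1) (List.replicate q f ++ L) = q * (2 * q + 1) ^ f + sm (2 * q + 1) L := by
      simp [sm]
    rw [this, mul_add, add_assoc, h2]; ring

theorem pow_big {f : ℕ} (h5 : 5 ≤ p) (h : f < s) : 5 * p ^ f ≤ p ^ s :=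
  (Nat.mul_le_mul_right _ h5).trans (by rw [← pow_succ']; exact Nat.pow_le_pow_right (by omega) h)

theorem At.a1 (h : At p s t l) (hp : p.Prime) (h5 : 5 ≤ p) (l0 : l ≠ 0) {f : ℕ} (f0 : 0 < f)
    (hl : l ^ p ^ f = l) (hf : 2 * f < s + 2 * t ∨ 2 * f ≤ s + 2 * t ∧ f < s) : False := by
  by_cases h7 : p = 7 ∧ f = 1
  · obtain ⟨rfl, rfl⟩ := h7
    have e : l ^ 6 = 1 := mul_right_cancel₀ l0 (by rw [← pow_succ, one_mul]; exact hl)
    refine h [0, 0] [1] [] [] (by simp) (by simp) ?_ ?_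
    · simpa using (by rw [show 18 = 6 * 3 from rfl, pow_mul, e, one_pow] : l ^ 18 = 1)
    · rcases hf with hf | hf
      · left; simp; omega
      · have := Nat.pow_le_pow_right (n := 7) (by norm_num) (show 2 ≤ s from hf.2)
        right; simp; omega
  obtain ⟨q, rfl⟩ : ∃ q, p = 2 * q + 1 := hp.odd_of_ne_two (by omega)
  obtain ⟨L, h1, h2⟩ := half (q := q) f
  have h3 : q ≤ f * q := Nat.le_mul_of_pos_left q f0
  refine h.signs hp L [] (by simp only [h1]; omega) ?_ ?_ ?_
  · by_cases e : q = 3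
    · subst e; simp only [h1]; omega
    · simp only [h1]; omega
  · exact mul_right_cancel₀ l0 (by rw [← pow_succ, one_mul, sm_nil, mul_zero, add_zero, h2, hl])
  · simp only [h1, List.length_nil, sm_nil, Nat.add_sub_cancel]
    rcases hf with hf | hf
    · left; nlinarith
    · have := pow_big h5 hf.2
      right; exact ⟨by nlinarith [hf.1], by omega⟩

theorem At.a2 (h : At p s t l) (hp : p.Prime) (h5 : 5 ≤ p) (t0 : 0 < t) (ht : 2 * t ≤ s)
    (hl : (l ^ 2) ^ (p ^ t - 1) = 1) : False := by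
  obtain ⟨q, rfl⟩ : ∃ q, p = 2 * q + 1 := hp.odd_of_ne_two (by omega)
  obtain ⟨L, h1, h2⟩ := half (q := q) t
  have h3 : q ≤ t * q := Nat.le_mul_of_pos_left q t0
  have := pow_big h5 (show t < s by omega)
  refine h L L [] [] (Or.inl (List.length_pos_iff.1 (by omega))) (Or.inr (by simp; omega)) ?_ ?_
  · rw [← hl, ← h2, ← pow_mul]; congr 1; simp; omega
  · simp only [h1, List.length_nil, sm_nil, Nat.add_sub_cancel]
    right; exact ⟨by nlinarith, by omega⟩

theorem sm_range (hp : 0 < p) : ∀ r : ℕ, (p - 1) * sm p (List.range r) + 1 = p ^ r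
  | 0 => by simp
  | r + 1 => by
    have h := sm_range hp r
    obtain ⟨q, rfl⟩ : ∃ q, p = q + 1 := ⟨p - 1, by omega⟩
    have : sm (q + 1) (List.range (r + 1)) = sm (q + 1) (List.range r) + (q + 1) ^ r := by
      simp [sm, List.range_succ]
    rw [Nat.add_sub_cancel] at h ⊢
    rw [this, pow_succ, ← h]; ring

theorem rem {L : List ℕ} {a : ℕ} (h : a ∈ L) : ∃ L' : List ℕ, L'.length + 1 = L.length ∧
    p ^ a + sm p L' = sm p L ∧ ∀ b ∈ L, b ≠ a → b ∈ L' :=
  ⟨L.erase a, List.length_erase_add_one h, by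
    rw [← sm_cons]; exact ((List.perm_cons_erase h).map _).sum_eq.symm,
    fun b hb e => (List.mem_erase_of_ne e).2 hb⟩

theorem At.a3 (h : At p s 0 l) (hp : p.Prime) (h5 : 5 ≤ p) (l0 : l ≠ 0) (hs : 2 ≤ s)
    (hl : l ^ p ^ s = l) {j : ℕ} (hj : j < s) (h4 : l ^ 4 = l ^ p ^ j) : False := by
  have hR := sm_range hp.pos s
  have hL : (List.range s).length = s := List.length_range
  have hm : ∀ i < s, i ∈ List.range s := fun i => List.mem_range.2
  generalize List.range s = R at hR hL hm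
  have R0 : R ≠ [] := List.length_pos_iff.1 (by omega)
  have y1 : (l ^ sm p R) ^ (p - 1) = 1 :=
    mul_right_cancel₀ l0 (by rw [← pow_mul, ← pow_succ, mul_comm, hR, hl, one_mul])
  have y2 : ∀ i, (l ^ sm p R) ^ p ^ i = l ^ sm p R := fun i => by
    induction i with
    | zero => simp
    | succ i ih =>
      rw [pow_succ, pow_mul, ih]
      generalize l ^ sm p R = y at y1
      rw [← Nat.sub_add_cancel hp.pos, pow_succ, y1, one_mul]
  have y3 : (l ^ sm p R) ^ 3 = 1 := mul_right_cancel₀ (pow_ne_zero (sm p R) l0) (by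
    rw [← pow_succ, pow_right_comm, h4, pow_right_comm, y2, one_mul])
  have h49 := Nat.pow_le_pow_right hp.pos hs
  by_cases h3 : l ^ 3 = 1
  · by_cases e : p = 5
    · subst e
      exact h [] [] [0] [] (by simp) (by simp) (by simpa using h3) (by left; simp; omega)
    · have h7 : 7 ≤ p := by
        by_contra e'
        exact absurd (show p = 6 by omega ▸ hp) (by norm_num)
      refine h [] [] [0] [0] (by simp) (by simp) ?_ (Or.inr ⟨?_, ?_⟩)
      · simpa using (by rw [show 6 = 3 * 2 from rfl, pow_mul, h3, one_pow] : l ^ 6 = 1)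
      · simpa using Nat.mul_le_mul hs (show 6 ≤ p - 1 by omega)
      · simp; nlinarith
  have j0 : j ≠ 0 := by
    rintro rfl
    exact h3 (mul_right_cancel₀ l0 (by rw [← pow_succ, h4]; simp))
  by_cases h17 : 17 ≤ p
  · refine h [] [] R R (Or.inr R0) (Or.inr (by simp; omega)) ?_ (Or.inl ?_)
    · rw [← one_pow 2, ← y3, ← pow_mul, ← pow_mul]; congr 1; simp; omega
    · have := Nat.mul_le_mul_left s (show 16 ≤ p - 1 by omega)
      simp [hL]; omega
  obtain ⟨R1, a1, a2, a3⟩ := rem (p := p) (hm 0 (by omega))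
  obtain ⟨R2, b1, b2, b3⟩ := rem (p := p) (a3 j (hm j hj) j0)
  obtain rfl | rfl | rfl | rfl : p = 5 ∨ p = 7 ∨ p = 11 ∨ p = 13 := by
    rw [not_le] at h17
    interval_cases p <;> simp_all (config := {decide := true})
  · have y4 : l ^ sm 5 R = 1 := by
      rw [show 5 - 1 = 3 + 1 from rfl, pow_succ, y3, one_mul] at y1; exact y1
    refine h (1 :: R2) [] [] [] (by simp) (by simp) ?_ (by left; simp; omega)
    rw [← a2, ← b2, pow_add, pow_add, ← h4] at y4
    simp only [sm_cons, sm_nil, add_zero, mul_zero]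
    rw [← one_pow (M := k) 2, ← y4]
    ring
  · have j1 : 1 ≠ j := by
      rintro rfl
      exact h3 (mul_right_cancel₀ (pow_ne_zero 4 l0) (by rw [← pow_add, one_mul, h4]; norm_num))
    obtain ⟨R3, c1, c2, -⟩ := rem (p := 7) (b3 1 (a3 1 (hm 1 (by omega)) one_ne_zero) j1)
    have e : l ^ (2 * sm 7 [1, 1, j] + 3 * sm 7 R3) = 1 := by
      rw [← y3, ← a2, ← b2, ← c2, mul_comm 2, mul_comm 3, pow_add, pow_mul, pow_mul]
      simp only [sm_cons, sm_nil, pow_add, ← h4, add_zero]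
      ring
    by_cases e3 : s = 3
    · obtain rfl : j = 2 := by omega
      obtain rfl : R3 = [] := List.length_eq_zero_iff.1 (by omega)
      exact h [1, 1] [2] [] [] (by simp) (by simp) (by simpa using e) (by left; simp; omega)
    · exact h.signs hp [1, 1, j] R3 (by simp) (by simp; omega) e (by left; simp; omega)
  · have y4 : l ^ sm 11 R = 1 := by
      rw [show 11 - 1 = 3 * 3 + 1 from rfl, pow_succ, pow_mul, y3, one_pow, one_mul] at y1; exact y1
    refine h R R [] [] (Or.inl R0) (Or.inr (by simp; omega)) ?_ (by left; simp [hL]; omega)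
    rw [← one_pow 4, ← y4, ← pow_mul]; congr 1; simp; omega
  · by_cases e4 : 4 ≤ s
    · exact h.signs hp [] R (by simp; omega) (by simp; omega) (by rw [← y3, ← pow_mul]; congr 1; simp; omega)
        (by left; simp [hL]; omega)
    by_cases e3 : s = 3
    · subst e3
      refine h [] [] [0, 1] [2] (by simp) (by simp) ?_ (by left; simp)
      rw [← y3, ← pow_mul]; congr 1; simp; omega
    · obtain rfl : s = 2 := by omega
      obtain rfl : j = 1 := by omega
      have e : l ^ 9 = 1 := mul_right_cancel₀ (pow_ne_zero 4 l0) (by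
        rw [← pow_add, one_mul, h4]; norm_num)
      refine h [] [] [0, 0, 1] [] (by simp) (by simp) ?_ (by left; simp)
      simpa using (by rw [show 45 = 9 * 5 from rfl, pow_mul, e, one_pow] : l ^ 45 = 1)

end Cfsg.Agent.L5.R.I5
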