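import Cfsg.Agent.L5.RA
import Cfsg.Agent.L5.R5a
import Cfsg.Agent.L5.R5b
import Cfsg.Agent.L5.R5c

/-!
A Sylow subgroup with a regular unipotent element has prime order.
-/

set_option autoImplicit false
set_option linter.unusedSectionVars false

namespace Cfsg.Agent.L5.R.I5
open Finset Matrix
open Subgroup (normalizer)
open Cfsg.Agent.L4.R (Dg)

variable {P k : Type*} [Group P] [Field k] {ρ : P →* M5 k} {U H : Subgroup P} {p r : ℕ}

/-- The second logarithmic coordinate. -/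
def y2 (A : M5 k) : k := A 0 2 - A 0 1 ^ 2 / 2

/-- The third logarithmic coordinate. -/
def y3 (A : M5 k) : k := A 0 3 - A 0 1 * A 0 2 + A 0 1 ^ 3 / 3

/-- The fourth logarithmic coordinate. -/
def y4 (A : M5 k) : k :=
  A 0 4 - A 0 1 * A 0 3 - A 0 2 ^ 2 / 2 + A 0 1 ^ 2 * A 0 2 - A 0 1 ^ 4 / 4

theorem y_add (h2 : (2 : k) ≠ 0) (h3 : (3 : k) ≠ 0) {A B : M5 k} (hA : ∃ a b c e, A = tq 1 a b c e)
    (hB : ∃ a b c e, B = tq 1 a b c e) : (A * B) 0 1 = A 0 1 + B 0 1 ∧ y2 (A * B) = y2 A + y2 B ∧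
      y3 (A * B) = y3 A + y3 B ∧ y4 (A * B) = y4 A + y4 B := by
  obtain ⟨a, b, c, e, rfl⟩ := hA
  obtain ⟨a', b', c', e', rfl⟩ := hB
  have h4 : (4 : k) ≠ 0 := by rw [show (4 : k) = 2 * 2 by norm_num]; exact mul_ne_zero h2 h2
  rw [tq_mul]
  simp only [tq, y2, y3, y4, of_apply, cons_val', cons_val_zero, cons_val_one, Matrix.cons_val]
  refine ⟨by ring, ?_, ?_, ?_⟩ <;> field_simp <;> ring

theorem dg2 {G : Type*} [Group G] {f : G → k} (h : ∀ a b, f (a * b) = f a + f b) : Dg ⊤ 2 f :=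
  fun u _ v _ g => by simp only [h]; ring

theorem wt_tq {G : Type*} [Group G] {x : G → k} {A : G → M5 k} (hA : ∀ g, ∃ a b c e, A g = tq 1 a b c e)
    (h1 : Wt x 1 1 fun g => A g 0 1) (h2 : Dg ⊤ 2 fun g => y2 (A g)) (h3 : Dg ⊤ 2 fun g => y3 (A g))
    (h4 : Dg ⊤ 2 fun g => y4 (A g)) (i j : Fin 5) : Wt x (j - i) (j - i) fun g => A g i j := by
  have b : Wt x 2 2 fun g => A g 0 2 :=
    (((Wt.of_dg (b := 1) h2).mono le_rfl (by omega)).add ((h1.mul h1).cmul (1 / 2))).congr fun g => by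
      simp only [y2]; ring
  have c : Wt x 3 3 fun g => A g 0 3 :=
    ((((Wt.of_dg (b := 1) h3).mono (by omega) (by omega)).add (h1.mul b)).sub
      (((h1.mul h1).mul h1).cmul (1 / 3))).congr fun g => by simp only [y3]; ring
  have e : Wt x 4 4 fun g => A g 0 4 :=
    ((((((Wt.of_dg (b := 1) h4).mono (by omega) (by omega)).add (h1.mul c)).add
      ((b.mul b).cmul (1 / 2))).sub ((h1.mul h1).mul b)).add
      ((((h1.mul h1).mul h1).mul h1).cmul (1 / 4))).congr fun g => by simp only [y4]; ring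
  choose a b' c' e' hA using hA
  simp only [hA] at h1 b c e ⊢
  fin_cases i <;> fin_cases j <;>
    first | exact Wt.const 0 | exact Wt.const 1 | exact h1 | exact b | exact c | exact e

/-- A principal minor. -/
def mn (A : M5 k) (a b : Fin 5) : k := A a a * A b b - A a b * A b a

theorem mul_tq (A : M5 k) (a b c e : k) : (A * tq 1 a b c e) 0 0 = A 0 0 ∧
    mn (A * tq 1 a b c e) 0 1 = mn A 0 1 ∧ (tq 1 a b c e * A) 4 4 = A 4 4 ∧
    mn (tq 1 a b c e * A) 3 4 = mn A 3 4 := by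
  simp [mn, tq, mul_apply, vecMul, dotProduct, Fin.sum_univ_five]
  exact ⟨by ring, by ring⟩

theorem mul_dq (A : M5 k) (x l : k) : (A * dq x l) 0 0 = A 0 0 * (x * l ^ 4) ∧
    mn (A * dq x l) 0 1 = mn A 0 1 * (x ^ 2 * l ^ 7) ∧ (dq x l * A) 4 4 = A 4 4 * x ∧
    mn (dq x l * A) 3 4 = mn A 3 4 * (x ^ 2 * l) := by
  simp [mn, dq]
  exact ⟨by ring, by ring, by ring⟩

theorem dq_mul (x l x' l' : k) : dq x l * dq x' l' = dq (x * x') (l * l') := by
  rw [dq, dq, dq, diagonal_mul_diagonal]; congr 1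
  ext i; fin_cases i <;> simp <;> ring

theorem dq_inj {x l x' l' : k} (h : dq x l = dq x' l') (h0 : x ≠ 0) : x = x' ∧ l = l' := by
  have h4 : x = x' := by simpa [dq] using congrFun (congrFun h 4) 4
  have h3 : x * l = x' * l' := by simpa [dq] using congrFun (congrFun h 3) 3
  exact ⟨h4, mul_left_cancel₀ h0 (by rw [h3, h4])⟩

theorem dq_one : dq (1 : k) 1 = 1 := by ext i j; fin_cases i <;> fin_cases j <;> simp [dq]

theorem dq_det (x l : k) : (dq x l).det = (x * l ^ 2) ^ 5 := by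
  simp [dq, Fin.prod_univ_five]; ring

theorem dq_tq (x l a b c e : k) : dq x l * tq 1 a b c e =
    tq 1 (l * a) (l ^ 2 * b) (l ^ 3 * c) (l ^ 4 * e) * dq x l := by
  ext i j; fin_cases i <;> fin_cases j <;> simp [dq, tq] <;> ring

namespace J

theorem inv (j : J ρ U H) {h : P} (hh : h ∈ H) : ∃ x l x' l', ρ h = I5.dq x l ∧ ρ h⁻¹ = I5.dq x' l' ∧
    x * x' = 1 ∧ l * l' = 1 := by
  obtain ⟨x, l, e⟩ := j.dq h hh
  obtain ⟨x', l', e'⟩ := j.dq _ (inv_mem hh)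
  have := dq_inj (x := 1) (l := 1) (x' := x * x') (l' := l * l') (by
    rw [← dq_mul, ← e, ← e', ← map_mul, mul_inv_cancel, map_one, dq_one]) one_ne_zero
  exact ⟨x, l, x', l', e, e', this.1.symm, this.2.symm⟩

theorem conj (j : J ρ U H) {h u : P} {x l : k} (e : ρ h = I5.dq x l) (hu : u ∈ U) :
    ρ (h * u * h⁻¹) 0 1 = l * ρ u 0 1 ∧ y2 (ρ (h * u * h⁻¹)) = l ^ 2 * y2 (ρ u) ∧
      y4 (ρ (h * u * h⁻¹)) = l ^ 4 * y4 (ρ u) := by
  obtain ⟨a, b, c, d, e1⟩ := j.tq u hu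
  have : ρ (h * u * h⁻¹) = I5.tq 1 (l * a) (l ^ 2 * b) (l ^ 3 * c) (l ^ 4 * d) := by
    rw [map_mul, map_mul, e1, e, dq_tq, ← e, mul_assoc, ← map_mul, mul_inv_cancel, map_one, mul_one]
  rw [this, e1]
  simp only [I5.tq, y2, y4, of_apply, cons_val', cons_val_zero, cons_val_one, Matrix.cons_val]
  exact ⟨trivial, by ring, by ring⟩

/-- The first coordinate as a homomorphism. -/
def X (j : J ρ U H) : U →* Multiplicative k where
  toFun u := Multiplicative.ofAdd (ρ u 0 1)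
  map_one' := by simp
  map_mul' u v := by
    obtain ⟨a, b, c, d, e⟩ := j.tq u u.2
    obtain ⟨a', b', c', d', e'⟩ := j.tq v v.2
    rw [← ofAdd_add, Subgroup.coe_mul, map_mul, e, e', tq_mul]
    simp [I5.tq, add_comm]

theorem gen [Finite P] (j : J ρ U H) : ∃ h₀ ∈ H, ∃ x₀ l₀, ρ h₀ = I5.dq x₀ l₀ ∧ l₀ ≠ 0 ∧
    ∀ h ∈ H, ∀ x l, ρ h = I5.dq x l → ∃ i : ℕ, l = l₀ ^ i := by
  have e : ∀ h ∈ H, ∀ x l, ρ h = I5.dq x l → ρ h 3 3 / ρ h 4 4 = l := fun h hh x l e => by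
    obtain ⟨x1, l1, x', l', e1, -, e2, -⟩ := j.inv hh
    obtain ⟨rfl, rfl⟩ := dq_inj (e1.symm.trans e) (left_ne_zero_of_mul_eq_one e2)
    simp [e1, I5.dq, left_ne_zero_of_mul_eq_one e2]
  let κ : H →* k :=
    { toFun := fun h => ρ h 3 3 / ρ h 4 4
      map_one' := by simp
      map_mul' := fun a b => by
        obtain ⟨x, l, e1⟩ := j.dq a a.2
        obtain ⟨x', l', e2⟩ := j.dq b b.2
        rw [e _ a.2 _ _ e1, e _ b.2 _ _ e2, e _ (a * b).2 _ _ (by
          rw [Subgroup.coe_mul, map_mul, e1, e2, dq_mul])] }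
  haveI : Finite κ.toHomUnits.range := Finite.of_surjective _ κ.toHomUnits.rangeRestrict_surjective
  obtain ⟨⟨_, n, rfl⟩, hn⟩ := IsCyclic.exists_monoid_generator (α := κ.toHomUnits.range)
  obtain ⟨x, l, x', l', e1, -, -, e2⟩ := j.inv n.2
  refine ⟨n, n.2, x, l, e1, left_ne_zero_of_mul_eq_one e2, fun h hh y m e3 => ?_⟩
  obtain ⟨i, hi⟩ := hn ⟨_, ⟨h, hh⟩, rfl⟩
  have e4 : κ n ^ i = κ ⟨h, hh⟩ := by
    simpa using congrArg (fun x : κ.toHomUnits.range => ((x : kˣ) : k)) hi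
  exact ⟨i, by rw [← e _ hh _ _ e3, ← e _ n.2 _ _ e1]; exact e4.symm⟩

variable [Finite P] [hp : Fact p.Prime] [CharP k p]

omit [Finite P] in
theorem nz (h5 : 5 ≤ p) : (2 : k) ≠ 0 ∧ (3 : k) ≠ 0 :=
  ⟨fun e => absurd (Nat.le_of_dvd (by norm_num) ((CharP.cast_eq_zero_iff k p 2).1 e)) (by omega),
    fun e => absurd (Nat.le_of_dvd (by norm_num) ((CharP.cast_eq_zero_iff k p 3).1 e)) (by omega)⟩

theorem wt (j : J ρ U H) (h5 : 5 ≤ p) :
    (∀ a b : Fin 5, Wt (fun u => (j.X u).toAdd) (b - a) (b - a) fun u : U => ρ u a b) ∧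
    ∀ a b : Fin 5, Wt (fun u => (j.X u).toAdd) (b - a) (b - a) fun u : U => ρ (u : P)⁻¹ a b := by
  have ad := fun u v : U => y_add (nz h5).1 (nz h5).2 (j.tq u u.2) (j.tq v v.2)
  have ad' := fun u v : U => y_add (nz h5).1 (nz h5).2 (j.tq _ (inv_mem v.2)) (j.tq _ (inv_mem u.2))
  have h1 : Wt (fun u => (j.X u).toAdd) 1 1 fun u : U => ρ u 0 1 := Wt.self (dg2 fun a b => by simp)
  refine ⟨wt_tq (fun u => j.tq u u.2) h1 (dg2 fun a b => by simpa using (ad a b).2.1)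
    (dg2 fun a b => by simpa using (ad a b).2.2.1) (dg2 fun a b => by simpa using (ad a b).2.2.2),
    wt_tq (fun u => j.tq _ (inv_mem u.2)) ((h1.cmul (-1)).congr fun u => ?_)
    (dg2 fun a b => by simpa [add_comm] using (ad' a b).2.1)
    (dg2 fun a b => by simpa [add_comm] using (ad' a b).2.2.1)
    (dg2 fun a b => by simpa [add_comm] using (ad' a b).2.2.2)⟩
  have := (ad u u⁻¹).1
  rw [← map_mul, Subgroup.coe_inv, mul_inv_cancel, map_one, one_apply_ne (by decide)] at this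
  linear_combination -this

/-- There is no invariant product of small weight. -/
theorem atom (h : Hy0 ρ) (c : Gx p r U H) (j : J ρ U H) (h5 : 5 ≤ p) {s t : ℕ} (hr : r = s + t)
    (hV : Nat.card j.X.ker = p ^ t) {l₀ : k}
    (hl : ∀ h ∈ H, ∀ x l, ρ h = I5.dq x l → ∃ i : ℕ, l = l₀ ^ i) : At p s t l₀ := by
  intro l1 l2 l3 l4 h0 hν hw hn
  let F : M5 k → M5 k → M5 k → M5 k → P → k := fun Y1 Y2 Y3 Y4 g =>
    (Y1 * ρ g) 0 0 ^ sm p l1 * (ρ g⁻¹ * Y2) 4 4 ^ sm p l2 * mn (Y3 * ρ g) 0 1 ^ sm p l3 *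
      mn (ρ g⁻¹ * Y4) 3 4 ^ sm p l4
  have key : ∀ Y1 Y2 Y3 Y4 g, F Y1 Y2 Y3 Y4 g = F Y1 Y2 Y3 Y4 1 := fun Y1 Y2 Y3 Y4 => by
    refine c.const (fun g n hn => ?_) fun a g => ?_
    · obtain ⟨u, hu, a, ha, rfl⟩ := c.fac n hn
      obtain ⟨_, _, _, _, e1⟩ := j.tq u hu
      obtain ⟨_, _, _, _, e2⟩ := j.tq _ (inv_mem hu)
      obtain ⟨x, l, x', l', e3, e4, e5, e6⟩ := j.inv ha
      have e7 : (x * l ^ 2) ^ 5 = 1 := by rw [← dq_det, ← e3, h.det]
      have e8 : x' = (x * l ^ 2) ^ 4 * l ^ 2 := by linear_combination (x * l ^ 2) ^ 4 * l ^ 2 * e5 - x' * e7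
      have e9 : x' ^ 2 * l' = (x * l ^ 2) ^ 3 * l ^ 3 := by
        rw [e8]; linear_combination (x * l ^ 2) ^ 8 * l ^ 3 * e6 + (x * l ^ 2) ^ 3 * l ^ 3 * e7
      have e10 : (x * l ^ 2) ^ (sm p l1 + 4 * sm p l2 + 2 * sm p l3 + 3 * sm p l4) = 1 := by
        rcases hν with rfl | ⟨i, hi⟩
        · have : (x * l ^ 2 - 1) ^ 5 = 0 := by rw [sub_pow_char, e7, one_pow, sub_self]
          rw [sub_eq_zero.1 (pow_eq_zero_iff (by norm_num) |>.1 this), one_pow]
        · rw [hi, pow_mul, e7, one_pow]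
      have e11 : l ^ (2 * (sm p l1 + sm p l2) + 3 * (sm p l3 + sm p l4)) = 1 := by
        obtain ⟨i, rfl⟩ := hl a ha x l e3
        rw [pow_right_comm, hw, one_pow]
      simp only [F, _root_.mul_inv_rev, map_mul, e1, e2, e3, e4]
      simp only [← mul_assoc Y1, ← mul_assoc Y3, ← mul_assoc (Y1 * _), ← mul_assoc (Y3 * _),
        mul_assoc _ _ Y2, mul_assoc _ _ Y4, mul_assoc (I5.dq x' l'), mul_dq, mul_tq]
      rw [e9, e8, show x * l ^ 4 = x * l ^ 2 * l ^ 2 by ring,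
        show x ^ 2 * l ^ 7 = (x * l ^ 2) ^ 2 * l ^ 3 by ring, ← mul_one (_ * mn (_ * Y4) 3 4 ^ _),
        ← mul_one (1 : k)]
      nth_rewrite 1 [← e10]
      rw [← e11]
      generalize x * l ^ 2 = ν
      ring
    · obtain ⟨w1, w2⟩ := j.wt h5
      have := Wt.sum_zero p (fun a b => Subtype.ext (c.comm a a.2 b b.2))
        (fun u => Subtype.ext (c.exp u u.2)) j.X (hr ▸ c.card) hV
        (by simpa only [mul_add, add_assoc, sm] using hn)
        (((wt_entry w1 (Y1 * ρ a) (ρ g) 0 0).pw p l1).mul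
          (((wt_entry w2 (ρ g⁻¹) (ρ a⁻¹ * Y2) 4 4).pw p l2).mul
          (((wt_minor w1 (Y3 * ρ a) (ρ g) 0 0 1 1).pw p l3).mul
          ((wt_minor w2 (ρ g⁻¹) (ρ a⁻¹ * Y4) 3 3 4 4).pw p l4))))
      refine Eq.trans (finsum_congr fun u => ?_) this
      simp only [F, mn, sm, _root_.mul_inv_rev, map_mul, mul_assoc]
  have iv : ∀ g, ρ g⁻¹ * ρ g = 1 := fun g => by rw [← map_mul, inv_mul_cancel, map_one]
  have pos : ∀ l : List ℕ, l ≠ [] → sm p l ≠ 0 := fun l hl => by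
    obtain ⟨a, l, rfl⟩ := List.exists_cons_of_ne_nil hl
    have := pow_pos hp.out.pos a
    rw [sm_cons]; omega
  rcases h0 with h0 | h0
  · have e : ∀ g, ∀ i ≠ 0, ρ g i 0 = 0 := fun g i hi => by
      have := key (single 0 i 1) (ρ g) (ρ g⁻¹) (ρ g) g
      simpa [F, iv, mn, one_apply_ne hi, pos l1 h0] using this
    have := K.fix_zero h (v := Pi.single 0 1) fun g => ⟨ρ g 0 0, by
      ext i; by_cases hi : i = 0 <;> simp [hi, e]⟩
    simp at this
  · have e : ∀ g, ∀ i i' : Fin 5, 2 ≤ i'.1 → ρ g i 0 * ρ g i' 1 - ρ g i 1 * ρ g i' 0 = 0 := by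
      intro g i i' hi
      have := key (ρ g⁻¹) (ρ g) (single 0 i 1 + single 1 i' 1) (ρ g) g
      have h1 : i' ≠ 0 := by rintro rfl; simp at hi
      have h2 : i' ≠ 1 := by rintro rfl; simp at hi
      simpa [F, iv, mn, add_mul, single_apply, h1, h2, pos l3 h0] using this
    have e' : ∀ g, ∀ i' : Fin 5, 2 ≤ i'.1 → ρ g i' 0 = 0 ∧ ρ g i' 1 = 0 := fun g i' hi => by
      have h1 : ρ g *ᵥ ![ρ g i' 1, -ρ g i' 0, 0, 0, 0] = 0 := by
        ext i
        simpa [mulVec, dotProduct, Fin.sum_univ_five, sub_eq_add_neg] using e g i i' hi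
      have h2 := congrArg (ρ g⁻¹ *ᵥ ·) h1
      simp only [mulVec_mulVec, iv, one_mulVec, mulVec_zero] at h2
      exact ⟨by simpa using congrFun h2 1, by simpa using congrFun h2 0⟩
    rcases h.irr
      { carrier := {v | v 2 = 0 ∧ v 3 = 0 ∧ v 4 = 0}
        add_mem' := fun a b => by simp [a.1, a.2, b.1, b.2]
        zero_mem' := by simp
        smul_mem' := fun _ _ a => by simp [a.1, a.2] } (fun g v hv => by
          simp [mulVec, dotProduct, Fin.sum_univ_five, hv.1, hv.2, e' g 2 le_rfl, e' g 3 (by decide),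
            e' g 4 (by decide)]) with e | e
    · simpa using e.le (show (Pi.single 0 1 : Fin 5 → k) ∈ _ by simp)
    · simpa using e.ge (Submodule.mem_top (x := Pi.single 2 1))

omit [Finite P] in
theorem one_of (hS : NoS ρ) (j : J ρ U H) {u : P} (hu : u ∈ U) (h1 : ρ u 0 1 = 0) (h2 : y2 (ρ u) = 0) :
    u = 1 := by
  obtain ⟨a, b, c, e, e1⟩ := j.tq u hu
  rw [y2, h1] at h2
  rw [e1] at h1 h2
  obtain rfl : a = 0 := h1
  obtain rfl : b = 0 := by simpa [I5.tq] using h2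
  exact hS u (by rw [e1, tq_sub, tq_mul]; simp [tq_zero])

/-- The invariant form. -/
theorem form (h : Hy ρ) (c : Gx p r U H) (j : J ρ U H) (h5 : 5 ≤ p) (hr : 2 ≤ r)
    (h0 : ∀ u ∈ U, y2 (ρ u) = 0 ∧ y4 (ρ u) = 0) : False := by
  obtain ⟨h2, h3⟩ := nz (k := k) h5
  have h4 : (4 : k) ≠ 0 := by rw [show (4 : k) = 2 * 2 by norm_num]; exact mul_ne_zero h2 h2
  let B : M5 k := !![0, 0, 0, 0, 1; 0, 0, 0, -1, 0; 0, 0, 1, 0, 0; 0, -1, 0, 0, 0; 1, 0, 0, 0, 0]
  have hU : ∀ u ∈ U, ρ u * B * (ρ u)ᵀ = B ∧ (ρ u)ᵀ * B * ρ u = B := fun u hu => by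
    obtain ⟨a, b, c, e, e1⟩ := j.tq u hu
    obtain ⟨e2, e3⟩ := h0 u hu
    rw [e1] at e2 e3 ⊢
    simp only [I5.tq, y2, y4, of_apply, cons_val', cons_val_zero, cons_val_one, Matrix.cons_val] at e2 e3
    have e4 : 2 * b = a ^ 2 := by field_simp at e2; linear_combination e2
    have e5 : 2 * e = 2 * a * c - b ^ 2 := by
      field_simp at e3
      exact mul_left_cancel₀ h4 (by linear_combination e3 + 2 * (2 * b - a ^ 2) * e4)
    constructor <;> ext i j <;> fin_cases i <;> fin_cases j <;>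
      simp [I5.tq, B, mul_apply, Fin.sum_univ_five] <;> grind
  have hH : ∀ x l : k, I5.dq x l * B * (I5.dq x l)ᵀ = (x * l ^ 2) ^ 2 • B := fun x l => by
    ext i j; fin_cases i <;> fin_cases j <;> simp [I5.dq, B] <;> ring
  have hd : ∀ i j, Dg U 5 fun g => ρ g i j := fun a b =>
    (dg_entry ![4, 3, 2, 1, 0] (fun u hu i i' e => by
      obtain ⟨a, b, c, d, e1⟩ := j.tq u hu
      rw [e1, tq_sub]
      fin_cases i <;> fin_cases i' <;> simp [I5.tq] at e ⊢) a b).mono (by fin_cases a <;> simp)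
  by_cases e5 : p = 5
  · subst e5
    have := TT h c (B := B) (fun n hn => by
      obtain ⟨u, hu, a, ha, rfl⟩ := c.fac n hn
      obtain ⟨x, l, e⟩ := j.dq a ha
      have e7 : (x * l ^ 2) ^ 5 = 1 := by rw [← dq_det, ← e, h.det]
      have : (x * l ^ 2 - 1) ^ 5 = 0 := by rw [sub_pow_char, e7, one_pow, sub_self]
      rw [map_mul, transpose_mul, mul_assoc (ρ u), ← mul_assoc _ _ (ρ u)ᵀ, mul_assoc (ρ u), e, hH,
        sub_eq_zero.1 (pow_eq_zero_iff (by norm_num) |>.1 this), one_pow, one_smul, (hU u hu).1])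
      (entryLinearMap k k 0 4) fun X => by
        have := (L4.R.Dg.sum univ _ fun a _ => (hd 0 a).cmul (X a 4)).sum_zero 5 c.exp c.card
          (by omega) 1
        refine Eq.trans (finsum_congr fun u => ?_) this
        obtain ⟨a, b, c, d, e1⟩ := j.tq u u.2
        simp [e1, I5.tq, mul_apply, vecMul, dotProduct, Fin.sum_univ_five, mul_comm]
    simp [B] at this
  · have h7 : 7 ≤ p := by
      by_contra e'
      exact absurd (show p = 6 by omega ▸ hp.out) (by norm_num)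
    have hD := Nat.mul_le_mul hr (show 6 ≤ p - 1 by omega)
    refine GL1 h c (norm_sq_of c (m := 4) (by omega) hd) (B := B)
      (traceLinearMap _ k k ∘ₗ LinearMap.mulLeft k B) ?_ (fun u hu => ⟨(hU u hu).1, fun X => ?_⟩)
      fun a ha => ?_
    · have : (5 : k) ≠ 0 := fun e =>
        absurd (Nat.le_of_dvd (by norm_num) ((CharP.cast_eq_zero_iff k p 5).1 e)) (by omega)
      convert this using 1
      simp [B, trace, Fin.sum_univ_five]
      norm_num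
    · simp only [LinearMap.comp_apply, LinearMap.mulLeft_apply, traceLinearMap_apply]
      rw [← mul_assoc, trace_mul_comm, ← mul_assoc, ← mul_assoc, (hU u hu).2]
    · obtain ⟨x, l, e⟩ := j.dq a ha
      refine ⟨_, e ▸ hH x l, fun X => ?_⟩
      have := hH x l
      simp only [LinearMap.comp_apply, LinearMap.mulLeft_apply, traceLinearMap_apply]
      rw [I5.dq, diagonal_transpose] at this
      rw [← mul_assoc, trace_mul_comm, ← mul_assoc, ← mul_assoc, e, I5.dq, diagonal_transpose, this,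
        smul_mul_assoc, trace_smul, smul_eq_mul]

end J

theorem ex_add [Finite P] {W : Subgroup P} (f : P → k × k) (fa : ∀ u ∈ W, ∀ v ∈ W, f (u * v) = f u + f v) :
    ∃ A : AddSubgroup (k × k), Finite A ∧ (∀ x, x ∈ A ↔ ∃ u ∈ W, x = f u) := by
  have f1 : f 1 = 0 := by simpa using fa 1 (one_mem _) 1 (one_mem _)
  refine ⟨{ carrier := {x | ∃ u ∈ W, x = f u}
            add_mem' := by
              rintro _ _ ⟨u, hu, rfl⟩ ⟨v, hv, rfl⟩
              exact ⟨u * v, mul_mem hu hv, (fa u hu v hv).symm⟩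
            zero_mem' := ⟨1, one_mem _, f1.symm⟩
            neg_mem' := by
              rintro _ ⟨u, hu, rfl⟩
              exact ⟨u⁻¹, inv_mem hu, neg_eq_of_add_eq_zero_right (by
                rw [← fa u hu _ (inv_mem hu), mul_inv_cancel, f1])⟩ }, ?_, fun _ => Iff.rfl⟩
  exact Finite.of_surjective (fun u : W => ⟨f u, u, u.2, rfl⟩) (by
    rintro ⟨_, u, hu, rfl⟩; exact ⟨⟨u, hu⟩, rfl⟩)

/-- An additive image which is closed under a scalar. -/
theorem kap {G : Type*} [Group G] [Finite G] (X : G →* Multiplicative k) {l : k} (l0 : l ≠ 0)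
    (h : ∀ u, ∃ v, (X v).toAdd = l * (X u).toAdd) : l ^ (Nat.card X.range - 1) = 1 := by
  obtain ⟨A, _, hA⟩ := ex_add (W := ⊤) (fun u => ((X u).toAdd, (0 : k))) fun u _ v _ => by simp
  rw [Nat.card_congr (Equiv.ofBijective (fun x : X.range => (⟨(x.1.toAdd, 0), by
    obtain ⟨_, u, rfl⟩ := x; exact (hA _).2 ⟨u, trivial, rfl⟩⟩ : A)) ⟨fun x y e =>
      Subtype.ext (congrArg (fun z : A => z.1.1) e), fun ⟨z, hz⟩ => by
        obtain ⟨u, -, rfl⟩ := (hA z).1 hz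
        exact ⟨⟨_, u, rfl⟩, rfl⟩⟩)]
  refine L4.Rb.kap_of A (μ := 0) (fun b hb => ?_) (fun a b hb => ?_) l0
  · obtain ⟨u, -, e⟩ := (hA _).1 hb
    exact congrArg Prod.snd e
  · obtain ⟨u, -, e⟩ := (hA _).1 hb
    obtain ⟨v, e'⟩ := h u
    exact (hA _).2 ⟨v, trivial, by rw [e', (Prod.mk.inj e).1, zero_mul]⟩

theorem main [Finite P] [hp : Fact p.Prime] [CharP k p] (h : Hy ρ) (hS : NoS ρ) (c : Gx p r U H)
    (j : J ρ U H) (h5 : 5 ≤ p) (hr : 2 ≤ r) : False := by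
  obtain ⟨h₀, hh, x, l, e0, l0, hl⟩ := j.gen
  obtain ⟨t, ht, hV⟩ := (Nat.dvd_prime_pow hp.out).1 (c.card ▸ j.X.ker.card_subgroup_dvd_card)
  obtain ⟨s, rfl⟩ : ∃ s, r = s + t := ⟨r - t, by omega⟩
  have at' := J.atom h.toHy0 c j h5 rfl hV hl
  have ad := fun u (hu : u ∈ U) v (hv : v ∈ U) =>
    y_add (J.nz h5).1 (J.nz h5).2 (j.tq u hu) (j.tq v hv)
  have hq : ∀ {y : k} {m : ℕ}, y ^ (p ^ m - 1) = 1 → y ^ p ^ m = y := fun {y m} e => by
    rw [← Nat.sub_add_cancel (Nat.one_le_pow m p hp.out.pos), pow_succ, e, one_mul]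
  have c1 : Nat.card j.X.range = p ^ s := by
    have := Subgroup.card_eq_card_quotient_mul_card_subgroup j.X.ker
    rw [c.card, hV, pow_add, Nat.card_congr (QuotientGroup.quotientKerEquivRange j.X).toEquiv] at this
    exact (Nat.eq_of_mul_eq_mul_right (pow_pos hp.out.pos t) this).symm
  have k1 : l ^ p ^ s = l := hq (c1 ▸ kap j.X l0 fun u => ⟨⟨_, c.conj hh u.2⟩, (j.conj e0 u.2).1⟩)
  have s0 : 0 < s := Nat.pos_of_ne_zero fun e => by
    obtain ⟨u, hu, e1⟩ := j.reg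
    rw [e, pow_zero, Subgroup.card_eq_one] at c1
    exact e1 (congrArg Multiplicative.toAdd (Subgroup.mem_bot.1 (c1.le ⟨⟨u, hu⟩, rfl⟩)))
  obtain rfl : t = 0 := by
    by_contra t0
    by_cases e : s < 2 * t
    · exact at'.a1 hp.out h5 l0 s0 k1 (by omega)
    let Y : j.X.ker →* Multiplicative k :=
      { toFun := fun u => Multiplicative.ofAdd (y2 (ρ u.1))
        map_one' := by simp [y2]
        map_mul' := fun u v => by
          rw [← ofAdd_add, ← (ad _ u.1.2 _ v.1.2).2.1, ← map_mul]; rfl }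
    have hY : Function.Injective Y := (injective_iff_map_eq_one Y).2 fun u e =>
      Subtype.ext (Subtype.ext (j.one_of hS u.1.2 u.2 e))
    refine at'.a2 hp.out h5 (by omega) (by omega) ?_
    rw [← hV, Nat.card_congr (MonoidHom.ofInjective hY).toEquiv]
    exact kap Y (pow_ne_zero 2 l0) fun u => ⟨⟨⟨_, c.conj hh u.1.2⟩, by
      have := (j.conj e0 u.1.2).1
      rw [show ρ u.1 0 1 = 0 from u.2, mul_zero] at this
      exact this⟩, (j.conj e0 u.1.2).2.1⟩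
  have i1 : ∀ u ∈ U, ρ u 0 1 = 0 → u = 1 := fun u hu e => by
    rw [pow_zero, Subgroup.card_eq_one] at hV
    exact congrArg Subtype.val (Subgroup.mem_bot.1 (hV.le (show (⟨u, hu⟩ : U) ∈ j.X.ker from e)))
  have gal : ∀ (y : M5 k → k) (μ : k), (∀ u ∈ U, ∀ v ∈ U, y (ρ u * ρ v) = y (ρ u) + y (ρ v)) →
      (∀ u ∈ U, y (ρ (h₀ * u * h₀⁻¹)) = μ * y (ρ u)) → ∀ u ∈ U, y (ρ u) ≠ 0 → ∃ i < s, μ = l ^ p ^ i := by
    intro y μ h1 h2 u hu h3
    obtain ⟨A, -, hA⟩ := ex_add (W := U) (fun u => (ρ u 0 1, y (ρ u))) fun u hu v hv => by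
      simp [(ad u hu v hv).1, h1 u hu v hv]
    refine L4.Rb.galois A (fun b hb => ?_) (fun a b hb => ?_) ((hA _).2 ⟨u, hu, rfl⟩) h3 s0 k1
    · obtain ⟨u, hu, e⟩ := (hA _).1 hb
      rw [(Prod.mk.inj e).2, i1 u hu (Prod.mk.inj e).1.symm]
      simpa using h1 1 (one_mem _) 1 (one_mem _)
    · obtain ⟨u, hu, e⟩ := (hA _).1 hb
      obtain ⟨rfl, rfl⟩ := Prod.mk.inj e
      exact (hA _).2 ⟨_, c.conj hh hu, by rw [(j.conj e0 hu).1, h2 u hu]⟩
  refine j.form h c h5 hr fun u hu => ⟨by_contra fun e => ?_, by_contra fun e => ?_⟩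
  · obtain ⟨i, -, e1⟩ := gal y2 _ (fun u hu v hv => (ad u hu v hv).2.1)
      (fun u hu => (j.conj e0 hu).2.1) u hu e
    have k2 : ∀ m, l ^ p ^ (s * m) = l := fun m => by
      induction m with
      | zero => simp
      | succ m ih => rw [mul_add, mul_one, pow_add, pow_mul, ih, k1]
    refine at'.a3 hp.out h5 l0 hr k1 (Nat.mod_lt (i + i) s0) ?_
    rw [← k2 ((i + i) / s), ← pow_mul _ _ (p ^ _), ← pow_add, Nat.div_add_mod, k2, pow_add, pow_mul,
      ← e1, pow_right_comm, ← e1, ← pow_mul]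
  · obtain ⟨i, hi, e1⟩ := gal y4 _ (fun u hu v hv => (ad u hu v hv).2.2.2)
      (fun u hu => (j.conj e0 hu).2.2) u hu e
    exact at'.a3 hp.out h5 l0 hr k1 hi e1

end Cfsg.Agent.L5.R.I5

namespace Cfsg.Agent.L5.R

/-- A Sylow subgroup with a regular unipotent element has prime order. -/
theorem i5 {P k : Type*} [Group P] [Field k] {ρ : P →* M5 k} {U H : Subgroup P} {p r : ℕ} [Finite P]
    [Fact p.Prime] [CharP k p] (hp : p ≠ 2) (h : Hy ρ) (hS : NoS ρ) (c : Gx p r U H) (hr : 2 ≤ r)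
    (hu : ∃ u ∈ U, (ρ u - 1) ^ 4 ≠ 0) : False := by
  have h5 := I5.five_le hp c.exp hu
  obtain ⟨z, hz, hu⟩ := hu
  obtain ⟨B, B', hB, e⟩ := I5.ex1 c.exp hz hu
  obtain ⟨C, C', hC, j⟩ := I5.ex2 c hz e
  exact I5.main ((h.cj hB).cj hC) ((hS.cj hB).cj hC) c j h5 hr

end Cfsg.Agent.L5.R
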