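import Cfsg.Agent.L5.RI

/-!
Transfer arguments for a trivial intersection Sylow subgroup.
-/

set_option autoImplicit false
set_option linter.unusedSectionVars false

namespace Cfsg.Agent.L5.R
open Finset Matrix
open Subgroup (normalizer)
open Cfsg.Agent.L4.R (Dg tr)

variable {P k : Type*} [Group P] [Field k] {ρ : P →* M5 k} {U H : Subgroup P} {p r : ℕ}

theorem van (h : Hy0 ρ) {ι : Type*} (Z : (Fin 5 → k) → ι → k)
    (ha : ∀ φ φ' i, Z (φ + φ') i = Z φ i + Z φ' i) (hs : ∀ (c : k) φ i, Z φ i = 0 → Z (c • φ) i = 0)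
    (hg : ∀ g φ i, ∃ j, Z (φ ᵥ* ρ g) i = Z φ j) {s : Fin 5 → k} (h0 : s ≠ 0) (hz : ∀ i, Z s i = 0)
    (φ : Fin 5 → k) (i : ι) : Z φ i = 0 := by
  let X : Submodule k (Fin 5 → k) :=
    { carrier := {φ | ∀ i, Z φ i = 0}
      add_mem' := fun {a b} h1 h2 i => by rw [ha, h1 i, h2 i, add_zero]
      zero_mem' := fun i => by simpa using ha 0 0 i
      smul_mem' := fun c a h1 i => hs c a i (h1 i) }
  rcases irr_row h X (fun g x hx i => by obtain ⟨j, e⟩ := hg g x i; rw [e]; exact hx j) with e | e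
  · exact absurd ((Submodule.mem_bot k).1 (e ▸ (hz : s ∈ X))) h0
  · exact (e ▸ Submodule.mem_top : φ ∈ X) i

theorem schur [IsAlgClosed k] (h : Hy0 ρ) {E : M5 k} (hE : ∀ g, ρ g * E = E * ρ g) :
    ∃ c : k, E = c • 1 := by
  obtain ⟨c, hc⟩ := Module.End.exists_eigenvalue E.mulVecLin
  refine ⟨c, ?_⟩
  rcases h.irr (Module.End.eigenspace E.mulVecLin c) (fun x v hv => by
    rw [Module.End.mem_eigenspace_iff, mulVecLin_apply] at hv ⊢
    rw [mulVec_mulVec, ← hE, ← mulVec_mulVec, hv, mulVec_smul]) with e | e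
  · exact absurd e hc
  · exact K.mat_ext fun v => by
      simpa [smul_mulVec] using Module.End.mem_eigenspace_iff.1 (e.ge (Submodule.mem_top (x := v)))

/-- A semi-invariant bilinear form makes the module self-dual. -/
theorem sd (h : Hy ρ) {B : M5 k} (h0 : B ≠ 0) (hB : ∀ g, ∃ c : k, ρ g * B * (ρ g)ᵀ = c • B) :
    False := by
  choose c hc using hB
  have inj := smul_left_injective k h0
  let χ : P →* k := ⟨⟨c, inj (by simpa using (hc 1).symm)⟩, fun a b => inj (by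
    have := hc (a * b)
    rw [map_mul, transpose_mul, mul_assoc (ρ a), ← mul_assoc _ _ (ρ a)ᵀ, mul_assoc (ρ a), hc,
      mul_smul_comm, smul_mul_assoc, hc, smul_smul, mul_comm] at this
    exact this.symm)⟩
  have h1 : ∀ g, c g = 1 := fun g => congrArg Units.val
    (Abelianization.commutator_subset_ker χ.toHomUnits (h.perf.ge (Subgroup.mem_top g)))
  have h2 : ∀ g, ρ g * B = B * (ρ g⁻¹)ᵀ := fun g => by
    have := congrArg (· * (ρ g⁻¹)ᵀ) (hc g)
    simpa only [h1, one_smul, mul_assoc, ← transpose_mul, ← map_mul, inv_mul_cancel, map_one,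
      transpose_one, mul_one] using this
  rcases irr_row h.toHy0 (LinearMap.ker B.vecMulLinear) (fun g x hx => by
    rw [LinearMap.mem_ker, vecMulLinear_apply] at hx ⊢
    rw [vecMul_vecMul, h2, ← vecMul_vecMul, hx, zero_vecMul]) with e | e
  · obtain ⟨B', hB'⟩ := (vecMul_injective_iff_isUnit.1 (LinearMap.ker_eq_bot.1 e)).exists_right_inv
    obtain ⟨g, hg⟩ := h.nsd
    refine hg ?_
    rw [← trace_transpose (ρ g⁻¹), ← mul_one (ρ g), ← hB', ← mul_assoc, h2, trace_mul_cycle,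
      mul_eq_one_comm.1 hB', one_mul]
  · exact h0 (by
      ext i j
      simpa using congrFun (LinearMap.mem_ker.1 (e.ge (Submodule.mem_top (x := Pi.single i 1)))) j)

theorem ex_fix {M : Type*} [AddCommGroup M] [Module k M] [FiniteDimensional k M] [Fact p.Prime]
    [CharP k p] (hc : ∀ u ∈ U, ∀ v ∈ U, u * v = v * u) (he : ∀ u ∈ U, u ^ p = 1)
    (σ : P →* Module.End k M) (W : Submodule k M) (h0 : W ≠ ⊥) (hW : ∀ u ∈ U, ∀ x ∈ W, σ u x ∈ W) :
    ∃ x ∈ W, x ≠ 0 ∧ ∀ u ∈ U, σ u x = x := by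
  induction e : Module.finrank k W using Nat.strong_induction_on generalizing W with | _ n ih => ?_
  by_cases h : ∀ u ∈ U, ∀ x ∈ W, σ u x = x
  · obtain ⟨x, hx, h1⟩ := W.ne_bot_iff.1 h0
    exact ⟨x, hx, h1, fun u hu => h u hu x hx⟩
  push Not at h
  obtain ⟨u, hu, x, hx, h⟩ := h
  have h1 : ∀ y ∈ W, (σ u - 1) y ∈ W := fun y hy => sub_mem (hW u hu y hy) hy
  have h2 : (σ u - 1) ^ p = 0 := by
    haveI : Nontrivial M := nontrivial_of_ne _ _ h
    haveI : CharP (Module.End k M) p := charP_of_injective_algebraMap (algebraMap k _).injective p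
    rw [sub_pow_char_of_commute p (Commute.one_right _), ← map_pow, he u hu, map_one, one_pow, sub_self]
  have h3 : ∃ y ∈ W, y ≠ 0 ∧ (σ u - 1) y = 0 := by
    by_contra! h3
    have : ∀ j : ℕ, ((σ u - 1) ^ j) x ∈ W ∧ ((σ u - 1) ^ j) x ≠ 0 := fun j => by
      induction j with
      | zero => exact ⟨hx, fun e => h (by rw [show x = 0 from e, map_zero])⟩
      | succ j ih => rw [pow_succ']; exact ⟨h1 _ ih.1, h3 _ ih.1 ih.2⟩
    exact (this p).2 (by rw [h2]; rfl)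
  obtain ⟨y, hy, y0, h3⟩ := h3
  have h5 : ∀ z, z ∈ LinearMap.ker (σ u - 1) ↔ σ u z = z := fun z => by simp [sub_eq_zero]
  obtain ⟨z, hz, h4⟩ := ih _ (e ▸ Submodule.finrank_lt_finrank_of_lt (s := W ⊓ LinearMap.ker (σ u - 1))
    (lt_of_le_of_ne inf_le_left fun e' => h ((h5 x).1 (e'.ge hx).2))) (W ⊓ LinearMap.ker (σ u - 1))
    (Submodule.ne_bot_iff _ |>.2 ⟨y, ⟨hy, h3⟩, y0⟩) (fun v hv z hz => ⟨hW v hv z hz.1, (h5 _).2 (by
      rw [← Module.End.mul_apply, ← map_mul, hc u hu v hv, map_mul, Module.End.mul_apply,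
        (h5 z).1 hz.2])⟩) rfl
  exact ⟨z, hz.1, h4⟩

variable [Finite P]

theorem fsum_lin {M M' : Type*} [AddCommGroup M] [Module k M] [AddCommGroup M'] [Module k M']
    {ι : Type*} [Finite ι] (L : M →ₗ[k] M') (f : ι → M) : L (∑ᶠ i, f i) = ∑ᶠ i, L (f i) :=
  L.toAddMonoidHom.map_finsum (Set.toFinite _)

theorem fsum_const {ι : Type*} [Finite ι] (c : k) : ∑ᶠ _ : ι, c = Nat.card ι * c := by
  letI := Fintype.ofFinite ι
  simp [finsum_eq_sum_of_fintype]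

theorem fsum_shift (f : P → k) {a : P} (ha : a ∈ H) : ∑ᶠ h : H, f (a * h) = ∑ᶠ h : H, f h :=
  finsum_comp_equiv (Equiv.mulLeft (⟨a, ha⟩ : H)) (f := fun h : H => f h)

/-- The transfer of a module element. -/
theorem tr_el {M : Type*} [AddCommGroup M] [Module k M] (N : Subgroup P) (F : P → M)
    (σ : P → M →ₗ[k] M) (hF : ∀ a g, F (a * g) = σ a (F g)) (hN : ∀ g, ∀ n ∈ N, F (g * n) = F g) :
    ∃ E : M, (∀ a, σ a E = E) ∧ ∀ L : M →ₗ[k] k, L E = tr N fun g => L (F g) := by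
  refine ⟨∑ᶠ q : P ⧸ N, F q.out, fun a => ?_, fun L => fsum_lin L _⟩
  rw [← sub_eq_zero, ← Module.forall_dual_apply_eq_zero_iff k]
  intro L
  rw [map_sub, sub_eq_zero, fsum_lin, fsum_lin, fsum_lin]
  simp only [← hF]
  exact L4.R.tr_left (f := fun g => L (F g)) (fun g n hn => by rw [hN g n hn]) a

variable [hp : Fact p.Prime] [CharP k p]

theorem AT0 (h : Hy0 ρ) (c : Gx p r U H) (E : (Fin 5 → k) → P → P → k)
    (ha : ∀ φ φ' y g, E (φ + φ') y g = E φ y g + E φ' y g)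
    (hs : ∀ (x : k), ∃ x', ∀ φ y g, E (x • φ) y g = x' * E φ y g)
    (hg : ∀ x φ y g, E (φ ᵥ* ρ x) (y * x) g = E φ y (x * g))
    (hU : ∀ φ y g, ∀ u ∈ U, E φ y (g * u) = E φ y g) {s : Fin 5 → k} (s0 : s ≠ 0)
    (st : ∀ y, ∑ᶠ h : H, E s y h = 0) (hR : ∀ y g, ∑ᶠ u : U, E s y (u * g) = 0)
    (φ : Fin 5 → k) (y : P) (test : ∀ g, ∑ᶠ u : U, E φ y (u * g) = 0) : ∑ᶠ h : H, E φ y h = 0 := by
  let F : (Fin 5 → k) → P → P → k := fun φ y g => ∑ᶠ h : H, E φ y (g * h)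
  have hF : ∀ φ y g, ∀ n ∈ normalizer (U : Set P), F φ y (g * n) = F φ y g := fun φ y g n hn => by
    obtain ⟨u, hu, a, ha, rfl⟩ := c.fac n hn
    refine Eq.trans (finsum_congr fun x => ?_) (fsum_shift (fun x => E φ y (g * x)) ha)
    rw [← hU φ y (g * (a * x)) _ (c.conj' (mul_mem ha x.2) hu)]
    simp [mul_assoc]
  have key : ∀ φ y, (∀ g, ∑ᶠ u : U, E φ y (u * g) = 0) → tr (normalizer (U : Set P)) (F φ y) =
      ∑ᶠ h : H, E φ y h := fun φ y e => by
    rw [c.tt (hF φ y) fun g => ?_]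
    · simp [F]
    · letI := Fintype.ofFinite U
      letI := Fintype.ofFinite H
      simp only [F, finsum_eq_sum_of_fintype, mul_assoc] at e ⊢
      rw [sum_comm]
      exact sum_eq_zero fun x _ => e _
  rw [← key φ y test]
  refine van h (fun φ y => tr _ (F φ y)) (fun φ φ' y => ?_) (fun x φ y e => ?_)
    (fun g φ y => ⟨y * g⁻¹, ?_⟩) s0 (fun y => (key s y (hR y)).trans (st y)) φ y
  · rw [← L4.R.tr_add]
    congr 1; funext g
    simp only [F, ha]
    exact finsum_add_distrib (Set.toFinite _) (Set.toFinite _)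
  · obtain ⟨x', hx⟩ := hs x
    rw [← mul_zero x', ← e, ← L4.R.tr_mul]
    congr 1; funext g
    simp only [F, hx]
    exact (mul_finsum _ _).symm
  · rw [← L4.R.tr_left (hF φ (y * g⁻¹)) g]
    congr 1; funext z
    refine finsum_congr fun x => ?_
    rw [mul_assoc g, ← hg g φ (y * g⁻¹), inv_mul_cancel_right]

/-- The atom lemma for a family. -/
theorem AT' (h : Hy0 ρ) (c : Gx p r U H) {ι : Type*} [Fintype ι] (a : ℕ) (t : ι → Fin 5 → k)
    (R : ι → P → k) (hU : ∀ u ∈ U, ∀ φ g, ∑ i, (φ ⬝ᵥ ρ u *ᵥ t i) ^ p ^ a * R i (g * u) =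
      ∑ i, (φ ⬝ᵥ t i) ^ p ^ a * R i g) {s : Fin 5 → k} (s0 : s ≠ 0)
    (st : ∀ y, ∑ᶠ h : H, ∑ i, (s ⬝ᵥ ρ h *ᵥ t i) ^ p ^ a * R i (y * h) = 0)
    (hR : ∀ y g, ∑ᶠ u : U, ∑ i, (s ⬝ᵥ ρ (u * g) *ᵥ t i) ^ p ^ a * R i (y * (u * g)) = 0)
    (φ : Fin 5 → k) (test : ∀ g, ∑ᶠ u : U, ∑ i, (φ ⬝ᵥ ρ (u * g) *ᵥ t i) ^ p ^ a * R i (u * g) = 0) :
    ∑ᶠ h : H, ∑ i, (φ ⬝ᵥ ρ h *ᵥ t i) ^ p ^ a * R i h = 0 := by
  have := AT0 h c (fun φ y g => ∑ i, (φ ⬝ᵥ ρ g *ᵥ t i) ^ p ^ a * R i (y * g))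
    (fun φ φ' y g => by simp only [add_dotProduct, add_pow_char_pow, add_mul, sum_add_distrib])
    (fun x => ⟨x ^ p ^ a, fun φ y g => by
      simp only [smul_dotProduct, smul_eq_mul, mul_pow, Finset.mul_sum, mul_assoc]⟩)
    (fun x φ y g => by simp only [map_mul, ← mulVec_mulVec, dotProduct_mulVec φ (ρ x), mul_assoc])
    (fun φ y g u hu => by
      simpa only [map_mul, ← mulVec_mulVec, dotProduct_mulVec φ (ρ g), mul_assoc] using
        hU u hu (φ ᵥ* ρ g) (y * g)) s0 st hR φ 1 (by simpa only [one_mul] using test)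
  simpa only [one_mul] using this

/-- The atom lemma. -/
theorem AT (h : Hy0 ρ) (c : Gx p r U H) (a : ℕ) (t : Fin 5 → k) (R : P → k)
    (tU : ∀ u ∈ U, ρ u *ᵥ t = t) (RU : ∀ g, ∀ u ∈ U, R (g * u) = R g) {s : Fin 5 → k} (s0 : s ≠ 0)
    (sU : ∀ u ∈ U, s ᵥ* ρ u = s) (st : ∀ h ∈ H, s ⬝ᵥ ρ h *ᵥ t = 0)
    (hR : ∀ y g, ∑ᶠ u : U, R (y * (u * g)) = 0)
    (φ : Fin 5 → k) (test : ∀ g, ∑ᶠ u : U, (φ ⬝ᵥ ρ (u * g) *ᵥ t) ^ p ^ a * R (u * g) = 0) :
    ∑ᶠ h : H, (φ ⬝ᵥ ρ h *ᵥ t) ^ p ^ a * R h = 0 := by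
  have := AT' h c (ι := Unit) a (fun _ => t) (fun _ => R) (fun u hu φ g => by simp [tU u hu, RU g u hu])
    s0 (fun y => by simp [st _ (SetLike.coe_mem _), hp.out.ne_zero]) (fun y g => by
      simp only [univ_unique, sum_singleton, map_mul, ← mulVec_mulVec, dotProduct_mulVec s,
        sU _ (SetLike.coe_mem _)]
      rw [← mul_finsum, hR, mul_zero]) φ (by simpa only [univ_unique, sum_singleton] using test)
  simpa only [univ_unique, sum_singleton] using this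

/-- The atom lemma for an invariant product. -/
theorem AT1 (h : Hy0 ρ) (c : Gx p r U H) (a : ℕ) (t : Fin 5 → k) (R : P → k)
    (tU : ∀ u ∈ U, ρ u *ᵥ t = t) (RU : ∀ g, ∀ u ∈ U, R (g * u) = R g)
    (hH : ∀ x ∈ H, ∃ μ : k, ρ x *ᵥ t = μ • t ∧ μ ^ p ^ a * R x = R 1) {s : Fin 5 → k} (s0 : s ≠ 0)
    (sU : ∀ u ∈ U, s ᵥ* ρ u = s) (st : s ⬝ᵥ t = 0) (hR : ∀ y g, ∑ᶠ u : U, R (y * (u * g)) = 0)
    (φ : Fin 5 → k) (test : ∀ g, ∑ᶠ u : U, (φ ⬝ᵥ ρ (u * g) *ᵥ t) ^ p ^ a * R (u * g) = 0)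
    (h1 : φ ⬝ᵥ t ≠ 0) : R 1 = 0 := by
  have := AT h c a t R tU RU s0 sU (fun x hx => by
    obtain ⟨μ, e, -⟩ := hH x hx
    rw [e, dotProduct_smul, st, smul_zero]) hR φ test
  rw [finsum_congr (g := fun _ => (φ ⬝ᵥ t) ^ p ^ a * R 1) fun x => by
    obtain ⟨μ, e, e'⟩ := hH x x.2
    rw [e, ← e', dotProduct_smul, smul_eq_mul, mul_pow]; ring, fsum_const] at this
  simpa [c.card_ne, h1] using this

theorem G2 [IsAlgClosed k] (h : Hy0 ρ) (c : Gx p r U H) (hn : ∑ᶠ u : U, ρ u = 0) {e : M5 k}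
    (he : ∀ n ∈ normalizer (U : Set P), ρ n * e = e * ρ n) : ∃ x : k, e.trace = 5 * x ∧
      (∀ s, (∀ u ∈ U, ρ u *ᵥ s = s) → e *ᵥ s = x • s) ∧
      ∀ φ, (∀ u ∈ U, φ ᵥ* ρ u = φ) → φ ᵥ* e = x • φ := by
  have hN : ∀ g, ∀ n ∈ normalizer (U : Set P), ρ (g * n) * e * ρ (g * n)⁻¹ = ρ g * e * ρ g⁻¹ :=
    fun g n hn => by
      rw [map_mul, mul_assoc (ρ g), he n hn, mul_assoc, mul_assoc, ← map_mul, mul_assoc]; simp
  obtain ⟨E, h1, h2⟩ := tr_el (k := k) (normalizer (U : Set P)) (fun g => ρ g * e * ρ g⁻¹)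
    (fun a => LinearMap.mulLeft k (ρ a) ∘ₗ LinearMap.mulRight k (ρ a⁻¹))
    (fun a g => by simp [mul_assoc]) hN
  obtain ⟨x, rfl⟩ := schur h (E := E) fun g => by
    have := congrArg (· * ρ g) (h1 g)
    simpa [mul_assoc, ← map_mul] using this
  have h3 : ∀ L : M5 k →ₗ[k] k, (∀ X, ∑ᶠ u : U, L (ρ u * X * ρ u⁻¹) = 0) → L (x • 1) = L e :=
    fun L hL => by
      rw [h2, c.tt (fun g n hn => by simp only [hN g n hn]) fun g => by
        simpa [mul_assoc] using hL (ρ g * e * ρ g⁻¹)]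
      simp
  let L : (Fin 5 → k) → (Fin 5 → k) → M5 k →ₗ[k] k := fun φ s =>
    ⟨⟨fun X => φ ⬝ᵥ X *ᵥ s, fun X Y => by simp [add_mulVec]⟩, fun c X => by simp [smul_mulVec]⟩
  have hL : ∀ φ s X, L φ s X = φ ⬝ᵥ X *ᵥ s := fun _ _ _ => rfl
  refine ⟨x, ?_, fun s hs => ?_, fun φ hs => ?_⟩
  · have := h3 (traceLinearMap _ k k) fun X => by
      simp only [traceLinearMap_apply, trace_mul_cycle (ρ _) X, ← map_mul, ← Subgroup.coe_inv,
        ← Subgroup.coe_mul, inv_mul_cancel, OneMemClass.coe_one, map_one, one_mul]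
      rw [fsum_const, c.card_zero, zero_mul]
    simpa [mul_comm] using this.symm
  · refine (dotProduct_eq_iff.1 fun φ => ?_)
    have := h3 (L φ s) fun X => by
      have := fsum_lin (L φ (X *ᵥ s)) fun u : U => ρ u
      rw [hn, map_zero] at this
      rw [this]
      refine finsum_congr fun u => ?_
      rw [hL, hL, ← mulVec_mulVec, ← mulVec_mulVec, ← Subgroup.coe_inv, hs _ (SetLike.coe_mem _)]
    rw [dotProduct_comm, ← hL, ← this, hL, dotProduct_comm]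
    simp [smul_mulVec]
  · refine (dotProduct_eq_iff.1 fun s => ?_)
    have := h3 (L φ s) fun X => by
      have := fsum_lin (L (φ ᵥ* X) s) fun u : U => ρ u
      rw [hn, map_zero, ← finsum_comp_equiv (Equiv.inv U)] at this
      rw [this]
      refine finsum_congr fun u => ?_
      rw [hL, hL, ← mulVec_mulVec, ← mulVec_mulVec, dotProduct_mulVec φ, hs _ u.2,
        dotProduct_mulVec φ]
      rfl
    rw [← dotProduct_mulVec, ← hL, ← this, hL]
    simp [smul_mulVec]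

/-- The average over the complement of an endomorphism. -/
theorem avg_end (c : Gx p r U H) {π : M5 k} (hπ : ∀ u ∈ U, ρ u * π = π * ρ u) :
    ∀ n ∈ normalizer (U : Set P), ρ n * (∑ᶠ x : H, ρ x * π * ρ (x : P)⁻¹) =
      (∑ᶠ x : H, ρ x * π * ρ (x : P)⁻¹) * ρ n := fun n hn => by
  obtain ⟨u, hu, a, ha, rfl⟩ := c.fac n hn
  letI := Fintype.ofFinite H
  rw [finsum_eq_sum_of_fintype, Finset.mul_sum, Finset.sum_mul,
    ← Equiv.sum_comp (Equiv.mulLeft (⟨a, ha⟩ : H)) fun x : H => ρ x * π * ρ (x : P)⁻¹ * ρ (u * a)]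
  refine sum_congr rfl fun x _ => ?_
  have := hπ _ (c.conj' (mul_mem ha x.2) hu)
  simp only [Equiv.coe_mulLeft, Subgroup.coe_mul, mul_assoc, ← map_mul]
  rw [show (a * x)⁻¹ * (u * a) = (a * x)⁻¹ * u * (a * x) * (x : P)⁻¹ by group, map_mul _ _ (x : P)⁻¹,
    ← mul_assoc π, ← this]
  simp only [← mul_assoc, ← map_mul]
  congr 3; group

/-- The restriction to the Sylow subgroup is indecomposable. -/
theorem G2tr [IsAlgClosed k] (h : Hy0 ρ) (c : Gx p r U H) (hn : ∑ᶠ u : U, ρ u = 0) {π : M5 k}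
    (hπ : ∀ u ∈ U, ρ u * π = π * ρ u) {s : Fin 5 → k} (s0 : s ≠ 0) (sU : ∀ u ∈ U, ρ u *ᵥ s = s)
    (sH : ∀ x ∈ H, ∃ μ : k, ρ x *ᵥ s = μ • s) {y : k} (hs : π *ᵥ s = y • s) : π.trace = 5 * y := by
  obtain ⟨x, h1, h2, -⟩ := G2 h c hn (avg_end c hπ)
  have h3 := h2 s sU
  letI := Fintype.ofFinite H
  rw [finsum_eq_sum_of_fintype] at h1 h3
  rw [sum_mulVec, sum_congr rfl (g := fun _ => y • s) fun a _ => by
    obtain ⟨μ, e⟩ := sH _ (inv_mem a.2)
    rw [← mulVec_mulVec, e, ← mulVec_mulVec, mulVec_smul, hs, smul_comm, ← e, mulVec_smul,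
      mulVec_mulVec, ← map_mul, mul_inv_cancel, map_one, one_mulVec], sum_const, card_univ,
    ← Nat.cast_smul_eq_nsmul k, smul_smul] at h3
  rw [trace_sum, sum_congr rfl (g := fun _ => π.trace) fun a _ => by
    rw [trace_mul_cycle, ← map_mul, inv_mul_cancel, map_one, one_mul], sum_const, card_univ,
    nsmul_eq_mul, ← smul_left_injective k s0 h3, ← Nat.card_eq_fintype_card] at h1
  exact mul_left_cancel₀ c.card_ne (by rw [h1]; ring)

/-- The action on the tensor square. -/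
def sq2 (ρ : P →* M5 k) : P →* Module.End k (M5 k) where
  toFun g := LinearMap.mulLeft k (ρ g) ∘ₗ LinearMap.mulRight k (ρ g)ᵀ
  map_one' := by ext1 X; simp
  map_mul' a b := by ext1 X; simp [mul_assoc]

omit [Finite P] hp [CharP k p] in
theorem sq2_apply (g : P) (X : M5 k) : sq2 ρ g X = ρ g * X * (ρ g)ᵀ := (mul_assoc ..).symm

theorem TT (h : Hy ρ) (c : Gx p r U H) {B : M5 k}
    (hB : ∀ n ∈ normalizer (U : Set P), ρ n * B * (ρ n)ᵀ = B) (L : M5 k →ₗ[k] k)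
    (hL : ∀ X, ∑ᶠ u : U, L (ρ u * X * (ρ u)ᵀ) = 0) : L B = 0 := by
  have hN : ∀ g, ∀ n ∈ normalizer (U : Set P), sq2 ρ (g * n) B = sq2 ρ g B := fun g n hn => by
    rw [map_mul, Module.End.mul_apply, sq2_apply n, hB n hn]
  obtain ⟨E, h1, h2⟩ := tr_el (k := k) (normalizer (U : Set P)) (fun g => sq2 ρ g B) (sq2 ρ)
    (fun a g => by simp) hN
  have h3 := h2 L
  rw [c.tt (fun g n hn => by simp only [hN g n hn]) fun g => by
    simpa only [map_mul, Module.End.mul_apply, ← sq2_apply] using hL (sq2 ρ g B), map_one,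
    Module.End.one_apply] at h3
  rw [← h3, show E = 0 from by_contra fun e => sd h e fun g => ⟨1, by rw [← sq2_apply, h1, one_smul]⟩,
    map_zero]

theorem TT' (h : Hy ρ) (c : Gx p r U H) {B : M5 k}
    (hB : ∀ n ∈ normalizer (U : Set P), ρ n * B * (ρ n)ᵀ = B) (L : M5 k →ₗ[k] k)
    (hL : ∀ u ∈ U, ∀ X, L (ρ u * X * (ρ u)ᵀ) = L X) : L B = 0 :=
  TT h c hB L fun X => by
    rw [finsum_congr fun u : U => hL u u.2 X, fsum_const, c.card_zero, zero_mul]

/-- Semi-invariants in a module on which the norm vanishes. -/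
theorem TS {M : Type*} [AddCommGroup M] [Module k M] [FiniteDimensional k M] (c : Gx p r U H)
    (σ : P →* Module.End k M) (hn : ∀ X, ∑ᶠ u : U, σ u X = 0) {b : M} (L : M →ₗ[k] k) (h1 : L b ≠ 0)
    (hU : ∀ u ∈ U, σ u b = b ∧ ∀ X, L (σ u X) = L X)
    (hH : ∀ x ∈ H, ∃ μ : k, σ x b = μ • b ∧ ∀ X, L (σ x X) = μ * L X) (g : P) :
    ∃ μ : k, σ g b = μ • b := by
  let F : P → Module.End k M := fun g => σ g * (L.smulRight b) * σ g⁻¹
  have hF : ∀ g X, F g X = L (σ g⁻¹ X) • σ g b := fun g X => by simp [F]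
  have inv : ∀ g X, σ g (σ g⁻¹ X) = X := fun g X => by
    rw [← Module.End.mul_apply, ← map_mul, mul_inv_cancel, map_one, Module.End.one_apply]
  have hN : ∀ g, ∀ n ∈ normalizer (U : Set P), F (g * n) = F g := fun g n hn => by
    obtain ⟨u, hu, a, ha, rfl⟩ := c.fac n hn
    obtain ⟨μ, e1, e2⟩ := hH a ha
    ext X
    have e3 := e2 (σ a⁻¹ (σ u⁻¹ (σ g⁻¹ X)))
    rw [inv, (hU _ (inv_mem hu)).2] at e3
    simp only [hF, _root_.mul_inv_rev, map_mul, Module.End.mul_apply, e1, map_smul, (hU u hu).1,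
      smul_smul, e3, mul_comm μ]
  obtain ⟨E, h2, h3⟩ := tr_el (k := k) (normalizer (U : Set P)) F
    (fun a => LinearMap.mulLeft k (σ a) ∘ₗ LinearMap.mulRight k (σ a⁻¹))
    (fun a g => by simp [F, mul_assoc]) hN
  have h4 : ∀ s, (∀ u ∈ U, σ u s = s) → E s = L s • b := fun s hs => by
    rw [← sub_eq_zero, ← Module.forall_dual_apply_eq_zero_iff k]
    intro L'
    have := h3 (L' ∘ₗ LinearMap.applyₗ s)
    rw [c.tt (fun g n hn => by simp only [hN g n hn]) fun g => ?_] at this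
    · rw [map_sub, sub_eq_zero]
      simpa [hF] using this
    · have e := congrArg (fun X => L (σ g⁻¹ s) * L' X) (hn (σ g b))
      simp only [map_zero, mul_zero, fsum_lin, mul_finsum] at e
      refine Eq.trans (finsum_congr fun u => ?_) e
      simp [hF, hs _ (inv_mem u.2)]
  have h5 : ∀ a X, E (σ a X) = σ a (E X) := fun a X => by
    have := congrArg (fun f : Module.End k M => f (σ a X)) (h2 a)
    simpa [← Module.End.mul_apply (σ a⁻¹), ← map_mul] using this.symm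
  let W := Module.End.eigenspace E (L b)
  have hW : ∀ X, X ∈ W ↔ E X = L b • X := fun X => Module.End.mem_eigenspace_iff
  have h6 : ∀ a, ∀ X ∈ W, σ a X ∈ W := fun a X hX => by rw [hW, h5, (hW X).1 hX, map_smul]
  have h7 : b ∈ W := (hW b).2 (h4 b fun u hu => (hU u hu).1)
  have h8 : W ⊓ LinearMap.ker L = ⊥ := by
    by_contra e
    obtain ⟨x, hx, x0, e⟩ := ex_fix c.comm c.exp σ _ e fun u hu x hx =>
      ⟨h6 u x hx.1, ((hU u hu).2 x).trans hx.2⟩
    have := (hW x).1 hx.1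
    rw [h4 x e, show L x = 0 from hx.2, zero_smul, eq_comm, smul_eq_zero] at this
    exact this.elim h1 x0
  refine ⟨L (σ g b) / L b, sub_eq_zero.1 ((Submodule.mem_bot k).1 (h8.le
    ⟨sub_mem (h6 g b h7) (W.smul_mem _ h7), ?_⟩))⟩
  simp [h1]

theorem GL1 (h : Hy ρ) (c : Gx p r U H) (hn : ∀ X : M5 k, ∑ᶠ u : U, ρ u * X * (ρ u)ᵀ = 0) {B : M5 k}
    (L : M5 k →ₗ[k] k) (h1 : L B ≠ 0)
    (hU : ∀ u ∈ U, ρ u * B * (ρ u)ᵀ = B ∧ ∀ X, L (ρ u * X * (ρ u)ᵀ) = L X)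
    (hH : ∀ x ∈ H, ∃ μ : k, ρ x * B * (ρ x)ᵀ = μ • B ∧ ∀ X, L (ρ x * X * (ρ x)ᵀ) = μ * L X) :
    False :=
  sd h (B := B) (fun e => h1 (by rw [e, map_zero])) fun g => by
    simpa only [sq2_apply] using TS c (sq2 ρ) (by simpa only [sq2_apply] using hn) L h1
      (by simpa only [sq2_apply] using hU) (by simpa only [sq2_apply] using hH) g

theorem norm_of (c : Gx p r U H) {m : ℕ} (hm : m ≤ r * (p - 1))
    (h : ∀ i j, Dg U m fun g => ρ g i j) : ∑ᶠ u : U, ρ u = 0 := by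
  ext i j
  have := (h i j).sum_zero p c.exp c.card hm 1
  simp only [mul_one] at this
  exact (fsum_lin (entryLinearMap k k i j) fun u : U => ρ u).trans this

theorem norm_sq_of (c : Gx p r U H) {m : ℕ} (hm : m + m + 1 ≤ r * (p - 1))
    (h : ∀ i j, Dg U (m + 1) fun g => ρ g i j) (X : M5 k) : ∑ᶠ u : U, ρ u * X * (ρ u)ᵀ = 0 := by
  ext i j
  have := (L4.R.Dg.sum univ _ fun b _ => L4.R.Dg.sum univ _ fun a _ =>
    ((h i a).mul (h j b)).cmul (X a b)).sum_zero p c.exp c.card hm 1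
  simp only [mul_one] at this
  refine (fsum_lin (entryLinearMap k k i j) fun u : U => ρ u * X * (ρ u)ᵀ).trans
    ((finsum_congr fun u => ?_).trans this)
  simp only [entryLinearMap_apply, mul_apply, transpose_apply, Finset.sum_mul]
  exact sum_congr rfl fun b _ => sum_congr rfl fun a _ => by ring

omit hp [CharP k p] in
/-- Burnside's transfer theorem. -/
theorem BU [IsAlgClosed k] (h : Hy0 ρ) {l : ℕ} [Fact l.Prime] (Q : Sylow l P)
    (hQ : ∀ g ∈ normalizer ((Q : Subgroup P) : Set P), ∀ x ∈ Q, x * g = g * x) :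
    (Q : Subgroup P) = ⊥ := by
  have h6 : normalizer ((Q : Subgroup P) : Set P) ≤ Subgroup.centralizer (Q : Subgroup P) :=
    fun g hg x hx => hQ g hg x hx
  have h7 := MonoidHom.ker_transferSylow_isComplement' Q h6
  letI : CommGroup Q := { (inferInstance : Group Q) with
    mul_comm := fun a b => Subtype.ext (hQ _ (Subgroup.le_normalizer b.2) _ a.2) }
  have : (MonoidHom.transferSylow Q h6).ker = ⊤ :=
    top_le_iff.1 (h.perf.ge.trans (Abelianization.commutator_subset_ker _))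
  rwa [this, Subgroup.isComplement'_top_left] at h7

end Cfsg.Agent.L5.R
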