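import Cfsg.Agent.L5.RA

/-!
Sylow subgroups of Loewy length three: the cyclic case.
-/

set_option autoImplicit false
set_option linter.unusedSectionVars false

namespace Cfsg.Agent.L5.R
open Finset Matrix
open Subgroup (normalizer)

variable {P k : Type*} [Group P] [Field k] {ρ : P →* M5 k} {U H : Subgroup P} {p r : ℕ}

attribute [-simp] Matrix.mulVec_mulVec

theorem six (v : Fin 6 → Fin 5 → k) : ∃ c : Fin 6 → k,
    c 0 • v 0 + c 1 • v 1 + c 2 • v 2 + c 3 • v 3 + c 4 • v 4 + c 5 • v 5 = 0 ∧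
      ¬ (c 0 = 0 ∧ c 1 = 0 ∧ c 2 = 0 ∧ c 3 = 0 ∧ c 4 = 0 ∧ c 5 = 0) := by
  obtain ⟨c, h, i, hi⟩ := Fintype.not_linearIndependent_iff.1 fun h : LinearIndependent k v => by
    simpa using h.fintype_card_le_finrank
  refine ⟨c, by simpa [Fin.sum_univ_six] using h, fun ⟨a, b, c, d, e, f⟩ => hi ?_⟩
  fin_cases i <;> assumption

/-- Linear independence of two vectors. -/
def In2 (x y : Fin 5 → k) : Prop := ∀ a b : k, a • x + b • y = 0 → a = 0 ∧ b = 0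

theorem of_not_In2 {x y : Fin 5 → k} (h : ¬ In2 x y) (h0 : x ≠ 0) : ∃ c : k, y = c • x := by
  simp only [In2, not_forall] at h
  obtain ⟨a, b, h, h1⟩ := h
  have hb : b ≠ 0 := fun e => h1 ⟨by simpa [e, h0] using h, e⟩
  refine ⟨-a / b, smul_right_injective _ hb ?_⟩
  simp only [smul_smul, mul_div_cancel₀ _ hb]
  linear_combination (norm := module) h

theorem rk1 {N : M5 k} (h : N ^ 3 = 0) : ∃ v φ, N * N = vecMulVec v φ := by
  have h3 : ∀ x, N *ᵥ N *ᵥ N *ᵥ x = 0 := fun x => by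
    simp only [mulVec_mulVec, ← mul_assoc, ← sq, ← pow_succ', h, zero_mulVec]
  by_cases h0 : ∀ x, N *ᵥ N *ᵥ x = 0
  · exact ⟨0, 0, K.mat_ext fun x => by simp [← mulVec_mulVec, h0]⟩
  push Not at h0
  obtain ⟨x, hx⟩ := h0
  have : ∀ y, ∃ c : k, N *ᵥ N *ᵥ y = c • N *ᵥ N *ᵥ x := fun y => of_not_In2 (fun i => by
    obtain ⟨c, e, c0⟩ := six ![x, y, N *ᵥ x, N *ᵥ y, N *ᵥ N *ᵥ x, N *ᵥ N *ᵥ y]
    simp only [Matrix.cons_val] at e
    obtain ⟨a1, a2⟩ := i (c 0) (c 1) (by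
      simpa [mulVec_add, mulVec_smul, h3] using congrArg (fun z => N *ᵥ N *ᵥ z) e)
    obtain ⟨a3, a4⟩ := i (c 2) (c 3) (by
      simpa [mulVec_add, mulVec_smul, h3, a1, a2] using congrArg (fun z => N *ᵥ z) e)
    obtain ⟨a5, a6⟩ := i (c 4) (c 5) (by simpa [a1, a2, a3, a4] using e)
    exact c0 ⟨a1, a2, a3, a4, a5, a6⟩) hx
  choose c hc using this
  refine ⟨N *ᵥ N *ᵥ x, fun j => c (Pi.single j 1), ?_⟩
  ext i j
  have := congrFun (hc (Pi.single j 1)) i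
  rw [mulVec_mulVec, mulVec_single_one] at this
  simpa [vecMulVec_apply, mul_comm] using this

theorem ex_dot {φ : Fin 5 → k} (h : φ ≠ 0) : ∃ x, φ ⬝ᵥ x ≠ 0 := by
  by_contra! c
  exact h (dotProduct_eq_zero_iff.1 c)

/-- The span of the nilpotent parts. -/
def SJ (ρ : P →* M5 k) (U : Subgroup P) : Submodule k (M5 k) :=
  Submodule.span k ((fun u => ρ u - 1) '' U)

theorem SJ_mem {u : P} (hu : u ∈ U) : ρ u - 1 ∈ SJ ρ U := Submodule.subset_span ⟨u, hu, rfl⟩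

theorem SJ_ind {M : Type*} [AddCommGroup M] [Module k M] (L : M5 k →ₗ[k] M)
    (h : ∀ u ∈ U, L (ρ u - 1) = 0) {X : M5 k} (hX : X ∈ SJ ρ U) : L X = 0 :=
  (Submodule.span_le.2 (by rintro _ ⟨u, hu, rfl⟩; exact h u hu) : SJ ρ U ≤ LinearMap.ker L) hX

/-- The general block unitriangular matrix. -/
def tt (a b c d x y e f : k) : M5 k :=
  !![1, 0, a, b, x; 0, 1, c, d, y; 0, 0, 1, 0, e; 0, 0, 0, 1, f; 0, 0, 0, 0, 1]

/-- Multiplication by a unipotent element in `k[X,Y]/(XY,X³,Y³)`. -/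
def uu (a b x y : k) : M5 k :=
  !![1, 0, a, 0, x; 0, 1, 0, b, y; 0, 0, 1, 0, a; 0, 0, 0, 1, b; 0, 0, 0, 0, 1]

/-- Multiplication by a unipotent element in `k[X,Y]/(Y²,X³,X²Y)`. -/
def vv (a b x y : k) : M5 k :=
  !![1, 0, a, 0, x; 0, 1, b, a, y; 0, 0, 1, 0, a; 0, 0, 0, 1, b; 0, 0, 0, 0, 1]

/-- Both shapes at once. -/
structure Sh (σ τ : k) (ρ : P →* M5 k) (U : Subgroup P) : Prop where
  sh : ∀ u ∈ U, ρ u = tt (ρ u 2 4) 0 (σ * ρ u 3 4) (σ * ρ u 2 4 + τ * ρ u 3 4) (ρ u 0 4) (ρ u 1 4)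
    (ρ u 2 4) (ρ u 3 4)
  ind : ∃ u ∈ U, ∃ v ∈ U, ρ u 2 4 * ρ v 3 4 ≠ ρ v 2 4 * ρ u 3 4

theorem col_ext {Z C : M5 k} {v : Fin 5 → Fin 5 → k} (h : ∀ j, Z *ᵥ v j = ∑ i, C i j • v i) :
    Z * (of v)ᵀ = (of v)ᵀ * C := by
  ext i j
  simpa [mul_apply, mulVec, dotProduct, mul_comm] using congrFun (h j) i

section
variable (cm : ∀ u ∈ U, ∀ v ∈ U, u * v = v * u) (h3 : ∀ u ∈ U, (ρ u - 1) ^ 3 = 0)
include cm

theorem n_comm {u v : P} (hu : u ∈ U) (hv : v ∈ U) :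
    (ρ u - 1) * (ρ v - 1) = (ρ v - 1) * (ρ u - 1) := by
  simp only [mul_sub, sub_mul, ← map_mul, cm u hu v hv, mul_one, one_mul]; abel

theorem SJ_comm {X Y : M5 k} (hX : X ∈ SJ ρ U) (hY : Y ∈ SJ ρ U) : X * Y = Y * X :=
  sub_eq_zero.1 (SJ_ind (LinearMap.mulRight k Y - LinearMap.mulLeft k Y) (fun u hu =>
    SJ_ind (LinearMap.mulLeft k (ρ u - 1) - LinearMap.mulRight k (ρ u - 1))
      (fun _ hv => sub_eq_zero.2 (n_comm cm hu hv)) hY) hX)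

include h3

theorem j2 {u w : P} (hu : u ∈ U) (hw : w ∈ U) : (ρ w - 1) * ((ρ u - 1) * (ρ u - 1)) = 0 := by
  obtain ⟨v, φ, e⟩ := rk1 (h3 u hu)
  by_cases h0 : φ = 0
  · rw [e, h0]; simp
  obtain ⟨x, hx⟩ := ex_dot h0
  have e1 : (ρ w - 1) * vecMulVec v φ = vecMulVec v φ * (ρ w - 1) := by
    rw [← e, ← mul_assoc, n_comm cm hw hu, mul_assoc, n_comm cm hw hu, mul_assoc]
  have e2 : (ρ w - 1) *ᵥ v = (φ ⬝ᵥ (ρ w - 1) *ᵥ x / (φ ⬝ᵥ x)) • v := by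
    have := congrArg (· *ᵥ x) e1
    simp only [← mulVec_mulVec, vecMulVec_mulVec, op_smul_eq_smul, mulVec_smul] at this
    refine smul_right_injective _ hx ?_
    simp only [this, smul_smul, mul_div_cancel₀ _ hx]
  have e3 := K.eig_pow e2 3
  rw [h3 w hw, zero_mulVec, eq_comm, smul_eq_zero, pow_eq_zero_iff (by norm_num), ← smul_eq_zero,
    ← e2] at e3
  rw [e, mul_vecMulVec, e3, zero_vecMulVec]

theorem polar {u v : P} (hu : u ∈ U) (hv : v ∈ U) : (2 : k) • ((ρ u - 1) * (ρ v - 1)) =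
    (ρ (u * v) - 1) * (ρ (u * v) - 1) - (ρ u - 1) * (ρ u - 1) - (ρ v - 1) * (ρ v - 1) := by
  have e : ρ (u * v) - 1 = (ρ u - 1) + (ρ v - 1) + (ρ u - 1) * (ρ v - 1) := by
    rw [map_mul]; noncomm_ring
  have a1 := j2 cm h3 hu hv
  have a2 := j2 cm h3 hv hu
  have c := n_comm (ρ := ρ) cm hu hv
  rw [e]
  generalize ρ u - 1 = X at *
  generalize ρ v - 1 = Y at *
  have b1 : X * (X * Y) = 0 := by rw [c, ← mul_assoc, c, mul_assoc, a1]
  have b2 : Y * (X * Y) = 0 := by rw [← mul_assoc, ← c, mul_assoc, a2]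
  have b3 : X * (Y * X) = 0 := by rw [← c, b1]
  simp only [mul_add, add_mul, mul_assoc, a2, b1, b2, b3, ← c, mul_zero, two_smul]
  abel

variable (h2 : (2 : k) ≠ 0)
include h2

theorem j3 {u v w : P} (hu : u ∈ U) (hv : v ∈ U) (hw : w ∈ U) :
    (ρ w - 1) * ((ρ u - 1) * (ρ v - 1)) = 0 := by
  refine (smul_eq_zero_iff_right h2).1 ?_
  rw [← mul_smul_comm, polar cm h3 hu hv, mul_sub, mul_sub, j2 cm h3 (mul_mem hu hv) hw,
    j2 cm h3 hu hw, j2 cm h3 hv hw, sub_zero, sub_zero]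

theorem SJ3 {X Y Z : M5 k} (hX : X ∈ SJ ρ U) (hY : Y ∈ SJ ρ U) (hZ : Z ∈ SJ ρ U) (t : Fin 5 → k) :
    X *ᵥ Y *ᵥ Z *ᵥ t = 0 := by
  have : X * (Y * Z) = 0 := SJ_ind (LinearMap.mulRight k (Y * Z)) (fun u hu =>
    SJ_ind (LinearMap.mulLeft k (ρ u - 1) ∘ₗ LinearMap.mulRight k Z) (fun v hv =>
      SJ_ind (LinearMap.mulLeft k (ρ u - 1) ∘ₗ LinearMap.mulLeft k (ρ v - 1))
        (fun _ hw => j3 cm h3 h2 hv hw hu) hZ) hY) hX
  rw [mulVec_mulVec, mulVec_mulVec, mul_assoc, this, zero_mulVec]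

theorem frame {X Y : M5 k} (hX : X ∈ SJ ρ U) (hY : Y ∈ SJ ρ U) {t s : Fin 5 → k} {σ τ : k}
    (h1 : σ + τ = 1) (e1 : X *ᵥ Y *ᵥ t = σ • s) (e2 : Y *ᵥ Y *ᵥ t = τ • s)
    (i : In2 (X *ᵥ X *ᵥ t) s) : ∃ (B B' : M5 k) (hB : B * B' = 1), Sh σ τ (cj hB ρ) U := by
  have z := fun {X Y Z : M5 k} a b c => SJ3 cm h3 h2 (X := X) (Y := Y) (Z := Z) a b c t
  have cm' : ∀ {X Y : M5 k}, X ∈ SJ ρ U → Y ∈ SJ ρ U → ∀ t, X *ᵥ Y *ᵥ t = Y *ᵥ X *ᵥ t :=
    fun a b t => by rw [mulVec_mulVec, SJ_comm cm a b, mulVec_mulVec]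
  have zs : ∀ {Z : M5 k}, Z ∈ SJ ρ U → Z *ᵥ s = 0 := fun a => by
    rw [← one_smul k s, ← h1, add_smul, ← e1, ← e2, mulVec_add, z a hX hY, z a hY hY, add_zero]
  have e3 : Y *ᵥ X *ᵥ t = σ • s := (cm' hY hX t).trans e1
  have x0 : X *ᵥ X *ᵥ t ≠ 0 := fun e => one_ne_zero (i 1 0 (by simp [e])).1
  have s0 : s ≠ 0 := fun e => one_ne_zero (i 0 1 (by simp [e])).2
  let v : Fin 5 → Fin 5 → k := ![X *ᵥ X *ᵥ t, s, X *ᵥ t, Y *ᵥ t, t]
  have top : ∀ c : Fin 5 → k, X *ᵥ X *ᵥ ∑ i, c i • v i = c 4 • X *ᵥ X *ᵥ t := fun c => by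
    simp [v, Fin.sum_univ_five, mulVec_add, mulVec_smul, z hX hX hX, z hX hX hY, zs hX]
  obtain ⟨B', hB⟩ := cols_inv (v := v) fun c e => by
    have a4 : c 4 = 0 := by simpa [e, x0] using (top c).symm
    simp only [v, Fin.sum_univ_five, Matrix.cons_val, a4] at e
    obtain ⟨a2, a3⟩ := i (c 2) (c 3 * σ) (by
      simpa [mulVec_add, mulVec_smul, z hX hX hX, zs hX, e1, smul_smul] using
        congrArg (fun z => X *ᵥ z) e)
    have a5 : c 3 * τ = 0 := by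
      simpa [mulVec_add, mulVec_smul, z hY hX hX, zs hY, e2, a2, smul_smul, s0] using
        congrArg (fun z => Y *ᵥ z) e
    have a6 : c 3 = 0 := by linear_combination a3 + a5 - c 3 * h1
    obtain ⟨a0, a1⟩ := i (c 0) (c 1) (by simpa [a2, a6] using e)
    intro j
    fin_cases j <;> assumption
  have key : ∀ {Z : M5 k}, Z ∈ SJ ρ U → ∀ c : Fin 5 → k, Z *ᵥ t = ∑ i, c i • v i →
      B' * Z * (of v)ᵀ = tt (c 2) 0 (σ * c 3) (σ * c 2 + τ * c 3) (c 0) (c 1) (c 2) (c 3) - 1 :=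
    fun {Z} hZ c e => by
      have a4 : c 4 = 0 := by simpa [← e, z hX hX hZ, x0] using (top c).symm
      rw [mul_assoc, col_ext, ← mul_assoc, mul_eq_one_comm.1 hB, one_mul]
      simp only [v, Fin.sum_univ_five, Matrix.cons_val, a4] at e
      intro j
      fin_cases j <;> simp [v, tt, Fin.sum_univ_five, one_apply, z hZ hX hX, zs hZ, cm' hZ hX,
        cm' hZ hY, e, mulVec_add, mulVec_smul, z hX hX hX, zs hX, z hY hX hX, zs hY, e1, e2, e3] <;>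
        module
  have co : ∀ w, ∃ c : Fin 5 → k, w = ∑ i, c i • v i := fun w => ⟨B' *ᵥ w, by
    conv_lhs => rw [← one_mulVec w, ← hB, ← mulVec_mulVec]
    ext j; simp [mulVec, dotProduct, mul_comm]⟩
  refine ⟨_, B', hB, fun u hu => ?_, ?_⟩
  · obtain ⟨c, e⟩ := co ((ρ u - 1) *ᵥ t)
    have := key (SJ_mem hu) c e
    rw [← cj_sub hB, sub_left_inj] at this
    rw [this]; rfl
  by_contra! c
  let L : Fin 5 → M5 k →ₗ[k] k := fun i => entryLinearMap k k i 4 ∘ₗ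
    LinearMap.mulRight k (of v)ᵀ ∘ₗ LinearMap.mulLeft k B'
  have hL : ∀ i Z, L i Z = (B' * Z * (of v)ᵀ) i 4 := fun _ _ => rfl
  have h2 : ∀ u, L 2 (ρ u - 1) = cj hB ρ u 2 4 := fun u => by rw [hL, ← cj_sub hB]; simp
  have h3 : ∀ u, L 3 (ρ u - 1) = cj hB ρ u 3 4 := fun u => by rw [hL, ← cj_sub hB]; simp
  have := SJ_ind (L 3 Y • L 2 - L 2 Y • L 3) (fun u hu => by
    have := SJ_ind (L 2 (ρ u - 1) • L 3 - L 3 (ρ u - 1) • L 2) (fun w hw => by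
      simp only [LinearMap.sub_apply, LinearMap.smul_apply, smul_eq_mul, h2, h3]
      linear_combination c u hu w hw) hY
    simp only [LinearMap.sub_apply, LinearMap.smul_apply, smul_eq_mul] at this ⊢
    linear_combination this) hX
  simp [hL, key hX (Pi.single 2 1) (by simp [v, Pi.single_apply]),
    key hY (Pi.single 3 1) (by simp [v, Pi.single_apply]), tt] at this

theorem nf0 [IsAlgClosed k] {X Y : M5 k} (hX : X ∈ SJ ρ U) (hY : Y ∈ SJ ρ U) {v φ w ψ : Fin 5 → k}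
    (e1 : X * X = vecMulVec v φ) (e2 : Y * Y = vecMulVec w ψ) (h1 : φ ≠ 0) (h1' : ψ ≠ 0)
    (i : In2 v w) : ∃ (B B' : M5 k) (hB : B * B' = 1), Sh 0 1 (cj hB ρ) U ∨ Sh 1 0 (cj hB ρ) U := by
  obtain ⟨t, t1, t2⟩ : ∃ t, φ ⬝ᵥ t ≠ 0 ∧ ψ ⬝ᵥ t ≠ 0 := by
    obtain ⟨x, hx⟩ := ex_dot h1
    obtain ⟨y, hy⟩ := ex_dot h1'
    by_cases a : ψ ⬝ᵥ x = 0
    · by_cases b : φ ⬝ᵥ y = 0
      · exact ⟨x + y, by simpa [b], by simpa [a]⟩
      · exact ⟨y, b, hy⟩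
    · exact ⟨x, hx, a⟩
  have z := fun {X Y Z : M5 k} a b c => SJ3 cm h3 h2 (X := X) (Y := Y) (Z := Z) a b c t
  have c1 : Y *ᵥ X *ᵥ t = X *ᵥ Y *ᵥ t := by rw [mulVec_mulVec, SJ_comm cm hY hX, mulVec_mulVec]
  have i' : In2 (X *ᵥ X *ᵥ t) (Y *ᵥ Y *ᵥ t) := fun a b e => by
    simp only [mulVec_mulVec, e1, e2, vecMulVec_mulVec, op_smul_eq_smul, smul_smul] at e
    simpa [t1, t2] using i _ _ e
  obtain ⟨α, γ, m⟩ : ∃ α γ : k, X *ᵥ Y *ᵥ t = α • X *ᵥ X *ᵥ t + γ • Y *ᵥ Y *ᵥ t := by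
    obtain ⟨c, e, c0⟩ := six ![t, X *ᵥ t, Y *ᵥ t, X *ᵥ X *ᵥ t, Y *ᵥ Y *ᵥ t, X *ᵥ Y *ᵥ t]
    simp only [Matrix.cons_val] at e
    have a0 := (i' (c 0) 0 (by
      simpa [mulVec_add, mulVec_smul, z hX hX hX, z hX hX hY, z hX hY hY] using
        congrArg (fun z => X *ᵥ X *ᵥ z) e)).1
    have b1 := congrArg (fun z => X *ᵥ z) e
    have b2 := congrArg (fun z => Y *ᵥ z) e
    simp only [mulVec_add, mulVec_smul, z hX hX hX, z hX hX hY, z hX hY hY, z hY hX hX, z hY hX hY,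
      z hY hY hY, a0, c1, mulVec_zero] at b1 b2
    obtain ⟨a1, a2⟩ := i' (c 1 ^ 2) (-c 2 ^ 2) (by
      linear_combination (norm := module) c 1 • b1 - c 2 • b2)
    replace a1 := pow_eq_zero_iff two_ne_zero |>.1 a1
    replace a2 := pow_eq_zero_iff two_ne_zero |>.1 (neg_eq_zero.1 a2)
    have a5 : c 5 ≠ 0 := fun a5 => by
      obtain ⟨a3, a4⟩ := i' (c 3) (c 4) (by simpa [a0, a1, a2, a5] using e)
      exact c0 ⟨a0, a1, a2, a3, a4, a5⟩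
    refine ⟨-c 3 / c 5, -c 4 / c 5, smul_right_injective _ a5 ?_⟩
    simp only [smul_add, smul_smul, mul_div_cancel₀ _ a5]
    rw [a0, a1, a2] at e
    linear_combination (norm := module) e
  obtain ⟨x, rfl⟩ : ∃ x, γ = x - α * x ^ 2 := by
    by_cases a : α = 0
    · exact ⟨γ, by simp [a]⟩
    haveI := NeZero.mk h2
    obtain ⟨x, hx⟩ := exists_quadratic_eq_zero (b := -1) (c := γ) a (IsAlgClosed.exists_eq_mul_self _)
    exact ⟨x, by linear_combination hx⟩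
  have hY' : X - x • Y ∈ SJ ρ U := sub_mem hX (Submodule.smul_mem _ _ hY)
  by_cases d : 1 - 2 * α * x = 0
  · have a : α ≠ 0 := fun e => by simp [e] at d
    obtain ⟨B, B', hB, h⟩ := frame cm h3 h2 hY hY' (t := t) (σ := 1) (τ := 0) (add_zero _)
      (one_smul _ _).symm (by
        simp only [sub_mulVec, smul_mulVec, mulVec_sub, mulVec_smul, c1, m]
        linear_combination (norm := module) d • X *ᵥ X *ᵥ t - (x ^ 2 • d) • Y *ᵥ Y *ᵥ t) fun a b e => by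
        simp only [sub_mulVec, smul_mulVec, mulVec_sub, mulVec_smul, c1, m] at e
        obtain ⟨b1, b2⟩ := i' (b * α) (a - b * α * x ^ 2) (by
          linear_combination (norm := module) e)
        exact ⟨by linear_combination b2 + x ^ 2 * b1, (mul_eq_zero.1 b1).resolve_right ‹_›⟩
    exact ⟨B, B', hB, .inr h⟩
  obtain ⟨B, B', hB, h⟩ := frame cm h3 h2 (X := (1 - α * x) • Y - α • X)
    (sub_mem (Submodule.smul_mem _ _ hY) (Submodule.smul_mem _ _ hX)) hY' (t := t) (σ := 0) (τ := 1)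
    (zero_add _) (by
      simp only [sub_mulVec, smul_mulVec, mulVec_sub, mulVec_smul, c1, m]
      module) (one_smul _ _).symm fun a b e => by
      simp only [sub_mulVec, smul_mulVec, mulVec_sub, mulVec_smul, c1, m] at e
      obtain ⟨b1, b2⟩ := i' ((1 - 2 * α * x) * (b - α ^ 2 * a))
        ((1 - 2 * α * x) * ((1 - α * x) ^ 2 * a - x ^ 2 * b)) (by
        linear_combination (norm := module) e)
      replace b1 := (mul_eq_zero.1 b1).resolve_left d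
      replace b2 := (mul_eq_zero.1 b2).resolve_left d
      have : a = 0 := (mul_eq_zero.1 (show (1 - 2 * α * x) * a = 0 by
        linear_combination b2 + x ^ 2 * b1)).resolve_left d
      exact ⟨this, by linear_combination b1 + α ^ 2 * this⟩
  exact ⟨B, B', hB, .inl h⟩

end

end Cfsg.Agent.L5.R
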