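import Cfsg.Agent.L5.Lift1
import Cfsg.Agent.L5.Rc0a

/-!
Lifting a representation whose restriction to a Sylow subgroup is a permutation representation.
-/

set_option autoImplicit false
set_option linter.unusedSectionVars false

namespace Cfsg.Agent.L5.R
namespace B3
open Matrix Cfsg.Agent.L4.Lift Cfsg.Agent.L5.Lift

variable {P k R ι : Type*} [Group P] [Fintype P] [Field k] [CommRing R] [Fintype ι] [DecidableEq ι]
  {U : Subgroup P}

theorem sum_shift {M : Type*} [AddCommMonoid M] [Fintype (P ⧸ U)] {F : P → M}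
    (hF : ∀ g, ∀ u ∈ U, F (g * u) = F g) (a : P) :
    ∑ q : P ⧸ U, F (a * q.out) = ∑ q : P ⧸ U, F q.out := by
  refine Fintype.sum_equiv (MulAction.toPerm a) _ _ fun q => ?_
  obtain ⟨n, e⟩ := QuotientGroup.mk_out_eq_mul U (a * q.out)
  rw [MulAction.toPerm_apply, ← MulAction.Quotient.mk_smul_out, smul_eq_mul, e, hF _ _ n.2]

variable {π : R →+* k} {t : R} (u : Unif π t) (m : P →* Matrix ι ι k)
include u

theorem lim [hR : IsAdicComplete (Ideal.span {t}) R] (Q : ℕ → (P → Matrix ι ι R) → Prop)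
    (hQ : ∀ n f, Q n f → Ap0 π t m n f) {f₀ : P → Matrix ι ι R} (h₀ : Q 0 f₀)
    (st : ∀ n f, Q n f → ∃ f', Q (n + 1) f' ∧ ∀ g, ∃ B, f' g = f g + t ^ (n + 1) • B) :
    ∃ M : P →* Matrix ι ι R, ∀ g, (M g).map π = m g := by
  choose nx h1 h2 using fun n (f : {f // Q n f}) => st n f.1 f.2
  let F : ∀ n, {f // Q n f} := fun n => Nat.rec ⟨f₀, h₀⟩ (fun n f => ⟨nx n f, h1 n f⟩) n
  have hF : ∀ a b, a ≤ b → ∀ g i j, t ^ (a + 1) ∣ (F a).1 g i j - (F b).1 g i j := by
    intro a b hab g i j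
    induction b, hab using Nat.le_induction with
    | base => simp
    | succ b hab ih =>
      obtain ⟨B, hB⟩ := h2 b (F b) g
      have e : (F (b + 1)).1 g i j = (F b).1 g i j + t ^ (b + 1) * B i j :=
        congrFun (congrFun hB i) j
      rw [e, ← sub_sub]
      exact dvd_sub ih ((pow_dvd_pow t (by omega)).mul_right _)
  have hL : ∀ g i j, ∃ L : R, ∀ n, t ^ n ∣ (F n).1 g i j - L := fun g i j => by
    obtain ⟨L, hL⟩ := hR.toIsPrecomplete.prec (f := fun n => (F n).1 g i j) fun {a b} hab =>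
      u.smod.2 ((pow_dvd_pow t a.le_succ).trans (hF a b hab g i j))
    exact ⟨L, fun n => u.smod.1 (hL n)⟩
  choose L hL using hL
  let q : ∀ n, R →+* R ⧸ Ideal.span {t ^ n} := fun n => Ideal.Quotient.mk _
  have hq : ∀ n x y, q n x = q n y ↔ t ^ n ∣ x - y := fun n x y => by
    rw [Ideal.Quotient.eq, Ideal.mem_span_singleton]
  have hq0 : ∀ n, q n (t ^ (n + 1)) = 0 := fun n => by
    rw [← map_zero (q n), hq, sub_zero]; exact pow_dvd_pow t n.le_succ
  have haus : ∀ x y, (∀ n, q n x = q n y) → x = y := fun x y h =>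
    (IsHausdorff.eq_iff_smodEq (I := Ideal.span {t})).2 fun n => u.smod.2 ((hq n x y).1 (h n))
  have hLF : ∀ n g, (q n).mapMatrix (Matrix.of (L g)) = (q n).mapMatrix ((F n).1 g) := fun n g => by
    ext i j
    exact ((hq n _ _).2 (hL g i j n)).symm
  have hmul : ∀ g h, Matrix.of (L (g * h)) = Matrix.of (L g) * Matrix.of (L h) := fun g h => by
    ext i j
    refine haus _ _ fun n => ?_
    obtain ⟨C, hC⟩ := (hQ _ _ (F n).2).mul g h
    have e : (q n).mapMatrix (Matrix.of (L (g * h))) =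
        (q n).mapMatrix (Matrix.of (L g) * Matrix.of (L h)) := by
      rw [map_mul, hLF, hLF, hLF, ← map_mul, hC, map_add]
      have : (q n).mapMatrix (t ^ (n + 1) • C) = 0 := by ext i j; simp [hq0 n, -map_pow]
      rw [this, add_zero]
    exact congrFun (congrFun e i) j
  have hred : ∀ g, (Matrix.of (L g)).map π = m g := fun g => by
    rw [← (hQ _ _ (F 1).2).red g]
    ext i j
    have := (u.ker _).2 (pow_one t ▸ hL g i j 1)
    rw [map_sub, sub_eq_zero] at this
    exact this.symm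
  have hone : Matrix.of (L 1) = 1 := by
    have hu : IsUnit (Matrix.of (L 1)) := (isUnit_iff_isUnit_det _).2 (u.unit _ (by
      rw [RingHom.map_det, RingHom.mapMatrix_apply, hred, map_one, det_one]; exact one_ne_zero))
    exact hu.mul_left_cancel (by rw [← hmul, mul_one, mul_one])
  exact ⟨⟨⟨fun g => Matrix.of (L g), hone⟩, hmul⟩, hred⟩

theorem step (hi : (U.index : k) ≠ 0) (S : Matrix ι ι k → Matrix ι ι R) (S0 : ∀ X, (S X).map π = X)
    (Sl : ∀ x ∈ U, ∀ X, S (m x * X) = S (m x) * S X) (Sr : ∀ x ∈ U, ∀ X, S (X * m x) = S X * S (m x))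
    (Sz : S 0 = 0) {n : ℕ} {f : P → Matrix ι ι R} (hf : Ap0 π t m n f)
    (hx : ∀ x ∈ U, f x = S (m x) ∧ ∀ g, f (x * g) = f x * f g ∧ f (g * x) = f g * f x) :
    ∃ f', (Ap0 π t m (n + 1) f' ∧
      ∀ x ∈ U, f' x = S (m x) ∧ ∀ g, f' (x * g) = f' x * f' g ∧ f' (g * x) = f' g * f' x) ∧
      ∀ g, ∃ B, f' g = f g + t ^ (n + 1) • B := by
  classical
  choose C hC using hf.mul
  set s := t ^ (n + 1) with hs
  have hs0 : π s = 0 := u.pi_pow n
  let φ := π.mapMatrix (m := ι)
  have hφ : ∀ g, φ (f g) = m g := hf.red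
  have hφs : ∀ A, φ (s • A) = 0 := fun A => by ext i j; simp [φ, hs0]
  have mi : ∀ g, m g⁻¹ * m g = 1 := fun g => by rw [← map_mul, inv_mul_cancel, map_one]
  let c : P → P → Matrix ι ι k := fun g h => φ (C g h) * m (g * h)⁻¹
  have hc0 : ∀ g h, φ (C g h) = c g h * m (g * h) := fun g h => by
    simp only [c]; rw [mul_assoc, mi, mul_one]
  have hc : ∀ g h l, c (g * h) l + c g h = c g (h * l) + m g * c h l * m g⁻¹ := fun g h l => by
    have e : C (g * h) l + C g h * f l = C g (h * l) + f g * C h l := u.cancel (n + 1) (by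
      have := mul_assoc (f g) (f h) (f l)
      rw [hC, hC h, add_mul, mul_add, hC, hC, mul_assoc, add_assoc, add_assoc, add_right_inj,
        smul_mul_assoc, mul_smul_comm] at this
      rw [smul_add, smul_add]; exact this)
    have e' := congrArg (fun A => φ A * m (g * h * l)⁻¹) e
    simp only [map_add, map_mul, hφ, add_mul] at e'
    simp only [c]
    convert e' using 2
    · rw [mul_assoc, ← map_mul]; congr 2; group
    · rw [mul_assoc]
    · rw [mul_assoc, mul_assoc, mul_assoc, ← map_mul]; congr 3; group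
  have z : ∀ g h, f (g * h) = f g * f h → c g h = 0 := fun g h e => by
    have : C g h = 0 := u.cancel (n + 1) (by rw [smul_zero, ← add_eq_left (a := f (g * h)), ← hC, e])
    simp only [c, this, map_zero, zero_mul]
  have cl : ∀ x ∈ U, ∀ g, c x g = 0 := fun x h g => z _ _ ((hx x h).2 g).1
  have cr : ∀ x ∈ U, ∀ g, c g x = 0 := fun x h g => z _ _ ((hx x h).2 g).2
  let β : P → Matrix ι ι k := fun g => (U.index : k)⁻¹ • ∑ q : P ⧸ U, c g q.out
  have hβ : ∀ g h, c g h = β g + m g * β h * m g⁻¹ - β (g * h) := fun g h => by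
    have := Finset.sum_congr rfl fun (q : P ⧸ U) (_ : q ∈ Finset.univ) => hc g h q.out
    rw [Finset.sum_add_distrib, Finset.sum_add_distrib, sum_shift (F := c g) fun l x hx => by
      simpa [cr x hx] using (hc g l x).symm, Finset.sum_const, ← Finset.sum_mul, ← Finset.mul_sum,
      Finset.card_univ, ← Nat.card_eq_fintype_card, ← Subgroup.index_eq_card,
      ← Nat.cast_smul_eq_nsmul k] at this
    simp only [β, mul_smul_comm, smul_mul_assoc]
    rw [← smul_add, ← this, smul_add, inv_smul_smul₀ hi, add_sub_cancel_left]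
  have β0 : ∀ x ∈ U, β x = 0 := fun x h => by simp [β, cl x h]
  have βr : ∀ x ∈ U, ∀ g, β (g * x) = β g := fun x h g => by
    have := hβ g x
    rw [cr x h, β0 x h, mul_zero, zero_mul, add_zero] at this
    exact (sub_eq_zero.1 this.symm).symm
  have βl : ∀ x ∈ U, ∀ g, S (β (x * g)) * f x = f x * S (β g) := fun x h g => by
    have := hβ x g
    rw [cl x h, β0 x h, zero_add] at this
    rw [(hx x h).1, ← Sl x h, ← Sr x h, ← sub_eq_zero.1 this.symm, mul_assoc, mi, mul_one]
  let B : P → Matrix ι ι R := fun g => S (β g)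
  have hB' : ∀ g, φ (B g) = β g := fun g => S0 _
  refine ⟨fun g => (1 + s • -B g) * f g, ⟨⟨fun g => ?_, fun g h => ?_⟩, fun x h => ?_⟩,
    fun g => ⟨-B g * f g, by simp only [add_mul, one_mul, smul_mul_assoc]⟩⟩
  · show φ _ = _
    rw [map_mul, map_add, hφs, map_one, add_zero, one_mul, hφ]
  · obtain ⟨E, hE⟩ := u.exists_of_map (A := C g h - B g * f g * f h - f g * B h * f h +
        B (g * h) * f (g * h) + s • (B g * f g * B h * f h)) (by
      show φ _ = _
      simp only [map_add, map_sub, map_mul φ, hφs, hφ, hB', hc0, hβ, add_zero]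
      rw [sub_mul, add_mul, mul_assoc (m g * β h), ← map_mul, inv_mul_cancel_left, map_mul,
        mul_assoc (β g)]
      abel)
    refine ⟨E, ?_⟩
    rw [pow_succ t (n + 1), mul_smul, ← hE, ← hs]
    have e : f (g * h) = f g * f h - s • C g h := by rw [hC, add_sub_cancel_right]
    simp only [add_mul, mul_add, one_mul, smul_mul_assoc, mul_smul_comm, smul_add, smul_sub, neg_mul,
      mul_neg, smul_neg, neg_neg, mul_assoc]
    conv_rhs => rw [e]
    rw [← e]
    abel_nf
    rw [e]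
    abel
  · simp only [B, β0 x h, Sz, neg_zero, smul_zero, add_zero, one_mul]
    refine ⟨(hx x h).1, fun g => ⟨?_, by rw [βr x h, ((hx x h).2 g).2, mul_assoc]⟩⟩
    simp only [((hx x h).2 g).1, add_mul, mul_add, one_mul, smul_mul_assoc, mul_smul_comm, neg_mul,
      mul_neg, ← mul_assoc, βl x h]

theorem lift [IsAdicComplete (Ideal.span {t}) R] (hi : (U.index : k) ≠ 0)
    (S : Matrix ι ι k → Matrix ι ι R) (S0 : ∀ X, (S X).map π = X)
    (Sl : ∀ x ∈ U, ∀ X, S (m x * X) = S (m x) * S X) (Sr : ∀ x ∈ U, ∀ X, S (X * m x) = S X * S (m x))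
    (Sz : S 0 = 0) : ∃ M : P →* Matrix ι ι R, ∀ g, (M g).map π = m g := by
  refine lim u m (fun n f => Ap0 π t m n f ∧ ∀ x ∈ U, f x = S (m x) ∧
    ∀ g, f (x * g) = f x * f g ∧ f (g * x) = f g * f x) (fun _ _ h => h.1) (f₀ := fun g => S (m g))
    ⟨⟨fun g => S0 _, fun g h => ?_⟩, fun x h => ⟨rfl, fun g => by
      simp only [map_mul, Sl x h, Sr x h, and_self]⟩⟩ fun n f h => step u m hi S S0 Sl Sr Sz h.1 h.2
  obtain ⟨C, hC⟩ := u.exists_of_map (A := S (m g) * S (m h) - S (m (g * h))) (by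
    rw [Matrix.map_sub _ (map_sub π), Matrix.map_mul, S0, S0, S0, map_mul, sub_self])
  exact ⟨C, by rw [zero_add, pow_one, ← hC, add_sub_cancel]⟩

omit u in
theorem to_c [IsAlgClosed k] {p : ℕ} [Fact p.Prime] [CharP k p] {ρ : P →* M5 k} (h : Hy ρ)
    (M : P →* M5 (WittVector p k)) (h1 : ∀ g, (M g).map WittVector.constantCoeff = ρ g) :
    ∃ ρ₀ : P →* M5 ℂ, Hy ρ₀ := by
  obtain ⟨A, π, j, B, h1, h2⟩ := desc M h1
  refine ⟨j.mapMatrix.toMonoidHom.comp B, ⟨fun g g' e => h.inj ?_, det_one_of_perf h.perf _, h.perf,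
    h.simp, irr_transfer π j h1 B (fun x => by rw [h2, map_one, one_mulVec])
      (fun g g' x => by rw [h2, h2, h2, map_mul, mulVec_mulVec]) (by simpa only [h2] using h.irr)⟩,
    h.nsd.imp fun g hg e => hg ?_⟩
  · rw [← h2, ← h2, Matrix.map_injective h1 e]
  · have e1 : (B g⁻¹).trace = (B g).trace := h1 (by
      rw [AddMonoidHom.map_trace, AddMonoidHom.map_trace]; exact e)
    rw [← h2, ← h2, ← AddMonoidHom.map_trace, ← AddMonoidHom.map_trace, e1]

omit u in
theorem frm {A : M5 k} (h3 : (A - 1) ^ 3 = 0) (h2 : (A - 1) * (A - 1) ≠ 0) (hr : (A - 1).rank = 2)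
    (e : A ^ 3 = 1) : ∃ B B' : M5 k, B * B' = 1 ∧ A * B =
      B * !![0, 0, 1, 0, 0; 1, 0, 0, 0, 0; 0, 1, 0, 0, 0; 0, 0, 0, 1, 0; 0, 0, 0, 0, 1] := by
  obtain ⟨N, rfl⟩ : ∃ N, A = N + 1 := ⟨A - 1, by simp⟩
  rw [add_sub_cancel_right] at h3 h2 hr
  obtain ⟨v, hv⟩ : ∃ v, N *ᵥ N *ᵥ v ≠ 0 := by
    by_contra hc
    push Not at hc
    exact h2 (K.mat_ext fun v => by rw [← mulVec_mulVec, hc, zero_mulVec])
  have n3 : N *ᵥ N *ᵥ N *ᵥ v = 0 := by rw [mulVec_mulVec, mulVec_mulVec, ← pow_three', h3, zero_mulVec]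
  have hk : Module.finrank k (LinearMap.ker N.mulVecLin) = 3 := by
    have := N.mulVecLin.finrank_range_add_finrank_ker
    rw [show Module.finrank k (LinearMap.range N.mulVecLin) = 2 from hr, Module.finrank_fin_fun] at this
    omega
  have ex : ∀ a b : Fin 5 → k, ∃ w, N *ᵥ w = 0 ∧ ∀ x y : k, x • a + y • b ≠ w := fun a b => by
    classical
    by_contra hc
    push Not at hc
    have := (Submodule.finrank_mono (show LinearMap.ker N.mulVecLin ≤ Submodule.span k {a, b} from
      fun w hw => Submodule.mem_span_pair.2 (hc w hw))).trans (finrank_span_le_card _)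
    have h2 := Finset.card_le_two (a := a) (b := b)
    rw [hk, Set.toFinset_insert, Set.toFinset_singleton] at this
    omega
  obtain ⟨w, hw, hw'⟩ := ex (N *ᵥ N *ᵥ v) 0
  obtain ⟨z, hz, hz'⟩ := ex (N *ᵥ N *ᵥ v) w
  obtain ⟨B', hB⟩ := cols_inv (v := ![v, (N + 1) *ᵥ v, (N + 1) *ᵥ (N + 1) *ᵥ v, w, z]) fun c hc => by
    simp only [Fin.sum_univ_five, cons_val_zero, cons_val_one, cons_val, add_mulVec, one_mulVec,
      mulVec_add] at hc
    have h1 := congrArg (N *ᵥ ·) hc
    simp only [mulVec_add, mulVec_smul, n3, hw, hz, mulVec_zero] at h1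
    have h2 := congrArg (N *ᵥ ·) h1
    simp only [mulVec_add, mulVec_smul, n3, mulVec_zero] at h2
    have e0 : c 0 + c 1 + c 2 = 0 := (smul_eq_zero_iff_left hv).1 (by linear_combination (norm := module) h2)
    have e1 : c 1 + 2 * c 2 = 0 := (smul_eq_zero_iff_left hv).1
      (by linear_combination (norm := module) h1 - e0 • N *ᵥ v)
    have e2 : c 2 • N *ᵥ N *ᵥ v + c 3 • w + c 4 • z = 0 := by
      linear_combination (norm := module) hc - e0 • v - e1 • N *ᵥ v
    have e4 : c 4 = 0 := by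
      by_contra h
      refine hz' (-c 2 / c 4) (-c 3 / c 4) (smul_right_injective _ h ?_)
      simp only [smul_add, smul_smul, mul_div_cancel₀ _ h]
      linear_combination (norm := module) -e2
    have e3 : c 3 = 0 := by
      by_contra h
      refine hw' (-c 2 / c 3) 0 (smul_right_injective _ h ?_)
      simp only [smul_add, smul_smul, mul_div_cancel₀ _ h]
      linear_combination (norm := module) -e2 + e4 • z
    have e2 : c 2 = 0 := (smul_eq_zero_iff_left hv).1 (by simpa [e3, e4] using e2)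
    intro i
    fin_cases i
    exacts [show c 0 = 0 by linear_combination e0 - e1 + e2, show c 1 = 0 by linear_combination e1 - 2 * e2,
      e2, e3, e4]
  refine ⟨_, B', hB, col_ext fun j => ?_⟩
  have a1 : (N + 1) *ᵥ w = w := by rw [add_mulVec, hw, zero_add, one_mulVec]
  have a2 : (N + 1) *ᵥ z = z := by rw [add_mulVec, hz, zero_add, one_mulVec]
  generalize N + 1 = A at *
  fin_cases j <;> simp [Fin.sum_univ_five, a1, a2]
  rw [← pow_three, e, one_mulVec]

end B3

open B3 Matrix in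
/-- The case of an element of order three with Jordan blocks `3, 1, 1`. -/
theorem b3 {P k : Type*} [Group P] [Field k] {ρ : P →* M5 k} {U H : Subgroup P} [Finite P]
    [IsAlgClosed k] [CharP k 3] (h : Hy ρ) (hS : NoS ρ) (c : Gx 3 1 U H)
    (hu : ∃ u ∈ U, (ρ u - 1).rank = 2) : ∃ ρ₀ : P →* M5 ℂ, Hy ρ₀ := by
  haveI : Fact (Nat.Prime 3) := ⟨by norm_num⟩
  haveI : CharP (M5 k) 3 := Matrix.charP 3
  letI := Fintype.ofFinite P
  obtain ⟨u, hu, hr⟩ := hu
  have u1 : u ≠ 1 := by rintro rfl; simp at hr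
  have e : ρ u ^ 3 = 1 := by rw [← map_pow, c.exp u hu, map_one]
  obtain ⟨B, B', hB, e'⟩ := frm
    (by rw [sub_pow_char_of_commute 3 (Commute.one_right _), e, one_pow, sub_self]) (mt (hS u) u1) hr e
  let S : M5 k → M5 (WittVector 3 k) := fun X => X.map (WittVector.teichmuller 3)
  have key : ∀ x ∈ U, (∀ X, S (cj hB ρ x * X) = S (cj hB ρ x) * S X) ∧
      ∀ X, S (X * cj hB ρ x) = S X * S (cj hB ρ x) := fun x hx => by
    have S1 : S 1 = 1 := Matrix.map_one _ (WittVector.teichmuller_zero 3) (map_one _)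
    refine (Subgroup.zpowers_le (g := u) (H := L4.R.fsub (fun x => (∀ X, S (cj hB ρ x * X) =
      S (cj hB ρ x) * S X) ∧ ∀ X, S (X * cj hB ρ x) = S X * S (cj hB ρ x)) (by simp [S1])
      fun a b ha hb => ⟨fun X => by rw [map_mul, mul_assoc, ha.1, hb.1, ha.1, mul_assoc],
        fun X => by rw [map_mul, ← mul_assoc, hb.2, ha.2, hb.2, mul_assoc]⟩)).2 ?_ ?_
    · rw [show (u ∈ L4.R.fsub _ _ _) = (_ ∧ _) from rfl, cj_of hB e']
      constructor <;> intro X <;> ext i j : 1
      · fin_cases i <;> simp [S, mul_apply, Fin.sum_univ_five, WittVector.teichmuller_zero, vecMul,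
          dotProduct]
      · fin_cases j <;> simp [S, mul_apply, Fin.sum_univ_five, WittVector.teichmuller_zero]
    · obtain ⟨n, hn⟩ := Subgroup.mem_zpowers_iff.1 (mem_zpowers_of_prime_card (p := 3) (G := U)
        (g := ⟨u, hu⟩) (g' := ⟨x, hx⟩) c.card (by simpa using u1))
      exact ⟨n, congrArg Subtype.val hn⟩
  obtain ⟨M, hM⟩ := lift (L4.Lift.unif 3 k) (cj hB ρ) (U := U)
    (by rw [Ne, CharP.cast_eq_zero_iff k 3]; exact c.syl) S
    (fun X => by ext i j; simp [S, WittVector.constantCoeff_apply, WittVector.teichmuller_coeff_zero])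
    (fun x hx => (key x hx).1) (fun x hx => (key x hx).2)
    (Matrix.map_zero _ (WittVector.teichmuller_zero 3))
  exact to_c (h.cj hB) M hM

end Cfsg.Agent.L5.R
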