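import Cfsg.Agent.L5.Rc0a
import Cfsg.Agent.L5.Ch

/-!
A Sylow subgroup of prime order: decomposable Jordan types.
-/

set_option autoImplicit false
set_option linter.unusedSectionVars false

namespace Cfsg.Agent.L5.R
open Finset Matrix
open Subgroup (normalizer)

variable {P k : Type*} [Group P] [Field k] {ρ : P →* M5 k} {U H : Subgroup P} {p : ℕ}
  [Finite P] [hp : Fact p.Prime] {u : P}

theorem Gx.bij (c : Gx p 1 U H) (hu : u ∈ U) (u1 : u ≠ 1) :
    Function.Bijective fun i : Fin p => (⟨u ^ i.1, pow_mem hu _⟩ : U) := by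
  refine (Nat.bijective_iff_injective_and_card _).2 ⟨fun i j e => Fin.ext ?_, by simp [c.card]⟩
  have := orderOf_eq_prime (c.exp u hu) u1
  exact pow_injOn_Iio_orderOf (x := u) (by simp [this]) (by simp [this]) (congrArg Subtype.val e)

theorem Gx.gen (c : Gx p 1 U H) (hu : u ∈ U) (u1 : u ≠ 1) {v : P} (hv : v ∈ U) :
    ∃ i : ℕ, v = u ^ i := by
  obtain ⟨i, e⟩ := (c.bij hu u1).2 ⟨v, hv⟩
  exact ⟨i, (congrArg Subtype.val e).symm⟩

theorem Gx.sumU {M : Type*} [AddCommMonoid M] (c : Gx p 1 U H) (hu : u ∈ U) (u1 : u ≠ 1)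
    (F : P → M) : ∑ᶠ v : U, F v = ∑ i ∈ range p, F (u ^ i) := by
  letI := Fintype.ofFinite U
  rw [finsum_eq_sum_of_fintype, ← (c.bij hu u1).sum_comp, ← Fin.sum_univ_eq_sum_range fun i => F (u ^ i)]

variable [CharP k p]

theorem geom_char (A : M5 k) : ∑ i ∈ range p, A ^ i = (A - 1) ^ (p - 1) := by
  have h : (∑ i ∈ range p, Polynomial.X ^ i : Polynomial k) = (Polynomial.X - 1) ^ (p - 1) := by
    refine mul_right_cancel₀ (Polynomial.X_sub_C_ne_zero 1) ?_
    rw [map_one, geom_sum_mul, ← pow_succ, Nat.sub_add_cancel hp.out.one_le, sub_pow_char, one_pow]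
  simpa using congrArg (Polynomial.aeval A) h

theorem Gx.nil (c : Gx p 1 U H) (hu : u ∈ U) : (ρ u - 1) ^ p = 0 := by
  haveI : CharP (M5 k) p := charP_of_injective_algebraMap (algebraMap k _).injective p
  rw [sub_pow_char_of_commute p (Commute.one_right _), ← map_pow, c.exp u hu, map_one, one_pow,
    sub_self]

theorem Gx.nil5 (c : Gx p 1 U H) (hu : u ∈ U) : (ρ u - 1) ^ 5 = 0 := by
  have h : IsNilpotent (ρ u - 1) := ⟨p, c.nil hu⟩
  have := Matrix.aeval_self_charpoly (ρ u - 1)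
  rwa [sub_eq_zero.1 (Matrix.isNilpotent_charpoly_sub_pow_of_isNilpotent h).eq_zero, map_pow,
    Polynomial.aeval_X, Fintype.card_fin] at this

omit [CharP k p] [Finite P] hp in
theorem line_of {N M : M5 k} (h : N * N * N * M = 0) {x : Fin 5 → k}
    (hx : N *ᵥ N *ᵥ M *ᵥ x ≠ 0) (y : Fin 5 → k) :
    ∃ c : k, N *ᵥ N *ᵥ M *ᵥ y = c • N *ᵥ N *ᵥ M *ᵥ x := by
  have h3 : ∀ x, N *ᵥ N *ᵥ N *ᵥ M *ᵥ x = 0 := fun x => by
    simp only [mulVec_mulVec, ← mul_assoc, h, zero_mulVec]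
  refine of_not_In2 (fun i => ?_) hx
  obtain ⟨c, e, c0⟩ := six ![M *ᵥ x, M *ᵥ y, N *ᵥ M *ᵥ x, N *ᵥ M *ᵥ y, N *ᵥ N *ᵥ M *ᵥ x,
    N *ᵥ N *ᵥ M *ᵥ y]
  simp only [Matrix.cons_val] at e
  obtain ⟨a1, a2⟩ := i (c 0) (c 1) (by
    simpa [mulVec_add, mulVec_smul, h3, -mulVec_mulVec] using congrArg (fun z => N *ᵥ N *ᵥ z) e)
  obtain ⟨a3, a4⟩ := i (c 2) (c 3) (by
    simpa [mulVec_add, mulVec_smul, h3, a1, a2, -mulVec_mulVec] using congrArg (fun z => N *ᵥ z) e)
  obtain ⟨a5, a6⟩ := i (c 4) (c 5) (by simpa [a1, a2, a3, a4, -mulVec_mulVec] using e)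
  exact c0 ⟨a1, a2, a3, a4, a5, a6⟩

/-- The decomposable types do not occur for `p ≥ 5`. -/
theorem Gx.low [IsAlgClosed k] (c : Gx p 1 U H) (h : Hy0 ρ) (h5 : 5 ≤ p) (hu : u ∈ U) (u1 : u ≠ 1)
    (j : ℕ) (hj : j ≤ 1) (h1 : (ρ u - 1) ^ (j + 3) = 0) : (ρ u - 1) ^ (j + 2) = 0 := by
  by_contra h2
  set n := ρ u - 1 with hn
  obtain ⟨v, hv⟩ : ∃ v, n ^ (j + 2) *ᵥ v ≠ 0 := by
    by_contra! e
    exact h2 (K.mat_ext fun x => by rw [e, zero_mulVec])
  obtain ⟨φ, hφ⟩ : ∃ φ, φ ⬝ᵥ n ^ (j + 2) *ᵥ v = 1 := by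
    obtain ⟨x, hx⟩ := ex_dot hv
    exact ⟨(n ^ (j + 2) *ᵥ v ⬝ᵥ x)⁻¹ • x, by
      rw [smul_dotProduct, dotProduct_comm x, smul_eq_mul, inv_mul_cancel₀ hx]⟩
  have e1 : ∀ y, n ^ (j + 2) *ᵥ y = n *ᵥ n *ᵥ n ^ j *ᵥ y := fun y => by
    simp only [mulVec_mulVec, ← mul_assoc, pow_succ']
  have ln : ∀ y, ∃ c : k, n ^ (j + 2) *ᵥ y = c • n ^ (j + 2) *ᵥ v := fun y => by
    simpa only [e1] using line_of (by simpa only [← mul_assoc, pow_succ'] using h1) (e1 v ▸ hv) y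
  let W := vecMulVec v φ
  let E := ∑ i ∈ range (j + 3), n ^ (j + 2 - i) * W * n ^ i
  have cE : Commute (ρ u) E := by
    have : n * E = E * n := by
      have h3 : j = 0 ∨ j = 1 := by omega
      rcases h3 with rfl | rfl
      · simp only [E, sum_range_succ, range_zero, sum_empty, pow_succ, pow_zero, one_mul, zero_add,
          mul_one, Nat.reduceSub, mul_add, add_mul, ← mul_assoc] at h1 ⊢
        simp only [h1, mul_assoc W, zero_mul, ← mul_assoc n, mul_zero]; abel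
      · simp only [E, sum_range_succ, range_zero, sum_empty, pow_succ, pow_zero, one_mul, zero_add,
          mul_one, Nat.reduceSub, Nat.reduceAdd, mul_add, add_mul, ← mul_assoc] at h1 ⊢
        simp only [h1, mul_assoc W, zero_mul, ← mul_assoc n, mul_zero]; abel
    rw [show ρ u = n + 1 by simp [hn]]
    exact Commute.add_left this (Commute.one_left _)
  have fx : ρ u *ᵥ n ^ (j + 2) *ᵥ v = n ^ (j + 2) *ᵥ v := by
    rw [show ρ u = n + 1 by simp [hn], add_mulVec, one_mulVec, mulVec_mulVec, ← pow_succ', h1]; simp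
  have := G2tr h c (π := E) (s := n ^ (j + 2) *ᵥ v) (y := 1) (by
      rw [c.sumU hu u1 ρ]
      simp only [map_pow]
      rw [geom_char, pow_eq_zero_of_le (by omega) h1])
    (fun w hw => by obtain ⟨i, rfl⟩ := c.gen hu u1 hw; rw [map_pow]; exact cE.pow_left i) hv
    (fun w hw => by
      obtain ⟨i, rfl⟩ := c.gen hu u1 hw
      rw [map_pow, K.eig_pow (μ := 1) (by rw [fx, one_smul]), one_pow, one_smul])
    (fun x hx => by
      obtain ⟨i, e⟩ := c.gen hu u1 (c.conj hx hu)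
      have e2 : ρ x * n = (n * ∑ l ∈ range i, ρ u ^ l) * ρ x := by
        rw [hn, mul_geom_sum, ← map_pow, ← e, mul_sub, sub_mul, ← map_mul, ← map_mul]; simp
      have e3 : Commute n (∑ l ∈ range i, ρ u ^ l) := Commute.sum_right _ _ _ fun l _ =>
        ((Commute.refl _).sub_left (Commute.one_left _)).pow_right l
      obtain ⟨μ, e4⟩ := ln (((∑ l ∈ range i, ρ u ^ l) ^ (j + 2) * ρ x) *ᵥ v)
      exact ⟨μ, by
        rw [← e4, mulVec_mulVec, mulVec_mulVec, SemiconjBy.pow_right e2, e3.mul_pow, mul_assoc]⟩)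
    (by
      rw [sum_mulVec, sum_range_succ', sum_eq_zero fun i _ => by
        rw [← mulVec_mulVec, mulVec_mulVec v, ← pow_add,
          show n ^ (i + 1 + (j + 2)) = 0 from pow_eq_zero_of_le (by omega) h1]; simp]
      simp [W, ← mulVec_mulVec, vecMulVec_mulVec, hφ])
  rw [trace_sum, sum_congr rfl (g := fun _ => 1) fun i hi => by
    rw [trace_mul_cycle, ← pow_add, Nat.add_sub_cancel' (by simpa [Nat.lt_succ_iff] using hi),
      mul_vecMulVec, trace_vecMulVec, dotProduct_comm, hφ]] at this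
  have h6 : ((2 - j : ℕ) : k) = 0 := by
    rw [Nat.cast_sub (by omega)]
    simp only [sum_const, card_range, nsmul_eq_mul] at this
    push_cast at this ⊢
    linear_combination -this
  have := Nat.le_of_dvd (by omega) ((CharP.cast_eq_zero_iff k p _).1 h6)
  omega

end Cfsg.Agent.L5.R
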