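import Cfsg.Agent.L5.RCW
import Cfsg.Agent.L5.Rc0a

/-!
Isomorphisms from the normaliser of a trivial intersection Sylow subgroup.
-/

set_option autoImplicit false
set_option linter.unusedSectionVars false

namespace Cfsg.Agent.L5.R
open Finset Matrix Module
open Subgroup (normalizer)

variable {P k : Type*} [Group P] [Field k] {ρ : P →* M5 k} {U H : Subgroup P} {p r : ℕ}

theorem perm_of {ι α : Type*} [Fintype ι] [DecidableEq ι] {T : Matrix ι ι k} (hT : IsUnit T)
    {d d' : α → ι → k} (h : ∀ a, diagonal (d' a) * T = T * diagonal (d a)) :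
    ∃ π : Equiv.Perm ι, ∀ i a, d' a (π i) = d a i := by
  have := ((isUnit_iff_isUnit_det T).1 hT).ne_zero
  rw [det_apply] at this
  obtain ⟨π, -, e⟩ := exists_ne_zero_of_sum_ne_zero this
  refine ⟨π, fun i a => mul_right_cancel₀ (prod_ne_zero_iff.1 (right_ne_zero_of_smul e) i
    (mem_univ i)) ?_⟩
  simpa [mul_comm] using congrFun (congrFun (h a) (π i)) i

variable [Finite P]

theorem diagA [IsAlgClosed k] (A : Subgroup P) (ab : ∀ a ∈ A, ∀ b ∈ A, a * b = b * a)
    (hA : (Nat.card A : k) ≠ 0) : ∃ (B B' : M5 k) (hB : B * B' = 1) (x : Fin 5 → A →* kˣ),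
      ∀ a : A, cj hB ρ a = diagonal fun i => (x i a : k) := by
  let f : A → End k (Fin 5 → k) := fun a => toLinAlgEquiv' (ρ a)
  have hs : ∀ g μ, (f g).maxGenEigenspace μ = (f g).eigenspace μ := fun g μ =>
    (End.isSemisimple_of_squarefree_aeval_eq_zero
      (Polynomial.X_pow_sub_one_separable_iff.2 hA).squarefree (by
        simp only [f, map_sub, map_pow, Polynomial.aeval_X, map_one]
        rw [← map_pow, ← map_pow, ← Subgroup.coe_pow, pow_card_eq_one']; simp)
      ).isFinitelySemisimple.maxGenEigenspace_eq_eigenspace μ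
  have top := End.iSup_iInf_maxGenEigenspace_eq_top_of_iSup_maxGenEigenspace_eq_top_of_commute f
    (fun i j _ => by simp only [f, Commute, SemiconjBy, ← map_mul, ab _ i.2 _ j.2])
    fun i => End.iSup_maxGenEigenspace_eq_top _
  simp only [hs] at top
  obtain ⟨b, h1, h2, h3⟩ := exists_linearIndependent k {v | ∀ a : A, ∃ c : k, ρ a *ᵥ v = c • v}
  have h4 : ⊤ ≤ Submodule.span k (Set.range (Subtype.val : b → _)) := by
    rw [Subtype.range_coe, h2, ← top]
    refine iSup_le fun χ v hv => Submodule.subset_span fun a => ⟨χ a, ?_⟩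
    simpa [f, End.mem_eigenspace_iff, toLinAlgEquiv'_apply] using (Submodule.mem_iInf _).1 hv a
  let β := (Basis.mk h3 h4).reindex ((Basis.mk h3 h4).indexEquiv (Pi.basisFun k (Fin 5)))
  have h5 : ∀ i, ∀ a : A, ∃ c : k, ρ a *ᵥ β i = c • β i := fun i => by
    simp only [β, Basis.reindex_apply, Basis.mk_apply]; exact h1 (Subtype.prop _)
  choose c hc using h5
  obtain ⟨B', hB⟩ := cols_inv (v := β) (Fintype.linearIndependent_iff.1 β.linearIndependent)
  have h6 : ∀ a : A, cj hB ρ a = diagonal fun i => c i a := fun a => cj_of hB (col_ext fun j => by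
    rw [hc, sum_eq_single j (fun i _ e => by simp [e]) (by simp), diagonal_apply_eq])
  let x : Fin 5 → A →* k := fun i => ⟨⟨c i, by
    simpa using (congrFun (congrFun (h6 1) i) i).symm⟩, fun a a' => by
      have := h6 (a * a')
      rw [Subgroup.coe_mul, map_mul, h6, h6, diagonal_mul_diagonal] at this
      simpa using (congrFun (congrFun this i) i).symm⟩
  exact ⟨_, B', hB, fun i => (x i).toHomUnits, h6⟩

variable [hp : Fact p.Prime] [CharP k p] {M : Type*} [AddCommGroup M] [Module k M]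
  [FiniteDimensional k M]

theorem trf (c : Gx p r U H) (σ τ : P →* End k M) {φ : End k M}
    (hφ : ∀ n ∈ normalizer (U : Set P), τ n * φ = φ * σ n) : ∃ T : End k M,
      (∀ g, τ g * T = T * σ g) ∧ ∀ ψ : End k M, (∀ u ∈ U, σ u * ψ = ψ * τ u) →
        LinearMap.trace k M (ψ * T) = LinearMap.trace k M (ψ * φ) := by
  have hN : ∀ g, ∀ n ∈ normalizer (U : Set P), τ (g * n) * φ * σ (g * n)⁻¹ = τ g * φ * σ g⁻¹ :=
    fun g n hn => by
      rw [map_mul, mul_assoc (τ g), hφ n hn, mul_assoc, mul_assoc, ← map_mul, mul_assoc]; simp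
  obtain ⟨T, h1, h2⟩ := tr_el (k := k) (normalizer (U : Set P)) (fun g => τ g * φ * σ g⁻¹)
    (fun a => LinearMap.mulLeft k (τ a) ∘ₗ LinearMap.mulRight k (σ a⁻¹))
    (fun a g => by simp [mul_assoc]) hN
  refine ⟨T, fun g => ?_, fun ψ hψ => ?_⟩
  · simpa [mul_assoc, ← map_mul] using congrArg (· * σ g) (h1 g)
  · have := h2 (LinearMap.trace k M ∘ₗ LinearMap.mulLeft k ψ)
    rw [c.tt (fun g n hn => by simp only [hN g n hn]) fun g => ?_] at this
    · simpa using this
    · rw [finsum_congr (g := fun _ => LinearMap.trace k M (ψ * (τ g * φ * σ g⁻¹))) fun u => ?_,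
        fsum_const, c.card_zero, zero_mul]
      simp only [LinearMap.comp_apply, LinearMap.mulLeft_apply, map_mul, _root_.mul_inv_rev,
        ← mul_assoc, ← hψ u u.2]
      rw [LinearMap.trace_mul_comm]
      simp only [← mul_assoc, ← map_mul, inv_mul_cancel, map_one, one_mul]

theorem iso_of (c : Gx p r U H) (perf : commutator P = ⊤) (σ τ : P →* End k M) {φ φ' : End k M}
    (h1 : φ' * φ = 1) (hφ : ∀ n ∈ normalizer (U : Set P), τ n * φ = φ * σ n) {z : P} {ζ : k}
    (hz : σ z = ζ • 1) (hζ : ∀ m, ζ ^ m = 1 → 5 ∣ m) (h5 : p ≠ 5) (hd : finrank k M < p * 5) :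
    ∃ T : End k M, IsUnit T ∧ ∀ g, τ g * T = T * σ g := by
  have h2 := mul_eq_one_comm.1 h1
  obtain ⟨T, t1, t2⟩ := trf c σ τ hφ
  obtain ⟨T', t3, t4⟩ := trf c τ σ (φ := φ') fun n hn => by
    rw [← mul_one (φ' * τ n), ← h2, mul_assoc φ', ← mul_assoc (τ n), hφ n hn, ← mul_assoc,
      ← mul_assoc, h1, one_mul]
  have t5 : ∀ g, Commute (σ g) (T' * T) := fun g => by
    rw [Commute, SemiconjBy, ← mul_assoc, t3, mul_assoc, t1, mul_assoc]
  obtain ⟨n, hn⟩ := Filter.eventually_atTop.1 (T' * T).eventually_isCompl_ker_pow_range_pow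
  have hc := hn (n + 1) n.le_succ
  set K := LinearMap.ker ((T' * T) ^ (n + 1))
  have cm : ∀ X : End k M, Commute X (T' * T) → (∀ x ∈ K, X x ∈ K) ∧ Commute (K.projection _ hc) X :=
    fun X hX => by
      have e : ∀ x ∈ K, X x ∈ K := fun x hx => by
        rw [LinearMap.mem_ker, ← End.mul_apply, ← (hX.pow_right (n + 1)).eq, End.mul_apply,
          LinearMap.mem_ker.1 hx, map_zero]
      refine ⟨e, (LinearMap.IsIdempotentElem.commute_iff (Submodule.isIdempotentElem_projection hc)).2 ?_⟩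
      rw [Submodule.range_projection, Submodule.ker_projection]
      refine ⟨e, ?_⟩
      rintro _ ⟨y, rfl⟩
      exact ⟨X y, by rw [← End.mul_apply, ← (hX.pow_right (n + 1)).eq]; rfl⟩
  set e := K.projection _ hc
  have e1 : LinearMap.trace k M (e * T' * T) = finrank k K := by
    rw [t2 _ fun u _ => by rw [← mul_assoc, ← (cm _ (t5 u)).2.eq, mul_assoc, t3, mul_assoc],
      LinearMap.trace_mul_comm, ← mul_assoc, t4 _ fun u hu => by
        rw [← mul_assoc, hφ u (Subgroup.le_normalizer hu), mul_assoc, ← (cm _ (t5 u)).2.eq, mul_assoc],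
      mul_assoc, LinearMap.trace_mul_comm, mul_assoc, h1, mul_one,
      (LinearMap.IsIdempotentElem.isProj_range _ (Submodule.isIdempotentElem_projection hc)).trace, Submodule.range_projection]
  have e2 : IsNilpotent (e * (T' * T)) := ⟨n + 1, by
    rw [(cm _ (Commute.refl _)).2.mul_pow, (Submodule.isIdempotentElem_projection hc).pow_succ_eq,
      ((cm _ (Commute.refl _)).2.pow_right _).eq]
    ext x
    exact Submodule.projection_apply_mem hc x⟩
  rw [mul_assoc, (LinearMap.isNilpotent_trace_of_isNilpotent e2).eq_zero] at e1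
  let χ : P →* k := LinearMap.det.comp ⟨⟨fun g => (σ g).restrict (cm _ (t5 g)).1, by ext; simp⟩,
    fun a b => by ext; simp⟩
  have e3 : χ z = 1 := congrArg Units.val
    (Abelianization.commutator_subset_ker χ.toHomUnits (perf.ge (Subgroup.mem_top z)))
  have e4 : χ z = ζ ^ finrank k K := by
    have : (σ z).restrict (cm _ (t5 z)).1 = ζ • 1 := by ext; simp [hz]
    simp only [χ, MonoidHom.comp_apply, MonoidHom.coe_mk, OneHom.coe_mk, this, LinearMap.det_smul,
      map_one, mul_one]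
  have e5 : K = ⊥ := Submodule.finrank_eq_zero.1 (Nat.eq_zero_of_dvd_of_lt
    (((Nat.coprime_primes hp.out Nat.prime_five).2 h5).mul_dvd_of_dvd_of_dvd
      ((CharP.cast_eq_zero_iff k p _).1 e1.symm) (hζ _ (e4 ▸ e3))) (K.finrank_le.trans_lt hd))
  refine ⟨T, ?_, t1⟩
  rw [LinearMap.isUnit_iff_ker_eq_bot, eq_bot_iff, ← e5]
  intro x hx
  rw [LinearMap.mem_ker, pow_succ, End.mul_apply, End.mul_apply, LinearMap.mem_ker.1 hx]; simp

theorem iso_m {ι : Type*} [Fintype ι] [DecidableEq ι] (c : Gx p r U H) (perf : commutator P = ⊤)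
    (σ τ : P →* Matrix ι ι k) {φ φ' : Matrix ι ι k} (h1 : φ' * φ = 1)
    (hφ : ∀ n ∈ normalizer (U : Set P), τ n * φ = φ * σ n) {z : P} {ζ : k}
    (hz : σ z = ζ • 1) (hζ : ∀ m, ζ ^ m = 1 → 5 ∣ m) (h5 : p ≠ 5) (hd : Fintype.card ι < p * 5) :
    ∃ T : Matrix ι ι k, IsUnit T ∧ ∀ g, τ g * T = T * σ g := by
  let f : Matrix ι ι k ≃ₐ[k] End k (ι → k) := toLinAlgEquiv'
  obtain ⟨T, t1, t2⟩ := iso_of c perf ((f : Matrix ι ι k →* _).comp σ) ((f : Matrix ι ι k →* _).comp τ)
    (φ := f φ) (φ' := f φ') (by rw [← map_mul, h1, map_one]) (fun n hn => by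
      have := congrArg f (hφ n hn)
      rwa [map_mul, map_mul] at this) (z := z) (ζ := ζ) (by simp [hz]) hζ h5
    (by simpa using hd)
  exact ⟨f.symm T, t1.map _, fun g => f.injective (by simpa using t2 g)⟩

end Cfsg.Agent.L5.R
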