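import Cfsg.Agent.L5.RA

/-!
The weights of abelian subgroups in the exceptional case in characteristic seven.
-/

set_option autoImplicit false

namespace Cfsg.Agent.L5.R
open Matrix

variable {P k : Type*} [Group P] [Field k]

/-- The weights of every abelian subgroup of order prime to seven satisfy the relations given by
`V^(49) ≅ V*` and `V ⊗ V^(7) ≅ V* ⊗ V*`. -/
def W7 (ρ : P →* M5 k) : Prop :=
  ∀ A : Subgroup P, (∀ a ∈ A, ∀ b ∈ A, a * b = b * a) → ¬ 7 ∣ Nat.card A →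
    ∃ (B B' : M5 k) (hB : B * B' = 1) (x : Fin 5 → A →* kˣ),
      (∀ a : A, cj hB ρ a = diagonal fun i => (x i a : k)) ∧
      (∃ π : Equiv.Perm (Fin 5), ∀ i, x i ^ 49 * x (π i) = 1) ∧
      ∃ π : Equiv.Perm (Fin 5 × Fin 5), ∀ q, x q.1 * x q.2 ^ 7 * x (π q).1 * x (π q).2 = 1

end Cfsg.Agent.L5.R
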