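import Cfsg.Agent.H4.CABasic

/-!
Counting in a simple group with self-centralising subgroups of orders `25` and `7`.
-/

set_option autoImplicit false

namespace Cfsg.Agent.L5.R
open Cfsg.Agent.H4.CABasic Subgroup

variable {G : Type*} [Group G] [Finite G] {A : Subgroup G}

theorem ca_index (hA : IsCA A) : Nat.card A ∣ (normalizer (A : Set G)).index - 1 := by
  refine dvd_of_orbits (H := A) (X := G ⧸ normalizer (A : Set G)) (QuotientGroup.mk 1)
    (fun a => QuotientGroup.eq.2 (by simpa using le_normalizer a.2)) _ fun x hx => ?_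
  obtain ⟨g, rfl⟩ := QuotientGroup.mk_surjective x
  rw [← index_bot]
  congr 1
  refine eq_bot_iff.2 fun a ha => by_contra fun h1 => hx ?_
  have h2 : g⁻¹ * (a : G)⁻¹ * g ∈ normalizer (A : Set G) := by
    simpa [mul_assoc] using (QuotientGroup.eq (s := normalizer (A : Set G))).1 ha
  have h3 : (g⁻¹ * (a : G)⁻¹ * g) ^ A.relIndex (normalizer (A : Set G)) ∈ A :=
    pow_index_mem (H := A.subgroupOf (normalizer (A : Set G))) ⟨_, h2⟩
  have h4 : orderOf (g⁻¹ * (a : G)⁻¹ * g) ∣ Nat.card A := orderOf_dvd_of_pow_eq_one (by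
    rw [show g⁻¹ * (a : G)⁻¹ * g = g⁻¹ * (a⁻¹ : A) * g⁻¹⁻¹ by simp, conj_pow, ← coe_pow,
      pow_card_eq_one']
    simp)
  obtain ⟨m, hm⟩ := exists_pow_eq_self_of_coprime (x := g⁻¹ * (a : G)⁻¹ * g)
    (((Nat.coprime_self_sub_left hA.one_lt_card.le).2 (Nat.coprime_one_left _)).coprime_dvd_left
      hA.index_dvd |>.coprime_dvd_right h4)
  have h5 := hA.mem_norm (y := g⁻¹) (inv_mem a.2) (fun e => h1 (Subtype.ext (inv_eq_one.1 e)))
    (by rw [inv_inv, ← hm]; exact pow_mem h3 m)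
  exact QuotientGroup.eq.2 (by simpa using h5)

theorem ca_data [IsSimpleGroup G] (hA : IsCA A) {l s : ℕ} [hl : Fact l.Prime] (hc : Nat.card A = l ^ (s + 1))
    (ht : A ≠ ⊤) : ∃ m i, A.relIndex (normalizer (A : Set G)) = m ∧ m ∣ l ^ (s + 1) - 1 ∧ m ≠ 1 ∧
      i % l ^ (s + 1) = 1 ∧ Nat.card G = l ^ (s + 1) * (m * i) ∧ ¬ l ∣ m * i := by
  have h1 := hc ▸ hA.index_dvd
  have h2 := hc ▸ ca_index hA
  have h3 := relIndex_mul_index (le_normalizer (H := A))
  have h0 : 1 < l ^ (s + 1) := hc ▸ hA.one_lt_card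
  have h4 : ¬ l ∣ A.index := fun e => by
    rw [← h3] at e
    have d := dvd_pow_self l s.succ_ne_zero
    rcases hl.out.dvd_mul.1 e with e | e
    · exact hl.out.one_lt.ne' (Nat.dvd_one.1 ((Nat.dvd_sub_iff_right h0.le d).1 (e.trans h1)))
    · exact hl.out.one_lt.ne' (Nat.dvd_one.1 ((Nat.dvd_sub_iff_right
        (Nat.pos_of_ne_zero index_ne_zero_of_finite) e).1 (d.trans h2)))
  refine ⟨_, _, rfl, h1, fun e => ?_, ?_, by rw [h3, ← hc, card_mul_index], h3 ▸ h4⟩
  · let Q := (IsPGroup.of_card hc).toSylow h4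
    have h6 : normalizer ((Q : Subgroup G) : Set G) ≤ centralizer (Q : Subgroup G) := fun g hg x hx =>
      hA.comm x hx g (relIndex_eq_one.1 e hg)
    have h7 := MonoidHom.ker_transferSylow_isComplement' Q h6
    rcases (MonoidHom.normal_ker (MonoidHom.transferSylow Q h6)).eq_bot_or_eq_top with e | e
    · rw [e, isComplement'_bot_left] at h7
      exact ht h7
    · rw [e, isComplement'_top_left] at h7
      exact hA.ne_bot h7
  · exact Eq.trans ((Nat.modEq_iff_dvd' (Nat.pos_of_ne_zero index_ne_zero_of_finite)).2 h2).symm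
      (Nat.mod_eq_of_lt h0)

theorem cnt7 [IsSimpleGroup G] {S U : Subgroup G} (hS : IsCA S) (c25 : Nat.card S = 25) (hU : IsCA U)
    (c7 : Nat.card U = 7) (pr : ∀ l, l.Prime → l ∣ Nat.card G → l ≤ 7) (h3 : ¬ 27 ∣ Nat.card G)
    (h2 : ¬ 1024 ∣ Nat.card G) : Nat.card (normalizer (U : Set G)) = 14 := by
  haveI := Fact.mk Nat.prime_five
  haveI : Fact (Nat.Prime 7) := ⟨by norm_num⟩
  have d1 := c25 ▸ S.card_subgroup_dvd_card
  have d2 := c7 ▸ U.card_subgroup_dvd_card
  obtain ⟨m, i, -, a1, a2, a3, a4, a5⟩ := ca_data hS (l := 5) (s := 1) c25 (by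
    rintro rfl; rw [card_top] at c25; omega)
  obtain ⟨e, j, b0, b1, b2, b3, b4, b5⟩ := ca_data hU (l := 7) (s := 0) c7 (by
    rintro rfl; rw [card_top] at c7; omega)
  obtain ⟨n, hn⟩ : 175 ∣ Nat.card G := by omega
  have h4 : n ∣ 4608 := (Nat.dvd_iff_prime_pow_dvd_dvd _ _).2 fun l t hl ht => by
    rcases t with _ | t
    · simp
    have h5 := (dvd_pow_self l t.succ_ne_zero).trans ht
    have h6 := pr l hl (hn ▸ h5.mul_left _)
    have h7 : ∀ {x}, ¬ l ^ (x + 1) ∣ Nat.card G → l ^ (t + 1) ∣ l ^ x := fun {x} h => pow_dvd_pow l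
      (by_contra fun e => h (hn ▸ ((pow_dvd_pow l (by omega)).trans ht).mul_left _))
    interval_cases l
    · exact absurd hl (by decide)
    · exact absurd hl (by decide)
    · exact (h7 (x := 9) h2).trans (by decide)
    · exact (h7 (x := 2) h3).trans (by decide)
    · exact absurd hl (by decide)
    · omega
    · exact absurd hl (by decide)
    · omega
  have key : ∀ n ∈ Nat.divisors 4608, ∀ m ∈ Nat.divisors 24, ∀ e ∈ Nat.divisors 6, m ≠ 1 → e ≠ 1 →
      7 * n % m = 0 → 25 * n % e = 0 → 7 * n / m % 25 = 1 → 25 * n / e % 7 = 1 → e = 2 := by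
    decide +kernel
  have m0 : 0 < m := Nat.pos_of_dvd_of_pos a1 (by norm_num)
  have e0 : 0 < e := Nat.pos_of_dvd_of_pos b1 (by norm_num)
  have f1 : 7 * n = m * i := by omega
  have f2 : 25 * n = e * j := by omega
  rw [← card_mul_relIndex, c7, b0, key n (by simp [h4]) m (by simpa using a1) e (by simpa using b1) a2 b2
    (by simp [f1]) (by simp [f2]) (by rwa [f1, Nat.mul_div_cancel_left _ m0])
    (by rwa [f2, Nat.mul_div_cancel_left _ e0])]

end Cfsg.Agent.L5.R
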