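import Cfsg.Agent.L5.RCW
import Cfsg.Agent.H4.CABasic

/-!
The Sylow five-subgroup in the exceptional case in characteristic seven.
-/

set_option autoImplicit false
set_option linter.unusedSectionVars false

namespace Cfsg.Agent.L5.R
namespace F7
open Matrix Subgroup

theorem d1 : ∀ b c d e : Fin 5,
    ∑ i, ∑ j, 26 ^ ((![0, b.1, c.1, d.1, e.1] i + 2 * ![0, b.1, c.1, d.1, e.1] j +
      3 * (b + c + d + e)) % 5) =
      ∑ i, ∑ j, 26 ^ (4 * (![0, b.1, c.1, d.1, e.1] i + ![0, b.1, c.1, d.1, e.1] j) % 5) →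
    (∀ i, ![0, b.1, c.1, d.1, e.1] i = 0) ∨
      (Function.Injective ![0, b.1, c.1, d.1, e.1] ∧ (b.1 + c.1 + d.1 + e.1) % 5 = 0) := by
  simp only [Fin.sum_univ_five, Matrix.cons_val]
  decide +kernel

theorem d2 : ∀ ε : Fin 5 → Fin 2,
    ∑ q : Fin 5 × Fin 5, 26 ^ (5 * (ε q.1 + ε q.2).1 + (q.1.1 + 2 * q.2.1) % 5) =
      ∑ q : Fin 5 × Fin 5, 26 ^ (5 * (ε q.1 + ε q.2).1 + 4 * (q.1.1 + q.2.1) % 5) →
    2 ∣ ∑ i, (ε i).1 → (∀ i, ε i = 0) ∨ ∃ m, ε m = 0 ∧ ∀ i, i ≠ m → ε i = 1 := by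
  decide +kernel

variable {P k : Type*} [Group P] [Field k] {ρ : P →* M5 k}

theorem num {ζ : k} (hζ : IsPrimitiveRoot ζ 5) {ξ : Fin 5 → k} (h5 : ∀ i, ξ i ^ 5 = ξ 0 ^ 5)
    (hd : ∏ i, ξ i = 1) (π : Equiv.Perm (Fin 5 × Fin 5))
    (hπ : ∀ q, ξ q.1 * ξ q.2 ^ 7 * ξ (π q).1 * ξ (π q).2 = 1) :
    (∀ i, ξ i = ξ 0) ∨ (Function.Injective ξ ∧ ∀ i, ξ i ^ 5 = 1) := by
  have h0 : ξ 0 ≠ 0 := fun e => by simp [Fin.prod_univ_five, e] at hd
  have ex : ∀ i, ∃ n : Fin 5, ξ i = ξ 0 * ζ ^ n.1 := fun i => by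
    obtain ⟨n, hn, e⟩ := hζ.eq_pow_of_pow_eq_one (ξ := ξ i / ξ 0) (by
      rw [div_pow, h5, div_self (pow_ne_zero _ h0)])
    exact ⟨⟨n, hn⟩, by rw [e, mul_div_cancel₀ _ h0]⟩
  obtain ⟨b, hb⟩ := ex 1
  obtain ⟨c, hc⟩ := ex 2
  obtain ⟨d, hd'⟩ := ex 3
  obtain ⟨e, he⟩ := ex 4
  have key := d1 b c d e
  have lt : ∀ i, ![0, b.1, c.1, d.1, e.1] i < 5 := fun i => by fin_cases i <;> simp
  have hp : ∀ i, ξ i = ξ 0 * ζ ^ ![0, b.1, c.1, d.1, e.1] i := fun i => by
    fin_cases i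
    exacts [by simp, hb, hc, hd', he]
  have h1 : ξ 0 ^ 5 * ζ ^ (b.1 + c.1 + d.1 + e.1) = 1 := by
    rw [← hd, Fin.prod_univ_five, hb, hc, hd', he]; ring
  generalize ![0, b.1, c.1, d.1, e.1] = p at *
  generalize b.1 + c.1 + d.1 + e.1 = s at *
  rcases key (by
    rw [← Fintype.sum_prod_type', ← Fintype.sum_prod_type']
    refine Eq.trans (Finset.sum_congr rfl fun q _ => congrArg _ ?_)
      (Equiv.sum_comp π fun q => 26 ^ (4 * (p q.1 + p q.2) % 5))
    have := (hζ.pow_eq_one_iff_dvd (p q.1 + 7 * p q.2 + p (π q).1 + p (π q).2 + 3 * s)).1 (by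
      have e1 := hπ q
      rw [hp q.1, hp q.2, hp (π q).1, hp (π q).2] at e1
      calc _ = ζ ^ (p q.1 + 7 * p q.2 + p (π q).1 + p (π q).2 + 3 * s) *
            (ξ 0 ^ 5 * ζ ^ s) ^ 2 := by rw [h1, one_pow, mul_one]
        _ = 1 * (ζ ^ 5) ^ s := by rw [← e1]; ring
        _ = 1 := by rw [hζ.pow_eq_one, one_pow, one_mul])
    omega) with h | ⟨h, h'⟩
  · exact .inl fun i => by rw [hp, h, pow_zero, mul_one]
  · rw [(hζ.pow_eq_one_iff_dvd s).2 (Nat.dvd_of_mod_eq_zero h'), mul_one] at h1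
    exact .inr ⟨fun i j e => h (hζ.pow_inj (lt i) (lt j) (mul_left_cancel₀ h0 (by
      rw [← hp, ← hp, e]))), fun i => (h5 i).trans h1⟩

theorem inv (h2 : (2 : k) ≠ 0) {ζ : k} (hζ : IsPrimitiveRoot ζ 5) {ξ ε : Fin 5 → k}
    (hi : Function.Injective ξ) (h5 : ∀ i, ξ i ^ 5 = 1) (he : ∀ i, ε i ^ 2 = 1) (hd : ∏ i, ε i = 1)
    (π : Equiv.Perm (Fin 5 × Fin 5)) (hπ : ∀ q, ξ q.1 * ξ q.2 ^ 7 * ξ (π q).1 * ξ (π q).2 = 1)
    (hε : ∀ q, ε q.1 * ε q.2 ^ 7 * ε (π q).1 * ε (π q).2 = 1) :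
    (∀ i, ε i = 1) ∨ ∃ m, ε m = 1 ∧ ∀ i, i ≠ m → ε i = -1 := by
  have hm : IsPrimitiveRoot (-1 : k) 2 := IsPrimitiveRoot.neg_one (ringChar k) fun e =>
    h2 (by simpa [e] using ringChar.Nat.cast_ringChar (R := k))
  obtain ⟨t, ht⟩ : ∃ t : Fin 5 → Fin 5, ∀ i, ξ i = ζ ^ (t i).1 :=
    (Classical.skolem (p := fun i (n : Fin 5) => ξ i = ζ ^ n.1)).1 fun i => by
      obtain ⟨n, hn, e⟩ := hζ.eq_pow_of_pow_eq_one (h5 i)
      exact ⟨⟨n, hn⟩, e.symm⟩
  obtain ⟨s, hs⟩ : ∃ s : Fin 5 → Fin 2, ∀ i, ε i = (-1) ^ (s i).1 :=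
    (Classical.skolem (p := fun i (n : Fin 2) => ε i = (-1) ^ n.1)).1 fun i => by
      obtain ⟨n, hn, e⟩ := hm.eq_pow_of_pow_eq_one (he i)
      exact ⟨⟨n, hn⟩, e.symm⟩
  let σ := Equiv.ofBijective t (Finite.injective_iff_bijective.1 fun i j e => hi (by
    rw [ht, ht, e]))
  rcases d2 (s ∘ σ.symm) (by
    refine Fintype.sum_equiv (((σ.prodCongr σ).symm.trans π).trans (σ.prodCongr σ)) _ _ fun q => ?_
    obtain ⟨q, rfl⟩ := (σ.prodCongr σ).surjective q
    refine congrArg (26 ^ ·) ?_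
    have a1 := (hζ.pow_eq_one_iff_dvd (t q.1 + 7 * t q.2 + t (π q).1 + t (π q).2)).1 (by
      rw [← hπ q, ht, ht, ht, ht]; ring)
    have a2 := (hm.pow_eq_one_iff_dvd (s q.1 + 7 * s q.2 + s (π q).1 + s (π q).2)).1 (by
      have := hε q
      rw [hs, hs, hs, hs] at this
      simpa only [pow_add, mul_comm 7, pow_mul] using this)
    simp only [Equiv.trans_apply, Equiv.symm_apply_apply]
    simp only [Equiv.prodCongr_apply, Prod.map, Function.comp, Equiv.symm_apply_apply, Fin.val_add]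
    simp only [σ, Equiv.ofBijective_apply]
    omega) (by
    rw [← Equiv.sum_comp σ, ← hm.pow_eq_one_iff_dvd, ← Finset.prod_pow_eq_pow_sum]
    simpa [hs] using hd) with h | ⟨m, h, h'⟩
  · exact .inl fun i => by simpa [hs] using congrArg (fun n : Fin 2 => (-1 : k) ^ n.1) (h (σ i))
  · refine .inr ⟨σ.symm m, by simpa [hs] using congrArg (fun n : Fin 2 => (-1 : k) ^ n.1) h,
      fun i hi => ?_⟩
    simpa [hs] using congrArg (fun n : Fin 2 => (-1 : k) ^ n.1)
      (h' (σ i) fun e => hi (by rw [← e, Equiv.symm_apply_apply]))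

variable [Finite P] [IsAlgClosed k] [CharP k 7] (h : Hy0 ρ)
include h

omit [Finite P] [CharP k 7] in
theorem cen_iff {B B' : M5 k} (hB : B * B' = 1) {g : P} {ξ : Fin 5 → k}
    (e : cj hB ρ g = diagonal ξ) : g ∈ center P ↔ ∀ i, ξ i = ξ 0 := by
  rw [K.center_iff (h.cj hB), e]
  refine ⟨fun ⟨c, hc⟩ i => ?_, fun a => ⟨ξ 0, by ext i j; by_cases c : i = j <;> simp [c, a j]⟩⟩
  have : ∀ i, ξ i = c := fun i => by simpa using congrFun (congrFun hc i) i
  rw [this, this]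

omit h [Finite P] in
theorem zeta : ∃ ζ : k, IsPrimitiveRoot ζ 5 :=
  haveI : NeZero ((5 : ℕ) : k) := ⟨by rw [Ne, CharP.cast_eq_zero_iff k 7]; norm_num⟩
  HasEnoughRootsOfUnity.exists_primitiveRoot k 5

omit [Finite P] in
theorem zero {B B' : M5 k} (hB : B * B' = 1) {g : P} {ξ : Fin 5 → k} (e : cj hB ρ g = diagonal ξ)
    (h5 : g ^ 5 ∈ center P) (π : Equiv.Perm (Fin 5 × Fin 5))
    (hπ : ∀ q, ξ q.1 * ξ q.2 ^ 7 * ξ (π q).1 * ξ (π q).2 = 1) :
    g ∈ center P ∨ (Function.Injective ξ ∧ ∀ i, ξ i ^ 5 = 1) := by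
  obtain ⟨ζ, hζ⟩ := zeta (k := k)
  exact (num hζ ((cen_iff h hB (ξ := fun i => ξ i ^ 5) (by rw [map_pow, e, diagonal_pow]; rfl)).1 h5)
    (by rw [← det_diagonal, ← e, (h.cj hB).det]) π hπ).imp_left (cen_iff h hB e).2

variable (w : W7 ρ)
include w

theorem cab {x : P} (h1 : x ∉ center P) (h5 : x ^ 5 ∈ center P) :
    (∀ a ∈ centralizer {x}, ∀ b ∈ centralizer {x}, a * b = b * a) ∧
      ¬ 7 ∣ Nat.card (centralizer {x}) := by
  obtain ⟨B, B', hB, χ, e, -, π, hπ⟩ := w (zpowers x) (by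
    rintro _ ⟨i, rfl⟩ _ ⟨j, rfl⟩
    exact (Commute.zpow_zpow_self x i j).eq) fun c => by
      rw [Nat.card_zpowers] at c
      exact absurd (c.trans (orderOf_dvd_of_pow_eq_one (n := 5 * 5) (by
        rw [pow_mul, K.cent5 h h5]))) (by norm_num)
  obtain ⟨hi, -⟩ := (zero h hB (e ⟨x, mem_zpowers x⟩) h5 π fun q => by
    simpa using congrArg (fun f : zpowers x →* kˣ => (f ⟨x, mem_zpowers x⟩ : k)) (hπ q)).resolve_left h1
  have dg : ∀ a ∈ centralizer {x}, cj hB ρ a = diagonal (cj hB ρ a).diag := fun a ha => by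
    ext i j
    by_cases c : i = j
    · simp [c]
    have := congrFun (congrFun (congrArg (cj hB ρ) (mem_centralizer_singleton_iff.1 ha)) i) j
    rw [map_mul, map_mul, e ⟨x, mem_zpowers x⟩, mul_diagonal, diagonal_mul, mul_comm] at this
    rw [diagonal_apply_ne _ c]
    exact by_contra fun d => c (hi (mul_right_cancel₀ d this)).symm
  refine ⟨fun a ha b hb => (h.cj hB).inj (by
    rw [map_mul, map_mul, dg a ha, dg b hb, diagonal_mul_diagonal, diagonal_mul_diagonal]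
    simp only [mul_comm]), fun c => ?_⟩
  haveI : Fact (Nat.Prime 7) := ⟨by norm_num⟩
  obtain ⟨a, ha⟩ := exists_prime_orderOf_dvd_card' 7 c
  have e1 : cj hB ρ a ^ 7 = 1 := by
    rw [← map_pow, ← Subgroup.coe_pow, ← ha, pow_orderOf_eq_one, OneMemClass.coe_one, map_one]
  rw [dg a a.2, diagonal_pow] at e1
  have e2 : a = 1 := Subtype.ext ((h.cj hB).inj (by
    rw [dg a a.2, OneMemClass.coe_one, map_one, ← diagonal_one]
    refine congrArg _ (funext fun i => frobenius_inj k 7 ?_)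
    simpa [frobenius_def] using congrFun (congrFun e1 i) i))
  simp [e2] at ha

theorem cx {x s z : P} (h5 : x ^ 5 ∈ center P) (hz : z ∈ center P) (z1 : z ≠ 1)
    (hs : s * x * s⁻¹ = z * x) {y : P} (hy : y * x = x * y) : ∃ i : ℕ, y * x ^ i ∈ center P := by
  haveI := Fact.mk Nat.prime_five
  have h1 : x ∉ center P := fun c => z1 (by
    rwa [mem_center_iff.1 c s, mul_inv_cancel_right, right_eq_mul] at hs)
  obtain ⟨ab, h7⟩ := cab h w h1 h5
  obtain ⟨B, B', hB, χ, e, ⟨π1, hπ1⟩, π, hπ⟩ := w _ ab h7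
  obtain ⟨ζ, hζ⟩ := zeta (k := k)
  have hπ' : ∀ a q, (χ q.1 a : k) * χ q.2 a ^ 7 * χ (π q).1 a * χ (π q).2 a = 1 := fun a q => by
    simpa using congrArg (fun f : centralizer {x} →* kˣ => (f a : k)) (hπ q)
  let x' : centralizer ({x} : Set P) := ⟨x, mem_centralizer_singleton_iff.2 rfl⟩
  obtain ⟨hi, x5⟩ := (zero h hB (e x') h5 π (hπ' x')).resolve_left h1
  have ext : ∀ a b : centralizer ({x} : Set P), (∀ i, (χ i a : k) = χ i b) → a = b := fun a b ha =>
    Subtype.ext ((h.cj hB).inj (by rw [e, e]; simp only [ha]))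
  have zc := fun g => mem_center_iff.1 hz g
  have cn : ∀ g ∈ centralizer ({x} : Set P), s * g * s⁻¹ ∈ centralizer ({x} : Set P) := fun g hg => by
    rw [mem_centralizer_singleton_iff] at hg ⊢
    refine mul_left_cancel (a := z) ?_
    rw [← mul_assoc z x, ← mul_assoc z, ← zc, mul_assoc _ z, ← hs]
    calc _ = s * (g * x) * s⁻¹ := by group
      _ = _ := by rw [hg]; group
  have five : ∀ a : centralizer ({x} : Set P), (a : P) ^ 5 ∈ center P →
      ∃ i : ℕ, a * x ^ i ∈ center P := fun a ha => by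
    have p1 : IsPrimitiveRoot ((χ 0 x' : k) / χ 1 x') 5 := (IsPrimitiveRoot.iff_orderOf ..).2
      (orderOf_eq_prime (by rw [div_pow, x5, x5, div_one]) fun c =>
        absurd (hi ((div_eq_one_iff_eq (Units.ne_zero _)).1 c)) (by decide))
    obtain ⟨i, -, c⟩ := p1.eq_pow_of_pow_eq_one (ξ := (χ 1 a : k) / χ 0 a) (by
      have := (cen_iff h hB (e (a ^ 5))).1 ha 1
      simp only [map_pow, Units.val_pow_eq_pow_val] at this
      rw [div_pow, this, div_self (pow_ne_zero _ (Units.ne_zero _))])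
    refine ⟨i, (zero h hB (e (a * x' ^ i)) ?_ π (hπ' _)).resolve_right fun d =>
      absurd (d.1 (a₁ := 0) (a₂ := 1) ?_) (by decide)⟩
    · rw [Subgroup.coe_mul, Commute.mul_pow (ab _ a.2 _ (x' ^ i).2), Subgroup.coe_pow, ← pow_mul,
        mul_comm i, pow_mul]
      exact mul_mem ha (pow_mem h5 i)
    · rw [div_pow, div_eq_div_iff (pow_ne_zero _ (Units.ne_zero _)) (Units.ne_zero _)] at c
      simpa [mul_comm] using c
  have y50 : ∀ a : centralizer ({x} : Set P), a ^ 50 = 1 := fun a => ext _ _ fun i => by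
    have c : ∀ a, (χ i a : k) ^ 49 * χ (π1 i) a = 1 := fun a => by
      simpa using congrArg (fun f : centralizer {x} →* kˣ => (f a : k)) (hπ1 i)
    have d : π1 i = i := hi (mul_left_cancel₀ (pow_ne_zero 49 (Units.ne_zero (χ i x'))) (by
      rw [c, ← pow_succ, show 49 + 1 = 5 * 10 from rfl, pow_mul, x5, one_pow]))
    simpa [d, ← pow_succ] using c a
  have two : (2 : k) ≠ 0 := fun c => absurd ((CharP.cast_eq_zero_iff k 7 2).1 c) (by norm_num)
  have iv : ∀ a : centralizer ({x} : Set P), a ^ 2 = 1 → a = 1 ∨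
      ∃ m, (χ m a : k) = 1 ∧ ∀ i, i ≠ m → (χ i a : k) = -1 := fun a ha =>
    (inv two hζ hi x5 (fun i => by rw [← Units.val_pow_eq_pow_val, ← map_pow, ha]; simp)
      (by rw [← det_diagonal, ← e, (h.cj hB).det]) π (hπ' x') (hπ' a)).imp_left
      fun c => ext _ _ fun i => by simp [c]
  have neg : (-1 : k) ≠ 1 := fun c => two (by linear_combination -c)
  have iv2 : ∀ a : centralizer ({x} : Set P), a ^ 2 = 1 → a = 1 := fun a ha => by
    by_contra a1
    let b : centralizer ({x} : Set P) := ⟨_, cn a a.2⟩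
    have hb : b ^ 2 = 1 := Subtype.ext (by
      rw [Subgroup.coe_pow, conj_pow, ← Subgroup.coe_pow, ha]; simp)
    obtain ⟨m, m1, m2⟩ := (iv a ha).resolve_left a1
    obtain ⟨n, n1, n2⟩ := (iv b hb).resolve_left fun c => a1 (Subtype.ext (by
      simpa [b] using congrArg Subtype.val c))
    by_cases c : m = n
    · subst c
      have e1 : b = a := ext _ _ fun i => by
        by_cases d : i = m
        · rw [d, m1, n1]
        · rw [m2 i d, n2 i d]
      have e2 := congrArg (cj hB ρ) (mul_inv_eq_iff_eq_mul.1 (congrArg Subtype.val e1))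
      have e3 := congrArg (cj hB ρ) (mul_inv_eq_iff_eq_mul.1 hs)
      obtain ⟨c, hc⟩ := (K.center_iff (h.cj hB)).1 hz
      rw [map_mul, map_mul, e] at e2
      rw [map_mul, map_mul, map_mul, e x', hc] at e3
      refine one_ne_zero (((h.cj hB).det s).symm.trans (det_eq_zero_of_column_eq_zero m fun i => ?_))
      by_contra d
      by_cases f : i = m
      · have := congrFun (congrFun e3 m) m
        simp only [mul_diagonal, smul_mul_assoc, one_mul, Matrix.smul_apply, diagonal_mul, smul_eq_mul]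
          at this
        refine z1 ((h.cj hB).inj ?_)
        rw [hc, map_one, mul_right_cancel₀ (mul_ne_zero (Units.ne_zero (χ m x')) (f ▸ d))
          (this.symm.trans ((mul_comm _ _).trans (one_mul _).symm)), one_smul]
      · have := congrFun (congrFun e2 i) m
        rw [mul_diagonal, diagonal_mul, m1, m2 i f, mul_comm] at this
        exact neg (mul_right_cancel₀ d this).symm
    have hab : (a * b) ^ 2 = 1 := by
      rw [Commute.mul_pow (Subtype.ext (ab _ a.2 _ b.2)), ha, hb, one_mul]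
    have v : ∀ i, (χ i (a * b) : k) = χ i a * χ i b := fun i => by simp
    rcases iv _ hab with d | ⟨l, -, l2⟩
    · exact neg (by simpa [d, m1, n2 m c] using (v m).symm)
    · obtain ⟨i, i1, i2, i3⟩ : ∃ i, i ≠ l ∧ i ≠ m ∧ i ≠ n := 
        (by decide : ∀ l m n : Fin 5, ∃ i, i ≠ l ∧ i ≠ m ∧ i ≠ n) l m n
      have := v i
      rw [l2 i i1, m2 i i2, n2 i i3] at this
      exact neg (by linear_combination this)
  let a : centralizer ({x} : Set P) := ⟨y, mem_centralizer_singleton_iff.2 hy⟩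
  have a25 : (y ^ 5) ^ 5 = 1 := by
    rw [← pow_mul]
    exact congrArg Subtype.val (iv2 (a ^ 25) (by rw [← pow_mul, y50]))
  obtain ⟨i, c⟩ := five (a ^ 5) (by simp [a, a25])
  let b : centralizer ({x} : Set P) := ⟨_, cn a a.2⟩
  have e1 : ((a * b⁻¹ : centralizer ({x} : Set P)) : P) ^ 5 = z ^ i := by
    have e2 : s * x ^ i * s⁻¹ = z ^ i * x ^ i := by
      rw [← conj_pow, hs, Commute.mul_pow (zc x).symm]
    have e3 := mem_center_iff.1 c s
    rw [Subgroup.coe_mul, Commute.mul_pow (ab _ a.2 _ b⁻¹.2), Subgroup.coe_inv, inv_pow, conj_pow]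
    calc y ^ 5 * (s * y ^ 5 * s⁻¹)⁻¹
        = y ^ 5 * (s * x ^ i * s⁻¹) * (s * (y ^ 5 * x ^ i) * s⁻¹)⁻¹ := by group
      _ = z ^ i := by
        rw [e2, show s * (y ^ 5 * x ^ i) = y ^ 5 * x ^ i * s from e3, ← mul_assoc,
          mem_center_iff.1 (pow_mem hz i)]
        group
  have e2 : z ^ i = 1 := by
    rw [← e1]
    rcases zero h hB (e (a * b⁻¹)) (e1 ▸ pow_mem hz i) π (hπ' _) with d | d
    · exact K.cent5 h d
    · exact congrArg Subtype.val (ext ((a * b⁻¹) ^ 5) 1 fun i => by simpa using d.2 i)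
  obtain ⟨j, rfl⟩ : 5 ∣ i := orderOf_eq_prime (K.cent5 h hz) z1 ▸ orderOf_dvd_of_pow_eq_one e2
  exact five a ((mul_mem_cancel_right (pow_mul x 5 j ▸ pow_mem h5 j)).1 c)

theorem cg {x s : P} (h5 : (x : P ⧸ center P) ^ 5 = 1)
    (h1 : (s : P ⧸ center P) * x = x * s) (h2 : s * x ≠ x * s) :
    (s : P ⧸ center P) ^ 5 = 1 ∧ Nat.card (centralizer {(x : P ⧸ center P)}) = 25 ∧
      ∀ g ∈ centralizer {(x : P ⧸ center P)}, ∃ i j : ℕ, g = (x : P ⧸ center P) ^ i * s ^ j := by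
  haveI := Fact.mk Nat.prime_five
  have zz : ∀ g : P, (g : P ⧸ center P) * x = x * g → g * x * g⁻¹ * x⁻¹ ∈ center P := fun g e => by
    rw [← QuotientGroup.eq_one_iff]
    simp [e]
  obtain ⟨z, hz, hs⟩ : ∃ z ∈ center P, s * x * s⁻¹ = z * x := ⟨_, zz s h1, by simp⟩
  have z1 : z ≠ 1 := by
    rintro rfl
    exact h2 (by rwa [one_mul, mul_inv_eq_iff_eq_mul] at hs)
  have x5 : x ^ 5 ∈ center P := (QuotientGroup.eq_one_iff _).1 h5
  have oz := orderOf_eq_prime (K.cent5 h hz) z1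
  have sj : ∀ j : ℕ, s ^ j * x * (s ^ j)⁻¹ = z ^ j * x := fun j => by
    induction j with
    | zero => simp
    | succ j ih =>
      calc _ = s * (s ^ j * x * (s ^ j)⁻¹) * s⁻¹ := by group
        _ = z ^ j * (s * x * s⁻¹) := by
          rw [ih, ← mul_assoc, mem_center_iff.1 (pow_mem hz j)]; group
        _ = _ := by rw [hs]; group
  have cc : ∀ y : P, y * x = x * y → ∃ i : Fin 5, (y : P ⧸ center P) = (x : P ⧸ center P) ^ i.1 :=
    fun y hy => by
      obtain ⟨i, hi⟩ := cx h w x5 hz z1 hs hy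
      refine ⟨⟨4 * i % 5, Nat.mod_lt _ (by norm_num)⟩, ?_⟩
      rw [← pow_eq_pow_mod _ h5, ← mul_left_inj ((x : P ⧸ center P) ^ i), ← pow_add,
        show 4 * i + i = 5 * i by ring, pow_mul, h5, one_pow]
      exact (QuotientGroup.eq_one_iff _).2 hi
  have su : ∀ g ∈ centralizer {(x : P ⧸ center P)},
      ∃ i j : Fin 5, g = (x : P ⧸ center P) ^ i.1 * s ^ j.1 := fun g hg => by
    obtain ⟨g, rfl⟩ := QuotientGroup.mk_surjective g
    have c := zz g (mem_centralizer_singleton_iff.1 hg)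
    obtain ⟨j, hj⟩ : ∃ j : Fin 5, g * x * g⁻¹ * x⁻¹ = z ^ j.1 := by
      obtain ⟨a, ha⟩ := (K.center_iff h).1 hz
      obtain ⟨b, hb⟩ := (K.center_iff h).1 c
      have p5 : ∀ {y} {a : k}, y ∈ center P → ρ y = a • 1 → a ^ 5 = 1 := fun {y a} hy e => by
        simpa [e] using h.det y
      obtain ⟨j, j5, e⟩ := ((IsPrimitiveRoot.iff_orderOf ..).2 (orderOf_eq_prime (p5 hz ha)
        fun e => z1 (h.inj (by simp [ha, e])))).eq_pow_of_pow_eq_one (p5 c hb)
      exact ⟨⟨j, j5⟩, h.inj (by rw [hb, map_pow, ha, smul_pow, one_pow, e])⟩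
    obtain ⟨i, hi⟩ := cc ((s ^ j.1)⁻¹ * g) (by
      calc _ = (s ^ j.1)⁻¹ * (g * x * g⁻¹ * x⁻¹ * x) * g := by group
        _ = _ := by rw [hj, ← sj]; group)
    refine ⟨i, j, ?_⟩
    rw [← (Commute.pow_pow h1 _ _).eq, ← hi]
    simp
  refine ⟨?_, ?_, fun g hg => by obtain ⟨i, j, e⟩ := su g hg; exact ⟨i, j, e⟩⟩
  · obtain ⟨i, hi⟩ := cc (s ^ 5) (by
      rw [← mul_inv_eq_iff_eq_mul, sj, K.cent5 h hz, one_mul])
    have e1 := mem_center_iff.1 (QuotientGroup.eq.1 (hi.trans (QuotientGroup.mk_pow ..).symm)) s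
    have e2 : z ^ i.1 = 1 := by
      have : s * x ^ i.1 * s⁻¹ = z ^ i.1 * x ^ i.1 := by
        rw [← conj_pow, hs, Commute.mul_pow (mem_center_iff.1 hz x).symm]
      rw [← mul_left_inj (x ^ i.1), ← this, one_mul]
      calc _ = s ^ 5 * (s * ((s ^ 5)⁻¹ * x ^ i.1)) * s⁻¹ := by group
        _ = _ := by rw [e1]; group
    have e3 : i.1 = 0 := Nat.eq_zero_of_dvd_of_lt ((dvd_of_eq oz.symm).trans (orderOf_dvd_of_pow_eq_one e2)) i.2
    rw [← QuotientGroup.mk_pow, hi, e3, pow_zero]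
  · have x1 : (x : P ⧸ center P) ≠ 1 := fun c =>
      h2 (mem_center_iff.1 ((QuotientGroup.eq_one_iff _).1 c) s)
    refine (Nat.card_congr (Equiv.ofBijective (fun q : Fin 5 × Fin 5 =>
      (⟨(x : P ⧸ center P) ^ q.1.1 * s ^ q.2.1, mem_centralizer_singleton_iff.2
        (((Commute.refl _).pow_left _).mul_left (Commute.pow_left h1 _)).eq⟩ :
        centralizer {(x : P ⧸ center P)})) ⟨fun q q' e => ?_, fun ⟨g, hg⟩ => ?_⟩)).symm.trans (by simp)
    · have e1 := congrArg Subtype.val e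
      simp only [← QuotientGroup.mk_pow, ← QuotientGroup.mk_mul] at e1
      have e2 := mem_center_iff.1 (QuotientGroup.eq.1 e1.symm |> inv_mem) x
      have e3 : z ^ q.2.1 = z ^ q'.2.1 := by
        have c := fun (i j : ℕ) => show x ^ i * s ^ j * x * (x ^ i * s ^ j)⁻¹ = z ^ j * x by
          calc _ = x ^ i * (s ^ j * x * (s ^ j)⁻¹) * (x ^ i)⁻¹ := by group
            _ = _ := by rw [sj, ← mul_assoc, mem_center_iff.1 (pow_mem hz j)]; group
        rw [← mul_left_inj x, ← c q.1, ← c q'.1]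
        generalize x ^ q.1.1 * s ^ q.2.1 = a at *
        generalize x ^ q'.1.1 * s ^ q'.2.1 = b at *
        calc _ = a * (x * (b⁻¹ * a)⁻¹) * b⁻¹ := by group
          _ = _ := by rw [e2]; group
      have e4 : q.2 = q'.2 := Fin.ext (pow_injOn_Iio_orderOf (by simp [oz]) (by simp [oz]) e3)
      have ox := orderOf_eq_prime h5 x1
      refine Prod.ext (Fin.ext (pow_injOn_Iio_orderOf (x := (x : P ⧸ center P)) (by simp [ox])
        (by simp [ox]) ?_)) e4
      simpa [e4] using congrArg Subtype.val e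
    · obtain ⟨i, j, e⟩ := su g hg
      exact ⟨(i, j), Subtype.ext e.symm⟩

end F7

open Subgroup F7 in
theorem five7 {P k : Type*} [Group P] [Field k] {ρ : P →* M5 k} [Finite P] [IsAlgClosed k]
    [CharP k 7] (h : Hy0 ρ) (w : W7 ρ) (hz : center P ≠ ⊥) :
    ∃ S : Subgroup (P ⧸ center P), H4.CABasic.IsCA S ∧ Nat.card S = 25 := by
  haveI := Fact.mk Nat.prime_five
  obtain ⟨S⟩ : Nonempty (Sylow 5 (P ⧸ center P)) := inferInstance
  let H := S.1.comap (QuotientGroup.mk' (center P))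
  have na : ¬ ∀ a ∈ H, ∀ b ∈ H, a * b = b * a := fun ab => hz ((eq_bot_iff_forall _).2 fun z hz => by
    have : IsMulCommutative H := ⟨⟨fun a b => Subtype.ext (ab _ a.2 _ b.2)⟩⟩
    open scoped IsMulCommutative in
    have t := MonoidHom.transfer_eq_pow (MonoidHom.id H) z fun n g _ => by
      rw [mul_assoc, ← mem_center_iff.1 (pow_mem hz n), inv_mul_cancel_left]
    open scoped IsMulCommutative in
    have t' : z ^ H.index = 1 := congrArg Subtype.val (t.symm.trans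
      (Abelianization.commutator_subset_ker _ (h.perf.ge (mem_top z))))
    rw [index_comap_of_surjective _ (QuotientGroup.mk'_surjective _)] at t'
    exact K.uniq h (Nat.Coprime.symm ((Nat.Prime.coprime_iff_not_dvd Nat.prime_five).2
      S.not_dvd_index)) ((QuotientGroup.eq_one_iff _).2 hz) t' (one_pow _))
  haveI : Nontrivial S := by
    by_contra! c
    refine na fun a ha b _ => (mem_center_iff.1 ((QuotientGroup.eq_one_iff a).1 ?_) b).symm
    exact congrArg Subtype.val (Subsingleton.elim (⟨_, ha⟩ : S) 1)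
  haveI := S.2.center_nontrivial
  obtain ⟨m, m0, hm⟩ := (S.2.to_subgroup (center S)).nontrivial_iff_card.1 this
  obtain ⟨⟨⟨x, xS⟩, hx⟩, ox⟩ := exists_prime_orderOf_dvd_card' (G := center S) 5
    (hm ▸ dvd_pow_self 5 m0.ne')
  obtain ⟨x, rfl⟩ := QuotientGroup.mk_surjective x
  rw [← orderOf_coe, ← orderOf_coe] at ox
  have x5 : (x : P ⧸ center P) ^ 5 = 1 := ox ▸ pow_orderOf_eq_one _
  have x1 : (x : P ⧸ center P) ≠ 1 := fun c => by simp [c] at ox
  obtain ⟨s, hs, h2⟩ : ∃ s ∈ H, s * x ≠ x * s := by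
    by_contra! c
    have := (cab h w (mt (QuotientGroup.eq_one_iff x).2 x1) ((QuotientGroup.eq_one_iff _).1 x5)).1
    exact na fun a ha b hb => this a (mem_centralizer_singleton_iff.2 (c a ha)) b
      (mem_centralizer_singleton_iff.2 (c b hb))
  have h1 : (s : P ⧸ center P) * x = x * s := congrArg Subtype.val (mem_center_iff.1 hx ⟨_, hs⟩)
  obtain ⟨s5, c25, el⟩ := cg h w x5 h1 h2
  have cm : ∀ i j i' j' : ℕ, Commute ((x : P ⧸ center P) ^ i * s ^ j) (x ^ i' * s ^ j') :=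
    fun i j i' j' => (((Commute.refl _).pow_pow _ _).mul_right ((Commute.pow_pow h1 _ _).symm)).mul_left
      ((Commute.pow_pow h1 _ _).mul_right ((Commute.refl _).pow_pow _ _))
  refine ⟨_, ⟨fun e => by simp [e] at c25, fun a ha a1 g => ?_⟩, c25⟩
  obtain ⟨a, rfl⟩ := QuotientGroup.mk_surjective a
  obtain ⟨i, j, e⟩ := el _ ha
  have le : centralizer {(x : P ⧸ center P)} ≤ centralizer {(a : P ⧸ center P)} := fun g hg => by
    obtain ⟨i', j', rfl⟩ := el g hg
    exact mem_centralizer_singleton_iff.2 (e ▸ (cm ..).eq)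
  have a5 : (a : P ⧸ center P) ^ 5 = 1 := by
    rw [e, (Commute.pow_pow h1 _ _).symm.mul_pow, ← pow_mul, ← pow_mul, mul_comm i, mul_comm j,
      pow_mul, pow_mul, x5, s5, one_pow, one_pow, one_mul]
  have ca : Nat.card (centralizer {(a : P ⧸ center P)}) = 25 := by
    by_cases c1 : x * a = a * x
    swap
    · exact (cg h w a5 (mem_centralizer_singleton_iff.1 ha).symm c1).2.1
    by_cases c2 : s * a = a * s
    swap
    · exact (cg h w a5 (mem_centralizer_singleton_iff.1 (le (mem_centralizer_singleton_iff.2 h1)))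
        c2).2.1
    exact absurd (((cab h w (mt (QuotientGroup.eq_one_iff a).2 a1)
      ((QuotientGroup.eq_one_iff _).1 a5)).1 s (mem_centralizer_singleton_iff.2 c2) x
      (mem_centralizer_singleton_iff.2 c1))) h2
  rw [eq_of_le_of_card_ge le (by rw [ca, c25]), mem_centralizer_singleton_iff]

end Cfsg.Agent.L5.R
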