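import Cfsg.Agent.L5.RCW
import Cfsg.Agent.H2.PGroup

/-!
The order of the group in the exceptional case in characteristic seven.
-/

set_option autoImplicit false

namespace Cfsg.Agent.L5.R.O7

open Finset

section
variable {X : Type*} [CommGroup X] {x : Fin 5 → X}

theorem clos {N : ℕ} (hN : N.Coprime 35) (he : ∀ y : X, y ^ N = 1) (hp : ∏ i, x i = 1)
    {π : Equiv.Perm (Fin 5)} (h1 : ∀ i, x i ^ 49 * x (π i) = 1) {σ : Equiv.Perm (Fin 5 × Fin 5)}
    (h2 : ∀ q, x q.1 * x q.2 ^ 7 * x (σ q).1 * x (σ q).2 = 1) :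
    (∀ i, ∃ j, x j = (x i)⁻¹) ∧ ∀ i, ∃ j, x j = x i ^ 7 := by
  classical
  haveI := Fact.mk Nat.prime_five
  haveI : CharP (MonoidAlgebra (ZMod 5) X) 5 := charP_of_injective_algebraMap (R := ZMod 5)
    (fun a b e => by simpa using congrArg (fun z => z.coeff 1) e) 5
  obtain ⟨o, ho⟩ : ∃ o, o = MonoidAlgebra.of (ZMod 5) X := ⟨_, rfl⟩
  obtain ⟨s, hs⟩ : ∃ s : ℤ → MonoidAlgebra (ZMod 5) X, ∀ m, s m = ∑ i, o (x i ^ m) := ⟨_, fun _ => rfl⟩
  have r1 : ∀ m, s (49 * m) = s (-m) := fun m => by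
    rw [hs, hs, ← Equiv.sum_comp π fun i => o (x i ^ (-m))]
    refine sum_congr rfl fun i _ => ?_
    rw [zpow_mul, eq_inv_of_mul_eq_one_right (h1 i), inv_zpow', neg_neg, zpow_ofNat]
  have r2 : ∀ m, s m * s (7 * m) = s (-m) * s (-m) := fun m => by
    rw [hs, hs, hs, sum_mul_sum, sum_mul_sum, ← Fintype.sum_prod_type', ← Fintype.sum_prod_type',
      ← Equiv.sum_comp σ fun q => o (x q.1 ^ (-m)) * o (x q.2 ^ (-m))]
    refine sum_congr rfl fun q _ => ?_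
    rw [← map_mul, ← map_mul, zpow_mul, ← mul_zpow, ← mul_zpow,
      eq_inv_of_mul_eq_one_right ((mul_assoc _ _ _).symm.trans (h2 q)), inv_zpow', neg_neg, zpow_ofNat]
  obtain ⟨n, b, hn⟩ : IsCoprime (5 : ℤ) N :=
    Nat.isCoprime_iff_coprime.2 (Nat.Coprime.coprime_dvd_right (show 5 ∣ 35 by decide) hN).symm
  have r3 : ∀ m, s (m * n) ^ 5 = s m := fun m => by
    rw [hs, hs, sum_pow_char]
    refine sum_congr rfl fun i _ => ?_
    rw [← map_pow, ← zpow_natCast, ← zpow_mul, show m * n * (5 : ℕ) = m + N * (-b * m) by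
      push_cast; linear_combination m * hn, zpow_add, zpow_mul, zpow_natCast, he, one_zpow, mul_one]
  have e1 := r2 n
  have e2 := r2 (7 * n)
  have e3 := r2 (-n)
  have e4 := r2 (-(7 * n))
  rw [show 7 * (7 * n) = 49 * n by ring, r1] at e2
  rw [neg_neg, mul_neg] at e3
  rw [show 7 * -(7 * n) = 49 * -n by ring, r1, neg_neg, neg_neg] at e4
  have e5 := r3 1
  have e6 := r3 7
  have e7 := r3 (-1)
  rw [one_mul] at e5
  rw [neg_one_mul] at e7
  have key : ∀ e : ℤ, s 1 = s e → (∀ y : X, y ^ e = 1 → y = 1) → ∀ i, ∃ j, x j = x i ^ e :=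
    fun e h hi i => by
    by_contra! hc
    have := congrArg (fun z => z.coeff (x i ^ e)) h
    simp only [hs, ho, MonoidAlgebra.coeff_sum, MonoidAlgebra.of_apply, MonoidAlgebra.coeff_single,
      Finsupp.finset_sum_apply, Finsupp.single_apply, zpow_one, hc, if_false, sum_const_zero,
      sum_boole] at this
    have h3 := Nat.le_of_dvd (card_pos.2 ⟨i, by simp⟩) ((ZMod.natCast_eq_zero_iff _ _).1 this.symm)
    have h4 := fun j => (mem_filter.1 ((eq_univ_of_card _ (le_antisymm (card_le_univ _)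
      ((Fintype.card_fin 5).trans_le h3))).ge
      (mem_univ j))).2
    have h5 : (x i ^ e) ^ (5 : ℤ) = 1 := by
      have := prod_zpow x univ e
      rw [prod_congr rfl fun j _ => h4 j, hp, one_zpow, prod_const, card_univ, Fintype.card_fin] at this
      rwa [zpow_ofNat]
    have h6 : x i ^ e = 1 := by
      rw [← zpow_one (x i ^ e), ← hn, zpow_add, zpow_mul', zpow_mul', h5, zpow_natCast, he]; simp
    exact hc i (by rw [h6, hi _ h6])
  have h7 : ∀ y : X, y ^ (7 : ℤ) = 1 → y = 1 := fun y hy =>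
    orderOf_eq_one_iff.1 (Nat.eq_one_of_dvd_coprimes (Nat.Coprime.coprime_dvd_right
      (show 7 ∣ 35 by decide) hN) (orderOf_dvd_of_pow_eq_one (he y))
      (orderOf_dvd_of_pow_eq_one (by rwa [zpow_ofNat] at hy)))
  generalize s n = a at *
  generalize s (7 * n) = b at *
  generalize s (-n) = c at *
  generalize s (-(7 * n)) = d at *
  exact ⟨fun i => by simpa using key (-1) (by rw [← e5, ← e7]; grind) (by simp) i,
    fun i => by simpa only [zpow_ofNat] using key 7 (by rw [← e5, ← e6]; grind) h7 i⟩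

theorem six (φ : X →* X) (hφ : Function.Injective φ) (h1 : ∀ i, ∃ j, x j = (x i)⁻¹)
    (h2 : ∀ i, ∃ j, x j = φ (x i)) (i : Fin 5) : φ (φ (φ (φ (x i)))) = x i ∨ x i = (x i)⁻¹ := by
  choose a ha using h1
  choose b hb using h2
  obtain ⟨s, t, n, e⟩ := Fintype.exists_ne_map_eq_of_card_lt
    ![i, b i, b (b i), a i, a (b i), a (b (b i))] (by simp)
  replace e := congrArg x e
  have g := fun y => map_inv φ y
  have g' : ∀ y z, φ y = φ z → y = z := fun _ _ e => hφ e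
  have g'' : ∀ y : X, y⁻¹⁻¹ = y := inv_inv
  fin_cases s <;> fin_cases t <;> simp [ha, hb] at n e <;> grind

theorem pairs (h1 : ∀ i, ∃ j, x j = (x i)⁻¹) : (∀ m, x m ^ 2 = 1) ∨ ∃ i j, i ≠ j ∧ x i ^ 2 ≠ 1 ∧
    x j = (x i)⁻¹ ∧ ((∀ m, x m = x i ∨ x m = (x i)⁻¹ ∨ x m ^ 2 = 1) ∨ ∃ a c, x a ^ 2 ≠ 1 ∧
      (∀ m, m ≠ c → x m = x i ∨ x m = (x i)⁻¹ ∨ x m = x a ∨ x m = (x a)⁻¹) ∧
      ∀ m, x m = x i ∨ x m = (x i)⁻¹ ∨ x m = x a ∨ x m = (x a)⁻¹ ∨ x m ^ 2 = 1) := by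
  have g : ∀ y : X, y ^ 2 = 1 ↔ y = y⁻¹ := fun y => by rw [sq, mul_eq_one_iff_eq_inv]
  simp only [ne_eq, g]
  by_cases e : ∀ m, x m = (x m)⁻¹
  · exact .inl e
  push Not at e
  obtain ⟨i, hi⟩ := e
  obtain ⟨j, hj⟩ := h1 i
  refine .inr ⟨i, j, by grind, hi, hj, ?_⟩
  by_cases e : ∀ m, x m = x i ∨ x m = (x i)⁻¹ ∨ x m = (x m)⁻¹
  · exact .inl e
  push Not at e
  obtain ⟨a, ha⟩ := e
  obtain ⟨b, hb⟩ := h1 a
  have g'' : ∀ y : X, y⁻¹⁻¹ = y := inv_inv
  obtain ⟨c, hc⟩ := (show ∀ i j a b : Fin 5, i ≠ j → i ≠ a → i ≠ b → j ≠ a → j ≠ b → a ≠ b →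
    ∃ c, ∀ m, m ≠ c → m = i ∨ m = j ∨ m = a ∨ m = b by decide) i j a b (by grind) (by grind) (by grind)
    (by grind) (by grind) (by grind)
  have hc' : ∀ m, m ≠ c → x m = x i ∨ x m = (x i)⁻¹ ∨ x m = x a ∨ x m = (x a)⁻¹ := fun m hm => by
    rcases hc m hm with rfl | rfl | rfl | rfl <;> simp [*]
  refine .inr ⟨a, c, ha.2.2, hc', fun m => ?_⟩
  obtain ⟨m', hm⟩ := h1 m
  have := hc' m
  have := hc' m'
  grind

theorem last (hp : ∏ i, x i = 1) (M : Subgroup X) (c : Fin 5) (h : ∀ i, i ≠ c → x i ∈ M) (i : Fin 5) :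
    x i ∈ M := by
  by_cases e : i = c
  · rw [← mul_prod_erase _ _ (mem_univ i)] at hp
    rw [eq_inv_of_mul_eq_one_left hp]
    exact inv_mem (prod_mem fun j hj => h j (e ▸ (mem_erase.1 hj).1))
  · exact h i e

theorem pw_gcd {y : X} {a b c : ℕ} (ha : y ^ a = 1) (hb : y ^ b = 1) (h : Nat.gcd a b ∣ c) :
    y ^ c = 1 :=
  orderOf_dvd_iff_pow_eq_one.1 ((Nat.dvd_gcd (orderOf_dvd_of_pow_eq_one ha)
    (orderOf_dvd_of_pow_eq_one hb)).trans h)

/-- the properties of the weights -/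
structure Wd (N : ℕ) (x : Fin 5 → X) : Prop where
  bd : ∀ {f₁ f₂ f₃ f₄ : X} {n₁ n₂ n₃ n₄ : ℕ}, f₁ ^ (n₁ + 1) = 1 → f₂ ^ (n₂ + 1) = 1 →
    f₃ ^ (n₃ + 1) = 1 → f₄ ^ (n₄ + 1) = 1 →
    (∀ M : Subgroup X, f₁ ∈ M → f₂ ∈ M → f₃ ∈ M → f₄ ∈ M → ∀ i, x i ∈ M) →
    N ≤ (n₁ + 1) * ((n₂ + 1) * ((n₃ + 1) * (n₄ + 1)))
  he : ∀ y : X, y ^ N = 1
  cop : N.Coprime 35
  prod : ∏ i, x i = 1
  inv : ∀ i, ∃ j, x j = (x i)⁻¹
  sev : ∀ i, ∃ j, x j = x i ^ 7

variable {N : ℕ}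

theorem Wd.exp (d : Wd N x) (i : Fin 5) : x i ^ 96 = 1 := by
  have c : ∀ n, n ∣ 96 * 35 ^ 2 → x i ^ n = 1 → x i ^ 96 = 1 := fun n hn e =>
    pw_gcd e (d.he _) (((d.cop.pow_right 2).coprime_dvd_left (Nat.gcd_dvd_right _ _)).dvd_of_dvd_mul_right
      ((Nat.gcd_dvd_left _ _).trans hn))
  rcases six (powMonoidHom 7) ((injective_iff_map_eq_one _).2 fun z e => by
    simpa using pw_gcd e (d.he z) (c := 1) (by
      rw [(Nat.Coprime.coprime_dvd_right (show 7 ∣ 35 by decide) d.cop).symm])) d.inv d.sev i with e | e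
  · simp only [powMonoidHom_apply, ← pow_mul] at e
    exact c 2400 (by decide) (mul_right_cancel (b := x i) (by rw [← pow_succ, e, one_mul]))
  · exact c 2 (by decide) (by rw [sq, mul_eq_one_iff_eq_inv, ← e])

theorem Wd.one (d : Wd N x) (h : N.Coprime 96) : N ≤ 1 :=
  d.bd (pow_one 1) (pow_one 1) (pow_one 1) (pow_one 1) fun M _ _ _ _ i => by
    rw [show x i = 1 by simpa using pw_gcd (d.he _) (d.exp i) (c := 1) (by rw [h])]
    exact one_mem _

theorem Wd.three {n : ℕ} (d : Wd (3 ^ n) x) : (∀ i, x i = (x i)⁻¹ → x i = 1) ∧ 3 ^ n ≤ 9 := by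
  have e1 : ∀ i, x i ^ 3 = 1 := fun i => pw_gcd (d.exp i) (d.he _) (by
    rw [show 96 = 3 * 2 ^ 5 by norm_num, Nat.Coprime.gcd_mul_right_cancel _ (Nat.Coprime.pow _ _ (by decide))]
    exact Nat.gcd_dvd_left _ _)
  have e2 : ∀ i, x i ^ 2 = 1 → x i = 1 := fun i e => by simpa using pw_gcd e (e1 i) (c := 1) (by decide)
  refine ⟨fun i e => e2 i (by rw [sq, mul_eq_one_iff_eq_inv, ← e]), ?_⟩
  have g : ∀ i a, (∀ m, x m = x i ∨ x m = (x i)⁻¹ ∨ x m = x a ∨ x m = (x a)⁻¹ ∨ x m ^ 2 = 1) →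
      3 ^ n ≤ 9 := fun i a e => d.bd (e1 i) (e1 a) (pow_one 1) (pow_one 1) fun M a b _ _ m => by
    rcases e m with e | e | e | e | e
    exacts [e ▸ a, e ▸ inv_mem a, e ▸ b, e ▸ inv_mem b, e2 m e ▸ one_mem _]
  rcases pairs d.inv with e | ⟨i, j, -, -, -, e | ⟨a, c, -, -, e⟩⟩
  · exact g 0 0 fun m => by simp [e m]
  · exact g i i fun m => by have := e m; tauto
  · exact g i a e

theorem Wd.two {n : ℕ} (d : Wd (2 ^ n) x) : 2 ^ n ≤ 64 := by
  have e0 : ∀ (y : X) a b, Odd b → y ^ (a * b) = 1 → y ^ a = 1 := fun y a b hb e =>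
    pw_gcd e (d.he _) (by
      rw [Nat.Coprime.gcd_mul_right_cancel _ (Nat.Coprime.pow_right _ (Nat.coprime_two_right.2 hb))]
      exact Nat.gcd_dvd_left _ _)
  have e1 : ∀ i, x i ^ 32 = 1 := fun i => e0 _ 32 3 (by decide) (d.exp i)
  have e2 : ∀ y : X, y ^ 2 ≠ 1 → y ^ 7 = y ∨ y ^ 7 = y⁻¹ ∨ (y ^ 7) ^ 2 = 1 → y ^ 8 = 1 := by
    rintro y n (e | e | e)
    · exact absurd (e0 y 2 3 (by decide) (mul_right_cancel (b := y) (by
        rw [← pow_succ, e, one_mul]))) n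
    · rw [pow_succ, e, inv_mul_cancel]
    · exact absurd (e0 y 2 7 (by decide) (by rw [← e, ← pow_mul])) n
  rcases pairs d.inv with e | ⟨i, j, n, hi, hj, e | ⟨a, c, ha, e, e'⟩⟩
  · exact (d.bd (e 0) (e 1) (e 2) (e 3) fun M a b c f => last d.prod M 4 fun m hm => by
      fin_cases m; exacts [a, b, c, f, absurd rfl hm]).trans (by decide)
  · obtain ⟨a, b, c, hc⟩ := (show ∀ i j : Fin 5, i ≠ j → ∃ a b c, ∀ m, m ≠ c →
      m = i ∨ m = j ∨ m = a ∨ m = b by decide) i j n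
    have g : ∀ m, ∃ f : X, f ^ 2 = 1 ∧ ∀ M : Subgroup X, x i ∈ M → f ∈ M → x m ∈ M := fun m => by
      rcases e m with e | e | e
      exacts [⟨1, one_pow _, fun M a _ => e ▸ a⟩, ⟨1, one_pow _, fun M a _ => e ▸ inv_mem a⟩,
        ⟨_, e, fun M _ a => a⟩]
    obtain ⟨f, f1, f2⟩ := g a
    obtain ⟨f', f3, f4⟩ := g b
    obtain ⟨m, hm⟩ := d.sev i
    exact (d.bd (e2 _ hi (hm ▸ e m)) f1 f3 (pow_one 1) fun M a b c' _ =>
      last d.prod M c fun m hm => by
        rcases hc m hm with rfl | rfl | rfl | rfl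
        exacts [a, hj ▸ inv_mem a, f2 M a b, f4 M a c']).trans (by decide)
  have g : ∀ M : Subgroup X, x i ∈ M → x a ∈ M → ∀ m, x m ∈ M := fun M a b =>
    last d.prod M c fun m hm => by
      rcases e m hm with e | e | e | e
      exacts [e ▸ a, e ▸ inv_mem a, e ▸ b, e ▸ inv_mem b]
  have g1 : ∀ s t, x s ^ 7 = x t ∨ x s ^ 7 = (x t)⁻¹ → ∀ M : Subgroup X, x s ∈ M → x t ∈ M := by
    rintro s t (e | e) M a
    exacts [e ▸ pow_mem a 7, inv_mem_iff.1 (e ▸ pow_mem a 7)]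
  obtain ⟨m, hm⟩ := d.sev i
  obtain ⟨m', hm'⟩ := d.sev a
  by_cases c1 : x i ^ 7 = x a ∨ x i ^ 7 = (x a)⁻¹
  · exact (d.bd (e1 i) (pow_one 1) (pow_one 1) (pow_one 1) fun M a _ _ _ =>
      g M a (g1 _ _ c1 M a)).trans (by decide)
  by_cases c2 : x a ^ 7 = x i ∨ x a ^ 7 = (x i)⁻¹
  · exact (d.bd (e1 a) (pow_one 1) (pow_one 1) (pow_one 1) fun M a _ _ _ =>
      g M (g1 _ _ c2 M a) a).trans (by decide)
  have := hm ▸ e' m
  have := hm' ▸ e' m'
  exact d.bd (e2 _ hi (by tauto)) (e2 _ ha (by tauto)) (pow_one 1) (pow_one 1)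
    fun M a b _ _ => g M a b

end

open Matrix

variable {P k : Type*} [Group P] [Field k] {ρ : P →* M5 k} {G : Type*} [Group G] [Finite G]

theorem wts (h : Hy0 ρ) (w : W7 ρ) (ι : G →* P) (hι : Function.Injective ι)
    (ab : ∀ a b : G, a * b = b * a) (hc : (Nat.card G).Coprime 35) : ∃ (B B' : M5 k) (hB : B * B' = 1)
    (x : Fin 5 → G →* kˣ), (∀ a, cj hB ρ (ι a) = diagonal fun i => (x i a : k)) ∧
      (∀ a, (∀ i, x i a = 1) → a = 1) ∧ Wd (Nat.card G) x := by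
  obtain ⟨B, B', hB, x, h1, ⟨π, h2⟩, σ, h3⟩ := w ι.range (by
    rintro _ ⟨a, rfl⟩ _ ⟨b, rfl⟩; rw [← map_mul, ab, map_mul]) fun e => by
      rw [← Nat.card_congr (MonoidHom.ofInjective hι).toEquiv] at e
      exact absurd (Nat.eq_one_of_dvd_coprimes hc e (by decide)) (by decide)
  obtain ⟨y, hy⟩ : ∃ y : Fin 5 → G →* kˣ, ∀ i, (x i).comp ι.rangeRestrict = y i := ⟨_, fun _ => rfl⟩
  have e0 : ∀ a, cj hB ρ (ι a) = diagonal fun i => (y i a : k) := fun a => by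
    simp only [← hy]; exact h1 ⟨_, a, rfl⟩
  have e3 : ∏ i, y i = 1 := MonoidHom.ext fun a => Units.ext (by
    have := (h.cj hB).det (ι a)
    rw [e0, det_diagonal] at this
    simpa using this)
  have he : ∀ z : G →* kˣ, z ^ Nat.card G = 1 := fun z =>
    MonoidHom.ext fun a => by rw [MonoidHom.pow_apply, ← map_pow, pow_card_eq_one', map_one]; rfl
  have hi : ∀ a, (∀ i, y i a = 1) → a = 1 := fun a e => hι ((h.cj hB).inj (by simp [e0, e]))
  obtain ⟨e4, e5⟩ := clos (X := G →* kˣ) (x := y) hc he e3 (π := π) (σ := σ) (fun i => by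
    rw [← hy, ← hy]; exact MonoidHom.ext fun a => DFunLike.congr_fun (h2 i) (ι.rangeRestrict a))
    fun q => by
      rw [← hy, ← hy, ← hy, ← hy]
      exact MonoidHom.ext fun a => DFunLike.congr_fun (h3 q) (ι.rangeRestrict a)
  refine ⟨B, B', hB, y, e0, hi, fun {f₁ f₂ f₃ f₄ n₁ n₂ n₃ n₄} h₁ h₂ h₃ h₄ h => ?_, he, hc, e3, e4, e5⟩
  let F : G →* rootsOfUnity (n₁ + 1) k × rootsOfUnity (n₂ + 1) k × rootsOfUnity (n₃ + 1) k ×
      rootsOfUnity (n₄ + 1) k :=
    (f₁.codRestrict _ fun a => DFunLike.congr_fun h₁ a).prod ((f₂.codRestrict _ fun a =>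
      DFunLike.congr_fun h₂ a).prod ((f₃.codRestrict _ fun a => DFunLike.congr_fun h₃ a).prod
        (f₄.codRestrict _ fun a => DFunLike.congr_fun h₄ a)))
  refine (Nat.card_le_card_of_injective F ((injective_iff_map_eq_one F).2 fun a e => hi a
    (h (MonoidHom.eval (N := kˣ) a).ker (congrArg (fun z => z.1.1) e :)
      (congrArg (fun z => z.2.1.1) e :) (congrArg (fun z => z.2.2.1.1) e :)
      (congrArg (fun z => z.2.2.2.1) e :)))).trans ?_
  simp only [Nat.card_prod]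
  gcongr <;> exact card_rootsOfUnity _ _

theorem scn {l : ℕ} [Fact l.Prime] (h : IsPGroup l G) : ∃ A : Subgroup G, A.Normal ∧
    (∀ a ∈ A, ∀ b ∈ A, a * b = b * a) ∧ ∀ g, (∀ a ∈ A, a * g = g * a) → g ∈ A := by
  obtain ⟨A, -, ⟨h1, h2⟩, h3⟩ := Finite.exists_le_maximal
    (p := fun A : Subgroup G => A.Normal ∧ ∀ a ∈ A, ∀ b ∈ A, a * b = b * a) (a := ⊥)
    ⟨inferInstance, by simp⟩
  refine ⟨A, h1, h2, fun g hg => by_contra fun n => ?_⟩
  haveI : ((Subgroup.centralizer (A : Set G)).map (QuotientGroup.mk' A)).Normal :=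
    Subgroup.Normal.map inferInstance _ (QuotientGroup.mk'_surjective A)
  obtain ⟨_, ⟨c, hc, rfl⟩, h4, h5⟩ := H2.PGroup.exists_center_mem_normal (h.to_quotient A)
    ((Subgroup.centralizer (A : Set G)).map (QuotientGroup.mk' A)) fun e =>
      n ((QuotientGroup.eq_one_iff g).1 (e.le ⟨g, hg, rfl⟩))
  haveI := H2.PGroup.normal_of_le_center (Subgroup.zpowers_le_of_mem h4)
  have m : ∀ y ∈ (Subgroup.zpowers (QuotientGroup.mk' A c)).comap (QuotientGroup.mk' A),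
      ∃ n : ℤ, ∃ a ∈ A, y = c ^ n * a := fun y ⟨n, e⟩ =>
    ⟨n, _, QuotientGroup.eq.1 ((map_zpow (QuotientGroup.mk' A) c n).trans e), by group⟩
  have := h3 (y := (Subgroup.zpowers (QuotientGroup.mk' A c)).comap (QuotientGroup.mk' A))
    ⟨inferInstance, fun y hy z hz => by
      obtain ⟨n, a, ha, rfl⟩ := m y hy
      obtain ⟨n', a', ha', rfl⟩ := m z hz
      have c1 : Commute a c := hc a ha
      have c2 : Commute a' c := hc a' ha'
      exact ((((Commute.refl c).zpow_zpow _ _).mul_right (c2.zpow_right _).symm).mul_left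
        ((c1.zpow_right _).mul_right (h2 a ha a' ha'))).eq⟩
    (fun a ha => by simp [(QuotientGroup.eq_one_iff a).2 ha]) (Subgroup.mem_zpowers _)
  rw [show QuotientGroup.mk' A c = 1 from (QuotientGroup.eq_one_iff c).2 this, orderOf_one] at h5
  exact (Fact.out : l.Prime).one_lt.ne h5

theorem act (h : Hy0 ρ) (w : W7 ρ) (T : Subgroup P) [Finite T] {l : ℕ} [Fact l.Prime]
    (hT : IsPGroup l T) (hl : l.Coprime 35) : ∃ (A : Subgroup T) (x : Fin 5 → A →* kˣ)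
      (ψ : T → (A →* kˣ) →* A →* kˣ), (∀ s t y, ψ (s * t) y = ψ s (ψ t y)) ∧ (∀ y, ψ 1 y = y) ∧
      Wd (Nat.card A) x ∧ (∀ t i, ∃ j, x j = ψ t (x i)) ∧ ∀ t, (∀ i, ψ t (x i) = x i) → t ∈ A := by
  obtain ⟨A, h1, h2, h3⟩ := scn hT
  obtain ⟨n, hn⟩ := (hT.to_subgroup A).exists_card_eq
  obtain ⟨B, B', hB, x, e, hi, d⟩ := wts h w (T.subtype.comp A.subtype)
    (T.subtype_injective.comp A.subtype_injective) (fun a b => Subtype.ext (h2 _ a.2 _ b.2))
    (hn ▸ hl.pow_left n)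
  refine ⟨A, x, fun t => MonoidHom.mk' (fun y => y.comp (MulAut.conjNormal t⁻¹).toMonoidHom)
    fun _ _ => rfl, fun s t y => MonoidHom.ext fun a => by simp, fun y => MonoidHom.ext fun a => by simp,
    d, fun t i => ?_, fun t ht => h3 t fun a ha => ?_⟩
  · obtain ⟨j, hj⟩ : ∃ j, cj hB ρ t j i ≠ 0 := by
      by_contra! c
      simpa using (det_eq_zero_of_column_eq_zero i c).symm.trans ((h.cj hB).det t)
    refine ⟨j, MonoidHom.ext fun a => Units.ext (mul_right_cancel₀ hj ?_)⟩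
    have : cj hB ρ (a : T) * cj hB ρ t = cj hB ρ t * cj hB ρ (MulAut.conjNormal t⁻¹ a : T) := by
      rw [← map_mul, ← map_mul]; simp [mul_assoc]
    have e1 := e a
    have e2 := e (MulAut.conjNormal t⁻¹ a)
    simp only [MonoidHom.comp_apply, Subgroup.subtype_apply] at e1 e2
    rw [e1, e2] at this
    simpa [mul_comm] using congrFun (congrFun this j) i
  · have := hi (MulAut.conjNormal t⁻¹ ⟨a, ha⟩ * ⟨a, ha⟩⁻¹) fun i => by
      rw [map_mul, map_inv (x i), mul_inv_eq_one]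
      exact DFunLike.congr_fun (ht i) ⟨a, ha⟩
    have := congrArg Subtype.val (mul_inv_eq_one.1 this)
    simp only [MulAut.conjNormal_apply, inv_inv] at this
    rw [← inv_mul_eq_iff_eq_mul, ← mul_assoc, this]

end Cfsg.Agent.L5.R.O7

namespace Cfsg.Agent.L5.R
open O7

variable {P k : Type*} [Group P] [Field k] {ρ : P →* M5 k}

theorem ord7 [Finite P] (h : Hy0 ρ) (w : W7 ρ) :
    (∀ l, l.Prime → l ∣ Nat.card P → l ≤ 7) ∧ ¬ 27 ∣ Nat.card P ∧ ¬ 1024 ∣ Nat.card P := by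
  refine ⟨fun l hl hd => by_contra fun n => ?_, fun hd => ?_, fun hd => ?_⟩
  · haveI := Fact.mk hl
    obtain ⟨g, hg⟩ := exists_prime_orderOf_dvd_card' l hd
    have c : ∀ m, m ∣ 96 * 35 → l.Coprime m := fun m hm => (Nat.Prime.coprime_iff_not_dvd hl).2 fun e => by
      have := e.trans hm
      rw [show 96 * 35 = 2 ^ 5 * (3 * (5 * 7)) by norm_num, hl.dvd_mul, hl.dvd_mul, hl.dvd_mul] at this
      rcases this with e | e | e | e
      exacts [n ((Nat.le_of_dvd two_pos (hl.dvd_of_dvd_pow e)).trans (by decide)),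
        n ((Nat.le_of_dvd three_pos e).trans (by decide)),
        n ((Nat.le_of_dvd (by decide) e).trans (by decide)), n (Nat.le_of_dvd (by decide) e)]
    have e : Nat.card (Subgroup.zpowers g) = l := by rw [Nat.card_zpowers, hg]
    obtain ⟨B, B', hB, x, -, -, d⟩ := wts h w _ (Subgroup.zpowers g).subtype_injective
      (fun ⟨_, a, rfl⟩ ⟨_, b, rfl⟩ => Subtype.ext (zpow_mul_comm g a b)) (e ▸ c 35 (by decide))
    rw [e] at d
    exact hl.one_lt.not_ge (d.one (c 96 (by decide)))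
  · haveI := Fact.mk Nat.prime_three
    obtain ⟨T, hT⟩ := Sylow.exists_subgroup_card_pow_prime 3 (n := 3) hd
    have p := IsPGroup.of_card hT
    obtain ⟨A, x, ψ, ψ1, ψ2, d, h1, h2⟩ := act h w T p (by decide)
    obtain ⟨n, hn⟩ := (p.to_subgroup A).exists_card_eq
    obtain ⟨d1, d2⟩ := (hn ▸ d).three
    rw [← hn, show A = ⊤ from eq_top_iff.2 fun t _ => h2 t fun i => ?_, Subgroup.card_top, hT] at d2
    · omega
    rcases six (ψ t) (Function.LeftInverse.injective (g := ψ t⁻¹) fun y => by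
      rw [← ψ1, inv_mul_cancel, ψ2]) d.inv (h1 t) i with e | e
    · have e1 : ∀ m, ψ (t ^ (4 * m)) (x i) = x i := fun m => by
        induction m with
        | zero => simp [ψ2]
        | succ m ih => rw [mul_add_one, pow_add, ψ1, pow_succ, pow_three, ψ1, ψ1, ψ1, e, ih]
      have e2 := e1 7
      rwa [pow_succ, show 27 = Nat.card T from hT.symm, pow_card_eq_one', one_mul] at e2
    · rw [d1 i e, map_one]
  · obtain ⟨T, hT⟩ := Sylow.exists_subgroup_card_pow_prime 2 (n := 10) hd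
    have p := IsPGroup.of_card hT
    obtain ⟨A, x, ψ, ψ1, ψ2, d, h1, h2⟩ := act h w T p (by decide)
    obtain ⟨n, hn⟩ := (p.to_subgroup A).exists_card_eq
    have d2 := (hn ▸ d).two
    letI : MulAction T (Set.range x) :=
      { smul := fun t y => ⟨ψ t y, by obtain ⟨_, i, rfl⟩ := y; exact h1 t i⟩
        one_smul := fun y => Subtype.ext (ψ2 y)
        mul_smul := fun s t y => Subtype.ext (ψ1 s t y) }
    have e1 : (MulAction.toPermHom T (Set.range x)).ker ≤ A := fun t ht => h2 t fun i =>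
      (congrArg Subtype.val (DFunLike.congr_fun ht ⟨x i, i, rfl⟩) :)
    have e2 : (MulAction.toPermHom T (Set.range x)).ker.index ∣ 120 := by
      rw [Subgroup.index_ker]
      refine (Subgroup.card_subgroup_dvd_card _).trans ?_
      rw [Nat.card_perm]
      exact Nat.factorial_dvd_factorial (n := 5) ((Nat.card_le_card_of_surjective _
        (Set.rangeFactorization_surjective (f := x))).trans (by simp))
    have e3 := (Subgroup.index_dvd_of_le e1).trans e2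
    have e4 := A.card_mul_index
    rw [hT] at e4
    have e5 := Nat.le_of_dvd (by decide) (Nat.dvd_gcd e3 (Dvd.intro_left _ e4))
    have := Nat.mul_le_mul (hn ▸ d2 : Nat.card A ≤ 64) e5
    rw [e4] at this
    exact absurd this (by decide)

end Cfsg.Agent.L5.R
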