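import Cfsg.Agent.L5.K0
import Cfsg.Agent.L4.R6

/-!
The Sylow subgroup in the defining characteristic: the common set-up.
-/

set_option autoImplicit false
set_option linter.unusedSectionVars false

namespace Cfsg.Agent.L5.R
open Finset Matrix
open Subgroup (normalizer)
open Cfsg.Agent.L4.R (Dg tr)

variable {P k : Type*} [Group P] [Field k] {ρ : P →* M5 k} {U H : Subgroup P} {p r : ℕ}

/-- An elementary abelian Sylow subgroup with trivial intersections and a complement in its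
normaliser. -/
structure Gx (p r : ℕ) (U H : Subgroup P) : Prop where
  card : Nat.card U = p ^ r
  pos : 0 < r
  syl : ¬ p ∣ U.index
  comm : ∀ u ∈ U, ∀ v ∈ U, u * v = v * u
  exp : ∀ u ∈ U, u ^ p = 1
  ti : ∀ g : P, ∀ u ∈ U, u ≠ 1 → g * u * g⁻¹ ∈ U → g ∈ normalizer (U : Set P)
  cop : ¬ p ∣ Nat.card H
  le : H ≤ normalizer (U : Set P)
  fac : ∀ n ∈ normalizer (U : Set P), ∃ u ∈ U, ∃ h ∈ H, n = u * h

/-- The conjugate representation. -/
def cj {B B' : M5 k} (h : B * B' = 1) (ρ : P →* M5 k) : P →* M5 k where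
  toFun g := B' * ρ g * B
  map_one' := by rw [map_one, mul_one, mul_eq_one_comm.1 h]
  map_mul' g g' := by
    simp only [map_mul, mul_assoc]; rw [← mul_assoc B, h, one_mul]

theorem cj_apply {B B' : M5 k} (h : B * B' = 1) (g : P) : cj h ρ g = B' * ρ g * B := rfl

theorem cj_back {B B' : M5 k} (h : B * B' = 1) (g : P) : ρ g = B * cj h ρ g * B' := by
  simp only [cj_apply, mul_assoc, h, mul_one]; rw [← mul_assoc, h, one_mul]

theorem cj_of {B B' C : M5 k} (h : B * B' = 1) {g : P} (e : ρ g * B = B * C) : cj h ρ g = C := by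
  rw [cj_apply, mul_assoc, e, ← mul_assoc, mul_eq_one_comm.1 h, one_mul]

theorem cj_mul {B B' : M5 k} (h : B * B' = 1) (g : P) : ρ g * B = B * cj h ρ g := by
  rw [cj_apply, ← mul_assoc, ← mul_assoc, h, one_mul]

theorem cj_trace {B B' : M5 k} (h : B * B' = 1) (g : P) : (cj h ρ g).trace = (ρ g).trace := by
  rw [cj_apply, trace_mul_comm, ← mul_assoc, h, one_mul]

theorem cj_sub {B B' : M5 k} (h : B * B' = 1) (g : P) : cj h ρ g - 1 = B' * (ρ g - 1) * B := by
  rw [mul_sub, sub_mul, mul_one, mul_eq_one_comm.1 h, cj_apply]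

theorem cj_pow {B B' : M5 k} (h : B * B' = 1) (g : P) (n : ℕ) :
    (cj h ρ g - 1) ^ n = B' * (ρ g - 1) ^ n * B := by
  induction n with
  | zero => simp [mul_eq_one_comm.1 h]
  | succ n ih =>
    rw [pow_succ, ih, cj_sub, pow_succ]
    simp only [mul_assoc]; rw [← mul_assoc B, h, one_mul]

theorem cj_zero {B B' X : M5 k} (h : B * B' = 1) : B' * X * B = 0 ↔ X = 0 :=
  ⟨fun e => by
    have := congrArg (fun Y => B * Y * B') e
    simp only [mul_assoc, h, mul_one, mul_zero, zero_mul] at this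
    rwa [← mul_assoc, h, one_mul] at this, fun e => by simp [e]⟩

theorem cj_pow_eq {B B' : M5 k} (h : B * B' = 1) (g : P) (n : ℕ) :
    (cj h ρ g - 1) ^ n = 0 ↔ (ρ g - 1) ^ n = 0 := by rw [cj_pow, cj_zero h]

/-- The dual representation. -/
def dl (ρ : P →* M5 k) : P →* M5 k where
  toFun g := (ρ g⁻¹)ᵀ
  map_one' := by simp
  map_mul' g g' := by simp

theorem dl_apply (g : P) : dl ρ g = (ρ g⁻¹)ᵀ := rfl

theorem dl_trace (g : P) : (dl ρ g).trace = (ρ g⁻¹).trace := trace_transpose _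

theorem dl_pow_eq (g : P) (n : ℕ) : (dl ρ g - 1) ^ n = 0 ↔ (ρ g⁻¹ - 1) ^ n = 0 := by
  rw [dl_apply, ← transpose_eq_zero, transpose_pow, transpose_sub, transpose_transpose, transpose_one]

theorem _root_.Cfsg.Agent.L5.Hy0.cj (h : Hy0 ρ) {B B' : M5 k} (hB : B * B' = 1) : Hy0 (cj hB ρ) where
  inj g g' e := h.inj (by rw [cj_back hB g, e, ← cj_back])
  det g := by rw [cj_apply, det_mul, det_mul, h.det, mul_one, mul_comm, ← det_mul, hB, det_one]
  perf := h.perf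
  simp := h.simp
  irr X hX := L4.R.irr_cj (σ := fun g x => ρ g *ᵥ x) B.mulVecLin B'.mulVecLin
    (fun x => by simp [hB]) (fun x => by simp [mul_eq_one_comm.1 hB]) h.irr X fun g x hx => by
      simpa [cj_apply, mul_assoc] using hX g x hx

theorem _root_.Cfsg.Agent.L5.Hy0.dl (h : Hy0 ρ) : Hy0 (dl ρ) where
  inj g g' e := inv_injective (h.inj (transpose_injective e))
  det g := by rw [dl_apply, det_transpose, h.det]
  perf := h.perf
  simp := h.simp
  irr := L4.R.irr_adj (σ := fun g x => ρ g⁻¹ *ᵥ x) (fun g x y => by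
    rw [dl_apply, mulVec_transpose, dotProduct_mulVec]) fun X hX => h.irr X fun g => by
      simpa using hX g⁻¹

theorem _root_.Cfsg.Agent.L5.Hy.cj (h : Hy ρ) {B B' : M5 k} (hB : B * B' = 1) : Hy (cj hB ρ) :=
  ⟨h.toHy0.cj hB, by simpa only [cj_trace] using h.nsd⟩

theorem _root_.Cfsg.Agent.L5.Hy.dl (h : Hy ρ) : Hy (dl ρ) :=
  ⟨h.toHy0.dl, by
    obtain ⟨g, e⟩ := h.nsd
    exact ⟨g, by simpa only [dl_trace, inv_inv] using e.symm⟩⟩

theorem _root_.Cfsg.Agent.L5.NoS.cj (h : NoS ρ) {B B' : M5 k} (hB : B * B' = 1) : NoS (cj hB ρ) :=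
  fun g e => h g (by rw [← sq] at e ⊢; exact (cj_pow_eq hB g 2).1 e)

theorem _root_.Cfsg.Agent.L5.NoS.dl (h : NoS ρ) : NoS (dl ρ) :=
  fun g e => inv_eq_one.1 (h _ (by rw [← sq] at e ⊢; exact (dl_pow_eq g 2).1 e))

/-- Irreducibility for row vectors. -/
theorem irr_row (h : Hy0 ρ) (X : Submodule k (Fin 5 → k)) (hX : ∀ g, ∀ x ∈ X, x ᵥ* ρ g ∈ X) :
    X = ⊥ ∨ X = ⊤ := h.dl.irr X fun g x hx => by
  rw [dl_apply, mulVec_transpose]; exact hX _ x hx

/-- All left translates have degree less than `n`. -/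
def DgA (U : Subgroup P) (n : ℕ) (f : P → k) : Prop := ∀ y, Dg U n fun g => f (y * g)

namespace DgA
variable {m n : ℕ} {f f' : P → k}

theorem dg (h : DgA U n f) : Dg U n f := (h 1).congr fun g => by rw [one_mul]

theorem congr (h : DgA U n f) (e : ∀ g, f' g = f g) : DgA U n f' := (funext e : f' = f) ▸ h

theorem mono (h : DgA U m f) (e : m ≤ n) : DgA U n f := fun y => (h y).mono e

theorem const (c : k) : DgA U 1 fun _ => c := fun _ => L4.R.Dg.const c

theorem add (h : DgA U n f) (h' : DgA U n f') : DgA U n fun g => f g + f' g :=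
  fun y => (h y).add (h' y)

theorem sub (h : DgA U n f) (h' : DgA U n f') : DgA U n fun g => f g - f' g :=
  fun y => (h y).sub (h' y)

theorem cmul (c : k) (h : DgA U n f) : DgA U n fun g => c * f g := fun y => (h y).cmul c

theorem mul (h : DgA U (m + 1) f) (h' : DgA U (n + 1) f') : DgA U (m + n + 1) fun g => f g * f' g :=
  fun y => (h y).mul (h' y)

theorem frob (p : ℕ) [ExpChar k p] (i : ℕ) (h : DgA U n f) : DgA U n fun g => f g ^ p ^ i :=
  fun y => (h y).frob p i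

theorem pw (p : ℕ) [ExpChar k p] (h : DgA U (n + 1) f) (l : List ℕ) :
    DgA U (n * l.length + 1) fun g => f g ^ (l.map (p ^ ·)).sum := fun y => (h y).pw p l

theorem pow (h : DgA U (n + 1) f) : ∀ j : ℕ, DgA U (n * j + 1) fun g => f g ^ j
  | 0 => by simpa using const 1
  | j + 1 => by simpa only [pow_succ, mul_add, mul_one] using (pow h j).mul h

theorem prod {ι : Type*} (s : Finset ι) (d : ι → ℕ) (f : ι → P → k)
    (h : ∀ i ∈ s, DgA U (d i + 1) (f i)) : DgA U (∑ i ∈ s, d i + 1) fun g => ∏ i ∈ s, f i g :=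
  fun y => L4.R.Dg.prod s d (fun i g => f i (y * g)) fun i hi => h i hi y

theorem sum {ι : Type*} (s : Finset ι) (f : ι → P → k) (h : ∀ i ∈ s, DgA U n (f i)) :
    DgA U n fun g => ∑ i ∈ s, f i g :=
  fun y => L4.R.Dg.sum s (fun i g => f i (y * g)) fun i hi => h i hi y

theorem right (a : P) (h : DgA U n f) : DgA U n fun g => f (g * a) :=
  fun y => ((h y).right a).congr fun g => by simp only [mul_assoc]

theorem sum_zero [Finite P] [Fact p.Prime] [CharP k p] (c : Gx p r U H) (hn : n ≤ r * (p - 1))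
    (h : DgA U n f) (y g : P) : ∑ᶠ u : U, f (y * (u * g)) = 0 :=
  (h y).sum_zero p c.exp c.card hn g

end DgA

/-- The degree of a matrix coefficient from a level function. -/
theorem dg_row (lv : Fin 5 → ℕ) (hU : ∀ u ∈ U, ∀ i j, lv i ≤ lv j → (ρ u - 1) i j = 0) {m : ℕ}
    {φ : Fin 5 → k} (hm : ∀ j, m ≤ lv j → φ j = 0) (v : Fin 5 → k) :
    Dg U m fun g => φ ⬝ᵥ ρ g *ᵥ v :=
  L4.R.dg_lv lv (fun φ g => φ ⬝ᵥ ρ g *ᵥ v) (fun g => by simp) (fun u hu y => ⟨y ᵥ* (ρ u - 1), fun g => by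
    rw [map_mul, ← mulVec_mulVec, dotProduct_mulVec y (ρ u), vecMul_sub, vecMul_one, sub_dotProduct],
    fun j hj => show ∑ i, y i * (ρ u - 1) i j = 0 from Finset.sum_eq_zero fun i _ => by
      rcases le_or_gt (lv i) (lv j) with e | e
      · rw [hU u hu i j e, mul_zero]
      · rw [hj i e, zero_mul]⟩) hm

theorem dgA_row (lv : Fin 5 → ℕ) (hU : ∀ u ∈ U, ∀ i j, lv i ≤ lv j → (ρ u - 1) i j = 0) {m : ℕ}
    (hm : ∀ j, lv j < m) (φ v : Fin 5 → k) : DgA U m fun g => φ ⬝ᵥ ρ g *ᵥ v := fun y =>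
  (dg_row lv hU (φ := φ ᵥ* ρ y) (fun j e => absurd (hm j) e.not_gt) v).congr fun g => by
    simp only []; rw [map_mul, ← mulVec_mulVec, dotProduct_mulVec]

theorem entry_eq (A : M5 k) (i j : Fin 5) : A i j = Pi.single i 1 ⬝ᵥ A *ᵥ Pi.single j 1 := by simp

theorem dgA_entry (lv : Fin 5 → ℕ) (hU : ∀ u ∈ U, ∀ i j, lv i ≤ lv j → (ρ u - 1) i j = 0) {m : ℕ}
    (hm : ∀ j, lv j < m) (i j : Fin 5) : DgA U m fun g => ρ g i j :=
  (dgA_row lv hU hm _ _).congr fun g => entry_eq _ i j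

theorem dg_entry (lv : Fin 5 → ℕ) (hU : ∀ u ∈ U, ∀ i j, lv i ≤ lv j → (ρ u - 1) i j = 0)
    (i j : Fin 5) : Dg U (lv i + 1) fun g => ρ g i j :=
  (dg_row lv hU (φ := Pi.single i 1) (fun j e => Pi.single_eq_of_ne (by rintro rfl; omega) _) _).congr
    fun g => entry_eq _ i j

theorem avg [Finite P] (hc : (Nat.card H : k) ≠ 0) (S : Submodule k (M5 k))
    (D : M5 k →ₗ[k] M5 k) (hm : ∀ A ∈ S, ∀ B ∈ S, A * B ∈ S)
    (hD : ∀ A ∈ S, ∀ B ∈ S, D (A * B) = D A * D B) (hS : ∀ A ∈ S, D A ∈ S)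
    (hDD : ∀ A, D (D A) = D A) (h1 : D 1 = 1) (hH : ∀ h ∈ H, ρ h ∈ S) :
    ∃ A ∈ S, D A = 1 ∧ ∀ h ∈ H, ρ h * A = A * D (ρ h) := by
  letI := Fintype.ofFinite H
  refine ⟨(Nat.card H : k)⁻¹ • ∑ h : H, ρ h * D (ρ (h : P)⁻¹), S.smul_mem _ (sum_mem fun h _ =>
    hm _ (hH _ h.2) _ (hS _ (hH _ (inv_mem h.2)))), ?_, fun h hh => ?_⟩
  · rw [map_smul, map_sum, Finset.sum_congr rfl (g := fun _ => 1), sum_const, card_univ,
      ← Nat.cast_smul_eq_nsmul k, smul_smul, ← Nat.card_eq_fintype_card, inv_mul_cancel₀ hc, one_smul]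
    intro h _
    rw [hD _ (hH _ h.2) _ (hS _ (hH _ (inv_mem h.2))), hDD, ← hD _ (hH _ h.2) _ (hH _ (inv_mem h.2)),
      ← map_mul, mul_inv_cancel, map_one, h1]
  · rw [mul_smul_comm, smul_mul_assoc, Finset.mul_sum, Finset.sum_mul,
      ← Equiv.sum_comp (Equiv.mulLeft (⟨h, hh⟩ : H)) fun x : H => ρ x * D (ρ (x : P)⁻¹) * D (ρ h)]
    congr 1
    refine sum_congr rfl fun x _ => ?_
    rw [mul_assoc (ρ _), ← hD _ (hH _ (inv_mem (SetLike.coe_mem _))) _ (hH _ hh), ← map_mul]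
    simp [mul_assoc]

/-- The block triangular matrices for the level function `lv`. -/
def Pl (lv : Fin 5 → ℕ) : Submodule k (M5 k) where
  carrier := {A | ∀ i j, lv i < lv j → A i j = 0}
  add_mem' := fun a b i j e => by simp [a i j e, b i j e]
  zero_mem' := fun _ _ _ => rfl
  smul_mem' := fun _ _ a i j e => by simp [a i j e]

/-- The block diagonal part. -/
def Dl (lv : Fin 5 → ℕ) : M5 k →ₗ[k] M5 k where
  toFun A := of fun i j => if lv i = lv j then A i j else 0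
  map_add' A B := by ext i j; by_cases e : lv i = lv j <;> simp [e]
  map_smul' c A := by ext i j; by_cases e : lv i = lv j <;> simp [e]

theorem Dl_apply (lv : Fin 5 → ℕ) (A : M5 k) (i j : Fin 5) :
    Dl lv A i j = if lv i = lv j then A i j else 0 := rfl

theorem Pl_mul {lv : Fin 5 → ℕ} {A B : M5 k} (hA : A ∈ Pl lv) (hB : B ∈ Pl lv) : A * B ∈ Pl lv :=
  fun i j e => show ∑ x, A i x * B x j = 0 from Finset.sum_eq_zero fun x _ => by
    rcases lt_or_ge (lv i) (lv x) with h | h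
    · rw [hA i x h, zero_mul]
    · rcases lt_or_ge (lv x) (lv j) with h' | h'
      · rw [hB x j h', mul_zero]
      · omega

theorem Dl_mul {lv : Fin 5 → ℕ} {A B : M5 k} (hA : A ∈ Pl lv) (hB : B ∈ Pl lv) :
    Dl lv (A * B) = Dl lv A * Dl lv B := by
  ext i j
  simp only [Dl_apply, mul_apply]
  split_ifs with e
  · refine sum_congr rfl fun x _ => ?_
    rcases lt_trichotomy (lv i) (lv x) with h | h | h
    · rw [hA i x h]; simp
    · rw [if_pos h, if_pos (h ▸ e)]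
    · rw [hB x j (e ▸ h)]; simp
  · refine (Finset.sum_eq_zero fun x _ => ?_).symm
    split_ifs with h h'
    · exact absurd (h.trans h') e
    all_goals simp

theorem Dl_mem (lv : Fin 5 → ℕ) (A : M5 k) : Dl lv A ∈ Pl lv :=
  fun i j e => by rw [Dl_apply, if_neg e.ne]

theorem Dl_one (lv : Fin 5 → ℕ) : Dl lv (1 : M5 k) = 1 := by
  ext i j; rw [Dl_apply]; split_ifs with e
  · rfl
  · exact (one_apply_ne (by rintro rfl; exact e rfl)).symm

theorem Pl_inv {lv : Fin 5 → ℕ} {A : M5 k} (hA : A ∈ Pl lv) (h : Dl lv A = 1) :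
    ∃ B ∈ Pl lv, A * B = 1 ∧ Dl lv B = 1 := by
  have h1 : A.BlockTriangular (OrderDual.toDual ∘ lv) := fun i j e => hA i j e
  have h2 : A.det = 1 := by
    rw [h1.det, ← det_one (n := Fin 5), (blockTriangular_one (b := OrderDual.toDual ∘ lv)).det]
    refine prod_congr rfl fun a _ => congrArg det ?_
    ext i j
    have := congrFun (congrFun h i) j
    rw [Dl_apply, if_pos (OrderDual.toDual.injective (i.2.trans j.2.symm))] at this
    exact this
  letI := invertibleOfIsUnitDet A (h2 ▸ isUnit_one)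
  have h3 : A⁻¹ ∈ Pl lv := fun i j e => blockTriangular_inv_of_blockTriangular h1 e
  have h4 := mul_inv_of_invertible A
  exact ⟨_, h3, h4, by have := Dl_mul hA h3; rwa [h4, Dl_one, h, one_mul, eq_comm] at this⟩

/-- Block diagonalisation of the complement. -/
theorem lev [Finite P] [CharP k p] (hc : ¬ p ∣ Nat.card H) (lv : Fin 5 → ℕ)
    (hH : ∀ h ∈ H, ρ h ∈ Pl lv) : ∃ (B B' : M5 k) (hB : B * B' = 1), B ∈ Pl lv ∧ B' ∈ Pl lv ∧
      Dl lv B = 1 ∧ Dl lv B' = 1 ∧ (∀ h ∈ H, cj hB ρ h = Dl lv (ρ h)) ∧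
      ∀ g, ρ g ∈ Pl lv → cj hB ρ g ∈ Pl lv ∧ Dl lv (cj hB ρ g) = Dl lv (ρ g) := by
  obtain ⟨A, hA, e1, e2⟩ := avg (ρ := ρ) (H := H) (fun e => hc ((CharP.cast_eq_zero_iff k p _).1 e))
    (Pl lv) (Dl lv) (fun _ a _ b => Pl_mul a b) (fun _ a _ b => Dl_mul a b) (fun A _ => Dl_mem lv A)
    (fun A => by ext i j; simp only [Dl_apply]; split_ifs <;> rfl) (Dl_one lv) hH
  obtain ⟨B, hB, e3, e4⟩ := Pl_inv hA e1
  refine ⟨A, B, e3, hA, hB, e1, e4, fun h hh => cj_of e3 (e2 h hh), fun g hg =>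
    ⟨Pl_mul (Pl_mul hB hg) hA, ?_⟩⟩
  rw [cj_apply, Dl_mul (Pl_mul hB hg) hA, Dl_mul hB hg, e1, e4, one_mul, mul_one]

/-- A basis as an invertible matrix of columns. -/
theorem cols_inv {v : Fin 5 → Fin 5 → k} (h : ∀ c : Fin 5 → k, ∑ i, c i • v i = 0 → ∀ i, c i = 0) :
    ∃ B' : M5 k, (of v)ᵀ * B' = 1 := by
  have : IsUnit (of v)ᵀ := linearIndependent_cols_iff_isUnit.1 (Fintype.linearIndependent_iff.2 h)
  exact this.exists_right_inv

namespace Gx
variable [Finite P] [hp : Fact p.Prime]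

theorem exists_ne (c : Gx p r U H) : ∃ u ∈ U, u ≠ 1 := by
  have : U ≠ ⊥ := fun e => by
    have := c.card
    rw [e, Subgroup.card_bot] at this
    exact absurd this (Nat.one_lt_pow c.pos.ne' hp.out.one_lt).ne
  obtain ⟨⟨u, hu⟩, h⟩ := Subgroup.ne_bot_iff_exists_ne_one.1 this
  exact ⟨u, hu, fun e => h (Subtype.ext e)⟩

theorem hp' (c : Gx p r U H) (g : P) (u : P) (hu : u ∈ U) (h : g * u * g⁻¹ ∈ normalizer (U : Set P)) :
    g * u * g⁻¹ ∈ U := L4.R.mem_of_norm c.syl (by rw [conj_pow, c.exp u hu]; simp) h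

/-- The transfer lemma. -/
theorem tt (c : Gx p r U H) {f : P → k} (hf : ∀ g, ∀ n ∈ normalizer (U : Set P), f (g * n) = f g)
    (hz : ∀ g, ∑ᶠ u : U, f (u * g) = 0) : tr (normalizer (U : Set P)) f = f 1 :=
  L4.R.tr_eq c.ti c.hp' hf hz

theorem const (c : Gx p r U H) {f : P → k} (hf : ∀ g, ∀ n ∈ normalizer (U : Set P), f (g * n) = f g)
    (hz : ∀ a g, ∑ᶠ u : U, f (a * (u * g)) = 0) (a : P) : f a = f 1 :=
  L4.R.const_of c.ti c.hp' hf hz a

omit [Finite P] hp in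
theorem conj (c : Gx p r U H) {h u : P} (hh : h ∈ H) (hu : u ∈ U) : h * u * h⁻¹ ∈ U :=
  (c.le hh u).1 hu

omit [Finite P] hp in
theorem conj' (c : Gx p r U H) {h u : P} (hh : h ∈ H) (hu : u ∈ U) : h⁻¹ * u * h ∈ U := by
  simpa using c.conj (inv_mem hh) hu

omit [Finite P] hp in
theorem card_ne [CharP k p] (c : Gx p r U H) : (Nat.card H : k) ≠ 0 :=
  fun e => c.cop ((CharP.cast_eq_zero_iff k p _).1 e)

omit [Finite P] hp in
theorem card_zero [CharP k p] (c : Gx p r U H) : (Nat.card U : k) = 0 := by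
  rw [c.card, Nat.cast_pow, CharP.cast_eq_zero, zero_pow c.pos.ne']

end Gx

end Cfsg.Agent.L5.R
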