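import Cfsg.Agent.L5.RA

/-!
Further tools: minors, constant functions, stabilisers of flags, weights.
-/

set_option autoImplicit false
set_option linter.unusedSectionVars false

namespace Cfsg.Agent.L5.R
open Finset Matrix
open Subgroup (normalizer)
open Cfsg.Agent.L4.R (Dg tr)

variable {P k : Type*} [Group P] [Field k] {ρ : P →* M5 k} {U H : Subgroup P} {p r : ℕ}

theorem mul_ent {A B : M5 k} {i j : Fin 5} (h : ∀ x, A i x * B x j = 0) : (A * B) i j = 0 :=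
  show ∑ x, A i x * B x j = 0 from sum_eq_zero fun x _ => h x

theorem dg_alt (lv : Fin 5 → ℕ) (hU : ∀ u ∈ U, ∀ i j, lv i ≤ lv j → (ρ u - 1) i j = 0) {lo m : ℕ}
    (hlo : ∀ a b, a ≠ b → lo ≤ lv a + lv b) {Y : M5 k} (hY : ∀ v, v ⬝ᵥ Y *ᵥ v = 0)
    (hm : ∀ a b, a ≠ b → lo + m ≤ lv a + lv b → Y a b = 0) (s t : Fin 5 → k) :
    Dg U m fun g => (ρ g *ᵥ s) ⬝ᵥ Y *ᵥ (ρ g *ᵥ t) := by
  have dz : ∀ {Y : M5 k}, (∀ v, v ⬝ᵥ Y *ᵥ v = 0) → ∀ a, Y a a = 0 := fun {Y} h a => by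
    rw [entry_eq Y a a, h]
  refine L4.R.dg_of_filt (fun Y g => (ρ g *ᵥ s) ⬝ᵥ Y *ᵥ (ρ g *ᵥ t))
    (fun i => {Y | (∀ v, v ⬝ᵥ Y *ᵥ v = 0) ∧ ∀ a b, lo + i ≤ lv a + lv b → Y a b = 0})
    (fun Y hY g => ?_) (fun i Y hY u hu => ⟨(ρ u)ᵀ * Y * ρ u - Y, ⟨fun v => ?_, fun a b e => ?_⟩,
      fun g => ?_⟩) m Y ⟨hY, fun a b e => ?_⟩
  · rw [show Y = 0 from Matrix.ext fun a b => by
      by_cases e : a = b
      · exact e ▸ dz hY.1 a
      · exact hY.2 a b (hlo a b e)]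
    simp
  · rw [sub_mulVec, dotProduct_sub, hY.1, ← mulVec_mulVec, ← mulVec_mulVec, mulVec_transpose,
      dotProduct_comm, ← dotProduct_mulVec, dotProduct_comm, hY.1, sub_self]
  · obtain ⟨n, hn⟩ : ∃ n, ρ u = n + 1 := ⟨ρ u - 1, by simp⟩
    have h1 : ∀ i j, lv i ≤ lv j → n i j = 0 := by simpa [hn] using hU u hu
    have h2 : ∀ c, lo + i ≤ lv c + lv b → (Y * n) c b = 0 := fun c e => mul_ent fun d => by
      rcases le_or_gt (lv d) (lv b) with e' | e'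
      · rw [h1 d b e', mul_zero]
      · rw [hY.2 c d (by omega), zero_mul]
    have h3 : (nᵀ * (Y * n + Y)) a b = 0 := mul_ent fun c => by
      rcases le_or_gt (lv c) (lv a) with e' | e'
      · rw [transpose_apply, h1 c a e', zero_mul]
      · rw [Matrix.add_apply, h2 c (by omega), hY.2 c b (by omega), add_zero, mul_zero]
    rw [show (ρ u)ᵀ * Y * ρ u - Y = nᵀ * (Y * n + Y) + Y * n by
      rw [hn, transpose_add, transpose_one]; noncomm_ring, Matrix.add_apply, h3, h2 a e, add_zero]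
  · simp only [map_mul, ← mulVec_mulVec, sub_mulVec, dotProduct_sub, mulVec_transpose]
    rw [dotProduct_comm _ (_ ᵥ* _), ← dotProduct_mulVec, dotProduct_comm]
  · by_cases e' : a = b
    · exact e' ▸ dz hY a
    · exact hm a b e' e

/-- The degree of a minor of size two. -/
theorem dgA_minor (lv : Fin 5 → ℕ) (hU : ∀ u ∈ U, ∀ i j, lv i ≤ lv j → (ρ u - 1) i j = 0) {lo m : ℕ}
    (hlo : ∀ a b, a ≠ b → lo ≤ lv a + lv b) (hm : ∀ a b, a ≠ b → lv a + lv b < lo + m)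
    (φ ψ s t : Fin 5 → k) : DgA U m fun g =>
      (φ ⬝ᵥ ρ g *ᵥ s) * (ψ ⬝ᵥ ρ g *ᵥ t) - (ψ ⬝ᵥ ρ g *ᵥ s) * (φ ⬝ᵥ ρ g *ᵥ t) := fun y => by
  have e : ∀ a b x z : Fin 5 → k, x ⬝ᵥ (vecMulVec a b - vecMulVec b a) *ᵥ z =
      (a ⬝ᵥ x) * (b ⬝ᵥ z) - (b ⬝ᵥ x) * (a ⬝ᵥ z) := fun a b x z => by
    simp only [sub_mulVec, vecMulVec_mulVec, dotProduct_sub, dotProduct_smul, op_smul_eq_smul,
      smul_eq_mul]
    rw [dotProduct_comm x, dotProduct_comm x]
    ring
  refine (dg_alt lv hU hlo (Y := vecMulVec (φ ᵥ* ρ y) (ψ ᵥ* ρ y) - vecMulVec (ψ ᵥ* ρ y) (φ ᵥ* ρ y))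
    (fun v => by rw [e]; ring) (fun a b h h' => absurd (hm a b h) h'.not_gt) s t).congr fun g => ?_
  simp only [e, map_mul, ← mulVec_mulVec, dotProduct_mulVec _ (ρ y)]

theorem dgA_min (lv : Fin 5 → ℕ) (hU : ∀ u ∈ U, ∀ i j, lv i ≤ lv j → (ρ u - 1) i j = 0) {lo m : ℕ}
    (hlo : ∀ a b, a ≠ b → lo ≤ lv a + lv b) (hm : ∀ a b, a ≠ b → lv a + lv b < lo + m)
    (a b c d : Fin 5) : DgA U m fun g => ρ g a c * ρ g b d - ρ g b c * ρ g a d :=
  (dgA_minor lv hU hlo hm (Pi.single a 1) (Pi.single b 1) (Pi.single c 1) (Pi.single d 1)).congr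
    fun g => by simp only [← entry_eq]

theorem dl_lv (lv : Fin 5 → ℕ) (hU : ∀ u ∈ U, ∀ i j, lv i ≤ lv j → (ρ u - 1) i j = 0) {m : ℕ}
    (hm : ∀ i, lv i ≤ m) : ∀ u ∈ U, ∀ i j, m - lv i ≤ m - lv j → (dl ρ u - 1) i j = 0 :=
  fun u hu i j e => by
    have := hU _ (inv_mem hu) j i (by have := hm i; have := hm j; omega)
    simpa only [dl_apply, Matrix.sub_apply, transpose_apply, one_apply, eq_comm] using this

theorem col_ne (h : Hy0 ρ) (i j : Fin 5) : ∃ g, ρ g i j ≠ 0 := by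
  by_contra! e
  simpa using van h (fun φ g => φ ⬝ᵥ ρ g *ᵥ Pi.single j 1) (fun _ _ _ => add_dotProduct ..)
    (fun c φ g e => by rw [smul_dotProduct, e, smul_zero])
    (fun g φ g' => ⟨g * g', by rw [map_mul, ← mulVec_mulVec, dotProduct_mulVec φ]⟩)
    (s := Pi.single i 1) (by simp) (fun g => by rw [← entry_eq, e]) (Pi.single j 1) 1

theorem pow_eq_self_nat [hp : Fact p.Prime] [CharP k p] {x : k} (h : x ^ p = x) : ∃ c : ℕ, x = c := by
  obtain ⟨c, e⟩ : x ∈ (ZMod.castHom (dvd_refl p) k).fieldRange :=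
    bot_le (α := Subfield k) ((Subfield.mem_bot_iff_pow_eq_self k p).2 h)
  exact ⟨c.val, by rw [← e, ZMod.castHom_apply, ZMod.natCast_val]⟩

theorem add_pow' {a : P → k} (ha : ∀ u ∈ U, ∀ v ∈ U, a (u * v) = a u + a v) {u : P} (hu : u ∈ U)
    (c : ℕ) : a (u ^ c) = c * a u := by
  induction c with
  | zero => simpa using ha 1 (one_mem _) 1 (one_mem _)
  | succ c ih => rw [pow_succ, ha _ (pow_mem hu c) _ hu, ih]; push_cast; ring

theorem conj_pow' {a : P → k} {g : P} {l : k} (hg : ∀ u ∈ U, g * u * g⁻¹ ∈ U)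
    (hl : ∀ u ∈ U, a (g * u * g⁻¹) = l * a u) {u : P} (hu : u ∈ U) (j : ℕ) :
    g ^ j * u * (g ^ j)⁻¹ ∈ U ∧ a (g ^ j * u * (g ^ j)⁻¹) = l ^ j * a u := by
  induction j with
  | zero => simpa using hu
  | succ j ih =>
    rw [show g ^ (j + 1) * u * (g ^ (j + 1))⁻¹ = g * (g ^ j * u * (g ^ j)⁻¹) * g⁻¹ by group]
    exact ⟨hg _ ih.1, by rw [hl _ ih.1, ih.2]; ring⟩

/-- Relations between two weights of `U`, one of them faithful. -/
theorem wt_rel {a x : P → k} (ha : ∀ u ∈ U, ∀ v ∈ U, a (u * v) = a u + a v)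
    (hi : ∀ u ∈ U, a u = 0 → u = 1) (hx : ∀ u ∈ U, ∀ v ∈ U, x (u * v) = x u + x v)
    (h0 : ∃ u ∈ U, x u ≠ 0) {g : P} {l m : k} (hg : ∀ u ∈ U, g * u * g⁻¹ ∈ U)
    (hl : ∀ u ∈ U, a (g * u * g⁻¹) = l * a u) (hm : ∀ u ∈ U, x (g * u * g⁻¹) = m * x u) {j c : ℕ}
    (e : l ^ j = c) : m ^ j = c := by
  obtain ⟨u, hu, h0⟩ := h0
  obtain ⟨h1, h2⟩ := conj_pow' hg hl hu j
  have h3 := (conj_pow' hg hm hu j).2
  have h4 := mul_mem h1 (inv_mem (pow_mem hu c))
  have h5 := ha _ h4 _ (pow_mem hu c)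
  rw [inv_mul_cancel_right, h2, add_pow' ha hu, e, right_eq_add] at h5
  rw [mul_inv_eq_one.1 (hi _ h4 h5), add_pow' hx hu] at h3
  exact (mul_right_cancel₀ h0 h3).symm

/-- A scalar stabilising a finite set of scalars. -/
theorem root_of {A : Set k} (hA : A.Finite) (h0 : 0 ∈ A) {l : k} (l0 : l ≠ 0)
    (h : ∀ a ∈ A, l * a ∈ A) : l ^ (A.ncard - 1) = 1 := by
  classical
  have h1 : ∀ a ∈ hA.toFinset.erase 0, l * a ∈ hA.toFinset.erase 0 := fun a ha => by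
    simp only [mem_erase, Set.Finite.mem_toFinset] at ha ⊢
    exact ⟨mul_ne_zero l0 ha.1, h a ha.2⟩
  have h2 := Finset.prod_nbij (l * ·) h1 (mul_right_injective₀ l0).injOn
    (Finset.surjOn_of_injOn_of_card_le _ h1 (mul_right_injective₀ l0).injOn le_rfl)
    (f := fun a => l * a) (g := fun a => a) fun _ _ => rfl
  rw [prod_mul_distrib, prod_const, card_erase_of_mem (by simpa using h0),
    ← Set.ncard_eq_toFinset_card A hA] at h2
  exact (mul_eq_right₀ (prod_ne_zero_iff.2 fun a ha => (mem_erase.1 ha).1)).1 h2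

variable [Finite P]

/-- The kernel of an additive function. -/
def kr (U : Subgroup P) (a : P → k) (ha : ∀ u ∈ U, ∀ v ∈ U, a (u * v) = a u + a v) : Subgroup P :=
  L4.R.fsub (fun u => u ∈ U ∧ a u = 0) ⟨one_mem _, by simpa using ha 1 (one_mem _) 1 (one_mem _)⟩
    fun x y hx hy => ⟨mul_mem hx.1 hy.1, by rw [ha x hx.1 y hy.1, hx.2, hy.2, add_zero]⟩

theorem mem_kr {a : P → k} {ha : ∀ u ∈ U, ∀ v ∈ U, a (u * v) = a u + a v} {u : P} :
    u ∈ kr U a ha ↔ u ∈ U ∧ a u = 0 := Iff.rfl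

/-- The order of a weight of `U`. -/
theorem wt_root {a : P → k} (ha : ∀ u ∈ U, ∀ v ∈ U, a (u * v) = a u + a v) {g : P} {l : k}
    (l0 : l ≠ 0) (hg : ∀ u ∈ U, g * u * g⁻¹ ∈ U) (hl : ∀ u ∈ U, a (g * u * g⁻¹) = l * a u) {m : ℕ}
    (hm : m * Nat.card (kr U a ha) = Nat.card U) : l ^ (m - 1) = 1 := by
  let χ : U →* Multiplicative k := MonoidHom.mk' (fun u => Multiplicative.ofAdd (a u))
    fun u v => congrArg Multiplicative.ofAdd (ha _ u.2 _ v.2)
  have h1 : Nat.card χ.ker = Nat.card (kr U a ha) := by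
    rw [← Subgroup.card_subtype]
    congr 2; ext x
    exact ⟨fun ⟨y, h, e⟩ => e ▸ ⟨y.2, h⟩, fun h => ⟨⟨x, h.1⟩, h.2, rfl⟩⟩
  have h2 := root_of (A := a '' U) (Set.toFinite _) ⟨1, one_mem _, by
    simpa using ha 1 (one_mem _) 1 (one_mem _)⟩ l0 (by
      rintro _ ⟨u, hu, rfl⟩; exact ⟨_, hg u hu, hl u hu⟩)
  have h3 : Nat.card χ.range = (a '' U).ncard := by
    rw [← Nat.card_coe_set_eq]
    exact Nat.card_congr (Equiv.subtypeEquiv Multiplicative.toAdd fun x =>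
      ⟨fun ⟨y, e⟩ => ⟨y, y.2, congrArg Multiplicative.toAdd e⟩, fun ⟨y, h, e⟩ => ⟨⟨y, h⟩, e⟩⟩)
  have h4 := χ.ker.index_mul_card
  rw [Subgroup.index_ker, h1, h3, ← hm] at h4
  rwa [← mul_right_cancel₀ Nat.card_pos.ne' h4]

theorem wt_root' {a : P → k} (ha : ∀ u ∈ U, ∀ v ∈ U, a (u * v) = a u + a v)
    (hi : ∀ u ∈ U, a u = 0 → u = 1) {g : P} {l : k} (l0 : l ≠ 0) (hg : ∀ u ∈ U, g * u * g⁻¹ ∈ U)
    (hl : ∀ u ∈ U, a (g * u * g⁻¹) = l * a u) : l ^ (Nat.card U - 1) = 1 :=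
  wt_root ha l0 hg hl (by
    rw [show kr U a ha = ⊥ from eq_bot_iff.2 fun u hu => hi u hu.1 hu.2, Subgroup.card_bot, mul_one])

variable [hp : Fact p.Prime]

omit [Finite P] hp in
/-- Signs for at least four atoms. -/
theorem signs (h5 : ¬ 5 ∣ p) (s : ℕ) : ∀ L : List ℕ, 4 ≤ L.length → ∃ l l' : List ℕ,
    l.length + l'.length = L.length ∧ (l.map (p ^ ·)).sum + (l'.map (p ^ ·)).sum = (L.map (p ^ ·)).sum ∧
    ((l.map (p ^ ·)).sum + s) % 5 = (l'.map (p ^ ·)).sum % 5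
  | a :: b :: c :: d :: L, _ => by
    have h1 : ∀ j, ¬ 5 ∣ p ^ j := fun j e => h5 (Nat.prime_five.dvd_of_dvd_pow e)
    have key : ∀ x y z w t : Fin 5, x ≠ 0 → y ≠ 0 → z ≠ 0 → w ≠ 0 → ∃ i j m n : Bool,
        ((bif i then x.1 else 0) + (bif j then y.1 else 0) + (bif m then z.1 else 0) +
          (bif n then w.1 else 0) + t.1) % 5 = ((bif i then 0 else x.1) + (bif j then 0 else y.1) +
          (bif m then 0 else z.1) + (bif n then 0 else w.1)) % 5 := by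
      intro x y; fin_cases x <;> fin_cases y <;> decide +kernel
    have e : ∀ j, (⟨p ^ j % 5, Nat.mod_lt _ (by omega)⟩ : Fin 5) ≠ 0 := fun j e =>
      h1 j (Nat.dvd_of_mod_eq_zero (congrArg Fin.val e))
    obtain ⟨i, j, m, n, h⟩ := key _ _ _ _ ⟨((L.map (p ^ ·)).sum + s) % 5, Nat.mod_lt _ (by omega)⟩
      (e a) (e b) (e c) (e d)
    refine ⟨(bif i then [a] else []) ++ (bif j then [b] else []) ++ (bif m then [c] else []) ++
      (bif n then [d] else []) ++ L, (bif i then [] else [a]) ++ (bif j then [] else [b]) ++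
      (bif m then [] else [c]) ++ (bif n then [] else [d]), ?_⟩
    cases i <;> cases j <;> cases m <;> cases n <;> simp at h ⊢ <;> omega

omit [Finite P] in
theorem geom (r : ℕ) : ((List.range r).map (p ^ ·)).sum * (p - 1) = p ^ r - 1 := by
  induction r with
  | zero => simp
  | succ r ih =>
    have := Nat.one_le_pow r p hp.out.pos
    have h2 := Nat.le_mul_of_pos_right (p ^ r) hp.out.pos
    rw [List.range_succ, List.map_append, List.sum_append, add_mul, ih, pow_succ]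
    simp only [List.map_cons, List.map_nil, List.sum_cons, List.sum_nil, add_zero, Nat.mul_sub, mul_one]
    omega

variable [CharP k p]

/-- A product of small degree. -/
theorem KC (c : Gx p r U H) {m n : ℕ} {f R : P → k} (hf : DgA U (m + 1) f) (hR : DgA U (n + 1) R)
    (hD : m + n < r * (p - 1)) (hN : ∀ x ∈ normalizer (U : Set P), ∃ μ ν : k, μ * ν = 1 ∧
      (∀ g, f (g * x) = μ * f g) ∧ ∀ g, R (g * x) = ν * R g) (f1 : f 1 = 0) (R1 : R 1 ≠ 0) (g : P) :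
    f g = 0 := by
  have hR' : DgA U (n + 1) fun x => R (g⁻¹ * x) := fun y =>
    (hR (g⁻¹ * y)).congr fun x => by simp only [mul_assoc]
  have := c.const (f := fun x => f x * R (g⁻¹ * x)) (fun y x hx => by
    obtain ⟨μ, ν, e, e1, e2⟩ := hN x hx
    rw [← mul_assoc, e1, e2]; linear_combination f y * R (g⁻¹ * y) * e)
    ((hf.mul hR').sum_zero c hD) g
  simpa [f1, R1] using this

/-- The stabiliser of a flag on whose factors `U` is trivial. -/
theorem stab (inj : Function.Injective ρ) (hs : ¬ p ∣ U.index) (lv : Fin 5 → ℕ)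
    (hU : ∀ u ∈ U, ∀ i j, lv i ≤ lv j → (ρ u - 1) i j = 0) :
    (∀ g, ρ g ∈ Pl lv → Dl lv (ρ g) = 1 → g ∈ U) ∧
      ∀ g, ρ g ∈ Pl lv → g ∈ normalizer (U : Set P) := by
  have h0 : ∀ A : M5 k, (∀ i j, lv i ≤ lv j → (A - 1) i j = 0) ↔ A ∈ Pl lv ∧ Dl lv A = 1 := fun A =>
    ⟨fun h => ⟨fun i j e => by
      simpa [one_apply_ne (show i ≠ j by rintro rfl; omega)] using h i j e.le, by
      rw [← Dl_one lv]; ext i j; simp only [Dl_apply]; split_ifs with e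
      exacts [sub_eq_zero.1 (h i j e.le), rfl]⟩, fun h i j e => by
      rcases e.lt_or_eq with e | e
      · simpa [one_apply_ne (show i ≠ j by rintro rfl; omega)] using h.1 i j e
      · have := congrFun (congrFun h.2 i) j
        rw [Dl_apply, if_pos e] at this
        exact sub_eq_zero.2 this⟩
  let Q : Subgroup P := L4.R.fsub (fun g => ρ g ∈ Pl lv ∧ Dl lv (ρ g) = 1)
    ((h0 _).1 (by simp)) fun a b ha hb => ⟨by rw [map_mul]; exact Pl_mul ha.1 hb.1, by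
      rw [map_mul, Dl_mul ha.1 hb.1, ha.2, hb.2, mul_one]⟩
  have h1 : U ≤ Q := fun u hu => (h0 _).1 (hU u hu)
  have h2 : IsPGroup p Q := fun g => by
    have e := (h0 _).2 g.2
    have : ∀ m i j, lv i < lv j + m → ((ρ g - 1) ^ m) i j = 0 := fun m => by
      induction m with
      | zero => intro i j h; rw [pow_zero]; exact one_apply_ne (by rintro rfl; omega)
      | succ m ih =>
        intro i j h
        rw [pow_succ]
        refine mul_ent fun x => ?_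
        rcases le_or_gt (lv x) (lv j) with h' | h'
        · rw [e x j h', mul_zero]
        · rw [ih i x (by omega), zero_mul]
    refine ⟨univ.sup lv, Subtype.ext (inj ?_)⟩
    rw [Subgroup.coe_pow, map_pow, OneMemClass.coe_one, map_one, ← sub_eq_zero, ← one_pow (p ^ _),
      ← sub_pow_char_pow_of_commute p _ (Commute.one_right _)]
    ext i j
    have h3 := le_sup (f := lv) (mem_univ i)
    have h4 := Nat.lt_pow_self (n := univ.sup lv) hp.out.one_lt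
    exact this _ i j (by omega)
  have h3 : Q ≤ U := by
    obtain ⟨n, hn⟩ := h2.index (U.subgroupOf Q)
    rcases n with _ | n
    · exact Subgroup.subgroupOf_eq_top.1 (Subgroup.index_eq_one.1 hn)
    · exact absurd (((dvd_pow_self p n.succ_ne_zero).trans (dvd_of_eq hn.symm)).trans
        (Subgroup.relIndex_dvd_index_of_le h1)) hs
  refine ⟨fun g a b => h3 ⟨a, b⟩, fun g hg => ?_⟩
  have h4 : ρ g⁻¹ ∈ Pl lv := inv_mem (s := L4.R.fsub (fun g => ρ g ∈ Pl lv) ((h0 _).1 (by simp)).1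
    fun a b ha hb => by rw [map_mul]; exact Pl_mul ha hb) hg
  refine Subgroup.mem_normalizer_fintype fun u hu => h3 ⟨?_, ?_⟩
  · rw [map_mul, map_mul]; exact Pl_mul (Pl_mul hg (h1 hu).1) h4
  · rw [map_mul ρ, map_mul ρ, Dl_mul (Pl_mul hg (h1 hu).1) h4, Dl_mul hg (h1 hu).1, (h1 hu).2, mul_one,
      ← Dl_mul hg h4, ← map_mul ρ, mul_inv_cancel, map_one, Dl_one]

omit hp [CharP k p] in
/-- Burnside's theorem for an abelian subgroup controlling its `l`-elements. -/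
theorem BU2 [IsAlgClosed k] (h : Hy0 ρ) {l : ℕ} [Fact l.Prime] (hA : ∀ a ∈ H, ∀ b ∈ H, a * b = b * a)
    {x : P} (hx : x ∈ H) {j : ℕ} (hj : x ^ l ^ j = 1) (hc : ∀ g, g * x * g⁻¹ ∈ H → g ∈ H) : x = 1 := by
  obtain ⟨Q, hQ⟩ := (IsPGroup.of_card (G := Subgroup.zpowers x) (n := _) (by
    rw [Nat.card_zpowers]
    exact ((Nat.dvd_prime_pow (Fact.out : l.Prime)).1 (orderOf_dvd_of_pow_eq_one hj)).choose_spec.2
    )).exists_le_sylow
  have h1 : x ∈ (Q : Subgroup P) := hQ (Subgroup.mem_zpowers x)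
  have h2 : (Q : Subgroup P) ≤ H := by
    have := Q.isPGroup'.isNilpotent
    have h6 := Group.normalizerCondition_of_isNilpotent (G := Q)
    rw [normalizerCondition_iff_only_full_group_self_normalizing] at h6
    refine Subgroup.subgroupOf_eq_top.1 (h6 _ (le_antisymm (fun y hy => ?_) Subgroup.le_normalizer))
    exact hc y ((hy ⟨x, h1⟩).1 hx)
  have := BU h Q fun g hg y hy => hA _ (h2 hy) _ (hc g (h2 ((hg x).1 h1)))
  exact (Subgroup.mem_bot).1 (this ▸ h1)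

end Cfsg.Agent.L5.R
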