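import Mathlib

/-!
Arithmetic of Frobenius twisted weights.
-/

set_option autoImplicit false

namespace Cfsg.Agent.L5.Ra

/-- the exponent belonging to a list of twists -/
def sm (p : ℕ) (l : List ℕ) : ℕ := (l.map (p ^ ·)).sum

/-- `1 + p + ⋯ + p ^ (r - 1)` -/
def SS (p r : ℕ) : ℕ := sm p (List.range r)

variable {p r : ℕ}

theorem sm_nil : sm p [] = 0 := rfl
theorem sm_cons (a : ℕ) (l : List ℕ) : sm p (a :: l) = p ^ a + sm p l := by simp [sm]
theorem sm_append (l l' : List ℕ) : sm p (l ++ l') = sm p l + sm p l' := by simp [sm]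
theorem sm_map (c : ℕ) (l : List ℕ) : sm p (l.map (· + c)) = p ^ c * sm p l := by
  induction l with
  | nil => simp [sm]
  | cons a l ih => rw [List.map_cons, sm_cons, sm_cons, ih]; ring
theorem sm_perm {l l' : List ℕ} (h : l.Perm l') : sm p l = sm p l' := (h.map _).sum_eq
theorem SS_succ (r : ℕ) : SS p (r + 1) = SS p r + p ^ r := by simp [SS, sm, List.range_succ]
theorem SS_succ' (r : ℕ) : SS p (r + 1) = 1 + p * SS p r := by
  have := @sm_map p 1 (List.range r)
  rw [pow_one] at this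
  rw [SS, List.range_succ_eq_map, sm_cons, SS, ← this, pow_zero]
theorem SS_add (a b : ℕ) : SS p (a + b) = SS p a + p ^ a * SS p b := by
  induction b with
  | zero => simp [SS, sm]
  | succ b ih => rw [← add_assoc, SS_succ, ih, SS_succ]; ring

theorem arith1 (hp : p.Prime) (h2 : p ≠ 2) (hr : 0 < r) (h3 : p = 3 → 3 ≤ r) :
    ∃ l : List ℕ, l ≠ [] ∧ 2 * l.length ≤ r * (p - 1) ∧ 5 * SS p r ∣ sm p l := by
  have ne : List.range r ≠ [] := by simpa using hr.ne'
  by_cases e3 : p = 3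
  · subst e3
    obtain ⟨s, rfl⟩ := Nat.exists_eq_add_of_le (h3 rfl)
    refine ⟨0 :: (4 + s) :: (5 + s) :: (List.range s).map (· + 3), by simp, by simp; omega, 5, ?_⟩
    have e1 := @SS_succ 3 (3 + s)
    have e2 := @SS_add 3 3 s
    rw [SS_succ'] at e1
    rw [sm_cons, sm_cons, sm_cons, sm_map, show 4 + s = 3 + s + 1 by omega,
      show 5 + s = 3 + s + 2 by omega, pow_add _ (3 + s), pow_add _ (3 + s)]
    rw [show SS 3 3 = 13 by decide] at e2
    change _ + (_ + (_ + _ * SS 3 s)) = _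
    omega
  by_cases e5 : p = 5
  · subst e5
    exact ⟨(List.range r).map (· + 1), by simpa using hr.ne', by simp; omega, by rw [sm_map]; rfl⟩
  by_cases e7 : p = 7
  · subst e7
    exact ⟨List.range r ++ (List.range r).map (· + 2), by simp [hr.ne'], by simp; omega, 10, by
      rw [sm_append, sm_map, SS]; ring⟩
  have : 11 ≤ p := by
    by_contra! h
    interval_cases p <;> first | omega | exact absurd hp (by decide)
  refine ⟨List.range r ++ List.range r ++ List.range r ++ List.range r ++ List.range r, by simp [hr.ne'],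
    ?_, 1, by simp only [sm_append, SS]; ring⟩
  have := Nat.mul_le_mul_left r (show 10 ≤ p - 1 by omega)
  simp; omega

theorem sign4 : ∀ a b c d t : ZMod 5, a ≠ 0 → b ≠ 0 → c ≠ 0 → d ≠ 0 →
    t + a + b + c + d = 0 ∨ t + a + b + c = d ∨ t + a + b + d = c ∨ t + a + c + d = b ∨
    t + b + c + d = a ∨ t + a + b = c + d ∨ t + a + c = b + d ∨ t + a + d = b + c ∨
    t + b + c = a + d ∨ t + b + d = a + c ∨ t + c + d = a + b ∨ t + a = b + c + d ∨
    t + b = a + c + d ∨ t + c = a + b + d ∨ t + d = a + b + c ∨ t = a + b + c + d := by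
  decide +kernel

theorem sign {L : List ℕ} (h : 4 ≤ L.length) : ∃ l l' : List ℕ, l ≠ [] ∧
    l.length + l'.length = L.length ∧ sm 3 l + sm 3 l' = sm 3 L ∧ sm 3 l ≡ sm 3 l' [MOD 5] := by
  suffices ∃ l l' : List ℕ, l.length + l'.length = L.length ∧ sm 3 l + sm 3 l' = sm 3 L ∧
      sm 3 l ≡ sm 3 l' [MOD 5] by
    obtain ⟨l, l', h1, h2, h3⟩ := this
    by_cases e : l = []
    · exact ⟨l', l, by rintro rfl; simp [e] at h1; omega, by omega, by omega, h3.symm⟩
    · exact ⟨l, l', e, h1, h2, h3⟩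
  obtain _ | ⟨a, _ | ⟨b, _ | ⟨c, _ | ⟨d, L⟩⟩⟩⟩ := L <;> try (simp at h; done)
  have n : ∀ a : ℕ, (3 : ZMod 5) ^ a ≠ 0 := fun a e => by
    haveI := Fact.mk (show Nat.Prime 5 by decide)
    exact absurd (eq_zero_of_pow_eq_zero e) (by decide)
  have key : ∀ l l' : List ℕ, (l ++ l').Perm [a, b, c, d] →
      (sm 3 L + (sm 3 l : ℕ) : ZMod 5) = (sm 3 l' : ℕ) → ∃ l l' : List ℕ,
      l.length + l'.length = (a :: b :: c :: d :: L).length ∧
      sm 3 l + sm 3 l' = sm 3 (a :: b :: c :: d :: L) ∧ sm 3 l ≡ sm 3 l' [MOD 5] := fun l l' e e' => by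
    refine ⟨L ++ l, l', ?_, ?_, ?_⟩
    · have := e.length_eq
      simp at this ⊢; omega
    · have := @sm_perm 3 _ _ e
      simp only [sm_append, sm_cons, sm_nil] at this ⊢; omega
    · rw [← ZMod.natCast_eq_natCast_iff, sm_append]; exact_mod_cast e'
  rcases sign4 _ _ _ _ (sm 3 L) (n a) (n b) (n c) (n d) with
    e | e | e | e | e | e | e | e | e | e | e | e | e | e | e | e
  exacts [key [a, b, c, d] [] (by simp) (by simpa [sm, add_assoc] using e),
    key [a, b, c] [d] (by simp) (by simpa [sm, add_assoc] using e),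
    key [a, b, d] [c] (by grind) (by simpa [sm, add_assoc] using e),
    key [a, c, d] [b] (by grind) (by simpa [sm, add_assoc] using e),
    key [b, c, d] [a] (by grind) (by simpa [sm, add_assoc] using e),
    key [a, b] [c, d] (by simp) (by simpa [sm, add_assoc] using e),
    key [a, c] [b, d] (by grind) (by simpa [sm, add_assoc] using e),
    key [a, d] [b, c] (by grind) (by simpa [sm, add_assoc] using e),
    key [b, c] [a, d] (by grind) (by simpa [sm, add_assoc] using e),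
    key [b, d] [a, c] (by grind) (by simpa [sm, add_assoc] using e),
    key [c, d] [a, b] (by grind) (by simpa [sm, add_assoc] using e),
    key [a] [b, c, d] (by simp) (by simpa [sm, add_assoc] using e),
    key [b] [a, c, d] (by grind) (by simpa [sm, add_assoc] using e),
    key [c] [a, b, d] (by grind) (by simpa [sm, add_assoc] using e),
    key [d] [a, b, c] (by grind) (by simpa [sm, add_assoc] using e),
    key [] [a, b, c, d] (by simp) (by simpa [sm, add_assoc] using e)]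

variable {k : Type*} [Field k] {x : k} {c : ℕ}

theorem per_mul (h : x ^ p ^ c = x) (n : ℕ) : x ^ p ^ (c * n) = x := by
  induction n with
  | zero => simp
  | succ n ih => rw [mul_add, mul_one, pow_add, pow_mul, ih, h]

theorem per_mod (h : x ^ p ^ c = x) (i : ℕ) : x ^ p ^ i = x ^ p ^ (i % c) := by
  conv_lhs => rw [← Nat.div_add_mod i c, pow_add, pow_mul, per_mul h]

theorem per_pow (h : x ^ p ^ c = x) (n : ℕ) : (x ^ n) ^ p ^ c = x ^ n := by rw [pow_right_comm, h]

theorem norm_cj (h : x ^ p ^ c = x) (h0 : x ≠ 0) (i : ℕ) : (x ^ p ^ i) ^ SS p c = x ^ SS p c := by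
  induction i with
  | zero => simp
  | succ i ih =>
    have e := congrArg (x ^ ·) ((@SS_succ p c).symm.trans (SS_succ' c))
    simp only [pow_add, h, pow_one] at e
    rw [pow_succ, pow_mul, pow_right_comm, ih, ← pow_mul, mul_comm]
    exact mul_left_cancel₀ h0 (by rw [← e, mul_comm])

/-- a product of two conjugates is a conjugate -/
def Tri (p : ℕ) (x : k) : Prop := ∃ i j d, x ^ p ^ i * x ^ p ^ j = x ^ p ^ d

theorem Tri.norm (t : Tri p x) (h : x ^ p ^ c = x) (h0 : x ≠ 0) : x ^ SS p c = 1 := by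
  obtain ⟨i, j, d, e⟩ := t
  have := congrArg (· ^ SS p c) e
  simp only [mul_pow, norm_cj h h0] at this
  exact (mul_eq_right₀ (pow_ne_zero _ h0)).1 this

theorem rep (h : x ^ p ^ c = x) (hc : 0 < c) (h1 : x ^ SS p c = 1) {i j d : ℕ}
    (e : x ^ p ^ i * x ^ p ^ j = x ^ p ^ d) (n : i % c ≠ j % c) :
    ∃ L : List ℕ, L ≠ [] ∧ L.length + 1 = c ∧ x ^ sm p L = 1 := by
  have hi : i % c ∈ List.range c := List.mem_range.2 (Nat.mod_lt _ hc)
  have hj : j % c ∈ (List.range c).erase (i % c) :=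
    (List.mem_erase_of_ne n.symm).2 (List.mem_range.2 (Nat.mod_lt _ hc))
  have p1 := (List.perm_cons_erase hi).trans ((List.perm_cons_erase hj).cons _)
  refine ⟨d :: ((List.range c).erase (i % c)).erase (j % c), by simp, ?_, ?_⟩
  · simpa using p1.length_eq.symm
  · rw [← h1, SS, sm_perm p1, sm_cons, sm_cons, sm_cons, pow_add, pow_add, pow_add, ← per_mod h,
      ← per_mod h, ← e, mul_assoc]

theorem Tri.short [CharP k 3] (t : Tri 3 x) (h : x ^ 3 ^ c = x) (hc : 0 < c) (h0 : x ≠ 0) :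
    x = 1 ∨ ∃ L : List ℕ, L ≠ [] ∧ L.length + 1 = c ∧ x ^ sm 3 L = 1 := by
  have h1 := t.norm h h0
  obtain ⟨i, j, d, e⟩ := t
  by_cases n : i % c = j % c
  swap
  · exact .inr (rep h hc h1 e n)
  rw [per_mod h j, ← n, ← per_mod h] at e
  by_cases n' : i % c = d % c
  · rw [per_mod h d, ← n', ← per_mod h, mul_eq_right₀ (pow_ne_zero _ h0)] at e
    haveI := Fact.mk Nat.prime_three
    exact .inl (sub_eq_zero.1 (eq_zero_of_pow_eq_zero (n := 3 ^ i) (by rw [sub_pow_char_pow, e]; simp)))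
  · exact .inr (rep h hc h1 (d := i + 1) (by rw [← e, pow_succ 3, pow_mul]; ring) n')

theorem small3 {i : ℕ} (h : x ^ 3 ^ c = x) (hc : 0 < c) (h4 : c ≤ 4) (h0 : x ≠ 0)
    (e : x * x = x ^ 3 ^ i) : x ^ 10 = 1 := by
  rw [per_mod h] at e
  have hi := Nat.mod_lt i hc
  generalize i % c = j at e hi
  have g : ∀ a b : ℕ, x ^ (a + 1) = x → x * x = x ^ (b + 2) → Nat.gcd a b ∣ 10 → x ^ 10 = 1 :=
    fun a b e1 e2 e3 => by
    rw [pow_succ, mul_eq_right₀ h0] at e1
    rw [pow_add, sq, eq_comm, mul_eq_right₀ (mul_ne_zero h0 h0)] at e2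
    exact orderOf_dvd_iff_pow_eq_one.1 ((Nat.dvd_gcd (orderOf_dvd_of_pow_eq_one e1)
      (orderOf_dvd_of_pow_eq_one e2)).trans e3)
  obtain rfl | hj := Nat.eq_zero_or_pos j
  · rw [pow_zero, pow_one, mul_eq_right₀ h0] at e
    rw [e, one_pow]
  interval_cases c <;> interval_cases j
  exacts [g 8 1 h e (by decide), g 26 1 h e (by decide), g 26 7 h e (by decide),
    g 80 1 h e (by decide), g 80 7 h e (by decide), g 80 25 h e (by decide)]

/-- The relation needed for the two extreme atoms. -/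
theorem arith2 [CharP k p] (hp : p.Prime) (h2 : p ≠ 2) (h3 : p = 3 → 3 ≤ r) (h0 : x ≠ 0)
    (hc : 0 < c) (h : (c ≤ r ∧ x ^ p ^ c = x ∧ ∃ i, x * x = x ^ p ^ i) ∨
      (2 * c ≤ r ∧ (x * x) ^ p ^ c = x * x ∧ Tri p (x * x))) :
    ∃ l l' : List ℕ, l ≠ [] ∧ 2 * (l.length + l'.length) + 1 ≤ r * (p - 1) ∧
      x ^ (sm p l + sm p l') = 1 ∧ (p = 5 ∨ sm p l ≡ sm p l' [MOD 5]) := by
  have ne : List.range c ≠ [] := by simpa using hc.ne'
  have pr : ∀ L : List ℕ, L ≠ [] → 4 * L.length + 1 ≤ r * (p - 1) → (x * x) ^ sm p L = 1 →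
      ∃ l l' : List ℕ, l ≠ [] ∧ 2 * (l.length + l'.length) + 1 ≤ r * (p - 1) ∧
      x ^ (sm p l + sm p l') = 1 ∧ (p = 5 ∨ sm p l ≡ sm p l' [MOD 5]) := fun L e1 e2 e3 =>
    ⟨L, L, e1, by omega, by rw [pow_add, ← mul_pow, e3], .inr rfl⟩
  have h00 := mul_ne_zero h0 h0
  by_cases e3 : p = 3
  · subst e3
    have := h3 rfl
    rcases h with ⟨h1, h4, i, e⟩ | ⟨h1, h4, t⟩
    · by_cases h5 : c ≤ 4
      · exact ⟨[0, 2], [], by simp, by simp; omega, small3 h4 hc h5 h0 e, .inr (by decide)⟩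
      rcases Tri.short ⟨0, 0, i, by simpa using e⟩ h4 hc h0 with e | ⟨L, -, e1, e2⟩
      · exact pr [0] (by simp) (by simp; omega) (by simp [e])
      · obtain ⟨l, l', f1, f2, f3, f4⟩ := sign (L := L) (by omega)
        exact ⟨l, l', f1, by omega, by rw [f3, e2], .inr f4⟩
    · rcases t.short h4 hc h00 with e | ⟨L, e0, e1, e2⟩
      · exact pr [0] (by simp) (by simp; omega) (by simp [e])
      · exact pr L e0 (by omega) e2
  have h5 : 5 ≤ p := by
    by_contra! h
    interval_cases p <;> first | omega | exact absurd hp (by decide)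
  rcases h with ⟨h1, h4, i, e⟩ | ⟨h1, h4, t⟩
  · have := Tri.norm ⟨0, 0, i, by simpa using e⟩ h4 h0
    by_cases e5 : p = 5
    · subst e5
      exact ⟨List.range c, [], ne, by simp; omega, this, .inl rfl⟩
    have : 7 ≤ p := by
      by_contra! h
      interval_cases p <;> first | omega | exact absurd hp (by decide)
    have := Nat.mul_le_mul_left r (show 6 ≤ p - 1 by omega)
    exact pr _ ne (by simp; omega) (by rw [mul_pow]; simp [SS] at *; simp [*])
  · have := Nat.mul_le_mul_left r (show 4 ≤ p - 1 by omega)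
    exact pr _ ne (by simp; omega) (t.norm h4 h00)

/-- The relation needed for an atom in the middle layer. -/
theorem arith3 (hp : p.Prime) (h2 : p ≠ 2) (hr : 0 < r) (h3 : p = 3 → 3 ≤ r)
    (h : x ^ (5 * SS p r) = 1 ∨ ∃ c, 0 < c ∧ 2 * c ≤ r ∧ x ^ (10 * SS p c) = 1) :
    ∃ l : List ℕ, l ≠ [] ∧ 2 * l.length ≤ r * (p - 1) ∧ x ^ sm p l = 1 := by
  rcases h with h | ⟨c, hc, h1, h⟩
  · obtain ⟨l, e1, e2, d, e3⟩ := arith1 hp h2 hr h3
    exact ⟨l, e1, e2, by rw [e3, pow_mul, h, one_pow]⟩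
  by_cases e : p = 3 ∧ c = 1
  · obtain ⟨rfl, rfl⟩ := e
    exact ⟨[0, 2], by simp, by simp; omega, h⟩
  obtain ⟨l, e1, e2, d, e3⟩ := arith1 (r := c + c) hp h2 (by omega) (by omega)
  obtain ⟨m, hm⟩ := (hp.odd_of_ne_two h2).pow (n := c)
  refine ⟨l, e1, e2.trans (Nat.mul_le_mul_right _ (by omega)), ?_⟩
  rw [e3, SS_add, hm, show 5 * (SS p c + (2 * m + 1) * SS p c) * d = 10 * SS p c * ((m + 1) * d) by ring,
    pow_mul, h, one_pow]

end Cfsg.Agent.L5.Ra
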