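import Cfsg.Agent.L5.Ra0
import Cfsg.Agent.L4.Rb3

/-!
Additive functionals on an elementary abelian group which are eigenvectors of an automorphism.
-/

set_option autoImplicit false

namespace Cfsg.Agent.L5.Ra

variable {P k : Type*} [Group P] [Field k] {p : ℕ} {K K' : Subgroup P} {h : P} {x y : P → k}
  {μ e ω : k}

/-- an additive functional of weight `μ` -/
structure Ef (K : Subgroup P) (h : P) (x : P → k) (μ : k) : Prop where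
  iv : ∀ u ∈ K, h * u * h⁻¹ ∈ K
  add : ∀ u ∈ K, ∀ v ∈ K, x (u * v) = x u + x v
  eq : ∀ u ∈ K, x (h * u * h⁻¹) = μ * x u
  ne : μ ≠ 0

/-- not identically zero -/
def Nz (K : Subgroup P) (x : P → k) : Prop := ∃ u ∈ K, x u ≠ 0

namespace Ef

theorem one (f : Ef K h x μ) : x 1 = 0 := by simpa using f.add 1 (one_mem _) 1 (one_mem _)

theorem inv (f : Ef K h x μ) {u : P} (hu : u ∈ K) : x u⁻¹ = -x u :=
  eq_neg_of_add_eq_zero_left (by rw [← f.add _ (inv_mem hu) _ hu, inv_mul_cancel, f.one])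

/-- the kernel -/
def kr (f : Ef K h x μ) : Subgroup P where
  carrier := {u | u ∈ K ∧ x u = 0}
  mul_mem' := fun ⟨a, b⟩ ⟨c, d⟩ => ⟨mul_mem a c, by rw [f.add _ a _ c, b, d, add_zero]⟩
  one_mem' := ⟨one_mem _, f.one⟩
  inv_mem' := fun ⟨a, b⟩ => ⟨inv_mem a, by rw [f.inv a, b, neg_zero]⟩

theorem res (f : Ef K h x μ) (g : Ef K h y e) : Ef f.kr h y e :=
  ⟨fun u hu => ⟨f.iv u hu.1, by rw [f.eq u hu.1, hu.2, mul_zero]⟩,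
    fun u hu v hv => g.add u hu.1 v hv.1, fun u hu => g.eq u hu.1, g.ne⟩

/-- the joint image -/
def im (f : Ef K h x μ) (g : Ef K h y e) : AddSubgroup (k × k) where
  carrier := {z | ∃ u ∈ K, (x u, y u) = z}
  add_mem' := by
    rintro _ _ ⟨u, hu, rfl⟩ ⟨v, hv, rfl⟩
    exact ⟨u * v, mul_mem hu hv, by simp [f.add u hu v hv, g.add u hu v hv]⟩
  zero_mem' := ⟨1, one_mem _, by simp [f.one, g.one]⟩
  neg_mem' := by
    rintro _ ⟨u, hu, rfl⟩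
    exact ⟨u⁻¹, inv_mem hu, by simp [f.inv hu, g.inv hu]⟩

theorem im_cl (f : Ef K h x μ) (g : Ef K h y e) (a b : k) (hz : (a, b) ∈ f.im g) :
    (μ * a, e * b) ∈ f.im g := by
  obtain ⟨u, hu, e⟩ := hz
  obtain ⟨rfl, rfl⟩ := Prod.mk.inj e
  exact ⟨_, f.iv u hu, by rw [f.eq u hu, g.eq u hu]⟩

variable [hp : Fact p.Prime]

theorem per [Finite P] (f : Ef K h x μ) {s : ℕ} (hs : Nat.card K = p ^ s) :
    ∃ a b, a + b = s ∧ Nat.card f.kr = p ^ a ∧ μ ^ p ^ b = μ ∧ (Nz K x → 0 < b) := by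
  let φ : K →* Multiplicative (f.im f) := MonoidHom.mk' (fun u => .ofAdd ⟨(x u, x u), u, u.2, rfl⟩)
    fun u v => by
      rw [← ofAdd_add]
      exact congrArg _ (Subtype.ext (by simp [f.add _ u.2 _ v.2]))
  have sj : Function.Surjective φ := fun ⟨_, u, hu, e⟩ => ⟨⟨u, hu⟩, Subtype.ext e⟩
  have e1 : Nat.card φ.ker = Nat.card f.kr := by
    rw [← Subgroup.card_map_of_injective K.subtype_injective]
    congr 2
    ext u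
    simp only [Subgroup.mem_map, MonoidHom.mem_ker]
    exact ⟨fun ⟨v, h1, h2⟩ => h2 ▸ ⟨v.2, congrArg (fun z : f.im f => z.1.1) h1⟩,
      fun ⟨h1, h2⟩ => ⟨⟨u, h1⟩, Subtype.ext (Prod.ext h2 h2), rfl⟩⟩
  have e2 := φ.ker.card_mul_index
  rw [Subgroup.index_ker, MonoidHom.range_eq_top.2 sj, Subgroup.card_top, e1, hs] at e2
  haveI : Finite (f.im f) := Finite.of_surjective φ sj
  obtain ⟨a, -, ha⟩ := (Nat.dvd_prime_pow hp.out).1 (Dvd.intro _ e2)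
  obtain ⟨b, -, hb⟩ := (Nat.dvd_prime_pow hp.out).1 (Dvd.intro_left _ e2)
  have e3 := L4.Rb.kap_of (f.im f) (by
    rintro b ⟨u, -, e⟩
    exact (congrArg Prod.snd e).symm.trans (congrArg Prod.fst e)) (f.im_cl f) f.ne
  change Nat.card (f.im f) = _ at hb
  refine ⟨a, b, Nat.pow_right_injective hp.out.two_le (by simp only [pow_add, ← ha, ← e2]; rw [← hb]; rfl),
    ha, by rw [← hb, ← Nat.sub_add_cancel (Nat.card_pos (α := f.im f)), pow_succ, e3, one_mul], ?_⟩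
  rintro ⟨u, hu, h0⟩
  refine Nat.pos_of_ne_zero fun e => h0 ?_
  rw [e, pow_zero] at hb
  haveI := (Nat.card_eq_one_iff_unique.1 hb).1
  exact congrArg (fun z : f.im f => z.1.1) (Subsingleton.elim ⟨(x u, x u), u, hu, rfl⟩ 0)

theorem per1 [Finite P] (f : Ef K h x μ) {s : ℕ} (hs : Nat.card K = p ^ s)
    (i : ∀ u ∈ K, x u = 0 → u = 1) : μ ^ p ^ s = μ := by
  obtain ⟨a, b, e1, e2, e3, -⟩ := f.per hs
  rw [show f.kr = ⊥ from eq_bot_iff.2 fun u hu => i u hu.1 hu.2, Subgroup.card_bot, eq_comm,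
    Nat.pow_eq_one] at e2
  obtain rfl := e2.resolve_left hp.out.one_lt.ne'
  rwa [← e1, zero_add]

theorem cj [CharP k p] (f : Ef K h x μ) (g : Ef K h y e) (i : ∀ u ∈ K, x u = 0 → y u = 0)
    (n : Nz K y) {c : ℕ} (hc : 0 < c) (hμ : μ ^ p ^ c = μ) : ∃ i, e = μ ^ p ^ i := by
  obtain ⟨u, hu, h0⟩ := n
  obtain ⟨i, -, e⟩ := L4.Rb.galois (f.im g) (by
    rintro b ⟨u, hu, e⟩
    exact (congrArg Prod.snd e).symm.trans (i u hu (congrArg Prod.fst e))) (f.im_cl g) ⟨u, hu, rfl⟩ h0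
    hc hμ
  exact ⟨i, e⟩

end Ef

variable [hp : Fact p.Prime] [CharP k p] [Finite P] {f₁ f₂ v₁ v₂ : P → k} {a₁ a₂ b₁ b₂ : k}

/-- an anisotropic symmetric pairing in two variables -/
structure Pl (K : Subgroup P) (h : P) (ω : k) (f₁ f₂ v₁ v₂ : P → k) (a₁ a₂ b₁ b₂ : k) : Prop where
  F₁ : Ef K h f₁ a₁
  F₂ : Ef K h f₂ a₂
  V₁ : Ef K h v₁ b₁
  V₂ : Ef K h v₂ b₂
  e₁ : a₁ * b₁ = ω
  e₂ : a₂ * b₂ = ω
  sym : ∀ u ∈ K, ∀ w ∈ K, f₁ u * v₁ w + f₂ u * v₂ w = f₁ w * v₁ u + f₂ w * v₂ u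
  an : ∀ u ∈ K, f₁ u * v₁ u + f₂ u * v₂ u = 0 → u = 1

namespace Pl

omit hp [CharP k p] [Finite P] in
theorem symm (t : Pl K h ω f₁ f₂ v₁ v₂ a₁ a₂ b₁ b₂) : Pl K h ω f₂ f₁ v₂ v₁ a₂ a₁ b₂ b₁ :=
  ⟨t.F₂, t.F₁, t.V₂, t.V₁, t.e₂, t.e₁, fun u hu w hw => by linear_combination t.sym u hu w hw,
    fun u hu e => t.an u hu (by linear_combination e)⟩

omit hp [CharP k p] [Finite P] in
theorem sq (t : Pl K h ω f₁ f₂ v₁ v₂ a₁ a₂ b₁ b₂) {u : P} (hu : u ∈ K) (h0 : v₁ u = 0) (h1 : u ≠ 1) :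
    b₂ * b₂ = ω ∧ v₂ u ≠ 0 := by
  have e1 : f₂ u * v₂ u ≠ 0 := fun e => h1 (t.an u hu (by rw [h0, e]; simp))
  have e2 := t.sym u hu _ (t.F₁.iv u hu)
  rw [t.V₁.eq u hu, t.V₂.eq u hu, t.F₂.eq u hu, h0] at e2
  exact ⟨by rw [← t.e₂, mul_right_cancel₀ e1 (show b₂ * _ = a₂ * _ by linear_combination e2)],
    right_ne_zero_of_mul e1⟩

theorem hom (t : Pl K h ω f₁ f₂ v₁ v₂ a₁ a₂ b₁ b₂) {s : ℕ} (hs : Nat.card K = p ^ s) (h0 : 0 < s)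
    (i : ∀ u ∈ K, v₁ u = 0 → u = 1) : ∃ μ : k, μ ≠ 0 ∧ μ ^ p ^ s = μ ∧
      (∀ y e, Ef K h y e → Nz K y → ∃ n, e = μ ^ p ^ n) ∧ ∃ i j, ω = μ ^ p ^ i * μ ^ p ^ j := by
  have e1 := t.V₁.per1 hs i
  have e2 : ∀ y e, Ef K h y e → Nz K y → ∃ n, e = b₁ ^ p ^ n := fun y e g n =>
    t.V₁.cj g (fun u hu e => by rw [i u hu e, g.one]) n h0 e1
  refine ⟨b₁, t.V₁.ne, e1, e2, ?_⟩
  obtain ⟨⟨u, hu⟩, h1⟩ := Subgroup.ne_bot_iff_exists_ne_one.1 (show K ≠ ⊥ by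
    rintro rfl
    rw [Subgroup.card_bot, eq_comm, Nat.pow_eq_one] at hs
    exact hs.elim hp.out.one_lt.ne' h0.ne')
  have h2 := mt (t.an u hu) fun e => h1 (Subtype.ext e)
  by_cases e : f₁ u * v₁ u = 0
  · rw [e, zero_add] at h2
    obtain ⟨i, hi⟩ := e2 _ _ t.F₂ ⟨u, hu, left_ne_zero_of_mul h2⟩
    obtain ⟨j, hj⟩ := e2 _ _ t.V₂ ⟨u, hu, right_ne_zero_of_mul h2⟩
    exact ⟨i, j, by rw [← hi, ← hj, t.e₂]⟩
  · obtain ⟨i, hi⟩ := e2 _ _ t.F₁ ⟨u, hu, left_ne_zero_of_mul e⟩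
    exact ⟨i, 0, by rw [← hi, pow_zero, pow_one, t.e₁]⟩

theorem cases (t : Pl K h ω f₁ f₂ v₁ v₂ a₁ a₂ b₁ b₂) {s : ℕ} (hs : Nat.card K = p ^ s) (h0 : 0 < s) :
    (∃ μ : k, μ ≠ 0 ∧ μ ^ p ^ s = μ ∧
      (∀ y e, Ef K h y e → Nz K y → ∃ n, e = μ ^ p ^ n) ∧ ∃ i j, ω = μ ^ p ^ i * μ ^ p ^ j) ∨
    ∃ c, 0 < c ∧ 2 * c ≤ s ∧ ω ^ p ^ c = ω ∧ ∀ y e, Ef K h y e → Nz K y → ∃ n, e * e = ω ^ p ^ n := by
  by_cases i1 : ∀ u ∈ K, v₁ u = 0 → u = 1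
  · exact .inl (t.hom hs h0 i1)
  by_cases i2 : ∀ u ∈ K, v₂ u = 0 → u = 1
  · exact .inl (t.symm.hom hs h0 i2)
  push Not at i1 i2
  obtain ⟨u, hu, u0, u1⟩ := i1
  obtain ⟨w, hw, w0, w1⟩ := i2
  obtain ⟨e1, e2⟩ := t.sq hu u0 u1
  obtain ⟨e3, e4⟩ := t.symm.sq hw w0 w1
  obtain ⟨a, b, hab, ha, hb, b0⟩ := t.V₁.per hs
  replace b0 := b0 ⟨w, hw, e4⟩
  have i : ∀ u ∈ t.V₁.kr, v₂ u = 0 → u = 1 := fun u hu e => t.an u hu.1 (by rw [hu.2, e]; simp)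
  have ha' := (t.V₁.res t.V₂).per1 ha i
  have a0 : 0 < a := Nat.pos_of_ne_zero fun e => by
    rw [e, pow_zero, Subgroup.card_eq_one] at ha
    exact u1 (Subgroup.mem_bot.1 (ha ▸ (⟨hu, u0⟩ : u ∈ t.V₁.kr)))
  refine .inr ⟨min a b, lt_min a0 b0, by omega, ?_, fun y e g n => ?_⟩
  · rcases min_choice a b with e | e <;> rw [e]
    · rw [← e1, mul_pow, ha']
    · rw [← e3, mul_pow, hb]
  by_cases n' : Nz t.V₁.kr y
  · obtain ⟨i, hi⟩ := (t.V₁.res t.V₂).cj (t.V₁.res g) (fun u hu e => by rw [i u hu e, g.one]) n' a0 ha'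
    exact ⟨i, by rw [hi, ← e1, mul_pow]⟩
  · obtain ⟨i, hi⟩ := t.V₁.cj g (fun u hu e => by_contra fun e' => n' ⟨u, ⟨hu, e⟩, e'⟩) n b0 hb
    exact ⟨i, by rw [hi, ← e3, mul_pow]⟩

/-- The weight of an atom in the middle layer. -/
theorem mid (t : Pl K h ω f₁ f₂ v₁ v₂ a₁ a₂ b₁ b₂) {s : ℕ} (hs : Nat.card K = p ^ s) (h0 : 0 < s)
    {b₃ γ : k} (g : Ef K h y b₃) (n₁ : Nz K f₁ ∨ Nz K v₁) (n₂ : Nz K f₂ ∨ Nz K v₂) (n₃ : Nz K y)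
    (hd : ω * γ ^ 5 * (b₁ * b₂ * b₃) = 1) : (γ * b₃) ^ (5 * SS p s) = 1 ∨
      ∃ c, 0 < c ∧ 2 * c ≤ s ∧ (γ * b₃) ^ (10 * SS p c) = 1 := by
  have w0 : ω ≠ 0 := t.e₁ ▸ mul_ne_zero t.F₁.ne t.V₁.ne
  rcases t.cases hs h0 with ⟨μ, m0, m1, m2, i, j, m3⟩ | ⟨c, c0, c1, c2, c3⟩
  · have e1 : ∀ y e, Ef K h y e → Nz K y → e ^ SS p s = μ ^ SS p s := fun y e g n => by
      obtain ⟨n, rfl⟩ := m2 y e g n
      exact norm_cj m1 m0 n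
    have e2 : ω ^ SS p s = μ ^ SS p s * μ ^ SS p s := by rw [m3, mul_pow, norm_cj m1 m0, norm_cj m1 m0]
    have e3 : ∀ f v a b, Ef K h f a → Ef K h v b → a * b = ω → Nz K f ∨ Nz K v →
        b ^ SS p s = μ ^ SS p s := fun f v a b F V e n => n.elim (fun n => mul_left_cancel₀
          (pow_ne_zero _ m0) (by rw [← e2, ← e, mul_pow, e1 f a F n])) (e1 v b V)
    have e4 := congrArg (· ^ SS p s) hd
    simp only [mul_pow, e2, e3 _ _ _ _ t.F₁ t.V₁ t.e₁ n₁, e3 _ _ _ _ t.F₂ t.V₂ t.e₂ n₂, e1 _ _ g n₃,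
      one_pow] at e4
    exact .inl (by rw [mul_pow, pow_mul γ, pow_mul' b₃, e1 _ _ g n₃]; linear_combination e4)
  · have e1 : ∀ y e, Ef K h y e → Nz K y → e ^ SS p c * e ^ SS p c = ω ^ SS p c := fun y e g n => by
      obtain ⟨n, e⟩ := c3 y e g n
      rw [← mul_pow, e, norm_cj c2 w0]
    have e3 : ∀ f v a b, Ef K h f a → Ef K h v b → a * b = ω → Nz K f ∨ Nz K v →
        b ^ SS p c * b ^ SS p c = ω ^ SS p c := fun f v a b F V e n => n.elim (fun n => mul_left_cancel₀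
          (pow_ne_zero (SS p c) w0) (by
            rw [← e1 f a F n, mul_mul_mul_comm, ← mul_pow, e, e1 f a F n])) (e1 v b V)
    have e4 := congrArg (· ^ SS p c) hd
    simp only [mul_pow, one_pow, pow_right_comm γ 5] at e4
    have e5 := e3 _ _ _ _ t.F₁ t.V₁ t.e₁ n₁
    have e6 := e3 _ _ _ _ t.F₂ t.V₂ t.e₂ n₂
    have e7 := e1 _ _ g n₃
    refine .inr ⟨c, c0, c1, ?_⟩
    rw [mul_pow, pow_mul', pow_mul']
    grind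

end Pl

/-- The weight of the extreme atoms if the middle layer is three-dimensional on both sides. -/
theorem full {κ : k} {f₀ v₀ : P → k} {s : ℕ} (hs : Nat.card K = p ^ s)
    (V₀ : Ef K h v₀ κ) (n₀ : Nz K v₀) (g : Ef K h y (κ * κ)) (n : Nz K y) (F₁ : Ef K h f₁ a₁)
    (F₂ : Ef K h f₂ a₂) (V₁ : Ef K h v₁ b₁) (V₂ : Ef K h v₂ b₂) (e₁ : a₁ * b₁ = κ * κ)
    (e₂ : a₂ * b₂ = κ * κ) (sym : ∀ u ∈ K, ∀ w ∈ K, f₀ u * v₀ w + f₁ u * v₁ w + f₂ u * v₂ w =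
      f₀ w * v₀ u + f₁ w * v₁ u + f₂ w * v₂ u)
    (an : ∀ u ∈ K, f₀ u * v₀ u + f₁ u * v₁ u + f₂ u * v₂ u = 0 → u = 1) :
    ∃ c, 0 < c ∧ ((c ≤ s ∧ κ ^ p ^ c = κ ∧ ∃ i, κ * κ = κ ^ p ^ i) ∨
      (2 * c ≤ s ∧ (κ * κ) ^ p ^ c = κ * κ ∧ Tri p (κ * κ))) := by
  obtain ⟨a, b, hab, ha, hb, b0⟩ := V₀.per hs
  replace b0 := b0 n₀
  by_cases n' : Nz V₀.kr y
  swap
  · exact ⟨b, b0, .inl ⟨by omega, hb,
      V₀.cj g (fun u hu e => by_contra fun e' => n' ⟨u, ⟨hu, e⟩, e'⟩) n b0 hb⟩⟩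
  have t : Pl V₀.kr h (κ * κ) f₁ f₂ v₁ v₂ a₁ a₂ b₁ b₂ := ⟨V₀.res F₁, V₀.res F₂, V₀.res V₁, V₀.res V₂,
    e₁, e₂, fun u hu w hw => by simpa [hu.2, hw.2] using sym u hu.1 w hw.1,
    fun u hu e => an u hu.1 (by rw [hu.2, mul_zero, zero_add, e])⟩
  have a0 : 0 < a := Nat.pos_of_ne_zero fun e => by
    obtain ⟨u, hu, h0⟩ := n'
    rw [e, pow_zero, Subgroup.card_eq_one] at ha
    rw [ha, Subgroup.mem_bot] at hu
    exact h0 (by rw [hu, g.one])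
  rcases t.cases ha a0 with ⟨μ, m0, m1, m2, i, j, m3⟩ | ⟨c, c0, c1, c2, c3⟩
  · obtain ⟨d, hd⟩ := m2 _ _ (V₀.res g) n'
    refine ⟨min a b, lt_min a0 b0, .inr ⟨by omega, ?_, i, j, d, ?_⟩⟩
    · rcases min_choice a b with e | e <;> rw [e]
      · rw [hd, per_pow m1]
      · rw [mul_pow, hb]
    · conv_lhs => rw [hd, pow_right_comm, pow_right_comm μ (p ^ d), ← mul_pow, ← m3]
  · obtain ⟨d, hd⟩ := c3 _ _ (V₀.res g) n'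
    exact ⟨c, c0, .inr ⟨by omega, c2, 0, 0, d, by simpa using hd⟩⟩

end Cfsg.Agent.L5.Ra
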