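import Cfsg.Agent.L5.Ra1
import Cfsg.Agent.L5.RA

/-!
Sylow subgroups with layers of dimensions `1, 3, 1`: the normal form and the transfer lemmas.
-/

set_option autoImplicit false

namespace Cfsg.Agent.L5.Ra

open Matrix Cfsg.Agent.L5.R
open Subgroup (normalizer)
open Cfsg.Agent.L4.R (Dg)

variable {P k : Type*} [Group P] [Field k]

/-- three by three matrices -/
abbrev M3 (k : Type*) := Matrix (Fin 3) (Fin 3) k

/-- block upper triangular matrices -/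
def blk (α : k) (f : Fin 3 → k) (z : k) (A : M3 k) (v : Fin 3 → k) (γ : k) : M5 k :=
  !![α, f 0, f 1, f 2, z; 0, A 0 0, A 0 1, A 0 2, v 0; 0, A 1 0, A 1 1, A 1 2, v 1;
    0, A 2 0, A 2 1, A 2 2, v 2; 0, 0, 0, 0, γ]

/-- vectors in the middle layer -/
def em (x : Fin 3 → k) : Fin 5 → k := ![0, x 0, x 1, x 2, 0]

section
variable {α α' z z' γ γ' : k} {f f' v v' x : Fin 3 → k} {A A' : M3 k}

theorem blk_mul : blk α f z A v γ * blk α' f' z' A' v' γ' = blk (α * α') (α • f' + f ᵥ* A')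
    (α * z' + f ⬝ᵥ v' + z * γ') (A * A') (A *ᵥ v' + γ' • v) (γ * γ') := by
  ext i j
  fin_cases i <;> fin_cases j <;>
    simp [blk, mul_apply, Fin.sum_univ_succ, vecMul, mulVec, dotProduct] <;> ring

theorem blk_inj : blk α f z A v γ = blk α' f' z' A' v' γ' ↔
    α = α' ∧ f = f' ∧ z = z' ∧ A = A' ∧ v = v' ∧ γ = γ' := by
  refine ⟨fun h => ?_, by rintro ⟨rfl, rfl, rfl, rfl, rfl, rfl⟩; rfl⟩
  have e := fun i j => congrFun (congrFun h i) j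
  refine ⟨e 0 0, ?_, e 0 4, ?_, ?_, e 4 4⟩
  · ext i; fin_cases i; exacts [e 0 1, e 0 2, e 0 3]
  · ext i j
    fin_cases i <;> fin_cases j
    exacts [e 1 1, e 1 2, e 1 3, e 2 1, e 2 2, e 2 3, e 3 1, e 3 2, e 3 3]
  · ext i; fin_cases i; exacts [e 1 4, e 2 4, e 3 4]

theorem blk_one : blk 1 0 0 1 0 1 = (1 : M5 k) := by
  ext i j
  fin_cases i <;> fin_cases j <;> simp [blk]

theorem blk_det : (blk α f z A v γ).det = α * A.det * γ := by
  simp [blk, det_succ_column_zero, Fin.sum_univ_succ, det_fin_three, Fin.succAbove]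
  ring

theorem blk_em : blk α f z A v γ *ᵥ em x = (f ⬝ᵥ x) • Pi.single 0 1 + em (A *ᵥ x) := by
  ext i
  fin_cases i <;> simp [blk, em, mulVec, dotProduct, Fin.sum_univ_succ]

theorem em_blk : em x ᵥ* blk α f z A v γ = (x ⬝ᵥ v) • Pi.single 4 1 + em (x ᵥ* A) := by
  ext i
  fin_cases i <;> simp [blk, em, vecMul, dotProduct, Fin.sum_univ_succ]

theorem blk_e0 : blk α f z A v γ *ᵥ Pi.single 0 1 = α • Pi.single 0 1 := by
  ext i
  fin_cases i <;> simp [blk]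

theorem e4_blk : Pi.single 4 1 ᵥ* blk α f z A v γ = γ • Pi.single 4 1 := by
  ext i
  fin_cases i <;> simp [blk]

theorem em_dot : em x ⬝ᵥ em v = x ⬝ᵥ v := by simp [em, dotProduct, Fin.sum_univ_succ]

theorem em_smul (c : k) : em (c • x) = c • em x := by
  ext i
  fin_cases i <;> simp [em]

/-- the matrix exchanging the extreme basis vectors -/
def Jm : M5 k := !![0, 0, 0, 0, 1; 0, 1, 0, 0, 0; 0, 0, 1, 0, 0; 0, 0, 0, 1, 0; 1, 0, 0, 0, 0]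

theorem Jm_sq : (Jm : M5 k) * Jm = 1 := by
  ext i j
  fin_cases i <;> fin_cases j <;> simp [Jm, mul_apply, Fin.sum_univ_succ]

theorem Jm_blk : Jm * (blk α f z A v γ)ᵀ * Jm = blk γ v z Aᵀ f α := by
  ext i j
  fin_cases i <;> fin_cases j <;> simp [Jm, blk, mul_apply, Fin.sum_univ_succ, vecMul, dotProduct]

end

/-- The situation under consideration. -/
structure Sh (p r : ℕ) (ρ : P →* M5 k) (U H : Subgroup P) (f v : P → Fin 3 → k) (z α γ : P → k)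
    (A : P → M3 k) : Prop where
  hy : Hy ρ
  ns : NoS ρ
  c : Gx p r U H
  odd : p ≠ 2
  two : 2 ≤ r
  hu : ∀ u ∈ U, ρ u = blk 1 (f u) (z u) 1 (v u) 1
  hh : ∀ h ∈ H, ρ h = blk (α h) 0 0 (A h) 0 (γ h)

variable {p r : ℕ} {ρ : P →* M5 k} {U H : Subgroup P} {f v : P → Fin 3 → k} {z α γ : P → k}
  {A : P → M3 k}

namespace Sh
variable (s : Sh p r ρ U H f v z α γ A) {u w h g : P}
include s

theorem du : Sh p r (cj Jm_sq (dl ρ)) U H (fun u => v u⁻¹) (fun u => f u⁻¹) (fun u => z u⁻¹)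
    (fun h => γ h⁻¹) (fun h => α h⁻¹) fun h => (A h⁻¹)ᵀ :=
  ⟨s.hy.dl.cj _, s.ns.dl.cj _, s.c, s.odd, s.two, fun u hu => by
    rw [cj_apply, dl_apply, s.hu _ (inv_mem hu), Jm_blk, transpose_one], fun h hh => by
    rw [cj_apply, dl_apply, s.hh _ (inv_mem hh), Jm_blk]⟩

omit s in
theorem bd_inv {C C' : M3 k} (e : C * C' = 1) : blk 1 0 0 C 0 1 * blk 1 0 0 C' 0 1 = 1 := by
  simp [blk_mul, e, blk_one]

theorem cjm {C C' : M3 k} (e : C * C' = 1) : Sh p r (cj (bd_inv e) ρ) U H (fun u => f u ᵥ* C)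
    (fun u => C' *ᵥ v u) z α γ fun h => C' * A h * C :=
  ⟨s.hy.cj _, s.ns.cj _, s.c, s.odd, s.two, fun u hu => by
    simp [cj_apply, s.hu u hu, blk_mul, mul_eq_one_comm.1 e], fun h hh => by
    simp [cj_apply, s.hh h hh, blk_mul]⟩

theorem add (hu : u ∈ U) (hw : w ∈ U) : f (u * w) = f u + f w ∧ v (u * w) = v u + v w ∧
    z (u * w) = z u + z w + f u ⬝ᵥ v w := by
  have := map_mul ρ u w
  rw [s.hu _ (mul_mem hu hw), s.hu u hu, s.hu w hw, blk_mul, blk_inj] at this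
  obtain ⟨-, e1, e2, -, e3, -⟩ := this
  exact ⟨by simp [e1, add_comm], by simp [e3, add_comm], by rw [e2]; ring⟩

theorem sym (hu : u ∈ U) (hw : w ∈ U) : f u ⬝ᵥ v w = f w ⬝ᵥ v u := by
  have := (s.add hu hw).2.2
  rw [s.c.comm u hu w hw, (s.add hw hu).2.2] at this
  linear_combination -this

theorem an (hu : u ∈ U) (e : f u ⬝ᵥ v u = 0) : u = 1 := s.ns u (by
  rw [show ρ u - 1 = blk 0 (f u) (z u) 0 (v u) 0 by
    rw [s.hu u hu]
    ext i j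
    fin_cases i <;> fin_cases j <;> simp [blk], blk_mul]
  ext i j
  fin_cases i <;> fin_cases j <;> simp [blk, e])

theorem eqv [Finite P] [Fact p.Prime] (hh : h ∈ H) (hu : u ∈ U) :
    f (h * u * h⁻¹) ᵥ* A h = α h • f u ∧ γ h • v (h * u * h⁻¹) = A h *ᵥ v u ∧
      γ h * z (h * u * h⁻¹) = α h * z u := by
  have := (map_mul ρ (h * u * h⁻¹) h).symm
  rw [inv_mul_cancel_right, map_mul ρ h u, s.hu _ (s.c.conj hh hu), s.hu u hu, s.hh h hh, blk_mul, blk_mul,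
    blk_inj] at this
  obtain ⟨-, e1, e2, -, e3, -⟩ := this
  exact ⟨by simpa using e1, by simpa using e3, by simpa [mul_comm] using e2⟩

theorem mul (hh : h ∈ H) (hg : g ∈ H) : α (h * g) = α h * α g ∧ A (h * g) = A h * A g ∧
    γ (h * g) = γ h * γ g := by
  have := map_mul ρ h g
  rw [s.hh _ (mul_mem hh hg), s.hh h hh, s.hh g hg, blk_mul, blk_inj] at this
  exact ⟨this.1, this.2.2.2.1, this.2.2.2.2.2⟩

theorem one : α 1 = 1 ∧ A 1 = 1 ∧ γ 1 = 1 := by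
  have := map_one ρ
  rw [s.hh _ (one_mem _), ← blk_one, blk_inj] at this
  exact ⟨this.1, this.2.2.2.1, this.2.2.2.2.2⟩

theorem inv (hh : h ∈ H) : α h * α h⁻¹ = 1 ∧ A h * A h⁻¹ = 1 ∧ γ h * γ h⁻¹ = 1 := by
  have := s.mul hh (inv_mem hh)
  rw [mul_inv_cancel, s.one.1, s.one.2.1, s.one.2.2] at this
  exact ⟨this.1.symm, this.2.1.symm, this.2.2.symm⟩

theorem det (hh : h ∈ H) : α h * (A h).det * γ h = 1 := by rw [← blk_det, ← s.hh h hh, s.hy.det]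

theorem a0 (hh : h ∈ H) : α h ≠ 0 := left_ne_zero_of_mul_eq_one (s.inv hh).1
theorem g0 (hh : h ∈ H) : γ h ≠ 0 := left_ne_zero_of_mul_eq_one (s.inv hh).2.2

theorem lv : ∀ u ∈ U, ∀ i j, ![2, 1, 1, 1, 0] i ≤ ![2, 1, 1, 1, 0] j → (ρ u - 1) i j = 0 :=
  fun u hu i j e => by
    rw [s.hu u hu]
    fin_cases i <;> fin_cases j <;> simp [blk] at e ⊢

theorem lv' : ∀ u ∈ U, ∀ i j, ![0, 1, 1, 1, 2] i ≤ ![0, 1, 1, 1, 2] j → (dl ρ u - 1) i j = 0 :=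
  fun u hu i j e => by
    rw [dl_apply, s.hu _ (inv_mem hu)]
    fin_cases i <;> fin_cases j <;> simp [blk] at e ⊢

variable [Finite P] [hp : Fact p.Prime] [CharP k p]

omit [Finite P] [CharP k p] in
theorem four : 4 ≤ r * (p - 1) := by
  have := hp.out.two_le
  have := s.odd
  exact Nat.mul_le_mul s.two (show 2 ≤ p - 1 by omega)

omit [Finite P] in
theorem two_ne : (2 : k) ≠ 0 := fun e => s.odd ((Nat.prime_dvd_prime_iff_eq hp.out Nat.prime_two).1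
  ((CharP.cast_eq_zero_iff k p 2).1 e))

theorem kill {t φ t' φ' : Fin 5 → k} {d d' : ℕ} (tU : ∀ u ∈ U, ρ u *ᵥ t = t)
    (tU' : ∀ u ∈ U, t' ᵥ* ρ u = t') (hφ : ∀ j, d + 1 ≤ ![2, 1, 1, 1, 0] j → φ j = 0)
    (hφ' : ∀ j, d' + 1 ≤ ![0, 1, 1, 1, 2] j → φ' j = 0) (n : φ ⬝ᵥ t ≠ 0) (n' : φ' ⬝ᵥ t' ≠ 0)
    (t4 : t 4 = 0) {l l' : List ℕ} (l0 : l ≠ []) (hH : ∀ h ∈ H, ∃ μ μ' : k, ρ h *ᵥ t = μ • t ∧
      t' ᵥ* ρ h⁻¹ = μ' • t' ∧ μ ^ sm p l * μ' ^ sm p l' = 1)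
    (e1 : 2 * (l.length + l'.length) ≤ r * (p - 1) + 1)
    (e2 : d * l.length + d' * l'.length + 1 ≤ r * (p - 1)) : False := by
  obtain _ | ⟨a, l⟩ := l
  · exact l0 rfl
  have tv : ∀ g, dl ρ g *ᵥ t' = t' ᵥ* ρ g⁻¹ := fun g => by rw [dl_apply, mulVec_transpose]
  have := AT1 s.hy.toHy0 s.c a t (fun g => (φ ⬝ᵥ ρ g *ᵥ t) ^ sm p l * (φ' ⬝ᵥ dl ρ g *ᵥ t') ^ sm p l') tU
    (fun g u hu => by
      rw [map_mul, map_mul, ← mulVec_mulVec, ← mulVec_mulVec, tU u hu, tv u, tU' _ (inv_mem hu)])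
    (fun h hh => by
      obtain ⟨μ, μ', h1, h2, h3⟩ := hH h hh
      refine ⟨μ, h1, ?_⟩
      rw [sm_cons, pow_add] at h3
      simp only [h1, tv h, h2, map_one, one_mulVec, dotProduct_smul, smul_eq_mul, mul_pow]
      linear_combination (φ ⬝ᵥ t) ^ sm p l * (φ' ⬝ᵥ t') ^ sm p l' * h3)
    (s := Pi.single 4 1) (by simp) (fun u hu => by rw [s.hu u hu, e4_blk, one_smul]) (by simpa using t4)
    (fun y g => (((dgA_row _ s.lv (m := 2 + 1) (by decide) φ t).pw p l).mul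
      ((dgA_row _ s.lv' (m := 2 + 1) (by decide) φ' t').pw p l')).sum_zero s.c
        (by simp at e1; omega) y g) φ
    (fun g => by
      simpa only [sm, List.map_cons, List.sum_cons, pow_add, mul_assoc] using
        (((dg_row _ s.lv hφ t).pw p (a :: l)).mul ((dg_row _ s.lv' hφ' t').pw p l')).sum_zero p s.c.exp
          s.c.card e2 g) n
  simp [n, n'] at this

variable [IsAlgClosed k]

theorem orth {x ξ : Fin 3 → k} (hx : ∀ u ∈ U, f u ⬝ᵥ x = 0) (hξ : ∀ u ∈ U, ξ ⬝ᵥ v u = 0) :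
    ξ ⬝ᵥ x = 0 := by
  have := G2tr s.hy.toHy0 s.c (norm_of s.c (m := 3) (by have := s.four; omega) fun i j =>
    (dgA_entry _ s.lv (by decide) i j).dg) (π := vecMulVec (em x) (em ξ)) (fun u hu => by
      rw [mul_vecMulVec, vecMulVec_mul, s.hu u hu, blk_em, em_blk, hx u hu, hξ u hu]; simp)
    (s := Pi.single 0 1) (by simp) (fun u hu => by rw [s.hu u hu, blk_e0, one_smul])
    (fun h hh => ⟨_, by rw [s.hh h hh, blk_e0]⟩) (y := 0) (by
      rw [vecMulVec_mulVec]; simp [em])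
  rwa [trace_vecMulVec, em_dot, mul_zero, dotProduct_comm] at this

theorem form (hn : ∀ X : M5 k, ∑ᶠ u : U, ρ u * X * (ρ u)ᵀ = 0) (hz : ∀ u ∈ U, 2 * z u = f u ⬝ᵥ v u)
    {B : M3 k} (hs : Bᵀ = B) (hd : B.det ≠ 0) (hB : ∀ u ∈ U, f u = B *ᵥ v u)
    (hA : ∀ h ∈ H, (A h)ᵀ * B * A h = (α h * γ h) • B) : False := by
  have i1 := Matrix.mul_nonsing_inv _ hd.isUnit
  obtain ⟨Φ, hΦ⟩ : ∃ Φ : M5 k, Φ = Jm * blk (-1) 0 0 B 0 (-1) := ⟨_, rfl⟩
  obtain ⟨Ψ, hΨ⟩ : ∃ Ψ : M5 k, Ψ = blk (-1) 0 0 B⁻¹ 0 (-1) * Jm := ⟨_, rfl⟩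
  have e0 : Φ * Ψ = 1 := by
    rw [hΦ, hΨ, mul_assoc, ← mul_assoc (blk _ _ _ _ _ _), blk_mul]
    simp [i1, blk_one, Jm_sq]
  have tJ : ∀ X : M5 k, Xᵀ * Jm = Jm * (Jm * Xᵀ * Jm) := fun X => by
    rw [← mul_assoc, ← mul_assoc, Jm_sq, one_mul]
  have e1 : ∀ u ∈ U, (ρ u)ᵀ * Φ * ρ u = Φ := fun u hu => by
    rw [hΦ, ← mul_assoc, tJ, s.hu u hu, Jm_blk, mul_assoc, mul_assoc, blk_mul, blk_mul]
    congr 1
    have := hz u hu
    rw [hB u hu] at this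
    simp [blk_inj, hB u hu, ← mulVec_transpose, hs]
    rw [dotProduct_comm]
    linear_combination -this
  have e2 : ∀ h ∈ H, (ρ h)ᵀ * Φ * ρ h = (α h * γ h) • Φ := fun h hh => by
    rw [hΦ, ← mul_assoc, tJ, s.hh h hh, Jm_blk, mul_assoc, mul_assoc, blk_mul, blk_mul, ← mul_smul_comm,
      ← mul_assoc (A h)ᵀ, hA h hh]
    congr 1
    ext i j
    fin_cases i <;> fin_cases j <;> simp [blk, mul_comm]
  have e3 : ∀ g (c : k), (ρ g)ᵀ * Φ * ρ g = c • Φ → ρ g * Ψ * (ρ g)ᵀ = c • Ψ := fun g c e => by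
    have h1 : Ψ * (ρ g)ᵀ * Φ * ρ g = c • 1 := by
      rw [mul_assoc Ψ, mul_assoc Ψ, e, mul_smul_comm, mul_eq_one_comm.1 e0]
    have h2 := congrArg (fun X => ρ g * X * ρ g⁻¹ * Ψ) h1
    simpa only [mul_assoc, ← map_mul, mul_inv_cancel, map_one, mul_one, mul_smul_comm, smul_mul_assoc,
      e0, ← mul_assoc (ρ g) (ρ g⁻¹), one_mul] using h2
  have e4 : ∀ g (c : k), (ρ g)ᵀ * Φ * ρ g = c • Φ → ∀ X : M5 k,
      (Φ * (ρ g * X * (ρ g)ᵀ)).trace = c * (Φ * X).trace := fun g c e X => by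
    rw [← mul_assoc, trace_mul_comm, ← mul_assoc, ← mul_assoc, e, smul_mul_assoc,
      trace_smul, smul_eq_mul]
  by_cases h5 : (5 : k) = 0
  · have p5 : p = 5 := (Nat.prime_dvd_prime_iff_eq hp.out Nat.prime_five).1
      ((CharP.cast_eq_zero_iff k p 5).1 h5)
    subst p5
    have e5 : ∀ h ∈ H, α h * γ h = 1 := fun h hh => by
      have := congrArg Matrix.det (e2 h hh)
      rw [det_mul, det_mul, det_transpose, s.hy.det, one_mul, mul_one, det_smul, Fintype.card_fin,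
        eq_comm, mul_eq_right₀ (left_ne_zero_of_mul_eq_one (det_mul Φ Ψ ▸ e0 ▸ det_one))] at this
      exact sub_eq_zero.1 (eq_zero_of_pow_eq_zero (n := 5) (by rw [sub_pow_char, this]; simp))
    have := TT s.hy s.c (B := Ψ) (fun n hn => by
      obtain ⟨u, hu, h, hh, rfl⟩ := s.c.fac n hn
      rw [map_mul, transpose_mul, mul_assoc (ρ u), mul_assoc (ρ u), ← mul_assoc _ (ρ h)ᵀ,
        e3 h _ (e2 h hh), e5 h hh, one_smul, ← mul_assoc, e3 u 1 (by rw [e1 u hu, one_smul]), one_smul])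
      (entryLinearMap k k 0 4) fun X => by rw [← fsum_lin, hn, map_zero]
    simp [hΨ, blk, Jm, mul_apply, Fin.sum_univ_succ] at this
  · exact GL1 s.hy s.c hn (B := Ψ) (traceLinearMap _ k k ∘ₗ LinearMap.mulLeft k Φ) (by simpa [e0] using h5)
      (fun u hu => ⟨by simpa using e3 u 1 (by rw [e1 u hu, one_smul]), fun X => by
        simpa using e4 u 1 (by rw [e1 u hu, one_smul]) X⟩)
      fun h hh => ⟨_, e3 h _ (e2 h hh), fun X => by simpa using e4 h _ (e2 h hh) X⟩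

end Sh

end Cfsg.Agent.L5.Ra
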