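import Cfsg.Agent.L5.Ra2
import Cfsg.Agent.H2.Cls4

/-!
Layers of dimensions `1, 3, 1`: atoms in the middle layer.
-/

set_option autoImplicit false

namespace Cfsg.Agent.L5.Ra

open Matrix Cfsg.Agent.L5.R

variable {P k : Type*} [Group P] [Field k]

theorem gen [Finite P] {H : Subgroup P} (μ : P → k) (h1 : μ 1 = 1)
    (hm : ∀ a ∈ H, ∀ b ∈ H, μ (a * b) = μ a * μ b) : ∃ h ∈ H, ∀ g ∈ H, ∃ n : ℕ, μ g = μ h ^ n := by
  let κ : H →* k := ⟨⟨fun n => μ n, h1⟩, fun n m => hm _ n.2 _ m.2⟩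
  haveI : Finite κ.toHomUnits.range := Finite.of_surjective _ κ.toHomUnits.rangeRestrict_surjective
  obtain ⟨⟨_, n, rfl⟩, hn⟩ := IsCyclic.exists_monoid_generator (α := κ.toHomUnits.range)
  refine ⟨n, n.2, fun m hm => ?_⟩
  obtain ⟨j, hj⟩ := hn ⟨_, ⟨m, hm⟩, rfl⟩
  have e : κ ⟨m, hm⟩ = κ n ^ j := by
    simpa using congrArg (fun x : κ.toHomUnits.range => ((x : kˣ) : k)) hj.symm
  exact ⟨j, e⟩

section
variable {ι : Type} [Fintype ι] [DecidableEq ι]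

theorem ceig [IsAlgClosed k] (S : Set (Matrix ι ι k)) (X : Submodule k (ι → k)) (h0 : X ≠ ⊥)
    (hS : ∀ A ∈ S, ∀ x ∈ X, A *ᵥ x ∈ X) (hc : ∀ A ∈ S, ∀ B ∈ S, ∀ x ∈ X, A *ᵥ B *ᵥ x = B *ᵥ A *ᵥ x) :
    ∃ x ∈ X, x ≠ 0 ∧ ∀ A ∈ S, ∃ μ : k, A *ᵥ x = μ • x := by
  induction X using WellFoundedLT.induction with | _ X ih => ?_
  obtain ⟨x, hx, x0⟩ := (Submodule.ne_bot_iff X).1 h0
  by_cases e : ∀ A ∈ S, ∃ μ : k, A *ᵥ x = μ • x
  · exact ⟨x, hx, x0, e⟩
  push Not at e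
  obtain ⟨A, hA, e⟩ := e
  obtain ⟨μ, y, hy, y0, e'⟩ := K.ex_eig A h0 (hS A hA)
  have m : ∀ y, y ∈ X ⊓ LinearMap.ker (A.mulVecLin - μ • LinearMap.id) ↔ y ∈ X ∧ A *ᵥ y = μ • y :=
    fun y => by simp [sub_eq_zero]
  obtain ⟨z, hz, h⟩ := ih (X ⊓ LinearMap.ker (A.mulVecLin - μ • LinearMap.id))
    (lt_of_le_of_ne inf_le_left fun e' => e μ ((m x).1 (e'.ge hx)).2)
    ((Submodule.ne_bot_iff _).2 ⟨y, (m y).2 ⟨hy, e'⟩, y0⟩) (fun B hB y hy => (m _).2 ⟨hS B hB y hy.1, by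
      rw [hc A hA B hB y hy.1, ((m y).1 hy).2, mulVec_smul]⟩) fun A hA B hB y hy => hc A hA B hB y hy.1
  exact ⟨z, hz.1, h⟩

theorem row_step {b : ι → k} (i : ι) {j : ι} (h : b j ≠ 0) : ∃ M M' : Matrix ι ι k, M * M' = 1 ∧
    M i = b ∧ ∀ i', i' ≠ i → i' ≠ j → b i' = 0 → M *ᵥ Pi.single i' 1 = Pi.single i' 1 := by
  have hd : ((updateRow 1 j b).submatrix (Equiv.swap i j) id).det ≠ 0 := by
    rw [det_permute, ← cramer_transpose_apply, transpose_one, cramer_one]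
    exact mul_ne_zero (by rcases Int.units_eq_one_or (Equiv.Perm.sign (Equiv.swap i j)) with e | e <;>
      simp [e]) h
  refine ⟨_, _, mul_nonsing_inv _ hd.isUnit, by ext; simp, fun i' h1 h2 h3 => ?_⟩
  ext a
  rw [mulVec_single_one, col_apply, submatrix_apply, updateRow_apply, id]
  split_ifs with e
  · rw [h3, Pi.single_eq_of_ne]
    rintro rfl
    exact h2 (by rwa [Equiv.swap_apply_of_ne_of_ne h1 h2] at e)
  · rw [one_apply, Pi.single_apply]
    simp only [Equiv.swap_apply_eq_iff, Equiv.swap_apply_of_ne_of_ne h1 h2]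

theorem basis {a b : ι → k} {i j : ι} (h : i ≠ j) (ha : a ≠ 0) (hb : b ≠ 0) (e : b ⬝ᵥ a = 0) :
    ∃ C C' : Matrix ι ι k, C * C' = 1 ∧ C *ᵥ Pi.single i 1 = a ∧ Pi.single j 1 ᵥ* C' = b := by
  obtain ⟨i', hi⟩ := Function.ne_iff.1 ha
  obtain ⟨M, M', m1, m2, -⟩ := row_step i hi
  have m3 : Mᵀ * M'ᵀ = 1 := by rw [← transpose_mul, mul_eq_one_comm.1 m1, transpose_one]
  have m4 : Mᵀ *ᵥ Pi.single i 1 = a := by rw [mulVec_transpose, single_one_vecMul, ← m2]; rfl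
  have m5 : (b ᵥ* Mᵀ) i = 0 := by rw [← e, ← m4, dotProduct_mulVec]; simp
  obtain ⟨j', hj⟩ := Function.ne_iff.1 (show b ᵥ* Mᵀ ≠ 0 from fun e' => hb (by
    rw [← vecMul_one b, ← m3, ← vecMul_vecMul, e', zero_vecMul]))
  obtain ⟨N, N', n1, n2, n3⟩ := row_step j hj
  refine ⟨Mᵀ * N', N * M'ᵀ, ?_, ?_, ?_⟩
  · rw [mul_assoc, ← mul_assoc N', mul_eq_one_comm.1 n1, one_mul, m3]
  · rw [← n3 i h (by rintro rfl; exact hj m5) m5, mulVec_mulVec, mul_assoc, mul_eq_one_comm.1 n1,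
      mul_one, m4]
  · rw [← vecMul_vecMul, single_one_vecMul, show N.row j = _ from n2, vecMul_vecMul, m3, vecMul_one]

end

theorem Ef.sub {K : Subgroup P} {h : P} {x y : P → k} {μ μ' : k} (f : Ef K h x μ) (g : Ef K h y μ')
    (c : k) (e : c ≠ 0 → μ' = μ) : Ef K h (fun u => x u - c * y u) μ :=
  ⟨f.iv, fun u hu v hv => by rw [f.add u hu v hv, g.add u hu v hv]; ring, fun u hu => by
    rw [f.eq u hu, g.eq u hu]
    by_cases h0 : c = 0
    · simp [h0]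
    · rw [e h0]; ring, f.ne⟩

variable {p r : ℕ} {ρ : P →* M5 k} {U H : Subgroup P} {f v : P → Fin 3 → k} {z α γ : P → k}
  {A : P → M3 k}

namespace Sh
variable (s : Sh p r ρ U H f v z α γ A) {u w h g : P} [Finite P] [hp : Fact p.Prime] [CharP k p]
  [IsAlgClosed k]
include s

omit [Finite P] hp [CharP k p] [IsAlgClosed k] in
theorem finj (hu : u ∈ U) (hw : w ∈ U) (e : f u = f w) : u = w := by
  have := (s.add (mul_mem hu (inv_mem hw)) hw).1
  rw [inv_mul_cancel_right, e, right_eq_add] at this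
  exact mul_inv_eq_one.1 (s.an (mul_mem hu (inv_mem hw)) (by rw [this, zero_dotProduct]))

theorem eigF {x : Fin 3 → k} (h0 : x ≠ 0) (hx : ∀ u ∈ U, f u ⬝ᵥ x = 0) : ∃ x : Fin 3 → k, x ≠ 0 ∧
    (∀ u ∈ U, f u ⬝ᵥ x = 0) ∧ ∀ h ∈ H, ∃ μ : k, A h *ᵥ x = μ • x := by
  have iv : ∀ h ∈ H, ∀ x : Fin 3 → k, (∀ u ∈ U, f u ⬝ᵥ x = 0) → ∀ u ∈ U, f u ⬝ᵥ A h *ᵥ x = 0 :=
    fun h hh x hx u hu => by
      have := (s.eqv hh (s.c.conj' hh hu)).1
      rw [show h * (h⁻¹ * u * h) * h⁻¹ = u by group] at this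
      rw [dotProduct_mulVec, this, smul_dotProduct, hx _ (s.c.conj' hh hu), smul_zero]
  by_cases e : ∀ h ∈ H, ∃ μ : k, A h *ᵥ x = μ • x
  · exact ⟨x, h0, hx, e⟩
  push Not at e
  obtain ⟨h₁, hh₁, e⟩ := e
  have n0 := crossProduct_ne_zero_iff_linearIndependent.2
    ((LinearIndependent.pair_iff' h0).2 fun a => (e a).symm)
  have n1 : ∀ u ∈ U, ∃ c : k, c • crossProduct x (A h₁ *ᵥ x) = f u := fun u hu => by
    by_contra! e'
    refine crossProduct_ne_zero_iff_linearIndependent.2 ((LinearIndependent.pair_iff' n0).2 e') ?_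
    rw [← cross_anticomm, cross_cross_eq_smul_sub_smul', iv h₁ hh₁ x hx u hu, dotProduct_comm, hx u hu]
    simp
  generalize crossProduct x (A h₁ *ᵥ x) = n at n0 n1
  have n2 : ∀ h ∈ H, ∃ μ : k, n ᵥ* A h = μ • n := fun h hh => by
    obtain ⟨u, hu, u1⟩ := s.c.exists_ne
    obtain ⟨c, hc⟩ := n1 u hu
    obtain ⟨c', hc'⟩ := n1 _ (s.c.conj hh hu)
    have c0 : c' ≠ 0 := fun e => u1 (by
      simpa using s.an (s.c.conj hh hu) (by rw [← hc', e, zero_smul, zero_dotProduct]))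
    have := (s.eqv hh hu).1
    rw [← hc, ← hc', smul_vecMul, smul_smul, ← eq_inv_smul_iff₀ c0, smul_smul] at this
    exact ⟨_, this⟩
  have n3 : ∀ h ∈ H, ∀ g ∈ H, ∀ u ∈ U, (A h * A g - A g * A h) *ᵥ v u = 0 := fun h hh g hg u hu => by
    obtain ⟨e1, e2, -⟩ := s.eqv (mul_mem hh hg) hu
    obtain ⟨e3, e4, -⟩ := s.eqv (mul_mem hg hh) hu
    have : h * g * u * (h * g)⁻¹ = g * h * u * (g * h)⁻¹ := by
      refine s.finj (s.c.conj (mul_mem hh hg) hu) (s.c.conj (mul_mem hg hh) hu) ?_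
      obtain ⟨c, hc⟩ := n1 _ (s.c.conj (mul_mem hg hh) hu)
      obtain ⟨a, ha⟩ := n2 h hh
      obtain ⟨b, hb⟩ := n2 g hg
      have e5 : f (g * h * u * (g * h)⁻¹) ᵥ* A (h * g) = α (h * g) • f u := by
        rw [(s.mul hh hg).1, mul_comm (α h), ← (s.mul hg hh).1, ← e3, ← hc, (s.mul hh hg).2.1,
          (s.mul hg hh).2.1]
        simp only [smul_vecMul, ← vecMul_vecMul, ha, hb, smul_comm a b]
      simpa only [vecMul_vecMul, (s.inv (mul_mem hh hg)).2.1, vecMul_one] using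
        congrArg (· ᵥ* A (h * g)⁻¹) (e1.trans e5.symm)
    rw [sub_mulVec, ← (s.mul hh hg).2.1, ← (s.mul hg hh).2.1, ← e2, ← e4, this, (s.mul hh hg).2.2,
      (s.mul hg hh).2.2, mul_comm (γ h), sub_self]
  let X : Submodule k (Fin 3 → k) :=
    { carrier := {x | ∀ u ∈ U, f u ⬝ᵥ x = 0}
      add_mem' := fun a b u hu => by rw [dotProduct_add, a u hu, b u hu, add_zero]
      zero_mem' := fun u _ => dotProduct_zero _
      smul_mem' := fun c _ a u hu => by rw [dotProduct_smul, a u hu, smul_zero] }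
  obtain ⟨y, hy, y0, e⟩ := ceig (A '' H) X ((Submodule.ne_bot_iff _).2 ⟨x, hx, h0⟩)
    (by rintro _ ⟨h, hh, rfl⟩ x hx; exact iv h hh x hx) (by
      rintro _ ⟨h, hh, rfl⟩ _ ⟨g, hg, rfl⟩ x hx
      rw [mulVec_mulVec, mulVec_mulVec, ← sub_eq_zero, ← sub_mulVec]
      exact funext fun i => s.orth hx fun u hu => congrFun (n3 h hh g hg u hu) i)
  exact ⟨y, y0, hy, fun h hh => e _ ⟨h, hh, rfl⟩⟩

omit hp in
theorem diag (hh : h ∈ H) : ∃ (C C' : M3 k) (β : Fin 3 → k), C * C' = 1 ∧ C' * A h * C = diagonal β := by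
  have e : ∀ n : ℕ, A (h ^ n) = A h ^ n := fun n => by
    induction n with
    | zero => simpa using s.one.2.1
    | succ n ih => rw [pow_succ, (s.mul (pow_mem hh n) hh).2.1, ih, pow_succ]
  obtain ⟨C, β, h1⟩ := H2.Cls.exists_diag (M := A h) (Polynomial.X_pow_sub_one_separable_iff.2
    (show ((Nat.card H : ℕ) : k) ≠ 0 from fun e => s.c.cop ((CharP.cast_eq_zero_iff k p _).1 e))).squarefree
    (by
      have : h ^ Nat.card H = 1 := congrArg Subtype.val (pow_card_eq_one' (x := (⟨h, hh⟩ : H)))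
      simp [← e, this, s.one])
  exact ⟨_, _, β, C.mul_inv, h1⟩

omit [CharP k p] [IsAlgClosed k]
section
variable (hh : h ∈ H) {β : Fin 3 → k} (e : A h = diagonal β)
include hh e

omit [Finite P] hp in
theorem b0 (i : Fin 3) : β i ≠ 0 := fun e' => by
  have := s.det hh
  rw [e, det_diagonal, Finset.prod_eq_zero (Finset.mem_univ i) e'] at this
  simp at this

theorem efF (i : Fin 3) : Ef U h (fun u => f u i) (α h / β i) :=
  ⟨fun _ => s.c.conj hh, fun u hu w hw => by rw [(s.add hu hw).1]; rfl, fun u hu => by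
    have := congrFun (s.eqv hh hu).1 i
    rw [e, vecMul_diagonal] at this
    rw [div_mul_eq_mul_div, eq_div_iff (s.b0 hh e i), this]; rfl, div_ne_zero (s.a0 hh) (s.b0 hh e i)⟩

theorem efV (i : Fin 3) : Ef U h (fun u => v u i) (β i / γ h) :=
  ⟨fun _ => s.c.conj hh, fun u hu w hw => by rw [(s.add hu hw).2.1]; rfl, fun u hu => by
    have := congrFun (s.eqv hh hu).2.1 i
    rw [e, mulVec_diagonal] at this
    rw [div_mul_eq_mul_div, eq_div_iff (s.g0 hh), ← this, mul_comm]; rfl,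
    div_ne_zero (s.b0 hh e i) (s.g0 hh)⟩

end

theorem efE (hh : h ∈ H) : Ef U h (fun u => 2 * z u - f u ⬝ᵥ v u) (α h / γ h) :=
  ⟨fun _ => s.c.conj hh, fun u hu w hw => by
    obtain ⟨e1, e2, e3⟩ := s.add hu hw
    rw [e1, e2, e3, add_dotProduct, dotProduct_add, dotProduct_add, s.sym hw hu]; ring, fun u hu => by
    obtain ⟨e1, e2, e3⟩ := s.eqv hh hu
    have := congrArg (f (h * u * h⁻¹) ⬝ᵥ ·) e2
    simp only [dotProduct_mulVec, e1, dotProduct_smul, smul_dotProduct, smul_eq_mul] at this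
    rw [div_mul_eq_mul_div, eq_div_iff (s.g0 hh)]
    linear_combination 2 * e3 - this, div_ne_zero (s.a0 hh) (s.g0 hh)⟩

variable [CharP k p] [IsAlgClosed k]

theorem mid0 (hh : h ∈ H) {β : Fin 3 → k} (e : A h = diagonal β) {x : Fin 3 → k} (h0 : x ≠ 0)
    (hx : ∀ u ∈ U, f u ⬝ᵥ x = 0) {μ : k} (hμ : A h *ᵥ x = μ • x) :
    μ ^ (5 * SS p r) = 1 ∨ ∃ c, 0 < c ∧ 2 * c ≤ r ∧ μ ^ (10 * SS p c) = 1 := by
  obtain ⟨j, hj⟩ := Function.ne_iff.1 h0
  replace hj : x j ≠ 0 := hj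
  have e1 : ∀ i, x i ≠ 0 → β i = μ := fun i hi => mul_right_cancel₀ hi (by
    simpa only [e, mulVec_diagonal, Pi.smul_apply, smul_eq_mul] using congrFun hμ i)
  have g0 := s.g0 hh
  have b0 := s.b0 hh e
  obtain ⟨σ, rfl⟩ : ∃ σ : Equiv.Perm (Fin 3), j = σ 2 := ⟨Equiv.swap j 2, by simp⟩
  have d : ∀ a b : Fin 3 → k, a ⬝ᵥ b = a (σ 0) * b (σ 0) + a (σ 1) * b (σ 1) + a (σ 2) * b (σ 2) :=
    fun a b => by rw [dotProduct, ← Equiv.sum_comp σ, Fin.sum_univ_three]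
  have V := fun i => (s.efV hh e i).sub (s.efV hh e (σ 2)) (x i / x (σ 2)) fun n => by
    rw [e1 _ hj, e1 i (div_ne_zero_iff.1 n).1]
  have q : ∀ u ∈ U, ∀ w, f u (σ 0) * (v w (σ 0) - x (σ 0) / x (σ 2) * v w (σ 2)) +
      f u (σ 1) * (v w (σ 1) - x (σ 1) / x (σ 2) * v w (σ 2)) = f u ⬝ᵥ v w := fun u hu w => by
    have := hx u hu
    rw [d] at this ⊢
    field_simp
    linear_combination -v w (σ 2) * this
  have n : ∀ i, i ≠ σ 2 → Nz U (fun u => f u i) ∨ Nz U fun u => v u i - x i / x (σ 2) * v u (σ 2) :=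
    fun i hi => by
    by_contra! c
    simp only [Nz, not_exists, not_and, not_not] at c
    have := s.orth (x := Pi.single i 1) (ξ := Pi.single i 1 - (x i / x (σ 2)) • Pi.single (σ 2) 1)
      (fun u hu => by simpa using c.1 u hu) fun u hu => by simpa using c.2 u hu
    simp [hi.symm] at this
  have := Pl.mid (ω := α h / γ h) ⟨s.efF hh e (σ 0), s.efF hh e (σ 1), V (σ 0), V (σ 1),
    by field_simp [b0], by field_simp [b0], fun u hu w hw => by rw [q u hu, q w hw, s.sym hu hw],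
    fun u hu e => s.an hu (by rw [← q u hu, e])⟩ s.c.card s.c.pos (γ := γ h) (s.efV hh e (σ 2))
    (n _ (by simp)) (n _ (by simp)) (by
      by_contra c
      simp only [Nz, not_exists, not_and, not_not] at c
      exact hj (by simpa using s.orth (ξ := Pi.single (σ 2) 1) hx fun u hu => by simpa using c u hu)) (by
      have := s.det hh
      rw [e, det_diagonal, ← Equiv.prod_comp σ, Fin.prod_univ_three] at this
      field_simp
      linear_combination this)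
  rwa [mul_div_cancel₀ _ g0, e1 _ hj] at this

theorem mid (h3 : p = 3 → 3 ≤ r) {x : Fin 3 → k} (h0 : x ≠ 0) (hx : ∀ u ∈ U, f u ⬝ᵥ x = 0) : False := by
  obtain ⟨x, h0, hx, e⟩ := s.eigF h0 hx
  obtain ⟨j, hj⟩ := Function.ne_iff.1 h0
  replace hj : x j ≠ 0 := hj
  have e1 : ∀ h ∈ H, A h *ᵥ x = ((A h *ᵥ x) j / x j) • x := fun h hh => by
    obtain ⟨μ, e⟩ := e h hh
    simp [e, hj]
  obtain ⟨h, hh, hg⟩ := gen (H := H) (fun h => (A h *ᵥ x) j / x j) (by simp [s.one, hj])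
    fun a ha b hb => by
      rw [(s.mul ha hb).2.1, ← mulVec_mulVec, e1 b hb, mulVec_smul]
      simp [hj]; ring
  obtain ⟨C, C', β, c1, c2⟩ := s.diag hh
  obtain ⟨l, l0, l1, l2⟩ := arith3 hp.out s.odd s.c.pos h3 ((s.cjm c1).mid0 hh c2 (x := C' *ᵥ x)
    (K.mv_ne c1 h0) (fun u hu => by
      rw [← dotProduct_mulVec, mulVec_mulVec, c1, one_mulVec, hx u hu]) (by
      rw [mulVec_mulVec, mul_assoc, c1, mul_one, ← mulVec_mulVec, e1 h hh, mulVec_smul]))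
  have := s.four
  exact s.kill (t := em x) (φ := em (Pi.single j 1)) (t' := Pi.single 4 1) (φ' := Pi.single 4 1) (d := 1)
    (d' := 2) (fun u hu => by rw [s.hu u hu, blk_em, hx u hu]; simp)
    (fun u hu => by rw [s.hu u hu, e4_blk, one_smul]) (fun j => by fin_cases j <;> simp [em])
    (fun j => by fin_cases j <;> simp) (by simpa [em_dot] using hj) (by simp) rfl l0 (l' := [])
    (fun g hg' => by
      obtain ⟨n, hn⟩ := hg g hg'
      exact ⟨(A g *ᵥ x) j / x j, _, by rw [s.hh g hg', blk_em, ← em_smul, ← e1 g hg']; simp,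
        by rw [s.hh _ (inv_mem hg'), e4_blk], by rw [hn, pow_right_comm, l2]; simp [sm]⟩)
    (by simp; omega) (by simp; omega)

end Sh

end Cfsg.Agent.L5.Ra
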