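import Cfsg.Agent.L5.R40
import Cfsg.Agent.L5.Ra1
import Cfsg.Agent.L5.Rc0a

/-!
A Sylow subgroup of Loewy length three with one-dimensional products, acting non-trivially on the
middle layer, has prime order.
-/

set_option autoImplicit false
set_option linter.unusedSectionVars false

namespace Cfsg.Agent.L5.R.Ib
open Finset Matrix
open Cfsg.Agent.L4.R (Dg)
open Cfsg.Agent.L5.Ra (Ef Nz sm SS)

variable {P k : Type*} [Group P] [Field k] {ρ : P →* M5 k} {U H : Subgroup P} {p r : ℕ}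

/-- The shape of the elements of `U`. -/
def sb (s a b c z : k) : M5 k :=
  !![1, 0, s, c, z; 0, 1, 0, a, b; 0, 0, 1, 0, s; 0, 0, 0, 1, 0; 0, 0, 0, 0, 1]

/-- The normal form. -/
structure Nb (ρ : P →* M5 k) (U H : Subgroup P) : Prop where
  up : ∀ u ∈ U, ∃ s a b c z, ρ u = sb s a b c z
  inj : ∀ u ∈ U, ρ u 2 4 = 0 → u = 1
  dg : ∀ h ∈ H, ∃ d, ρ h = diagonal d
  ex : ∃ u ∈ U, ρ u 1 3 ≠ 0

theorem lst (hp : p.Prime) (h2 : p ≠ 2) (hr : 0 < r) (h3 : p = 3 → 3 ≤ r) : ∃ (l : List ℕ) (m : ℕ),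
    l ≠ [] ∧ 2 * l.length ≤ r * (p - 1) ∧ sm p l = 5 * SS p r * m ∧ p - 1 ∣ 4 * m := by
  by_cases e : p = 3
  · obtain ⟨l, h1, h4, m, h5⟩ := Ra.arith1 hp h2 hr h3
    exact ⟨l, m, h1, h4, h5, by subst e; omega⟩
  have h4 : ∀ j, ∃ L : List ℕ, L.length = r * j ∧ sm p L = j * SS p r := fun j => by
    induction j with
    | zero => exact ⟨[], by simp [sm]⟩
    | succ j ih =>
      obtain ⟨L, e1, e2⟩ := ih
      exact ⟨L ++ List.range r, by simp [e1, mul_add], by rw [Ra.sm_append, e2, SS]; ring⟩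
  obtain ⟨q, rfl⟩ : ∃ q, p = 2 * q + 1 := hp.odd_of_ne_two h2
  obtain ⟨q, rfl⟩ : ∃ j, q = j + 2 := ⟨q - 2, by have := hp.two_le; omega⟩
  obtain ⟨L, e1, e2⟩ := h4 q
  obtain ⟨L', e3, e4⟩ := h4 2
  refine ⟨L'.map (· + 1) ++ L, q + 2, List.length_pos_iff.1 (by simp [e3]; omega),
    by simp [e1, e3]; ring_nf; rfl, by rw [Ra.sm_append, Ra.sm_map, e2, e4]; ring, 2, by simp; ring⟩

namespace Nb
variable (t : Nb ρ U H)
include t

theorem lv : ∀ u ∈ U, ∀ i j, ![2, 1, 1, 0, 0] i ≤ ![2, 1, 1, 0, 0] j → (ρ u - 1) i j = 0 :=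
  fun u hu i j e => by
    obtain ⟨s, a, b, c, z, h⟩ := t.up u hu
    fin_cases i <;> fin_cases j <;> simp [h, sb] at e ⊢

theorem add {u v : P} (hu : u ∈ U) (hv : v ∈ U) : ρ (u * v) 2 4 = ρ u 2 4 + ρ v 2 4 ∧
    ρ (u * v) 1 3 = ρ u 1 3 + ρ v 1 3 ∧ ρ (u * v) 1 4 = ρ u 1 4 + ρ v 1 4 ∧
    ρ (u * v) 0 3 = ρ u 0 3 + ρ v 0 3 := by
  obtain ⟨s, a, b, c, z, h⟩ := t.up u hu
  obtain ⟨s', a', b', c', z', h'⟩ := t.up v hv
  simp [h, h', sb, mul_apply, Fin.sum_univ_five, add_comm]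

theorem s02 {u : P} (hu : u ∈ U) : ρ u 0 2 = ρ u 2 4 := by
  obtain ⟨s, a, b, c, z, h⟩ := t.up u hu
  rw [h]; rfl

theorem du : Nb (du ρ) U H := by
  refine ⟨fun u hu => ?_, fun u hu e => ?_, fun h hh => ?_, ?_⟩
  · obtain ⟨s, a, b, c, z, h⟩ := t.up _ (inv_mem hu)
    refine ⟨s, a, c, b, z, ?_⟩
    ext i j; rw [du_apply, h]; fin_cases i <;> fin_cases j <;> simp [sb, rev5]
  · rw [du_apply, rev5.2.2.2.2, rev5.2.2.1, t.s02 (inv_mem hu)] at e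
    exact inv_eq_one.1 (t.inj _ (inv_mem hu) e)
  · obtain ⟨d, h⟩ := t.dg _ (inv_mem hh)
    refine ⟨d ∘ Fin.rev, ?_⟩
    ext i j; rw [du_apply, h]; by_cases e : i = j <;> simp [diagonal_apply, eq_comm, e]
  · obtain ⟨u, hu, h⟩ := t.ex
    exact ⟨u⁻¹, inv_mem hu, by rwa [du_apply, inv_inv, rev5.2.2.2.1, rev5.2.1]⟩

variable [Finite P] [hp : Fact p.Prime] [CharP k p] (h : Hy0 ρ) (c : Gx p r U H)
include h c

theorem kill {l l' : List ℕ} (hl : l ≠ []) (hD : 2 * (l.length + l'.length) ≤ r * (p - 1))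
    (e : ∀ x ∈ H, ∀ d, ρ x = diagonal d → d 1 ^ sm p l = d 4 ^ sm p l') : False := by
  obtain ⟨a, l, rfl⟩ := List.exists_cons_of_ne_nil hl
  rw [List.length_cons] at hD
  have d1 : DgA U 3 fun g => ρ g⁻¹ 4 4 :=
    dgA_entry (ρ := dl ρ) _ (dl_lv _ t.lv (m := 2) (by decide)) (by decide) 4 4
  have d2 : Dg U 2 fun g => ρ g 1 1 := dg_entry _ t.lv 1 1
  have := AT1 h c a (Pi.single 1 1) (fun g => ρ g 1 1 ^ sm p l * ρ g⁻¹ 4 4 ^ sm p l')
    (fun u hu => by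
      obtain ⟨s, a, b, c, z, e⟩ := t.up u hu
      ext i; fin_cases i <;> simp [e, sb])
    (fun g u hu => by
      obtain ⟨s, a, b, c, z, e⟩ := t.up u hu
      obtain ⟨s', a', b', c', z', e'⟩ := t.up _ (inv_mem hu)
      simp [e, e', sb, mul_apply, vecMul, dotProduct, Fin.sum_univ_five])
    (fun x hx => by
      obtain ⟨d, e1⟩ := t.dg x hx
      obtain ⟨e2, e3⟩ := diag_inv e1
      refine ⟨d 1, by simp [e1, ← Pi.single_smul], ?_⟩
      have := e x hx d e1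
      rw [Ra.sm_cons, pow_add] at this
      simp [e1, e3, ← mul_assoc, this, e2])
    (s := Pi.single 4 1) (by simp) (fun u hu => by
      obtain ⟨s, a, b, c, z, e⟩ := t.up u hu
      ext i; fin_cases i <;> simp [e, sb]) (by simp)
    ((((dgA_entry _ t.lv (m := 3) (by decide) 1 1).pw p l).mul (d1.pw p l')).sum_zero c (by omega))
    (Pi.single 1 1) (fun g => by
      have := (((d2.frob p a).mul (d2.pw p l)).mul (d1.dg.pw p l')).sum_zero p c.exp c.card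
        (by omega) g
      simpa only [← entry_eq, mul_assoc, sm] using this) (by simp)
  simp at this

theorem dec [IsAlgClosed k] (h2 : p ≠ 2) (hr : 2 ≤ r) {x y : k} (hx : ∀ u ∈ U, ρ u 1 4 = x * ρ u 1 3)
    (hy : ∀ u ∈ U, ρ u 0 3 = y * ρ u 1 3) : False := by
  have h3 := Nat.mul_le_mul hr (show 2 ≤ p - 1 by have := hp.out.two_le; omega)
  have := G2tr h c (norm_of c (m := 3) (by omega) fun i j =>
    (dgA_entry _ t.lv (by decide) i j).dg)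
    (π := !![0, y, 0, 0, 0; 0, 1, 0, 0, 0; 0, 0, 0, 0, 0; 0, 0, 0, 1, x; 0, 0, 0, 0, 0])
    (fun u hu => by
      obtain ⟨s, a, b, c, z, e⟩ := t.up u hu
      have e1 := hx u hu
      have e2 := hy u hu
      rw [e] at e1 e2 ⊢
      obtain rfl : b = x * a := e1
      obtain rfl : c = y * a := e2
      ext i j; fin_cases i <;> fin_cases j <;> simp [sb, mul_apply, Fin.sum_univ_five] <;> ring)
    (s := Pi.single 0 1) (by simp) (fun u hu => by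
      obtain ⟨s, a, b, c, z, e⟩ := t.up u hu
      ext i; fin_cases i <;> simp [e, sb])
    (fun x hx => by
      obtain ⟨d, e1⟩ := t.dg x hx
      exact ⟨d 0, by simp [e1, ← Pi.single_smul]⟩) (y := 0) (by ext i; fin_cases i <;> simp)
  simp [trace, Fin.sum_univ_five, one_add_one_eq_two] at this
  exact h2 ((Nat.prime_dvd_prime_iff_eq hp.out Nat.prime_two).1 ((CharP.cast_eq_zero_iff k p 2).1 this))

omit [Finite P] hp [CharP k p] t h in
theorem ef {x : P} (hx : x ∈ H) {d : Fin 5 → k} (e : ρ x = diagonal d) {i j : Fin 5}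
    (ha : ∀ u ∈ U, ∀ v ∈ U, ρ (u * v) i j = ρ u i j + ρ v i j) :
    Ef U x (fun u => ρ u i j) (d i / d j) :=
  ⟨fun _ hu => c.conj hx hu, ha, fun u _ => diag_conj e u i j,
    div_ne_zero ((diag_inv e).1 i) ((diag_inv e).1 j)⟩

theorem wt {x : P} (hx : x ∈ H) {d : Fin 5 → k} (e : ρ x = diagonal d) :
    d 0 / d 2 = d 2 / d 4 ∧ (d 2 / d 4) ^ p ^ r = d 2 / d 4 ∧
    d 1 ^ 5 * (d 0 / d 3) ^ 3 = (d 2 / d 4) ^ 3 * (d 1 / d 3) ^ 4 ∧
    ∀ y μ, Ef U x y μ → Nz U y → ∃ i, μ = (d 2 / d 4) ^ p ^ i := by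
  have E := ef c hx e fun u hu v hv => (t.add hu hv).1
  have e1 := E.per1 c.card t.inj
  have e2 : d 0 / d 2 = d 2 / d 4 := by
    obtain ⟨u, hu, h1⟩ := c.exists_ne
    refine mul_right_cancel₀ (mt (t.inj u hu) h1) ?_
    rw [← diag_conj e, ← t.s02 hu, ← diag_conj e, t.s02 (c.conj hx hu)]
  have e3 := h.det x
  have d0 := (diag_inv e).1
  rw [e, det_diagonal, Fin.prod_univ_five] at e3
  refine ⟨e2, e1, ?_, fun y μ F n => E.cj F (fun u hu e => by rw [t.inj u hu e, F.one]) n c.pos e1⟩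
  rw [div_eq_div_iff (d0 2) (d0 4)] at e2
  field_simp [d0]
  grind

theorem caseG [IsAlgClosed k] (h2 : p ≠ 2) (hr : 2 ≤ r) (n : Nz U fun u => ρ u 0 3) : False := by
  have Ea := fun x hx d e => ef c (x := x) hx (d := d) e fun u hu v hv => (t.add hu hv).2.1
  have Ec := fun x hx d e => ef c (x := x) hx (d := d) e fun u hu v hv => (t.add hu hv).2.2.2
  have Es := fun x hx d e => ef c (x := x) hx (d := d) e fun u hu v hv => (t.add hu hv).1
  by_cases h3 : p = 3 → 3 ≤ r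
  · obtain ⟨l, m, l0, l1, l2, j, l3⟩ := lst hp.out h2 c.pos h3
    refine t.kill h c (l' := []) l0 (by simpa using l1) fun x hx d e => ?_
    obtain ⟨-, e1, e2, e3⟩ := t.wt h c hx e
    obtain ⟨i, e4⟩ := e3 _ _ (Ea x hx d e) t.ex
    obtain ⟨i', e5⟩ := e3 _ _ (Ec x hx d e) n
    have k0 := (Es x hx d e).ne
    have e6 := congrArg (· ^ SS p r) e2
    simp only [mul_pow, pow_right_comm _ _ (SS p r), e4, e5] at e6
    simp only [pow_right_comm _ (SS p r) (p ^ _), Ra.norm_cj e1 k0] at e6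
    have e7 : ((d 2 / d 4) ^ SS p r) ^ (p - 1) = 1 := mul_right_cancel₀ k0 (by
      rw [← pow_mul, SS, sm, geom, ← pow_succ, Nat.sub_add_cancel (Nat.one_le_pow _ _ hp.out.pos), e1,
        one_mul])
    rw [l2, mul_comm 5, pow_mul, pow_mul, mul_right_cancel₀ (pow_ne_zero 3 (pow_ne_zero _ k0))
      (e6.trans (mul_comm _ _)), ← pow_mul, l3, pow_mul, e7, one_pow, Ra.sm_nil, pow_zero]
  obtain ⟨rfl, rfl⟩ : p = 3 ∧ r = 2 := by omega
  have two : ∀ {κ μ : k}, κ ^ 3 ^ 2 = κ → (∃ i, μ = κ ^ 3 ^ i) → μ = κ ∨ μ = κ ^ 3 := by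
    rintro κ _ e ⟨i, rfl⟩
    rw [Ra.per_mod e]
    rcases Nat.mod_two_eq_zero_or_one i with e | e <;> simp [e]
  by_cases h4 : ∀ x ∈ H, ∀ d, ρ x = diagonal d → d 1 ^ 10 = 1
  · exact t.kill h c (l := [0, 2]) (l' := []) (by simp) (by simp) (by simpa [sm] using h4)
  push Not at h4
  obtain ⟨x, hx, d, e, h4⟩ := h4
  obtain ⟨e0, e1, e2, e3⟩ := t.wt h c hx e
  have k0 := (Es x hx d e).ne
  have d0 := (diag_inv e).1
  have k8 : (d 2 / d 4) ^ 8 = 1 := mul_right_cancel₀ k0 (by rw [← pow_succ, one_mul]; exact e1)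
  have e4 := two e1 (e3 _ _ (Ea x hx d e) t.ex)
  have e5 := two e1 (e3 _ _ (Ec x hx d e) n)
  have e6 : d 1 / d 4 * (d 0 / d 3) = (d 2 / d 4) ^ 2 * (d 1 / d 3) := by
    rw [sq]; nth_rewrite 1 [← e0]; field_simp [d0]
  have orb : (d 2 / d 4) ^ 4 ≠ 1 → ∀ (y : P → k) μ, Ef U x y μ → ∀ u ∈ U, u ≠ 1 → y u = 0 →
      ∀ v ∈ U, y v = 0 := by
    intro k4 y μ F u hu u1 y0 v hv
    obtain ⟨a, b, f1, f2, -⟩ := F.per c.card
    have f3 := (F.res (Es x hx d e)).per1 f2 fun u hu => t.inj u hu.1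
    obtain rfl | rfl | rfl : a = 0 ∨ a = 1 ∨ a = 2 := by omega
    · rw [pow_zero, Subgroup.card_eq_one] at f2
      exact absurd (Subgroup.mem_bot.1 (f2.le ⟨hu, y0⟩)) u1
    · exact absurd (by
        generalize d 2 / d 4 = κ at f3 k0
        clear * - f3 k0
        grind) k4
    · exact ((Subgroup.eq_of_le_of_card_ge (fun _ h => h.1 : F.kr ≤ U) (by rw [f2, c.card])).ge hv).2
  have E1 := Es x hx d e
  have E2 := Ea x hx d e
  have E3 := Ec x hx d e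
  have E4 := ef c hx e fun u hu v hv => (t.add hu hv).2.2.1
  have e7 := e3 _ _ E4
  generalize d 2 / d 4 = κ at *
  generalize d 1 / d 3 = μ at *
  generalize d 0 / d 3 = β at *
  generalize d 1 / d 4 = ω at *
  obtain ⟨rfl, k4⟩ : β = κ ^ 3 ∧ κ ^ 4 ≠ 1 := by
    generalize d 1 = z at h4 e2
    clear * - e2 e4 e5 k8 h4
    grind
  obtain ⟨u, hu, u0⟩ := t.ex
  have u1 : u ≠ 1 := by rintro rfl; simp at u0
  have s0 := mt (t.inj u hu) u1
  rcases e4 with rfl | rfl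
  · have a1 := orb k4 (fun v => ρ v 1 3 * ρ u 2 4 - ρ u 1 3 * ρ v 2 4) μ ⟨E1.iv, fun a ha b hb => by
      rw [(t.add ha hb).1, (t.add ha hb).2.1]; ring, fun a ha => by
      have g1 := E1.eq a ha
      have g2 := E2.eq a ha
      rw [g1, g2]; ring, k0⟩ u hu u1 (sub_self _)
    obtain ⟨w, hw, w0⟩ := n
    have w1 : w ≠ 1 := by rintro rfl; simp at w0
    have a2 := orb k4 (fun v => ρ v 0 3 * ρ w 2 4 ^ 3 - ρ w 0 3 * ρ v 2 4 ^ 3) (μ ^ 3)
      ⟨E1.iv, fun a ha b hb => by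
      rw [(t.add ha hb).1, (t.add ha hb).2.2.2, add_pow_char]; ring, fun a ha => by
      have g1 := E1.eq a ha
      have g2 := E3.eq a ha
      rw [g1, g2]; ring, pow_ne_zero _ k0⟩ w hw w1 (sub_self _)
    refine t.kill h c (l := [0]) (l' := [0]) (by simp) (by simp) fun x' hx' d' e' => ?_
    have g0 := (t.wt h c hx' e').1
    have g1 := a1 _ (c.conj hx' hu)
    have g2 := a2 _ (c.conj hx' hw)
    have g3 := (diag_inv e').1
    have s1 := mt (t.inj w hw) w1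
    simp only [diag_conj e'] at g1 g2 w0
    have g4 : d' 1 / d' 3 = d' 2 / d' 4 := mul_right_cancel₀ (mul_ne_zero u0 s0) (by
      linear_combination g1)
    have g5 : d' 0 / d' 3 = (d' 2 / d' 4) ^ 3 := mul_right_cancel₀
      (mul_ne_zero w0 (pow_ne_zero 3 s1)) (by linear_combination g2)
    have g6 : d' 1 / d' 4 * (d' 0 / d' 3) = (d' 2 / d' 4) ^ 2 * (d' 1 / d' 3) := by
      rw [sq]; nth_rewrite 1 [← g0]; field_simp [g3]
    rw [g4, g5, ← pow_succ, mul_eq_right₀ (pow_ne_zero _ (div_ne_zero (g3 2) (g3 4))),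
      div_eq_one_iff_eq (g3 4)] at g6
    simp [sm, g6]
  · have a1 := orb k4 (fun v => ρ v 0 3 - ρ u 0 3 / ρ u 1 3 * ρ v 1 3) (κ ^ 3) ⟨E1.iv, fun a ha b hb => by
      rw [(t.add ha hb).2.1, (t.add ha hb).2.2.2]; ring, fun a ha => by
      have g1 := E2.eq a ha
      have g2 := E3.eq a ha
      rw [g1, g2]; ring, pow_ne_zero _ k0⟩ u hu u1 (by simp [u0])
    refine t.dec h c h2 hr (x := 0) (fun v hv => ?_) fun v hv => sub_eq_zero.1 (a1 v hv)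
    by_contra e8
    have := two e1 (e7 ⟨v, hv, by simpa using e8⟩)
    clear * - this e6 k4 k0
    grind

theorem fin [IsAlgClosed k] (h2 : p ≠ 2) (hr : 2 ≤ r) : False := by
  by_cases n : Nz U fun u => ρ u 0 3
  · exact t.caseG h c h2 hr n
  by_cases n' : Nz U fun u => ρ u 1 4
  · obtain ⟨u, hu, e⟩ := n'
    exact t.du.caseG (h.dl.cj _) c h2 hr ⟨u⁻¹, inv_mem hu, by
      simpa only [du_apply, inv_inv, rev5.2.2.2.1, rev5.1] using e⟩
  simp only [Nz, not_exists, not_and, not_not] at n n'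
  exact t.dec h c h2 hr (x := 0) (y := 0) (by simpa using n') (by simpa using n)

end Nb

theorem pl (A : M5 k) : A ∈ Pl ![4, 3, 2, 1, 0] ↔ A 1 0 = 0 ∧ A 2 0 = 0 ∧ A 3 0 = 0 ∧ A 4 0 = 0 ∧
    A 2 1 = 0 ∧ A 3 1 = 0 ∧ A 4 1 = 0 ∧ A 3 2 = 0 ∧ A 4 2 = 0 ∧ A 4 3 = 0 :=
  ⟨fun h => by refine ⟨?_, ?_, ?_, ?_, ?_, ?_, ?_, ?_, ?_, ?_⟩ <;> exact h _ _ (by decide),
    fun h i j e => by fin_cases i <;> fin_cases j <;> simp [h] at e ⊢⟩

theorem sb_of {A : M5 k} {x : k} (e : (A - 1) * (sb 1 1 0 0 0 - 1) = single 0 4 x)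
    (e' : (sb 1 1 0 0 0 - 1) * (A - 1) = single 0 4 x) : ∃ s a b c z, A = sb s a b c z := by
  obtain ⟨N, rfl⟩ : ∃ N, A = N + 1 := ⟨A - 1, by simp⟩
  rw [add_sub_cancel_right, show (sb 1 1 0 0 0 - 1 : M5 k) =
    !![0, 0, 1, 0, 0; 0, 0, 0, 1, 0; 0, 0, 0, 0, 1; 0, 0, 0, 0, 0; 0, 0, 0, 0, 0] by
      ext i j; fin_cases i <;> fin_cases j <;> simp [sb]] at e e'
  refine ⟨x, N 1 3, N 1 4, N 0 3, N 0 4, ?_⟩
  simp [← Matrix.ext_iff, sb, mul_apply, vecMul, dotProduct, Fin.sum_univ_five, Fin.forall_fin_succ,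
    single_apply, one_apply] at e e' ⊢
  simp [e, e']

theorem tri {A : M5 k} {s a b c z : k} (e : A * sb 1 1 0 0 0 = sb s a b c z * A) (s0 : s ≠ 0) :
    A ∈ Pl ![4, 3, 2, 1, 0] := by
  rw [pl]
  simp [← Matrix.ext_iff, sb, mul_apply, vecMul, dotProduct, Fin.sum_univ_five, Fin.forall_fin_succ]
    at e
  grind

theorem cjb {A B : M5 k} {s a b c z : k} (e : sb s a b c z * B = B * A) (b1 : B ∈ Pl ![4, 3, 2, 1, 0])
    (i4 : ∀ i, B i i = 1) (i1 : A ∈ Pl ![4, 3, 2, 1, 0]) (i3 : ∀ i, A i i = 1) :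
    ∃ b c z, A = sb s a b c z := by
  rw [pl] at i1 b1
  refine ⟨A 1 4, A 0 3, A 0 4, ?_⟩
  simp [← Matrix.ext_iff, sb, mul_apply, vecMul, dotProduct, Fin.sum_univ_five, Fin.forall_fin_succ,
    i1, b1, i3, i4] at e ⊢
  grind

theorem ex2 [Finite P] [CharP k p] (hS : NoS ρ) (c : Gx p r U H) {z : P} (hz : z ∈ U)
    (e : ρ z = sb 1 1 0 0 0) (hu : ∀ u ∈ U, ∃ x, (ρ u - 1) * (ρ z - 1) = single 0 4 x) :
    ∃ (B B' : M5 k) (hB : B * B' = 1), Nb (cj hB ρ) U H := by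
  have up : ∀ u ∈ U, ∃ s a b c z, ρ u = sb s a b c z := fun u hu' => by
    obtain ⟨x, e1⟩ := hu u hu'
    exact sb_of (e ▸ e1) (by rw [← e, n_comm c.comm hz hu', e1])
  have s0 : ∀ u a b c z, ρ u = sb 0 a b c z → u = 1 := fun u a b c z e => hS u (by
    rw [e]; ext i j
    fin_cases i <;> fin_cases j <;> simp [sb, mul_apply, Fin.sum_univ_five, one_apply])
  obtain ⟨B, B', hB, b1, -, b2, -, b3, b4⟩ := lev (ρ := ρ) c.cop ![4, 3, 2, 1, 0] fun x hx => by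
    obtain ⟨s, a, b, c', y, e1⟩ := up _ (c.conj hx hz)
    refine tri (by rw [← e1, ← e]; simp [← map_mul]) ?_
    rintro rfl
    have := s0 _ _ _ _ _ e1
    rw [conj_eq_one_iff.1 this, map_one] at e
    simpa [sb] using congrFun (congrFun e 2) 4
  have dd : ∀ A : M5 k, ∀ i, Dl ![4, 3, 2, 1, 0] A i i = A i i := fun A i => by simp [Dl_apply]
  have key : ∀ u ∈ U, ∃ b c z, cj hB ρ u = sb (ρ u 2 4) (ρ u 1 3) b c z := fun u hu => by
    obtain ⟨s, a, b, c', x, e1⟩ := up u hu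
    obtain ⟨i1, i2⟩ := b4 u ((pl _).2 (by simp [e1, sb]))
    rw [show ρ u 2 4 = s by rw [e1]; rfl, show ρ u 1 3 = a by rw [e1]; rfl]
    exact cjb (e1 ▸ cj_mul hB u) b1 (fun i => by rw [← dd B, b2, one_apply_eq]) i1 fun i => by
      rw [← dd (cj hB ρ u), i2, dd, e1]; fin_cases i <;> rfl
  refine ⟨B, B', hB, fun u hu => ?_, fun u hu e0 => ?_, fun x hx => ⟨fun i => ρ x i i, ?_⟩, z, hz, ?_⟩
  · obtain ⟨b, c, x, e⟩ := key u hu
    exact ⟨_, _, _, _, _, e⟩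
  · obtain ⟨b, c, x, e1⟩ := key u hu
    obtain ⟨s, a, b', c', x', e2⟩ := up u hu
    rw [e1, e2] at e0
    exact s0 u a b' c' x' (by rw [e2, show s = 0 from e0])
  · rw [b3 x hx]
    ext i j; fin_cases i <;> fin_cases j <;> simp [Dl_apply]
  · obtain ⟨b, c, x, e'⟩ := key z hz
    simp [e', e, sb]

theorem ex1 {n : M5 k} {a b y : Fin 5 → k} {x : k} (h3 : n ^ 3 = 0) (e : n * n = x • vecMulVec a b)
    (h2 : n * n ≠ 0) (hy : b ⬝ᵥ y = 0) (hn : ∀ c : k, n *ᵥ y ≠ c • a) :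
    ∃ (B B' : M5 k) (w : k), B * B' = 1 ∧ (n + 1) * B = B * sb 1 1 0 0 0 ∧
      vecMulVec a b * B = B * single 0 4 w := by
  rw [e, Ne, smul_eq_zero, vecMulVec_eq_zero, not_or, not_or] at h2
  obtain ⟨x0, a0, b0⟩ := h2
  have e1 := h3
  have e2 := h3
  rw [pow_three, e, mul_smul_comm, mul_vecMulVec, smul_eq_zero, vecMulVec_eq_zero] at e1
  rw [pow_three', e, smul_mul_assoc, vecMulVec_mul, smul_eq_zero, vecMulVec_eq_zero] at e2
  have na : n *ᵥ a = 0 := (e1.resolve_left x0).resolve_right b0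
  have bn : ∀ v, b ⬝ᵥ n *ᵥ v = 0 := fun v => by
    rw [dotProduct_mulVec, (e2.resolve_left x0).resolve_left a0, zero_dotProduct]
  have nn : ∀ v, n *ᵥ n *ᵥ v = (x * (b ⬝ᵥ v)) • a := fun v => by
    rw [mulVec_mulVec, e, smul_mulVec, vecMulVec_mulVec, op_smul_eq_smul, smul_smul]
  have ba : b ⬝ᵥ a = 0 := by simpa [na, x0, a0] using (nn a).symm
  obtain ⟨t', ht'⟩ := ex_dot b0
  obtain ⟨t, ht⟩ : ∃ t, x * (b ⬝ᵥ t) = 1 :=
    ⟨(x * (b ⬝ᵥ t'))⁻¹ • t', by rw [dotProduct_smul, smul_eq_mul]; field_simp⟩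
  have bt : b ⬝ᵥ t ≠ 0 := right_ne_zero_of_mul_eq_one ht
  have i2 : ∀ c d : k, c • a + d • n *ᵥ y = 0 → c = 0 ∧ d = 0 := fun c d e => by
    have d0 : d = 0 := by
      by_contra d0
      refine hn (-c / d) (smul_right_injective _ d0 ?_)
      simp only [smul_smul, mul_div_cancel₀ _ d0]
      linear_combination (norm := module) e
    exact ⟨by simpa [d0, a0] using e, d0⟩
  obtain ⟨B', hB⟩ := cols_inv (v := ![a, n *ᵥ y, n *ᵥ t, y, t]) fun c e => by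
    simp only [Fin.sum_univ_five, Matrix.cons_val] at e
    have c4 : c 4 = 0 := by simpa [ba, bn, hy, bt] using congrArg (b ⬝ᵥ ·) e
    obtain ⟨c2, c3⟩ := i2 (c 2) (c 3) (by
      simpa [mulVec_add, mulVec_smul, na, nn, hy, ht, c4] using congrArg (n *ᵥ ·) e)
    obtain ⟨c0, c1⟩ := i2 (c 0) (c 1) (by simpa [c2, c3, c4] using e)
    intro i; fin_cases i <;> assumption
  refine ⟨_, B', b ⬝ᵥ t, hB, col_ext fun j => ?_, col_ext fun j => ?_⟩
  · fin_cases j <;> 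
      simp [-mulVec_mulVec, add_mulVec, sb, Fin.sum_univ_five, na, nn, hy, ht, add_comm]
  · fin_cases j <;> simp [-mulVec_mulVec, vecMulVec_mulVec, single_apply, ba, bn, hy]

end Cfsg.Agent.L5.R.Ib

namespace Cfsg.Agent.L5.R
open Matrix

/-- The case of a non-trivial action on the middle layer. -/
theorem iib {P k : Type*} [Group P] [Field k] {ρ : P →* M5 k} {U H : Subgroup P} {p r : ℕ} [Finite P]
    [IsAlgClosed k] [Fact p.Prime] [CharP k p] (hp : p ≠ 2) (h : Hy0 ρ) (hS : NoS ρ) (c : Gx p r U H)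
    (hr : 2 ≤ r) (h3 : ∀ u ∈ U, (ρ u - 1) ^ 3 = 0) {a b : Fin 5 → k}
    (hab : ∀ u ∈ U, ∀ v ∈ U, ∃ c : k, (ρ u - 1) * (ρ v - 1) = c • vecMulVec a b)
    (hm : ¬ ∀ u ∈ U, ∀ x, b ⬝ᵥ x = 0 → ∃ c : k, (ρ u - 1) *ᵥ x = c • a) : False := by
  push Not at hm
  obtain ⟨z, hz, y, hy, hn⟩ := hm
  obtain ⟨x, e⟩ := hab z hz z hz
  obtain ⟨B, B', w, hB, e1, e2⟩ := Ib.ex1 (h3 z hz) e (fun e => hn 0 (by simp [hS z e])) hy hn
  rw [sub_add_cancel] at e1
  obtain ⟨C, C', hC, t⟩ := Ib.ex2 (hS.cj hB) c hz (cj_of hB e1) fun u hu => by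
    obtain ⟨x, e⟩ := hab u hu z hz
    refine ⟨x * w, ?_⟩
    rw [cj_sub, cj_sub, mul_assoc, mul_assoc, ← mul_assoc B, ← mul_assoc B, hB, one_mul,
      ← mul_assoc (ρ u - 1), e, smul_mul_assoc, e2, mul_smul_comm, ← mul_assoc, mul_eq_one_comm.1 hB,
      one_mul, smul_single, smul_eq_mul]
  exact t.fin ((h.cj hB).cj hC) c hp hr

end Cfsg.Agent.L5.R
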