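import Cfsg.Agent.L5.Rc0a

/-!
Sylow subgroups of Loewy length three: the normal form in the cyclic case.
-/

set_option autoImplicit false
set_option linter.unusedSectionVars false

namespace Cfsg.Agent.L5.R
open Finset Matrix
open Subgroup (normalizer)

variable {P k : Type*} [Group P] [Field k] {ρ : P →* M5 k} {U H : Subgroup P} {p r : ℕ}

/-- The module `k[X,Y]/(XY,X³,Y³)`. -/
structure XY (ρ : P →* M5 k) (U H : Subgroup P) : Prop where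
  sh : ∀ u ∈ U, ρ u = uu (ρ u 2 4) (ρ u 3 4) (ρ u 0 4) (ρ u 1 4)
  ind : ∃ u ∈ U, ∃ v ∈ U, ρ u 2 4 * ρ v 3 4 ≠ ρ v 2 4 * ρ u 3 4
  dg : ∀ h ∈ H, ∃ l α β : k, ρ h = diagonal ![l * α ^ 2, l * β ^ 2, l * α, l * β, l] ∨
    ρ h = !![0, l * α ^ 2, 0, 0, 0; l * β ^ 2, 0, 0, 0, 0; 0, 0, 0, l * α, 0; 0, 0, l * β, 0, 0;
      0, 0, 0, 0, l]

/-- The module `k[X,Y]/(Y²,X³,X²Y)`. -/
structure YY (ρ : P →* M5 k) (U H : Subgroup P) : Prop where
  sh : ∀ u ∈ U, ρ u = vv (ρ u 2 4) (ρ u 3 4) (ρ u 0 4) (ρ u 1 4)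
  ind : ∃ u ∈ U, ∃ v ∈ U, ρ u 2 4 * ρ v 3 4 ≠ ρ v 2 4 * ρ u 3 4
  dg : ∀ h ∈ H, ∃ l α β : k, ρ h = diagonal ![l * α ^ 2, l * α * β, l * α, l * β, l]

theorem tt_mul (a b c d x y e f a' b' c' d' x' y' e' f' : k) :
    tt a b c d x y e f * tt a' b' c' d' x' y' e' f' = tt (a + a') (b + b') (c + c') (d + d')
      (x + x' + a * e' + b * f') (y + y' + c * e' + d * f') (e + e') (f + f') := by
  ext i j
  fin_cases i <;> fin_cases j <;> simp [tt, mul_apply, Fin.sum_univ_five] <;> ring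

theorem eq_tt {A : M5 k} (h : A ∈ Pl ![2, 2, 1, 1, 0]) (e : Dl ![2, 2, 1, 1, 0] A = 1) :
    A = tt (A 0 2) (A 0 3) (A 1 2) (A 1 3) (A 0 4) (A 1 4) (A 2 4) (A 3 4) := by
  ext i j
  have h1 := h i j
  have h2 := congrFun (congrFun e i) j
  fin_cases i <;> fin_cases j <;> first | rfl | exact h1 (by decide) | exact h2

/-- The general block diagonal matrix. -/
def bd (e f g h a b c d l : k) : M5 k :=
  !![e, f, 0, 0, 0; g, h, 0, 0, 0; 0, 0, a, b, 0; 0, 0, c, d, 0; 0, 0, 0, 0, l]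

theorem Dl_bd (A : M5 k) : Dl ![2, 2, 1, 1, 0] A =
    bd (A 0 0) (A 0 1) (A 1 0) (A 1 1) (A 2 2) (A 2 3) (A 3 2) (A 3 3) (A 4 4) := by
  ext i j
  fin_cases i <;> fin_cases j <;> rfl

theorem bd_mul (e f g h a b c d l e' f' g' h' a' b' c' d' l' : k) :
    bd e f g h a b c d l * bd e' f' g' h' a' b' c' d' l' = bd (e * e' + f * g') (e * f' + f * h')
      (g * e' + h * g') (g * f' + h * h') (a * a' + b * c') (a * b' + b * d') (c * a' + d * c')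
      (c * b' + d * d') (l * l') := by
  ext i j
  fin_cases i <;> fin_cases j <;> simp [bd, mul_apply, Fin.sum_univ_five]

theorem two_eq {a b a' b' x y : k} (h : a * b' ≠ a' * b) (e : x * a + y * b = 0)
    (e' : x * a' + y * b' = 0) : x = 0 ∧ y = 0 :=
  ⟨(mul_eq_zero.1 (show x * (a * b' - a' * b) = 0 by linear_combination b' * e - b * e')).resolve_right
    (sub_ne_zero.2 h), (mul_eq_zero.1 (show y * (a * b' - a' * b) = 0 by
      linear_combination a * e' - a' * e)).resolve_right (sub_ne_zero.2 h)⟩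

namespace Sh
variable {σ τ : k} (s : Sh σ τ ρ U)
include s

theorem pl (h1 : σ + τ = 1) {g : P} (hg : g ∈ normalizer (U : Set P)) :
    ρ g ∈ Pl ![2, 2, 1, 1, 0] := by
  obtain ⟨u, hu, v, hv, i⟩ := s.ind
  have row : ∀ u ∈ U, ∀ j, (ρ g * ρ u) 4 j = ρ g 4 j := fun u hu j => by
    rw [show ρ g * ρ u = ρ (g * u * g⁻¹) * ρ g by simp [← map_mul], s.sh _ ((hg u).1 hu)]
    simp [tt, mul_apply, Fin.sum_univ_five]
  have col : ∀ u ∈ U, ∀ i, (ρ u * ρ g) i 0 = ρ g i 0 ∧ (ρ u * ρ g) i 1 = ρ g i 1 := fun u hu j => by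
    rw [show ρ u * ρ g = ρ g * ρ (g⁻¹ * u * g⁻¹⁻¹) by simp [← map_mul, mul_assoc],
      s.sh _ ((inv_mem hg u).1 hu)]
    simp [tt, mul_apply, Fin.sum_univ_five]
  have r : ∀ u ∈ U, ρ g 4 0 * ρ u 2 4 + ρ g 4 1 * σ * ρ u 3 4 = 0 ∧
      ρ g 4 1 * σ * ρ u 2 4 + ρ g 4 1 * τ * ρ u 3 4 = 0 ∧ ρ g 4 2 * ρ u 2 4 + ρ g 4 3 * ρ u 3 4 +
        ρ g 4 0 * ρ u 0 4 + ρ g 4 1 * ρ u 1 4 = 0 := fun u hu => by
    have a2 := row u hu 2
    have a3 := row u hu 3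
    have a4 := row u hu 4
    rw [s.sh u hu] at a2 a3 a4
    simp [tt, mul_apply, Fin.sum_univ_five] at a2 a3 a4
    exact ⟨by linear_combination a2, by grind, by linear_combination a4⟩
  have r0 := (two_eq i (r u hu).1 (r v hv).1).1
  obtain ⟨r1, r2⟩ := two_eq i (r u hu).2.1 (r v hv).2.1
  have r3 : ρ g 4 1 = 0 := by linear_combination r1 + r2 - ρ g 4 1 * h1
  obtain ⟨r4, r5⟩ := two_eq i (x := ρ g 4 2) (y := ρ g 4 3) (by simpa [r0, r3] using (r u hu).2.2)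
    (by simpa [r0, r3] using (r v hv).2.2)
  have c : ∀ j, ρ g 4 j = 0 → (∀ u ∈ U, ∀ i, (ρ u * ρ g) i j = ρ g i j) →
      ρ g 2 j = 0 ∧ ρ g 3 j = 0 := fun j h4 h => by
    have c : ∀ u ∈ U, ρ g 2 j * ρ u 2 4 + 0 * ρ u 3 4 = 0 ∧ ρ g 3 j * σ * ρ u 2 4 +
        (ρ g 2 j * σ + ρ g 3 j * τ) * ρ u 3 4 = 0 := fun u hu => by
      have a0 := h u hu 0
      have a1 := h u hu 1
      rw [s.sh u hu] at a0 a1
      simp only [tt, mul_apply, Fin.sum_univ_five, h4, of_apply, Matrix.cons_val] at a0 a1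
      exact ⟨by linear_combination a0, by linear_combination a1⟩
    have c0 := (two_eq i (c u hu).1 (c v hv).1).1
    obtain ⟨c1, c2⟩ := two_eq i (c u hu).2 (c v hv).2
    exact ⟨c0, by linear_combination c1 + c2 - ρ g 3 j * h1 - σ * c0⟩
  obtain ⟨c0, c1⟩ := c 0 r0 fun u hu i => (col u hu i).1
  obtain ⟨c2, c3⟩ := c 1 r3 fun u hu i => (col u hu i).2
  intro i j e
  fin_cases i <;> fin_cases j <;> first | exact absurd e (by decide) | assumption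

theorem cjt {B B' : M5 k} (hB : B * B' = 1) (h1 : B ∈ Pl ![2, 2, 1, 1, 0])
    (h2 : B' ∈ Pl ![2, 2, 1, 1, 0]) (e1 : Dl ![2, 2, 1, 1, 0] B = 1)
    (e2 : Dl ![2, 2, 1, 1, 0] B' = 1) : Sh σ τ (cj hB ρ) U := by
  have hB' := hB
  rw [eq_tt h1 e1, eq_tt h2 e2, tt_mul] at hB'
  have z := fun i j => congrFun (congrFun hB' i) j
  have z1 : B 0 2 + B' 0 2 = 0 := z 0 2
  have z2 : B 0 3 + B' 0 3 = 0 := z 0 3
  have z3 : B 1 2 + B' 1 2 = 0 := z 1 2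
  have z4 : B 1 3 + B' 1 3 = 0 := z 1 3
  have z5 : B 2 4 + B' 2 4 = 0 := z 2 4
  have z6 : B 3 4 + B' 3 4 = 0 := z 3 4
  have key : ∀ u ∈ U, ∃ x y, cj hB ρ u = tt (ρ u 2 4) 0 (σ * ρ u 3 4) (σ * ρ u 2 4 + τ * ρ u 3 4)
      x y (ρ u 2 4) (ρ u 3 4) := fun u hu => ⟨_, _, by
    rw [cj_apply]
    conv_lhs => rw [eq_tt h1 e1, eq_tt h2 e2, s.sh u hu, tt_mul, tt_mul]
    congr 1
    exacts [by linear_combination z1, by linear_combination z2, by linear_combination z3,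
      by linear_combination z4, by linear_combination z5, by linear_combination z6]⟩
  refine ⟨fun u hu => ?_, ?_⟩
  · obtain ⟨x, y, e⟩ := key u hu
    rw [e]; rfl
  · obtain ⟨u, hu, v, hv, i⟩ := s.ind
    obtain ⟨x, y, e⟩ := key u hu
    obtain ⟨x', y', e'⟩ := key v hv
    exact ⟨u, hu, v, hv, by rw [e, e']; exact i⟩

theorem rel {g : P} (hg : g ∈ normalizer (U : Set P)) {e f g' h a b c d l : k}
    (hb : ρ g = bd e f g' h a b c d l) : l ≠ 0 ∧ a * d - b * c ≠ 0 ∧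
      (l * e - a * a = 0 ∧ l * f * σ - a * b = 0) ∧ (l * f * σ - a * b = 0 ∧ l * f * τ - b * b = 0) ∧
      (l * g' - ((σ * c) * a + (σ * a + τ * c) * c) = 0 ∧
        l * h * σ - ((σ * d) * a + (σ * b + τ * d) * c) = 0) ∧
      (l * h * σ - ((σ * c) * b + (σ * a + τ * c) * d) = 0 ∧
        l * h * τ - ((σ * d) * b + (σ * b + τ * d) * d) = 0) := by
  obtain ⟨u, hu, v, hv, i⟩ := s.ind
  have dt : (ρ g).det ≠ 0 := left_ne_zero_of_mul_eq_one (by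
    rw [← det_mul, ← map_mul, mul_inv_cancel, map_one, det_one] : (ρ g).det * (ρ g⁻¹).det = 1)
  have d2 : (bd e f g' h a b c d l).det = (e * h - f * g') * (a * d - b * c) * l := by
    simp [bd, det_succ_row_zero, Fin.sum_univ_succ, Fin.succAbove]; ring
  rw [hb, d2] at dt
  have q : ∀ u ∈ U, ((l * e - a * a) * ρ u 2 4 + (l * f * σ - a * b) * ρ u 3 4 = 0 ∧
      (l * f * σ - a * b) * ρ u 2 4 + (l * f * τ - b * b) * ρ u 3 4 = 0) ∧
      (l * g' - ((σ * c) * a + (σ * a + τ * c) * c)) * ρ u 2 4 +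
        (l * h * σ - ((σ * d) * a + (σ * b + τ * d) * c)) * ρ u 3 4 = 0 ∧
      (l * h * σ - ((σ * c) * b + (σ * a + τ * c) * d)) * ρ u 2 4 +
        (l * h * τ - ((σ * d) * b + (σ * b + τ * d) * d)) * ρ u 3 4 = 0 := fun u hu => by
    have e : ρ g * ρ u = ρ (g * u * g⁻¹) * ρ g := by simp [← map_mul]
    rw [s.sh u hu, s.sh _ ((hg u).1 hu), hb] at e
    have z := fun i j => congrFun (congrFun e i) j
    have z1 := z 2 4
    have z2 := z 3 4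
    have z3 := z 0 2
    have z4 := z 0 3
    have z5 := z 1 2
    have z6 := z 1 3
    simp only [tt, bd, mul_apply, Fin.sum_univ_five, of_apply, Matrix.cons_val] at z1 z2 z3 z4 z5 z6
    exact ⟨⟨by linear_combination l * z3 - a * z1, by linear_combination l * z4 - b * z1⟩,
      by linear_combination l * z5 - (σ * a + τ * c) * z2 - σ * c * z1,
      by linear_combination l * z6 - (σ * b + τ * d) * z2 - σ * d * z1⟩
  exact ⟨right_ne_zero_of_mul dt, right_ne_zero_of_mul (left_ne_zero_of_mul dt),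
    two_eq i (q u hu).1.1 (q v hv).1.1, two_eq i (q u hu).1.2 (q v hv).1.2,
    two_eq i (q u hu).2.1 (q v hv).2.1, two_eq i (q u hu).2.2 (q v hv).2.2⟩

end Sh

variable [Finite P] [hp : Fact p.Prime] [CharP k p]

theorem Sh.lev {σ τ : k} (s : Sh σ τ ρ U) (h1 : σ + τ = 1) (c : Gx p r U H) :
    ∃ (B B' : M5 k) (hB : B * B' = 1), Sh σ τ (cj hB ρ) U ∧
      ∀ x ∈ H, ∃ e f g h a b c d l : k, cj hB ρ x = bd e f g h a b c d l := by
  obtain ⟨B, B', hB, b1, b2, b3, b4, b5, -⟩ := R.lev c.cop _ fun x hx => s.pl h1 (c.le hx)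
  exact ⟨B, B', hB, s.cjt hB b1 b2 b3 b4, fun x hx => ⟨_, _, _, _, _, _, _, _, _,
    (b5 x hx).trans (Dl_bd _)⟩⟩

theorem Sh.xy (s : Sh 0 1 ρ U) (c : Gx p r U H) :
    ∃ (B B' : M5 k) (hB : B * B' = 1), XY (cj hB ρ) U H := by
  obtain ⟨B, B', hB, s, hb⟩ := s.lev (zero_add _) c
  refine ⟨B, B', hB, fun u hu => by simpa [tt, uu] using s.sh u hu, s.ind, fun x hx => ?_⟩
  obtain ⟨e, f, g, h, a, b, c', d, l, hb⟩ := hb x hx
  obtain ⟨l0, d0, ⟨r1, r2⟩, ⟨-, r3⟩, ⟨r4, r5⟩, -, r6⟩ := s.rel (c.le hx) hb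
  obtain rfl : e = a ^ 2 / l := by field_simp; linear_combination r1
  obtain rfl : f = b ^ 2 / l := by field_simp; linear_combination r3
  obtain rfl : g = c' ^ 2 / l := by field_simp; linear_combination r4
  obtain rfl : h = d ^ 2 / l := by field_simp; linear_combination r6
  rw [hb]
  by_cases a0 : a = 0
  · obtain rfl : d = 0 := by grind
    refine ⟨l, b / l, c' / l, .inr ?_⟩
    ext i j
    fin_cases i <;> fin_cases j <;> simp [bd, a0] <;> field_simp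
  · obtain rfl : b = 0 := by grind
    obtain rfl : c' = 0 := by grind
    refine ⟨l, a / l, d / l, .inl ?_⟩
    ext i j
    fin_cases i <;> fin_cases j <;> simp [bd] <;> field_simp

theorem Sh.yy (s : Sh 1 0 ρ U) (c : Gx p r U H) :
    ∃ (B B' : M5 k) (hB : B * B' = 1) (C C' : M5 k) (hC : C * C' = 1), YY (cj hC (cj hB ρ)) U H := by
  obtain ⟨B, B', hB, s, hb⟩ := s.lev (add_zero _) c
  refine ⟨B, B', hB, ?_⟩
  generalize cj hB ρ = ρ at *
  have hb' : ∀ x ∈ H, ∃ l α β γ : k, ρ x = bd (l * α ^ 2) 0 (2 * l * α * γ) (l * α * β) (l * α) 0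
      (l * γ) (l * β) l := fun x hx => by
    obtain ⟨e, f, g, h, a, b, c', d, l, hb⟩ := hb x hx
    obtain ⟨l0, d0, ⟨r1, r2⟩, ⟨-, r3⟩, ⟨r4, r5⟩, -⟩ := s.rel (c.le hx) hb
    obtain rfl : b = 0 := by grind
    obtain rfl : f = 0 := by grind
    refine ⟨l, a / l, d / l, c' / l, hb.trans ?_⟩
    congr 1 <;> field_simp
    exacts [by linear_combination r1, by linear_combination r4, by linear_combination r5]
  obtain ⟨A, A', hA, a1, -, a2, -, a3, -⟩ := R.lev (ρ := ρ) c.cop ![3, 4, 1, 2, 0] fun x hx => by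
    obtain ⟨l, α, β, γ, e⟩ := hb' x hx
    intro i j h
    rw [e]
    fin_cases i <;> fin_cases j <;> first | exact absurd h (by decide) | rfl
  have hC : bd 1 0 (2 * A 3 2) 1 1 0 (A 3 2) 1 1 * bd 1 0 (-2 * A 3 2) 1 1 0 (-A 3 2) 1 1 = 1 := by
    rw [bd_mul]
    ext i j
    fin_cases i <;> fin_cases j <;> simp [bd]
  have key : ∀ u ∈ U, cj hC ρ u = vv (ρ u 2 4) (ρ u 3 4 - A 3 2 * ρ u 2 4) (ρ u 0 4)
      (ρ u 1 4 - 2 * A 3 2 * ρ u 0 4) := fun u hu => cj_of hC (by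
    conv_lhs => rw [s.sh u hu]
    ext i j
    fin_cases i <;> fin_cases j <;> simp [bd, tt, vv, mul_apply, Fin.sum_univ_five] <;> ring)
  refine ⟨_, _, hC, fun u hu => by rw [key u hu]; rfl, ?_, fun x hx => ?_⟩
  · obtain ⟨u, hu, v, hv, i⟩ := s.ind
    refine ⟨u, hu, v, hv, ?_⟩
    rw [key u hu, key v hv]
    exact fun e => i (by simp [vv] at e; linear_combination e)
  obtain ⟨l, α, β, γ, e⟩ := hb' x hx
  have z := congrFun (congrFun (cj_mul (ρ := ρ) hA x) 3) 2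
  have y1 : A 2 2 = 1 := congrFun (congrFun a2 2) 2
  rw [a3 x hx, e] at z
  simp [bd, mul_apply, Fin.sum_univ_five, Dl_apply, y1] at z
  refine ⟨l, α, β, cj_of hC ?_⟩
  rw [e, bd_mul]
  ext i j
  fin_cases i <;> fin_cases j <;> simp [bd, mul_apply, Fin.sum_univ_five, diagonal]
  exacts [by linear_combination 2 * α * z, by linear_combination z]

theorem nfc [IsAlgClosed k] (h2 : p ≠ 2) (h : Hy ρ) (hS : NoS ρ) (c : Gx p r U H)
    (h3 : ∀ u ∈ U, (ρ u - 1) ^ 3 = 0)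
    (nc : ¬ ∃ a b, ∀ u ∈ U, ∀ v ∈ U, ∃ x : k, (ρ u - 1) * (ρ v - 1) = x • vecMulVec a b) :
    ∃ ρ' : P →* M5 k, Hy ρ' ∧ NoS ρ' ∧ ((∀ g, (ρ' g).trace = (ρ g).trace) ∨
      ∀ g, (ρ' g).trace = (ρ g⁻¹).trace) ∧ (XY ρ' U H ∨ YY ρ' U H) := by
  have two : (2 : k) ≠ 0 := fun e => h2 ((Nat.prime_dvd_prime_iff_eq hp.out Nat.prime_two).1
    ((CharP.cast_eq_zero_iff k p 2).1 e))
  have fin : ∀ {ρ : P →* M5 k}, Hy ρ → NoS ρ → (∃ (B B' : M5 k) (hB : B * B' = 1),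
      Sh 0 1 (cj hB ρ) U ∨ Sh 1 0 (cj hB ρ) U) → ∃ ρ' : P →* M5 k, Hy ρ' ∧ NoS ρ' ∧
      (∀ g, (ρ' g).trace = (ρ g).trace) ∧ (XY ρ' U H ∨ YY ρ' U H) := fun h hS ⟨_, _, hB, s⟩ => by
    rcases s with s | s
    · obtain ⟨_, _, hC, s⟩ := s.xy c
      exact ⟨_, (h.cj hB).cj hC, (hS.cj hB).cj hC, fun g => by simp only [cj_trace], .inl s⟩
    · obtain ⟨_, _, hC, _, _, hD, s⟩ := s.yy c
      exact ⟨_, ((h.cj hB).cj hC).cj hD, ((hS.cj hB).cj hC).cj hD, fun g => by simp only [cj_trace],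
        .inr s⟩
  obtain ⟨u, hu, u1⟩ := c.exists_ne
  obtain ⟨v, φ, e⟩ := rk1 (h3 u hu)
  obtain ⟨w, hw, nw⟩ : ∃ w ∈ U, ∀ x : k, (ρ w - 1) * (ρ w - 1) ≠ x • vecMulVec v φ := by
    by_contra! d
    refine nc ⟨v, φ, fun a ha b hb => ?_⟩
    obtain ⟨x, hx⟩ := d a ha
    obtain ⟨y, hy⟩ := d b hb
    obtain ⟨z, hz⟩ := d _ (mul_mem ha hb)
    refine ⟨(z - x - y) / 2, smul_right_injective _ two ?_⟩
    simp only [polar c.comm h3 ha hb, hx, hy, hz, smul_smul, mul_div_cancel₀ _ two, sub_smul]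
  obtain ⟨v', φ', e'⟩ := rk1 (h3 w hw)
  have n0 : vecMulVec v φ ≠ 0 := fun z => u1 (hS u (e.trans z))
  have n1 : vecMulVec v' φ' ≠ 0 := fun z => nw 0 (by rw [e', z, zero_smul])
  obtain ⟨v0, f0⟩ := not_or.1 (mt vecMulVec_eq_zero.2 n0)
  obtain ⟨v1, f1⟩ := not_or.1 (mt vecMulVec_eq_zero.2 n1)
  by_cases i : In2 v v'
  · obtain ⟨ρ', a, b, d, s⟩ := fin h hS (nf0 c.comm h3 two (SJ_mem hu) (SJ_mem hw) e e' f0 f1 i)
    exact ⟨ρ', a, b, .inl d, s⟩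
  by_cases i' : In2 φ φ'
  · have t : ∀ {u : P} {v φ : Fin 5 → k}, (ρ u - 1) * (ρ u - 1) = vecMulVec v φ →
        (dl ρ u⁻¹ - 1) * (dl ρ u⁻¹ - 1) = vecMulVec φ v := fun e => by
      rw [dl_apply, inv_inv, ← transpose_one, ← transpose_sub, ← transpose_mul, e,
        transpose_vecMulVec]
    obtain ⟨ρ', a, b, d, s⟩ := fin h.dl hS.dl (nf0 c.comm
      (fun u hu => (dl_pow_eq u 3).2 (h3 _ (inv_mem hu))) two (SJ_mem (inv_mem hu))
      (SJ_mem (inv_mem hw)) (t e) (t e') v0 v1 i')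
    exact ⟨ρ', a, b, .inr fun g => (d g).trans (dl_trace g), s⟩
  obtain ⟨x, rfl⟩ := of_not_In2 i v0
  obtain ⟨y, rfl⟩ := of_not_In2 i' f0
  exact absurd (by rw [e', smul_vecMulVec, vecMulVec_smul, smul_smul]) (nw (x * y))

end Cfsg.Agent.L5.R
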