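import Cfsg.Agent.L5.Rc0
import Cfsg.Agent.L5.RM

/-!
The module `k[X,Y]/(XY,X³,Y³)` does not occur in characteristic at least five.
-/

set_option autoImplicit false
set_option linter.unusedSectionVars false

namespace Cfsg.Agent.L5.R
open Finset Matrix
open Subgroup (normalizer)

variable {P k : Type*} [Group P] [Field k] {ρ : P →* M5 k} {U H : Subgroup P} {p r : ℕ}

/-- The diagonal automorphisms. -/
abbrev dgm (l α β : k) : M5 k := diagonal ![l * α ^ 2, l * β ^ 2, l * α, l * β, l]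

/-- The automorphisms interchanging the variables. -/
abbrev swm (l α β : k) : M5 k := !![0, l * α ^ 2, 0, 0, 0; l * β ^ 2, 0, 0, 0, 0;
  0, 0, 0, l * α, 0; 0, 0, l * β, 0, 0; 0, 0, 0, 0, l]

theorem dgm_det (l α β : k) : (dgm l α β).det = l ^ 5 * (α * β) ^ 3 := by
  simp [Fin.prod_univ_five]; ring

theorem swm_det (l α β : k) : (swm l α β).det = l ^ 5 * (α * β) ^ 3 := by
  simp [det_succ_row_zero, Fin.sum_univ_succ, Fin.succAbove]; ring

theorem dgm_rel (h : Hy0 ρ) {x : P} {l α β : k} (e : ρ x = dgm l α β) : l ^ 5 * (α * β) ^ 3 = 1 := by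
  rw [← dgm_det, ← e, h.det]

theorem swm_rel (h : Hy0 ρ) {x : P} {l α β : k} (e : ρ x = swm l α β) : l ^ 5 * (α * β) ^ 3 = 1 := by
  rw [← swm_det, ← e, h.det]

theorem swm_sq (l α β : k) : swm l α β * swm l α β = dgm (l ^ 2) (α * β) (α * β) := by
  ext i j
  fin_cases i <;> fin_cases j <;> simp [mul_apply, Fin.sum_univ_five] <;> ring

theorem inv44 {x : P} {l : k} (h : ∀ j, ρ x j 4 = if j = 4 then l else 0) : ρ x⁻¹ 4 4 * l = 1 := by
  have := congrFun (congrFun (K.inv_l (ρ := ρ) x) 4) 4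
  simpa [mul_apply, h] using this

theorem nz3 {l α β : k} (h : l ^ 5 * (α * β) ^ 3 = 1) : l ≠ 0 ∧ α ≠ 0 ∧ β ≠ 0 := by
  refine ⟨?_, ?_, ?_⟩ <;> rintro rfl <;> simp at h

namespace XY
variable (s : XY ρ U H)
include s

theorem lvl : ∀ u ∈ U, ∀ i j, (![2, 2, 1, 1, 0] : Fin 5 → ℕ) i ≤ (![2, 2, 1, 1, 0] : Fin 5 → ℕ) j →
    (ρ u - 1) i j = 0 := fun u hu i j e => by
  rw [s.sh u hu]
  fin_cases i <;> fin_cases j <;> first | exact absurd e (by decide) | simp [uu]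

theorem dgE (i j : Fin 5) : DgA U (2 + 1) fun g => ρ g i j :=
  dgA_entry _ s.lvl (by decide) i j

theorem dgX (j : Fin 5) : DgA U (2 + 1) fun g => ρ g⁻¹ 4 j :=
  dgA_entry (ρ := dl ρ) _ (dl_lv _ s.lvl (m := 2) (by decide)) (by decide) j 4

theorem dgM : DgA U (3 + 1) fun g => ρ g 0 0 * ρ g 1 1 - ρ g 1 0 * ρ g 0 1 :=
  dgA_min _ s.lvl (lo := 1) (by decide) (by decide) 0 1 0 1

theorem iE {j : Fin 5} (hj : j = 0 ∨ j = 1) (i : Fin 5) (g : P) {u : P} (hu : u ∈ U) :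
    ρ (g * u) i j = ρ g i j := by
  rw [map_mul, s.sh u hu]
  rcases hj with rfl | rfl <;> simp [uu, mul_apply, Fin.sum_univ_five]

theorem iX (j : Fin 5) (g : P) {u : P} (hu : u ∈ U) : ρ (g * u)⁻¹ 4 j = ρ g⁻¹ 4 j := by
  rw [_root_.mul_inv_rev, map_mul, s.sh _ (inv_mem hu)]
  simp [uu, mul_apply, Fin.sum_univ_five]

theorem add {j : Fin 5} (hj : j = 2 ∨ j = 3) : ∀ u ∈ U, ∀ v ∈ U,
    ρ (u * v) j 4 = ρ u j 4 + ρ v j 4 := fun u hu v hv => by
  rw [map_mul]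
  conv_lhs => rw [s.sh u hu, s.sh v hv]
  rcases hj with rfl | rfl <;> simp [uu, mul_apply, Fin.sum_univ_five, add_comm]

theorem one (hS : NoS ρ) {u : P} (hu : u ∈ U) (h2 : ρ u 2 4 = 0) (h3 : ρ u 3 4 = 0) : u = 1 :=
  hS u (by
    rw [s.sh u hu, h2, h3]
    ext i j
    fin_cases i <;> fin_cases j <;> simp [uu, mul_apply, Fin.sum_univ_five, one_apply])

theorem wt (c : Gx p r U H) {x : P} (hx : x ∈ H) {l α β : k} (e : ρ x = dgm l α β) (l0 : l ≠ 0) :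
    (∀ u ∈ U, ρ (x * u * x⁻¹) 2 4 = α * ρ u 2 4) ∧ ∀ u ∈ U, ρ (x * u * x⁻¹) 3 4 = β * ρ u 3 4 := by
  have : ∀ u i, ρ (x * u * x⁻¹) i 4 * l = ![l * α ^ 2, l * β ^ 2, l * α, l * β, l] i * ρ u i 4 :=
    fun u i => by
      have := congrFun (congrFun (show ρ (x * u * x⁻¹) * ρ x = ρ x * ρ u by simp [← map_mul]) i) 4
      rwa [e, mul_diagonal, diagonal_mul] at this
  exact ⟨fun u _ => mul_right_cancel₀ l0 ((this u 2).trans (by simp; ring)),
    fun u _ => mul_right_cancel₀ l0 ((this u 3).trans (by simp; ring))⟩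

variable [Finite P] [hp : Fact p.Prime] [CharP k p] (h : Hy0 ρ) (c : Gx p r U H)
include h c

theorem kill {j : Fin 5} (hj : j = 0 ∨ j = 1) (a : ℕ) {n : ℕ} {R : P → k} (hR : DgA U (n + 1) R)
    (hn : 2 + n < r * (p - 1)) (RU : ∀ g, ∀ u ∈ U, R (g * u) = R g)
    (h0 : ∀ x ∈ H, ∀ l α β, ρ x = dgm l α β → ρ x j j ^ p ^ a * R x = 1) : False := by
  have key := AT h c a (Pi.single j 1) R (fun u hu => by
      ext i; simpa [one_apply, Pi.single_apply] using s.iE hj i 1 hu) RU (s := Pi.single 4 1) (by simp) (fun u hu => by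
      ext i; simpa [one_apply, Pi.single_apply, eq_comm] using s.iX i 1 (inv_mem hu)) (fun x hx => by
      obtain ⟨l, α, β, e | e⟩ := s.dg x hx <;> rcases hj with rfl | rfl <;> simp [e])
    (hR.sum_zero c (by omega)) (Pi.single j 1) fun g => by
      simpa only [one_mul, ← entry_eq] using (((s.dgE j j).frob p a).mul hR).sum_zero c hn 1 g
  simp only [← entry_eq] at key
  have cs : ∀ x ∈ H, ρ x j j ^ p ^ a * R x = 1 ∧ ρ x 0 0 ≠ 0 ∧ ρ x 1 0 = 0 ∨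
      ρ x j j ^ p ^ a * R x = 0 ∧ ρ x 0 0 = 0 ∧ ρ x 1 0 ≠ 0 := fun x hx => by
    obtain ⟨l, α, β, e | e⟩ := s.dg x hx
    · obtain ⟨a1, a2, a3⟩ := nz3 (dgm_rel h e)
      exact .inl ⟨h0 x hx l α β e, by simp [e, a1, a2], by simp [e]⟩
    · obtain ⟨a1, a2, a3⟩ := nz3 (swm_rel h e)
      exact .inr ⟨by rcases hj with rfl | rfl <;> simp [e, hp.out.ne_zero], by simp [e],
        by simp [e, a1, a3]⟩
  refine c.card_ne (k := k) ?_
  rw [← mul_one (Nat.card H : k), ← fsum_const]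
  by_cases w : ∀ x ∈ H, ρ x 0 0 ≠ 0
  · exact (finsum_congr fun x : H => ((cs x x.2).resolve_right fun e => w x x.2 e.2.1).1.symm).trans key
  push Not at w
  obtain ⟨w, hw, w0⟩ := w
  have k2 := (fsum_shift (fun x => ρ x j j ^ p ^ a * R x) hw).trans key
  rw [← add_zero (0 : k)]
  conv_rhs => enter [1]; rw [← key]
  rw [← k2, ← finsum_add_distrib (Set.toFinite _) (Set.toFinite _)]
  refine finsum_congr fun x => ?_
  obtain ⟨l, α, β, e | e⟩ := s.dg w hw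
  · exact absurd w0 ((cs w hw).resolve_right fun c => c.2.2 (by simp [e])).2.1
  obtain ⟨a1, a2, a3⟩ := nz3 (swm_rel h e)
  have e2 : ρ (w * x) 0 0 = l * α ^ 2 * ρ x 1 0 := by
    rw [map_mul, e]; simp [mul_apply, Fin.sum_univ_five]
  rcases cs x x.2 with b | b <;> rcases cs _ (mul_mem hw x.2) with d | d
  · exact absurd (by rw [e2, b.2.2, mul_zero]) d.2.1
  · rw [b.1, d.1, add_zero]
  · rw [b.1, d.1, zero_add]
  · exact absurd (e2.symm.trans d.2.1) (by simp [a1, a2, b.2.2])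

omit s h c [CharP k p] [Finite P] in
theorem geom' (t : ℕ) : (1 + ((List.range t).map (p ^ ·)).sum * p) * (p - 1) = p ^ (t + 1) - 1 := by
  have h1 := geom (p := p) t
  have h2 := Nat.one_le_pow t p hp.out.pos
  have h3 := hp.out.one_le
  zify [h2, h3, Nat.one_le_pow (t + 1) p hp.out.pos] at h1 ⊢
  linear_combination p * h1

omit s h c [Finite P] in
theorem dT {d : ℕ} {f : P → k} (hf : DgA U (d + 1) f) (t : ℕ) :
    DgA U (d * t + 1) fun g => f g ^ (((List.range t).map (p ^ ·)).sum * p) :=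
  ((by simpa using hf.pw p (List.range t) : DgA U (d * t + 1) _).frob p 1).congr fun g => by
    rw [pow_one, pow_mul]

omit s h c [Finite P] in
theorem dS {d : ℕ} {f : P → k} (hf : DgA U (d + 1) f) (t j : ℕ) :
    DgA U (d * (t + 1) * j + 1) fun g => f g ^ ((1 + ((List.range t).map (p ^ ·)).sum * p) * j) :=
  ((show DgA U (d * (t + 1) + 1) _ by
    simpa only [mul_add, mul_one, add_comm d] using hf.mul (dT (p := p) hf t)).pow j).congr fun g => by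
    rw [pow_mul, pow_add, pow_one]

theorem small {j : Fin 5} (hj : j = 0 ∨ j = 1) {t : ℕ} (ht : 2 * (t + 1) < r) (h2 : p ≠ 2)
    (h0 : ∀ x ∈ H, ∀ l α β, ρ x = dgm l α β → ∃ γ, ρ x j j = l * γ ^ 2 ∧ γ ^ (p ^ (t + 1) - 1) = 1) :
    False := by
  obtain ⟨n, hn⟩ : ∃ n, p - 1 = 2 * (n + 1) := by
    have := hp.out.eq_two_or_odd.resolve_left h2
    have := hp.out.two_le
    exact ⟨(p - 3) / 2, by omega⟩
  refine s.kill h c hj 0 (((dT (p := p) (s.dgE j j) t).mul (dS (p := p) (s.dgE j j) t n)).mul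
    (dS (p := p) (s.dgX 4) t (n + 1))) (by rw [hn]; nlinarith)
    (fun g u hu => by simp only [s.iE hj j g hu, s.iX 4 g hu]) fun x hx l α β e => ?_
  obtain ⟨γ, e1, e2⟩ := h0 x hx l α β e
  have e3 := inv44 (ρ := ρ) (x := x) (l := l) fun j => by rw [e]; fin_cases j <;> simp
  rw [← geom', hn] at e2
  generalize ((List.range t).map (p ^ ·)).sum * p = T at *
  generalize ρ x⁻¹ 4 4 = y at *
  calc _ = (y * l) ^ ((1 + T) * (n + 1)) * γ ^ ((1 + T) * (2 * (n + 1))) := by rw [e1]; ring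
    _ = 1 := by rw [e2, e3, one_pow, one_mul]

theorem big (h5 : 5 ≤ p) (hr : 2 ≤ r) (h0 : ∀ x ∈ H, ∀ l α β, ρ x = dgm l α β →
    α ^ (p ^ r - 1) = 1 ∧ β ^ (p ^ r - 1) = 1) : False := by
  obtain ⟨t, rfl⟩ : ∃ t, r = t + 1 := ⟨r - 1, by omega⟩
  by_cases h7 : p = 7
  · obtain ⟨g, hg⟩ := col_ne h.dl 0 4
    refine pow_ne_zero _ hg (KC c (dS (p := p) (s.dgX 0) t 1)
      ((dS (p := p) (s.dgX 4) t 1).frob p 2) (by subst h7; omega) (fun y hy => ?_) (by simp) (by simp) g)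
    obtain ⟨u, hu, x, hx, rfl⟩ := c.fac y hy
    obtain ⟨l, ω, e1, e2, e3⟩ : ∃ l ω : k, (∀ j, ρ x 4 j = if j = 4 then l else 0) ∧
        l ^ 5 * ω ^ 3 = 1 ∧ ω ^ (p ^ (t + 1) - 1) = 1 := by
      obtain ⟨l, α, β, e | e⟩ := s.dg x hx
      · exact ⟨l, α * β, fun j => by rw [e]; fin_cases j <;> simp,
          dgm_rel h e, by
            rw [mul_pow, (h0 x hx l α β e).1, (h0 x hx l α β e).2, one_mul]⟩
      · exact ⟨l, α * β, fun j => by rw [e]; fin_cases j <;> simp,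
          swm_rel h e,
          (h0 _ (mul_mem hx hx) _ _ _ (by rw [map_mul, e, swm_sq])).1⟩
    have l0 : l ≠ 0 := by rintro rfl; simp at e2
    have e4 : ∀ g j, ρ (g * (u * x))⁻¹ 4 j = l⁻¹ * ρ g⁻¹ 4 j := fun g j => by
      rw [eq_inv_mul_iff_mul_eq₀ l0, ← s.iX j g hu, ← mul_assoc,
        show (g * u)⁻¹ = x * (g * u * x)⁻¹ by group, map_mul, mul_apply]
      simp [e1]
    rw [← geom'] at e3
    generalize 1 + ((List.range t).map (p ^ ·)).sum * p = S at *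
    subst h7
    refine ⟨_, _, ?_, fun g => by rw [e4, mul_pow], fun g => by rw [e4, mul_pow, mul_pow]⟩
    have e5 : l⁻¹ ^ 5 = ω ^ 3 := by rw [inv_pow, inv_eq_of_mul_eq_one_right e2]
    calc _ = (l⁻¹ ^ 5) ^ (10 * S) := by ring
      _ = (ω ^ (S * (7 - 1))) ^ 5 := by rw [e5]; ring
      _ = 1 := by rw [e3, one_pow]
  obtain ⟨n, j, A, e1, e2, e3⟩ : ∃ n j A, 2 * (p + j) = 10 * n + A ∧ p - 1 = 4 * n + A ∧
      3 * j + 3 + 2 * A < 4 * n + A := by
    have := hp.out.eq_two_or_odd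
    by_cases e : p % 4 = 1
    · exact ⟨p / 4, p / 4 - 1, 0, by omega, by omega, by omega⟩
    · exact ⟨p / 4, p / 4 - 2, 2, by omega, by omega, by omega⟩
  refine s.kill h c (.inl rfl) 1 (((((s.dgE 1 1).frob p 1).mul ((dT (p := p) s.dgM t).frob p 1)).mul
    (dS (p := p) s.dgM t j)).mul (dS (p := p) (s.dgX 4) t A)) (by rw [e2]; nlinarith)
    (fun g u hu => by simp only [s.iE (.inl rfl) _ g hu, s.iE (.inr rfl) _ g hu, s.iX 4 g hu])
    fun x hx l α β e => ?_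
  obtain ⟨a1, a2⟩ := h0 x hx l α β e
  have a3 := inv44 (ρ := ρ) (x := x) (l := l) fun j => by rw [e]; fin_cases j <;> simp
  have a4 := dgm_rel h e
  rw [← geom', e2] at a1 a2
  generalize ((List.range t).map (p ^ ·)).sum * p = T at *
  generalize ρ x⁻¹ 4 4 = y at *
  have b0 : ρ x 0 0 = l * α ^ 2 := by simp [e]
  have b1 : ρ x 1 1 = l * β ^ 2 := by simp [e]
  have b2 : ρ x 1 0 = 0 := by simp [e]
  simp only [b0, b1, b2, zero_mul, sub_zero, pow_one]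
  calc _ = (l * α * β) ^ ((1 + T) * (2 * (p + j))) * y ^ ((1 + T) * A) := by ring
    _ = (y * l) ^ ((1 + T) * A) * (l ^ 5 * (α * β) ^ 3) ^ ((1 + T) * 2 * n) *
        α ^ ((1 + T) * (4 * n + A)) * β ^ ((1 + T) * (4 * n + A)) := by rw [e1]; ring
    _ = 1 := by simp [a1, a2, a3, a4]

end XY

theorem xy5 [Finite P] [hp : Fact p.Prime] [CharP k p] (h5 : 5 ≤ p) (h : Hy0 ρ) (hS : NoS ρ)
    (c : Gx p r U H) (hr : 2 ≤ r) (s : XY ρ U H) : False := by
  have A := s.add (.inl rfl)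
  have B := s.add (.inr rfl)
  obtain ⟨u, hu, v, hv, i⟩ := s.ind
  have a0 : ∃ u ∈ U, ρ u 2 4 ≠ 0 := by
    by_contra! e; exact i (by rw [e u hu, e v hv, zero_mul, zero_mul])
  have b0 : ∃ u ∈ U, ρ u 3 4 ≠ 0 := by
    by_contra! e; exact i (by rw [e u hu, e v hv, mul_zero, mul_zero])
  have nz : ∀ {x l α β}, ρ x = dgm l α β → l ≠ 0 ∧ α ≠ 0 ∧ β ≠ 0 := fun {x l α β} e =>
    nz3 (dgm_rel h e)
  by_cases fa : ∀ u ∈ U, ρ u 2 4 = 0 → u = 1
  · refine s.big h c h5 hr fun x hx l α β e => ?_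
    obtain ⟨w1, w2⟩ := s.wt c hx e (nz e).1
    have := c.card ▸ wt_root' A fa (nz e).2.1 (fun u => c.conj hx) w1
    exact ⟨this, by simpa using wt_rel A fa B b0 (fun u => c.conj hx) w1 w2 (c := 1) (by simpa)⟩
  by_cases fb : ∀ u ∈ U, ρ u 3 4 = 0 → u = 1
  · refine s.big h c h5 hr fun x hx l α β e => ?_
    obtain ⟨w1, w2⟩ := s.wt c hx e (nz e).1
    have := c.card ▸ wt_root' B fb (nz e).2.2 (fun u => c.conj hx) w2
    exact ⟨by simpa using wt_rel B fb A a0 (fun u => c.conj hx) w2 w1 (c := 1) (by simpa), this⟩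
  have cd : ∀ K : Subgroup P, K ≤ U → (∃ u ∈ K, u ≠ 1) → ∃ t, Nat.card K = p ^ (t + 1) :=
    fun K hK ⟨u, hu, u1⟩ => by
      obtain ⟨m, -, hm⟩ := (Nat.dvd_prime_pow hp.out).1 (c.card ▸ Subgroup.card_dvd_of_le hK)
      rcases m with _ | m
      · exact absurd (Subgroup.mem_bot.1 (Subgroup.card_eq_one.1 hm ▸ hu)) u1
      · exact ⟨m, hm⟩
  push Not at fa fb
  obtain ⟨t, ht⟩ := cd (kr U (fun u => ρ u 2 4) A) (fun u hu => hu.1) (fa.imp fun u hu => ⟨⟨hu.1, hu.2.1⟩, hu.2.2⟩)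
  obtain ⟨t', ht'⟩ := cd (kr U (fun u => ρ u 3 4) B) (fun u hu => hu.1) (fb.imp fun u hu => ⟨⟨hu.1, hu.2.1⟩, hu.2.2⟩)
  have ra : ∀ x ∈ H, ∀ l α β, ρ x = dgm l α β →
      α ^ (p ^ (t' + 1) - 1) = 1 ∧ β ^ (p ^ (t + 1) - 1) = 1 := fun x hx l α β e => by
    obtain ⟨w1, w2⟩ := s.wt c hx e (nz e).1
    exact ⟨ht' ▸ wt_root' (U := kr U (fun u => ρ u 3 4) B) (fun u hu v hv => A u hu.1 v hv.1)
      (fun u hu e => s.one hS hu.1 e hu.2) (nz e).2.1
      (fun u hu => ⟨c.conj hx hu.1, (w2 u hu.1).trans (mul_eq_zero_of_right _ hu.2)⟩)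
      fun u hu => w1 u hu.1, ht ▸ wt_root' (U := kr U (fun u => ρ u 2 4) A) (fun u hu v hv => B u hu.1 v hv.1)
      (fun u hu e => s.one hS hu.1 hu.2 e) (nz e).2.2
      (fun u hu => ⟨c.conj hx hu.1, (w1 u hu.1).trans (mul_eq_zero_of_right _ hu.2)⟩)
      fun u hu => w2 u hu.1⟩
  by_cases c1 : 2 * (t' + 1) < r
  · exact s.small h c (.inl rfl) c1 (by omega) fun x hx l α β e =>
      ⟨α, by simp [e], (ra x hx l α β e).1⟩
  by_cases c2 : 2 * (t + 1) < r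
  · exact s.small h c (.inr rfl) c2 (by omega) fun x hx l α β e =>
      ⟨β, by simp [e], (ra x hx l α β e).2⟩
  have le := Nat.card_le_card_of_injective
    (fun x : kr U (fun u => ρ u 2 4) A × kr U (fun u => ρ u 3 4) B => (⟨x.1 * x.2, mul_mem x.1.2.1 x.2.2.1⟩ : U)) fun x y e => by
      have e1 : (x.1 : P) * x.2 = y.1 * y.2 := congrArg Subtype.val e
      have e2 : (y.1 : P)⁻¹ * x.1 = y.2 * (x.2 : P)⁻¹ := by
        rw [inv_mul_eq_iff_eq_mul, ← mul_assoc, ← e1, mul_inv_cancel_right]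
      have m1 : (y.1 : P)⁻¹ * x.1 ∈ kr U (fun u => ρ u 2 4) A := mul_mem (inv_mem y.1.2) x.1.2
      have m2 : y.2 * (x.2 : P)⁻¹ ∈ kr U (fun u => ρ u 3 4) B := mul_mem y.2.2 (inv_mem x.2.2)
      have e3 := s.one hS m1.1 m1.2 (by rw [e2]; exact m2.2)
      exact Prod.ext (Subtype.ext (inv_mul_eq_one.1 e3).symm)
        (Subtype.ext (mul_inv_eq_one.1 (e2 ▸ e3)).symm)
  rw [Nat.card_prod, ht, ht', c.card, ← pow_add, Nat.pow_le_pow_iff_right hp.out.one_lt] at le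
  obtain rfl : t' = t := by omega
  obtain rfl : r = (t' + 1) * 2 := by omega
  refine s.big h c h5 hr fun x hx l α β e => ?_
  obtain ⟨w, hw⟩ := Nat.sub_one_dvd_pow_sub_one (p ^ (t' + 1)) 2
  rw [pow_mul, hw, pow_mul, pow_mul, (ra x hx l α β e).1, (ra x hx l α β e).2, one_pow]
  exact ⟨rfl, rfl⟩

end Cfsg.Agent.L5.R
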