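import Cfsg.Agent.L5.Rc5

/-!
The module `k[X,Y]/(Y²,X³,X²Y)` does not occur.
-/

set_option autoImplicit false
set_option linter.unusedSectionVars false

namespace Cfsg.Agent.L5.R
open Finset Matrix
open Subgroup (normalizer)
open Cfsg.Agent.L4.R (Dg)

variable {P k : Type*} [Group P] [Field k] {ρ : P →* M5 k} {U H : Subgroup P} {p r : ℕ}

theorem ex_root [IsAlgClosed k] {ι : Type*} [Finite ι] (a b : ι → k) {n : ℕ} (hn : n ≠ 0)
    (h : ∑ᶠ i, a i ^ n ≠ 0) : ∃ t : k, ∑ᶠ i, (t * a i - b i) ^ n = 0 := by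
  letI := Fintype.ofFinite ι
  simp only [finsum_eq_sum_of_fintype] at h ⊢
  obtain ⟨t, ht⟩ := IsAlgClosed.exists_root
    (∑ i, (Polynomial.C (a i) * Polynomial.X + Polynomial.C (-b i)) ^ n) fun e => h (by
      have := Polynomial.coeff_eq_zero_of_degree_lt (n := n * 1) (e.trans_lt (by
        simpa using Nat.pos_of_ne_zero hn))
      rw [Polynomial.finset_sum_coeff] at this
      refine Eq.trans (sum_congr rfl fun i _ => ?_) this
      rw [Polynomial.coeff_pow_of_natDegree_le Polynomial.natDegree_linear_le]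
      simp)
  refine ⟨t, Eq.trans (sum_congr rfl fun i _ => ?_) ((Polynomial.eval_finset_sum ..).symm.trans ht)⟩
  simp only [Polynomial.eval_pow, Polynomial.eval_add, Polynomial.eval_mul, Polynomial.eval_C,
    Polynomial.eval_X]
  ring

/-- The diagonal automorphisms. -/
abbrev dym (l α β : k) : M5 k := diagonal ![l * α ^ 2, l * α * β, l * α, l * β, l]

namespace YY
variable (s : YY ρ U H)
include s

theorem lvl : ∀ u ∈ U, ∀ i j, (![2, 2, 1, 1, 0] : Fin 5 → ℕ) i ≤ (![2, 2, 1, 1, 0] : Fin 5 → ℕ) j →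
    (ρ u - 1) i j = 0 := fun u hu i j e => by
  rw [s.sh u hu]
  fin_cases i <;> fin_cases j <;> first | exact absurd e (by decide) | simp [vv]

theorem dgX (j : Fin 5) : DgA U (2 + 1) fun g => ρ g⁻¹ 4 j :=
  dgA_entry (ρ := dl ρ) _ (dl_lv _ s.lvl (m := 2) (by decide)) (by decide) j 4

theorem iE {j : Fin 5} (hj : j = 0 ∨ j = 1) {u : P} (hu : u ∈ U) :
    ρ u *ᵥ Pi.single j 1 = Pi.single j 1 := by
  rw [s.sh u hu]
  ext i
  rcases hj with rfl | rfl <;> fin_cases i <;> simp [vv]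

theorem iX {u : P} (hu : u ∈ U) : Pi.single 4 1 ᵥ* ρ u = Pi.single 4 1 := by
  rw [s.sh u hu]
  ext i
  fin_cases i <;> simp [vv]

theorem mul {u v : P} (hu : u ∈ U) (hv : v ∈ U) : ρ (u * v) 2 4 = ρ u 2 4 + ρ v 2 4 ∧
    ρ (u * v) 3 4 = ρ u 3 4 + ρ v 3 4 ∧ ρ (u * v) 0 4 = ρ u 0 4 + ρ v 0 4 + ρ u 2 4 * ρ v 2 4 ∧
    ρ (u * v) 1 4 = ρ u 1 4 + ρ v 1 4 + ρ u 3 4 * ρ v 2 4 + ρ u 2 4 * ρ v 3 4 := by
  have e : ρ (u * v) = vv (ρ u 2 4) (ρ u 3 4) (ρ u 0 4) (ρ u 1 4) *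
      vv (ρ v 2 4) (ρ v 3 4) (ρ v 0 4) (ρ v 1 4) := by rw [map_mul, ← s.sh u hu, ← s.sh v hv]
  simp only [e, vv, mul_apply, Fin.sum_univ_five, of_apply, Matrix.cons_val]
  exact ⟨by ring, by ring, by ring, by ring⟩

theorem one (hS : NoS ρ) : ∀ u ∈ U, ρ u 2 4 = 0 → u = 1 := fun u hu h2 =>
  hS u (by
    rw [s.sh u hu, h2]
    ext i j
    fin_cases i <;> fin_cases j <;> simp [vv, mul_apply, Fin.sum_univ_five, one_apply])

variable [Finite P] [hp : Fact p.Prime] [CharP k p] (h : Hy0 ρ) (hS : NoS ρ) (c : Gx p r U H)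
include h hS c

theorem wt {x : P} (hx : x ∈ H) : ∃ l α β : k, ρ x = dym l α β ∧ l ^ 5 * α ^ 4 * β ^ 2 = 1 ∧
    α ^ (p ^ r - 1) = 1 ∧ (∀ j, α ^ (j * (p - 1)) = 1 → β ^ j = α ^ j) ∧
      ∀ u ∈ U, ρ (x * u * x⁻¹) 2 4 = α * ρ u 2 4 := by
  obtain ⟨l, α, β, e⟩ := s.dg x hx
  have d := h.det x
  rw [e, det_diagonal, Fin.prod_univ_five] at d
  simp only [Matrix.cons_val] at d
  have l0 : l ≠ 0 := by rintro rfl; simp at d
  have a0 : α ≠ 0 := by rintro rfl; simp at d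
  have : ∀ u i, ρ (x * u * x⁻¹) i 4 * l = ![l * α ^ 2, l * α * β, l * α, l * β, l] i * ρ u i 4 :=
    fun u i => by
      have := congrFun (congrFun (show ρ (x * u * x⁻¹) * ρ x = ρ x * ρ u by simp [← map_mul]) i) 4
      rwa [e, mul_diagonal, diagonal_mul] at this
  have w1 : ∀ u ∈ U, ρ (x * u * x⁻¹) 2 4 = α * ρ u 2 4 :=
    fun u _ => mul_right_cancel₀ l0 ((this u 2).trans (by simp; ring))
  have w2 : ∀ u ∈ U, ρ (x * u * x⁻¹) 3 4 = β * ρ u 3 4 :=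
    fun u _ => mul_right_cancel₀ l0 ((this u 3).trans (by simp; ring))
  refine ⟨l, α, β, e, by linear_combination d, c.card ▸ wt_root' (fun u hu v hv => (s.mul hu hv).1)
    (s.one hS) a0 (fun u => c.conj hx) w1, fun j hj => ?_, w1⟩
  obtain ⟨n, hn⟩ := pow_eq_self_nat (p := p) (x := α ^ j) (by
    rw [← Nat.sub_add_cancel hp.out.one_le, pow_succ, ← pow_mul, hj, one_mul])
  rw [hn]
  refine wt_rel (x := fun u => ρ u 3 4) (fun u hu v hv => (s.mul hu hv).1) (s.one hS)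
    (fun u hu v hv => (s.mul hu hv).2.1) ?_ (fun u => c.conj hx) w1 w2 hn
  obtain ⟨u, hu, v, hv, i⟩ := s.ind
  by_contra! e
  exact i (by rw [e u hu, e v hv, mul_zero, mul_zero])

theorem five (h5 : 5 ≤ p) : False := by
  obtain ⟨t, rfl⟩ : ∃ t, r = t + 1 := ⟨r - 1, by have := c.pos; omega⟩
  have key : ∀ y ∈ normalizer (U : Set P), ∃ l α β : k, l ≠ 0 ∧ l ^ 5 * α ^ 4 * β ^ 2 = 1 ∧
      α ^ ((1 + ((List.range t).map (p ^ ·)).sum * p) * (p - 1)) = 1 ∧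
      β ^ (1 + ((List.range t).map (p ^ ·)).sum * p) =
        α ^ (1 + ((List.range t).map (p ^ ·)).sum * p) ∧ (∀ g, ρ (g * y) 4 0 = l * α ^ 2 * ρ g 4 0) ∧
      ∀ g j, ρ (g * y)⁻¹ 4 j = l⁻¹ * ρ g⁻¹ 4 j := fun y hy => by
    obtain ⟨u, hu, x, hx, rfl⟩ := c.fac y hy
    obtain ⟨l, α, β, e, e1, e2, e3, -⟩ := s.wt h hS c hx
    have l0 : l ≠ 0 := by rintro rfl; simp at e1
    rw [← XY.geom'] at e2
    refine ⟨l, α, β, l0, e1, e2, e3 _ e2, fun g => ?_, fun g j => ?_⟩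
    · rw [← mul_assoc, map_mul, e, mul_diagonal, entry_eq (ρ (g * u)), map_mul, ← mulVec_mulVec,
        s.iE (.inl rfl) hu, ← entry_eq, mul_comm]
      rfl
    · rw [eq_inv_mul_iff_mul_eq₀ l0, show g⁻¹ = u * (x * (g * (u * x))⁻¹) by group, map_mul,
        entry_eq (ρ u * _), ← mulVec_mulVec, dotProduct_mulVec, s.iX hu, ← entry_eq, map_mul, e,
        diagonal_mul]
      rfl
  by_cases h7 : p = 7
  · obtain ⟨g, hg⟩ := col_ne h.dl 0 4
    refine pow_ne_zero _ hg (KC c (XY.dS (p := p) (s.dgX 0) t 1)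
      ((XY.dS (p := p) (s.dgX 4) t 1).frob p 2) (by subst h7; omega) (fun y hy => ?_) (by simp)
      (by simp) g)
    obtain ⟨l, α, β, l0, e1, e2, e3, -, e4⟩ := key y hy
    generalize 1 + ((List.range t).map (p ^ ·)).sum * p = S at *
    subst h7
    refine ⟨_, _, ?_, fun g => by rw [e4, mul_pow], fun g => by rw [e4, mul_pow, mul_pow]⟩
    have e5 : l⁻¹ ^ 5 = α ^ 4 * β ^ 2 := by
      rw [inv_pow, inv_eq_of_mul_eq_one_right (mul_assoc (l ^ 5) _ _ ▸ e1)]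
    calc _ = (l⁻¹ ^ 5) ^ (10 * S) := by ring
      _ = α ^ (40 * S) * (β ^ S) ^ 20 := by rw [e5]; ring
      _ = (α ^ (S * (7 - 1))) ^ 10 := by rw [e3]; ring
      _ = 1 := by rw [e2, one_pow]
  obtain ⟨n, j, A, e1, e2, e3⟩ : ∃ n j A, p + j = 5 * n + A ∧ p - 1 = 4 * n + 2 * A ∧
      2 + 2 * j + 2 * A < 4 * n + 2 * A := by
    have := hp.out.eq_two_or_odd
    by_cases e : p % 4 = 1
    · exact ⟨p / 4, p / 4 - 1, 0, by omega, by omega, by omega⟩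
    · exact ⟨p / 4, p / 4 - 2, 1, by omega, by omega, by omega⟩
  have dE : DgA U (2 + 1) fun g => ρ g 4 0 := dgA_entry _ s.lvl (by decide) 4 0
  obtain ⟨g, hg⟩ := col_ne h 4 0
  refine mul_ne_zero (pow_ne_zero _ (pow_ne_zero _ hg)) (pow_ne_zero _ hg)
    (KC c (((XY.dS (p := p) dE t 1).frob p 1).mul (XY.dS (p := p) dE t j))
      (XY.dS (p := p) (s.dgX 4) t A) (by rw [e2]; nlinarith) (fun y hy => ?_)
      (by simp [hp.out.ne_zero]) (by simp) g)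
  obtain ⟨l, α, β, l0, a1, a2, a3, a4, a5⟩ := key y hy
  generalize 1 + ((List.range t).map (p ^ ·)).sum * p = S at *
  refine ⟨(l * α ^ 2) ^ (S * (p + j)), _, ?_, fun g => by rw [a4]; ring, fun g => by rw [a5, mul_pow]⟩
  have a6 : (β ^ S) ^ (2 * n) ≠ 0 := pow_ne_zero _ (pow_ne_zero _ (by rintro rfl; simp at a1))
  refine mul_right_cancel₀ a6 ?_
  calc _ = (l * l⁻¹) ^ (S * A) * (l ^ 5 * α ^ 4 * β ^ 2) ^ (S * n) * α ^ (S * (4 * n + 2 * A)) *
        (α ^ S) ^ (2 * n) := by rw [e1]; ring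
    _ = _ := by rw [mul_inv_cancel₀ l0, a1, ← e2, a2, a3]; simp

end YY

namespace YY
variable [Finite P] [CharP k 3] (s : YY ρ U H) (h : Hy0 ρ) (c : @Gx P _ 3 r U H)
include s h c

theorem top {j : Fin 5} (hj : j = 0 ∨ j = 1) {a b : k} (hφ : (![a, b, 0, 0, 0] : Fin 5 → k) j = 1)
    {m : ℕ} {L : List ℕ} (hL : (m :: L).length = r)
    (h0 : ∀ x ∈ H, ρ x j j ^ ((m :: L).map (3 ^ ·)).sum = 1)
    (h1 : ∑ᶠ u : U, (b * (ρ u 2 4 * ρ u 3 4) - a * ρ u 2 4 ^ 2) ^ ((m :: L).map (3 ^ ·)).sum = 0) :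
    False := by
  haveI := Fact.mk Nat.prime_three
  have h3 : (3 : k) = 0 := CharP.cast_eq_zero k 3
  have d := dgA_row _ s.lvl (m := 2 + 1) (by decide) ![a, b, 0, 0, 0]
  have e1 : ![a, b, 0, 0, 0] ⬝ᵥ Pi.single j (1 : k) = 1 := by simpa using hφ
  refine absurd (AT1 h c m (Pi.single j 1)
    (fun g => (![a, b, 0, 0, 0] ⬝ᵥ ρ g *ᵥ Pi.single j 1) ^ (L.map (3 ^ ·)).sum)
    (fun u hu => s.iE hj hu) (fun g u hu => by rw [map_mul, ← mulVec_mulVec, s.iE hj hu])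
    (fun x hx => ?_) (s := Pi.single 4 1) (by simp) (fun u hu => s.iX hu)
    (by rcases hj with rfl | rfl <;> simp)
    (((d _).pw 3 L).sum_zero c (by simp at hL; omega)) ![a, b, 0, 0, 0] (fun g => ?_)
    (by rw [e1]; simp)) (by simp only [map_one, one_mulVec, e1]; simp)
  · obtain ⟨l, α, β, e⟩ := s.dg x hx
    have e2 : ρ x *ᵥ Pi.single j 1 = ρ x j j • Pi.single j 1 := by
      rw [e, diagonal_mulVec_single, diagonal_apply_eq, ← Pi.single_smul, smul_eq_mul]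
    refine ⟨_, e2, ?_⟩
    simpa only [e2, e1, pow_add, map_one, one_mulVec, dotProduct_smul, smul_eq_mul, mul_one, one_pow,
      List.map_cons, List.sum_cons] using h0 x hx
  simp only [← pow_add, map_mul, ← mulVec_mulVec]
  generalize ρ g *ᵥ Pi.single j 1 = w
  have d1 := (d w).dg.res
  have da : ∀ i, i = 2 ∨ i = 3 → Dg (⊤ : Subgroup U) 2 fun u => ρ u i 4 := fun i hi u _ v _ g => by
    have e1 := s.mul u.2 (mul_mem v.2 g.2)
    have e2 := s.mul u.2 g.2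
    rcases hi with rfl | rfl <;> simp only [Subgroup.coe_mul, e1, e2] <;> ring
  have d2 : Dg (⊤ : Subgroup U) 3 fun u => w 4 * (b * (ρ u 2 4 * ρ u 3 4) - a * ρ u 2 4 ^ 2) :=
    ((((da 2 (.inl rfl)).mul (da 3 (.inr rfl))).cmul b).sub
      (((da 2 (.inl rfl)).mul (da 2 (.inl rfl))).cmul a)).cmul _ |>.congr fun u => by rw [sq]
  have ev : ∀ u ∈ U, ![a, b, 0, 0, 0] ⬝ᵥ ρ u *ᵥ w = a * (w 0 + ρ u 2 4 * w 2 + ρ u 0 4 * w 4) +
      b * (w 1 + ρ u 3 4 * w 2 + ρ u 2 4 * w 3 + ρ u 1 4 * w 4) := fun u hu => by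
    conv_lhs => rw [s.sh u hu]
    simp [vv, dotProduct, mulVec, Fin.sum_univ_five]
  have d3 : Dg (⊤ : Subgroup U) 2 fun u => ![a, b, 0, 0, 0] ⬝ᵥ ρ u *ᵥ w -
      w 4 * (b * (ρ u 2 4 * ρ u 3 4) - a * ρ u 2 4 ^ 2) := fun u _ v _ g => by
    simp only [Subgroup.coe_mul, ev _ (mul_mem u.2 (mul_mem v.2 g.2)), ev _ (mul_mem u.2 g.2),
      ev _ (mul_mem v.2 g.2), ev _ g.2, s.mul u.2 (mul_mem v.2 g.2), s.mul u.2 g.2, s.mul v.2 g.2]
    linear_combination a * w 4 * ρ u 2 4 * ρ v 2 4 * h3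
  have e2 := L4.R.sum_top 3 c.exp c.card (n := 2 * (m :: L).length) (by omega)
    (d1.pw_sub 3 d2 d3 (m :: L))
  rw [finsum_sub_distrib (Set.toFinite _) (Set.toFinite _), sub_eq_zero] at e2
  simp only [mul_pow] at e2
  rw [← mul_finsum, h1, mul_zero] at e2
  exact e2

theorem both [IsAlgClosed k] {m : ℕ} {L : List ℕ} (hL : (m :: L).length = r)
    (h0 : ∀ x ∈ H, ρ x 0 0 ^ ((m :: L).map (3 ^ ·)).sum = 1 ∧
      ρ x 1 1 ^ ((m :: L).map (3 ^ ·)).sum = 1) : False := by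
  by_cases e : ∑ᶠ u : U, (ρ u 2 4 * ρ u 3 4) ^ ((m :: L).map (3 ^ ·)).sum = 0
  · exact s.top h c (.inr rfl) (a := 0) (b := 1) rfl hL (fun x hx => (h0 x hx).2) (by simpa using e)
  obtain ⟨t, ht⟩ := ex_root _ (fun u : U => ρ u 2 4 ^ 2) (by simp) e
  exact s.top h c (.inl rfl) (a := 1) (b := t) rfl hL (fun x hx => (h0 x hx).1) (by simpa using ht)

theorem three [IsAlgClosed k] (hS : NoS ρ) (hr : 2 ≤ r) : False := by
  haveI := Fact.mk Nat.prime_three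
  rcases hr.eq_or_lt with rfl | hr
  · have y : ∀ x ∈ H, ρ x 0 0 ^ 10 = 1 := fun x hx => by
      obtain ⟨l, α, β, e, e1, e2, e3, -⟩ := s.wt h hS c hx
      have e4 := e3 4 e2
      have : ρ x 0 0 = l * α ^ 2 := by simp [e]
      rw [this]
      calc _ = (l ^ 5 * α ^ 4) ^ 2 * α ^ 4 * α ^ (3 ^ 2 - 1) := by ring
        _ = (l ^ 5 * α ^ 4 * β ^ 2) ^ 2 := by rw [e2]; nth_rewrite 2 [← e4]; ring
        _ = 1 := by rw [e1, one_pow]
    by_cases z : ∑ᶠ u : U, ρ u 2 4 ^ 20 = 0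
    · refine s.top h c (.inl rfl) (a := 1) (b := 0) rfl (m := 0) (L := [2]) rfl y ?_
      exact (finsum_congr fun u => by simp; ring).trans z
    refine s.both h c (m := 0) (L := [2]) rfl fun x hx => ⟨y x hx, ?_⟩
    obtain ⟨l, α, β, e, e1, e2, e3, e4⟩ := s.wt h hS c hx
    have e5 : α ^ 20 = 1 := mul_right_cancel₀ z (by
      rw [one_mul, mul_finsum, ← finsum_comp_equiv (f := fun u : U => ρ u 2 4 ^ 20)
        (⟨fun u => ⟨x * u * x⁻¹, c.conj hx u.2⟩, fun u => ⟨x⁻¹ * u * x, c.conj' hx u.2⟩,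
          fun u => by simp [mul_assoc], fun u => by simp [mul_assoc]⟩ : U ≃ U)]
      exact finsum_congr fun u => by rw [← mul_pow, ← e4 u u.2]; rfl)
    have e6 : α ^ 4 = 1 := by
      rw [← e5, ← mul_one (α ^ 4), ← one_pow 2, ← e2]; ring
    have e7 := e3 2 e6
    have : ρ x 1 1 = l * α * β := by simp [e]
    rw [this]
    calc _ = (l ^ 5 * α ^ 4 * β ^ 2) ^ 2 * α ^ 2 * (β ^ 2) ^ 3 := by simp; ring
      _ = (α ^ 4) ^ 2 := by rw [e1, e7]; ring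
      _ = 1 := by rw [e6, one_pow]
  obtain ⟨t, rfl⟩ : ∃ t, r = t + 3 := ⟨r - 3, by omega⟩
  have g := geom (p := 3) t
  have g1 := Nat.one_le_pow t 3 (by norm_num)
  have g2 : ((0 :: (t + 4) :: (t + 5) :: (List.range t).map (· + 3)).map (3 ^ ·)).sum =
      (13 + 27 * ((List.range t).map (3 ^ ·)).sum) * 25 := by
    have : (((List.range t).map (· + 3)).map (3 ^ ·)).sum = ((List.range t).map (3 ^ ·)).sum * 27 := by
      rw [List.map_map, ← List.sum_map_mul_right]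
      exact congrArg List.sum (List.map_congr_left fun a _ => pow_add 3 a 3)
    simp only [List.map_cons, List.sum_cons, this, pow_add]
    omega
  refine s.both h c (m := 0) (L := (t + 4) :: (t + 5) :: (List.range t).map (· + 3)) (by simp)
    fun x hx => ?_
  obtain ⟨l, α, β, e, e1, e2, e3, -⟩ := s.wt h hS c hx
  rw [g2]
  rw [show 3 ^ (t + 3) - 1 = (13 + 27 * ((List.range t).map (3 ^ ·)).sum) * (3 - 1) by
    rw [pow_add]; omega] at e2
  have e4 := e3 _ e2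
  generalize 13 + 27 * ((List.range t).map (3 ^ ·)).sum = S at *
  have e5 : (l ^ S) ^ 5 = 1 := by
    calc _ = (l ^ S) ^ 5 * (α ^ (S * (3 - 1))) ^ 2 * (α ^ S) ^ 2 := by
          rw [e2, ← pow_mul α, e2]; simp
      _ = (l ^ 5 * α ^ 4 * β ^ 2) ^ S := by rw [← e4]; ring
      _ = 1 := by rw [e1, one_pow]
  have a0 : ρ x 0 0 = l * α ^ 2 := by simp [e]
  have a1 : ρ x 1 1 = l * α * β := by simp [e]
  rw [a0, a1]
  constructor
  · calc _ = ((l ^ S) ^ 5) ^ 5 * (α ^ (S * (3 - 1))) ^ 25 := by ring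
      _ = 1 := by simp only [e2, e5, one_pow, one_mul]
  · calc _ = ((l ^ S) ^ 5) ^ 5 * (α ^ S * β ^ S) ^ 25 := by ring
      _ = 1 := by rw [e4, ← sq, ← pow_mul α, e2, e5]; simp

end YY

theorem yy [Finite P] [IsAlgClosed k] [hp : Fact p.Prime] [CharP k p] (h2 : p ≠ 2) (h : Hy0 ρ)
    (hS : NoS ρ) (c : Gx p r U H) (hr : 2 ≤ r) (s : YY ρ U H) : False := by
  by_cases h3 : p = 3
  · subst h3
    exact s.three h c hS hr
  · exact s.five h hS c (hp.out.five_le_of_ne_two_of_ne_three h2 h3)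

end Cfsg.Agent.L5.R
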