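import Cfsg.Agent.L4.Red2
import Cfsg.Agent.L5.Lift1

/-!
Reduction of a complex representation of any degree modulo two.
-/

set_option autoImplicit false
set_option linter.unusedSectionVars false

namespace Cfsg.Agent.L5.Lift
open Matrix Cfsg.Agent.L4.Lift

variable {ι : Type} [Fintype ι] [DecidableEq ι]

/-- An integral form over a valuation ring. -/
theorem exists_form' {P : Type*} [Group P] [Finite P] (O : ValuationSubring ℂ)
    (ρ : P →* Matrix ι ι ℂ) :
    ∃ (σ : P →* Matrix ι ι O) (B : Matrix ι ι ℂ), IsUnit B ∧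
      ∀ g, ρ g * B = B * (σ g).map O.subtype := by
  let v : P × ι → ι → ℂ := fun t => ρ t.1 *ᵥ Pi.single t.2 1
  let L : Submodule O (ι → ℂ) := Submodule.span O (Set.range v)
  haveI : Module.Finite O L := Module.Finite.span_of_finite O (Set.finite_range v)
  haveI : Module.Flat O L := Module.Flat.flat_iff_torsion_eq_bot_of_isBezout.2
    (Submodule.isTorsionFree_iff_torsion_eq_bot.1 inferInstance)
  haveI : Module.Free O L := Module.free_of_flat_of_isLocalRing
  let b₀ := Module.Free.chooseBasis O L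
  have h1 : LinearIndependent ℂ fun i => (b₀ i : ι → ℂ) :=
    (LinearIndependent.iff_fractionRing O ℂ).1 (b₀.linearIndependent.map' L.subtype L.ker_subtype)
  have h2 : ⊤ ≤ Submodule.span ℂ (Set.range fun i => (b₀ i : ι → ℂ)) := by
    rw [← (Pi.basisFun ℂ ι).span_eq, Submodule.span_le]
    rintro _ ⟨i, rfl⟩
    have h3 : (Pi.basisFun ℂ ι i) ∈ L := Submodule.subset_span ⟨(1, i), by
      simp only [v, map_one, one_mulVec, Pi.basisFun_apply]⟩
    have h4 := Submodule.mem_map_of_mem (f := L.subtype) (b₀.mem_span ⟨_, h3⟩)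
    rw [Submodule.map_span, ← Set.range_comp] at h4
    exact Submodule.span_subset_span O ℂ _ h4
  let b := b₀.reindex ((Module.Basis.mk h1 h2).indexEquiv (Pi.basisFun ℂ ι))
  have hL : ∀ g, ∀ x ∈ L, (toLin' (ρ g)).restrictScalars O x ∈ L := fun g x hx => by
    have : L.map ((toLin' (ρ g)).restrictScalars O) ≤ L := by
      rw [Submodule.map_span, Submodule.span_le]
      rintro _ ⟨_, ⟨t, rfl⟩, rfl⟩
      exact Submodule.subset_span ⟨(g * t.1, t.2), by
        simp only [v, map_mul, ← mulVec_mulVec]; rfl⟩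
    exact this (Submodule.mem_map_of_mem hx)
  let φ : P →* Module.End O L :=
    { toFun := fun g => ((toLin' (ρ g)).restrictScalars O).restrict (hL g)
      map_one' := LinearMap.ext fun x => Subtype.ext (by simp)
      map_mul' := fun g h => LinearMap.ext fun x => Subtype.ext (by simp [mulVec_mulVec]) }
  refine ⟨(LinearMap.toMatrixAlgEquiv b).toMonoidHom.comp φ, Matrix.of fun i j => (b j : ι → ℂ) i,
    linearIndependent_cols_iff_isUnit.1 ?_, fun g => ?_⟩
  · have := h1.comp _ ((Module.Basis.mk h1 h2).indexEquiv (Pi.basisFun ℂ ι)).symm.injective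
    have e : (Matrix.of fun i j => (b j : ι → ℂ) i).col = (fun i => (b₀ i : ι → ℂ)) ∘
        ((Module.Basis.mk h1 h2).indexEquiv (Pi.basisFun ℂ ι)).symm := by
      ext j i
      simp [b]
    rw [e]; exact this
  · ext i j
    have e := congrArg (fun x : L => (x : ι → ℂ) i) (b.sum_repr (φ g (b j)))
    simp only [Submodule.coe_sum, Finset.sum_apply] at e
    calc _ = ((φ g (b j) : L) : ι → ℂ) i := rfl
      _ = _ := e.symm
      _ = _ := by
        rw [mul_apply]
        refine Finset.sum_congr rfl fun l _ => ?_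
        rw [mul_comm]
        simp [LinearMap.toMatrixAlgEquiv_apply, Algebra.smul_def]

theorem eq_one_of_red' {O κ : Type*} [CommRing O] [Field κ] (π : O →+* κ)
    (hπ : ∀ x, π x ≠ 0 → IsUnit x) {A : Matrix ι ι O} (h : A.map π = 1) {r : ℕ} (hr : (r : κ) ≠ 0)
    (hA : A ^ r = 1) : A = 1 := by
  have e : π.mapMatrix (∑ i ∈ Finset.range r, A ^ i) = (r : κ) • 1 := by
    rw [map_sum]
    simp only [map_pow, RingHom.mapMatrix_apply, h, one_pow, Finset.sum_const, Finset.card_range,
      Nat.cast_smul_eq_nsmul]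
  have hu : IsUnit (∑ i ∈ Finset.range r, A ^ i) := (isUnit_iff_isUnit_det _).2 (hπ _ (by
    rw [π.map_det, e, det_smul, det_one, mul_one]; exact pow_ne_zero _ hr))
  exact sub_eq_zero.1 (hu.mul_right_cancel (by rw [mul_geom_sum, hA, sub_self, zero_mul]))

/-- RED2: the kernel of the reduction is a `2`-group, scalars stay scalars. -/
theorem red2g {P : Type*} [Group P] [Finite P] (ρ₀ : P →* Matrix ι ι ℂ)
    (inj : Function.Injective ρ₀) :
    ∃ (κ : Type) (_ : Field κ) (_ : IsAlgClosed κ) (_ : CharP κ 2) (σ : P →* Matrix ι ι κ),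
      (∀ g, σ g = 1 → ∃ a : ℕ, g ^ 2 ^ a = 1) ∧
        ∀ g (c : ℂ), ρ₀ g = c • 1 → ∃ c : κ, σ g = c • 1 := by
  obtain ⟨O, hO⟩ := exists_val
  obtain ⟨σ, B, hB, hσ⟩ := exists_form' O ρ₀
  let κ := AlgebraicClosure (IsLocalRing.ResidueField O)
  let π : O →+* κ := (algebraMap _ κ).comp (IsLocalRing.residue O)
  have hπ : ∀ x, π x ≠ 0 → IsUnit x := fun x hx =>
    (IsLocalRing.residue_ne_zero_iff_isUnit x).1 fun e => hx (by simp [π, e])
  have h2 : (2 : κ) = 0 := by
    have : IsLocalRing.residue O 2 = 0 := (IsLocalRing.residue_eq_zero_iff _).2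
      (ValuationSubring.coe_mem_nonunits_iff.1 hO)
    rw [← map_ofNat π, RingHom.comp_apply, this, map_zero]
  haveI : CharP κ 2 := CharTwo.of_one_ne_zero_of_two_eq_zero one_ne_zero h2
  refine ⟨κ, inferInstance, inferInstance, inferInstance, π.mapMatrix.toMonoidHom.comp σ,
    fun x hx => ?_, fun g c hc => ?_⟩
  · obtain ⟨a, m, hm, e'⟩ := Nat.exists_eq_two_pow_mul_odd (orderOf_pos x).ne'
    refine ⟨a, inj (hB.mul_right_cancel ?_)⟩
    rw [hσ, eq_one_of_red' π hπ (A := σ (x ^ 2 ^ a))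
      (show (π.mapMatrix.toMonoidHom.comp σ) _ = 1 by rw [map_pow, hx, one_pow]) (r := m) (by
      rw [Ne, CharP.cast_eq_zero_iff κ 2]; exact hm.not_two_dvd_nat)
      (by rw [← map_pow, ← pow_mul, ← e', pow_orderOf_eq_one, map_one]), map_one, one_mul,
      Matrix.map_one _ (map_zero _) (map_one _), mul_one]
  · have e : (σ g).map O.subtype = c • 1 := hB.mul_left_cancel (by
      rw [← hσ, hc, smul_mul_assoc, mul_smul_comm, one_mul, mul_one])
    rcases isEmpty_or_nonempty ι with _ | ⟨⟨i₀⟩⟩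
    · exact ⟨1, Subsingleton.elim _ _⟩
    have e' : σ g = σ g i₀ i₀ • 1 := Matrix.map_injective (f := O.subtype) Subtype.val_injective (by
      have e0 : ((σ g i₀ i₀ : O) : ℂ) = c := by simpa using congrFun (congrFun e i₀) i₀
      show (σ g).map O.subtype = (σ g i₀ i₀ • (1 : Matrix ι ι O)).map O.subtype
      rw [e]
      ext i j
      by_cases hij : i = j <;> simp [hij, e0, one_apply])
    refine ⟨π (σ g i₀ i₀), ?_⟩
    show (σ g).map π = _
    conv_lhs => rw [e']
    ext i j
    by_cases hij : i = j <;> simp [hij, one_apply]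

/-- Schur's lemma. -/
theorem scal_of_center {P k : Type*} [Group P] [Field k] [IsAlgClosed k] [Nonempty ι]
    (ρ : P →* Matrix ι ι k)
    (irr : ∀ X : Submodule k (ι → k), (∀ g, ∀ x ∈ X, ρ g *ᵥ x ∈ X) → X = ⊥ ∨ X = ⊤)
    {M : Matrix ι ι k} (hM : ∀ g, M * ρ g = ρ g * M) : ∃ c : k, M = c • 1 := by
  obtain ⟨c, hc⟩ := Module.End.exists_eigenvalue M.mulVecLin
  refine ⟨c, Matrix.ext_of_mulVec_single fun i => ?_⟩
  have e := (irr (Module.End.eigenspace M.mulVecLin c) fun g v hv => by
    rw [Module.End.mem_eigenspace_iff, mulVecLin_apply] at hv ⊢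
    rw [mulVec_mulVec, hM, ← mulVec_mulVec, hv, mulVec_smul]).resolve_left hc
  rw [smul_mulVec, one_mulVec]
  exact Module.End.mem_eigenspace_iff.1 (e ▸ Submodule.mem_top)

/-- RED2 in odd degree: the reduction of a quasisimple group is faithful. -/
theorem red2_odd {P : Type*} [Group P] [Finite P] (hι : Odd (Fintype.card ι))
    (ρ₀ : P →* Matrix ι ι ℂ) (inj : Function.Injective ρ₀) (perf : commutator P = ⊤)
    (simp : ∀ N : Subgroup P, N.Normal → N ≤ Subgroup.center P ∨ N = ⊤)
    (irr : ∀ X : Submodule ℂ (ι → ℂ), (∀ g, ∀ x ∈ X, ρ₀ g *ᵥ x ∈ X) → X = ⊥ ∨ X = ⊤) :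
    ∃ (κ : Type) (_ : Field κ) (_ : IsAlgClosed κ) (_ : CharP κ 2) (σ : P →* Matrix ι ι κ),
      Function.Injective σ ∧ ∀ g ∈ Subgroup.center P, ∃ c : κ, σ g = c • 1 := by
  haveI : Nonempty ι := Fintype.card_pos_iff.1 hι.pos
  haveI := Fintype.ofFinite P
  obtain ⟨κ, _, _, _, σ, h1, h2⟩ := red2g ρ₀ inj
  have h3 : ∀ g ∈ Subgroup.center P, ∃ c : ℂ, ρ₀ g = c • 1 := fun g hg =>
    scal_of_center ρ₀ irr fun x => by rw [← map_mul, ← map_mul, Subgroup.mem_center_iff.1 hg]
  refine ⟨κ, inferInstance, inferInstance, inferInstance, σ, (injective_iff_map_eq_one σ).2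
    fun g hg => ?_, fun g hg => (h3 g hg).elim (h2 g)⟩
  rcases simp σ.ker inferInstance with e | e
  · obtain ⟨c, hc⟩ := h3 g (e hg)
    obtain ⟨a, ha⟩ := h1 g hg
    have h4 : g ^ Fintype.card ι = 1 := inj (by
      have := det_one_of_perf perf ρ₀ g
      rw [hc, det_smul, det_one, mul_one] at this
      rw [map_pow, hc, smul_pow, this, one_pow, one_smul, map_one])
    exact orderOf_eq_one_iff.1 (Nat.eq_one_of_dvd_coprimes
      ((Nat.coprime_two_right.2 hι).pow_right a) (orderOf_dvd_of_pow_eq_one h4)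
      (orderOf_dvd_of_pow_eq_one ha))
  · have h4 : IsPGroup 2 P := fun x => h1 x (e.ge (Subgroup.mem_top x))
    haveI := h4.isNilpotent
    rcases subsingleton_or_nontrivial P with h5 | h5
    · exact Subsingleton.elim g 1
    · exact absurd perf (Group.IsSolvable.commutator_lt_top_of_nontrivial P).ne

end Cfsg.Agent.L5.Lift
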