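import Cfsg.Agent.L5.Rc0
import Cfsg.Agent.L5.RM
import Cfsg.Agent.L5.M

/-!
The module `k[X,Y]/(XY,X³,Y³)` in characteristic three.
-/

set_option autoImplicit false
set_option linter.unusedSectionVars false

namespace Cfsg.Agent.L5.R
namespace X3
open Matrix Subgroup
open Cfsg.Agent.L4.R (Dg tr fsub sum_top)
open Cfsg.Agent.L5.M (dg sw mv5 v5 dg_vec sw_vec uu_vec)

variable {P k : Type*} [Group P] [Field k] {ρ : P →* M5 k} {U H : Subgroup P} {r : ℕ}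

/-- Two functions with the same leading term. -/
structure Tp (n : ℕ) (f f' : U → k) : Prop where
  a : Dg ⊤ (n + 1) f
  b : Dg ⊤ (n + 1) f'
  c : Dg ⊤ n fun u => f u - f' u

theorem Tp.mul {m n : ℕ} {f f' g g' : U → k} (h : Tp m f f') (h' : Tp n g g') :
    Tp (m + n) (fun u => f u * g u) fun u => f' u * g' u :=
  ⟨h.a.mul h'.a, h.b.mul h'.b, ((Dg.mul' _ _ _ rfl h.c h'.a).add
    ((Dg.mul' _ _ _ rfl h.b h'.c).mono (by omega))).congr fun u => by ring⟩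

theorem Tp.pw [CharP k 3] {n : ℕ} {f f' : U → k} (h : Tp n f f') (l : List ℕ) :
    Tp (n * l.length) (fun u => f u ^ (l.map (3 ^ ·)).sum) fun u => f' u ^ (l.map (3 ^ ·)).sum :=
  haveI : Fact (Nat.Prime 3) := ⟨by norm_num⟩
  ⟨h.a.pw 3 l, h.b.pw 3 l, Dg.pw_sub 3 h.a h.b h.c l⟩

theorem Tp.sum [Finite P] [CharP k 3] (c : Gx 3 r U H) {n : ℕ} {f f' : U → k} (h : Tp n f f')
    (hn : n ≤ r * 2) : ∑ᶠ u, f u = ∑ᶠ u, f' u := by
  haveI : Fact (Nat.Prime 3) := ⟨by norm_num⟩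
  have := sum_top 3 c.exp c.card hn h.c
  rwa [finsum_sub_distrib (Set.toFinite _) (Set.toFinite _), sub_eq_zero] at this

theorem add2 {x : P → k} (hx : ∀ u ∈ U, ∀ v ∈ U, x (u * v) = x u + x v) :
    Dg (⊤ : Subgroup U) 2 fun u => x u := fun v _ =>
  (Dg.const (x v)).congr fun u => by simp only [coe_mul, hx _ v.2 _ u.2]; ring

theorem geo : ∀ j, ∃ l : List ℕ, l.length = j ∧ 2 * ((l.map (3 ^ ·)).sum + 1) + 1 = 3 ^ (j + 1)
  | 0 => ⟨[], rfl, rfl⟩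
  | j + 1 => by
    obtain ⟨l, h, h'⟩ := geo j
    exact ⟨(j + 1) :: l, by simp [h], by simp only [List.map_cons, List.sum_cons]; omega⟩

theorem geo2 : ∀ j, ∃ (l : List ℕ) (S : ℕ), l.length + 1 = 2 * (j + 1) ∧
    (l.map (3 ^ ·)).sum + 1 = 5 * (2 * S) ∧ 2 * S + 1 = 3 ^ (j + 1)
  | 0 => ⟨[2], 1, rfl, rfl, rfl⟩
  | j + 1 => by
    obtain ⟨l, S, h, h', h''⟩ := geo2 j
    exact ⟨(j + 1) :: (j + 3) :: l, S + 3 ^ (j + 1), by simp only [List.length_cons]; omega,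
      by simp only [List.map_cons, List.sum_cons, pow_add] at *; omega, by omega⟩

theorem geo4 : ∀ j, ∃ l : List ℕ, l.length = j ∧ 2 * ((l.map (3 ^ ·)).sum + 40) + 1 = 3 ^ (j + 4)
  | 0 => ⟨[], rfl, rfl⟩
  | j + 1 => by
    obtain ⟨l, h, h'⟩ := geo4 j
    exact ⟨(j + 4) :: l, by simp [h], by simp only [List.map_cons, List.sum_cons, pow_add] at *; omega⟩

theorem twist {j : ℕ} (hj : 3 ≤ j) : ∃ (l : List ℕ) (S o : ℕ), l.length + 1 = j ∧
    (l.map (3 ^ ·)).sum + 1 = 5 * (S * o) ∧ 2 * S + 1 = 3 ^ j := by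
  obtain rfl | hj := hj.eq_or_lt
  · exact ⟨[4, 5], 13, 5, rfl, rfl, rfl⟩
  obtain ⟨i, rfl⟩ : ∃ i, j = i + 4 := ⟨j - 4, by omega⟩
  obtain ⟨l, h, h'⟩ := geo4 i
  exact ⟨1 :: 2 :: (i + 7) :: l, _, 11, by simp [h],
    by simp only [List.map_cons, List.sum_cons, pow_add] at *; omega, h'⟩

theorem ypow {l α β : k} (d : l ^ 5 * (α * β) ^ 3 = 1) {T : ℕ} (e : β ^ T = α ^ T)
    (e' : (α ^ T) ^ 2 = 1) : (l * α ^ 2) ^ (5 * T) = 1 := by
  have := congrArg (· ^ T) d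
  simp only [mul_pow, ← pow_mul, mul_comm _ T, one_pow] at this
  simp only [pow_mul, e] at this
  simp only [mul_pow, ← pow_mul, mul_comm 5, ← mul_assoc, mul_comm 2]
  rw [mul_assoc, pow_mul, pow_mul]
  linear_combination this + (l ^ T) ^ 5 * (α ^ T) ^ 6 * ((α ^ T) ^ 2 + 1) * e'

variable (ρ) in
/-- The coefficients of the socle. -/
def W (s t : k) (j : Fin 5) (g : P) : k := s * ρ g 0 j + t * ρ g 1 j

theorem Pm : (sw 1 1 1 : M5 k) * sw 1 1 1 = 1 := K.mat_ext fun v => by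
  rw [← mulVec_mulVec, sw_vec, sw_vec, one_mulVec]; simpa using (M.eta5 v).symm

theorem cj_dg {g : P} {l a b : k} (e : ρ g = dg l a b) : cj Pm ρ g = dg l b a := cj_of _ (by
  refine K.mat_ext fun v => ?_
  rw [e, ← mulVec_mulVec, ← mulVec_mulVec, dg_vec, sw_vec, sw_vec, dg_vec]; simp)

theorem cj_sw {g : P} {l a b : k} (e : ρ g = sw l a b) : cj Pm ρ g = sw l b a := cj_of _ (by
  refine K.mat_ext fun v => ?_
  rw [e, ← mulVec_mulVec, ← mulVec_mulVec, sw_vec, sw_vec, sw_vec, sw_vec]; simp)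

theorem cj_cj (g : P) : cj Pm (cj Pm ρ) g = ρ g := by
  simp only [cj_apply, ← mul_assoc, Pm, one_mul]; rw [mul_assoc, Pm, mul_one]

theorem dg_eq (l a b : k) : diagonal ![l * a ^ 2, l * b ^ 2, l * a, l * b, l] = dg l a b := by
  ext i j; fin_cases i <;> fin_cases j <;> rfl

variable (x : XY ρ U H)
include x

theorem sh {u : P} (hu : u ∈ U) : ρ u = M.uu (ρ u 2 4) (ρ u 3 4) (ρ u 0 4) (ρ u 1 4) := x.sh u hu

theorem cs {g : P} (hg : g ∈ H) : ∃ l a b : k, ρ g = dg l a b ∨ ρ g = sw l a b := by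
  simpa only [dg_eq, sw] using x.dg g hg

theorem cj_uu {u : P} (hu : u ∈ U) : cj Pm ρ u = M.uu (ρ u 3 4) (ρ u 2 4) (ρ u 1 4) (ρ u 0 4) :=
  cj_of _ (by
    refine K.mat_ext fun v => ?_
    rw [← mulVec_mulVec, ← mulVec_mulVec, uu_vec, sh x hu, uu_vec, sw_vec, sw_vec]; simp [M.uu])

theorem swp : XY (cj Pm ρ) U H where
  sh u hu := by rw [cj_uu x hu]; rfl
  ind := by
    obtain ⟨u, hu, v, hv, e⟩ := x.ind
    exact ⟨v, hv, u, hu, by rw [cj_uu x hu, cj_uu x hv, mul_comm, mul_comm (M.uu _ _ _ _ 2 4)]; exact e⟩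
  dg g hg := by
    obtain ⟨l, a, b, e | e⟩ := cs x hg
    exacts [⟨l, b, a, .inl ((cj_dg e).trans (dg_eq ..).symm)⟩, ⟨l, b, a, .inr (cj_sw e)⟩]

theorem hU : ∀ u ∈ U, ∀ i j, (![2, 2, 1, 1, 0] : Fin 5 → ℕ) i ≤ ![2, 2, 1, 1, 0] j →
    (ρ u - 1) i j = 0 := fun u hu i j => by
  rw [sh x hu]
  fin_cases i <;> fin_cases j <;> simp [M.uu]

theorem ent {u : P} (hu : u ∈ U) (g : P) (j : Fin 5) :
    ρ (u * g) 0 j = ρ g 0 j + ρ u 2 4 * ρ g 2 j + ρ u 0 4 * ρ g 4 j ∧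
    ρ (u * g) 1 j = ρ g 1 j + ρ u 3 4 * ρ g 3 j + ρ u 1 4 * ρ g 4 j ∧
    ρ (u * g) 2 j = ρ g 2 j + ρ u 2 4 * ρ g 4 j ∧ ρ (u * g) 3 j = ρ g 3 j + ρ u 3 4 * ρ g 4 j ∧
    ρ (u * g) 4 j = ρ g 4 j := by
  rw [map_mul, sh x hu]
  simp [mul_apply, Fin.sum_univ_five, M.uu]

theorem add {u v : P} (hu : u ∈ U) (hv : v ∈ U) :
    ρ (u * v) 2 4 = ρ u 2 4 + ρ v 2 4 ∧ ρ (u * v) 3 4 = ρ u 3 4 + ρ v 3 4 ∧
    ρ (u * v) 0 4 = ρ u 0 4 + ρ v 0 4 + ρ u 2 4 * ρ v 2 4 ∧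
    ρ (u * v) 1 4 = ρ u 1 4 + ρ v 1 4 + ρ u 3 4 * ρ v 3 4 := by
  have := M.uu_mul (ρ u 2 4) (ρ u 3 4) (ρ u 0 4) (ρ u 1 4) (ρ v 2 4) (ρ v 3 4) (ρ v 0 4) (ρ v 1 4)
  rw [← sh x hu, ← sh x hv, ← map_mul] at this
  rw [this]
  exact ⟨rfl, rfl, rfl, rfl⟩

theorem addA : ∀ u ∈ U, ∀ v ∈ U, ρ (u * v) 2 4 = ρ u 2 4 + ρ v 2 4 := fun _ hu _ hv => (add x hu hv).1

theorem addB : ∀ u ∈ U, ∀ v ∈ U, ρ (u * v) 3 4 = ρ u 3 4 + ρ v 3 4 := fun _ hu _ hv => (add x hu hv).2.1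

theorem inj (hS : NoS ρ) {u : P} (hu : u ∈ U) (ha : ρ u 2 4 = 0) (hb : ρ u 3 4 = 0) : u = 1 :=
  hS u (K.mat_ext fun v => by
    rw [← mulVec_mulVec, sh x hu, ha, hb]
    simp only [sub_mulVec, one_mulVec, uu_vec]
    ext i; fin_cases i <;> simp [vecHead, vecTail])

theorem exA : (∃ u ∈ U, ρ u 2 4 ≠ 0) ∧ ∃ u ∈ U, ρ u 3 4 ≠ 0 := by
  obtain ⟨u, hu, v, hv, e⟩ := x.ind
  constructor <;> by_contra hc <;> push Not at hc <;> simp [hc u hu, hc v hv] at e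

theorem row4 {g : P} (hg : g ∈ H) (y : P) (j : Fin 5) : ρ (g * y) 4 j = ρ g 4 4 * ρ y 4 j := by
  obtain ⟨l, a, b, e | e⟩ := cs x hg <;> simp [e, mul_apply, Fin.sum_univ_five, dg, sw]

theorem dgW (s t : k) (j : Fin 5) : DgA U 3 (W ρ s t j) :=
  ((dgA_entry _ (hU x) (by decide) 0 j).cmul s).add ((dgA_entry _ (hU x) (by decide) 1 j).cmul t)

theorem dgX (j : Fin 5) : DgA U 3 fun g => ρ g⁻¹ 4 j :=
  dgA_entry (ρ := dl ρ) _ (dl_lv _ (hU x) (m := 2) (by decide)) (by decide) j 4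

theorem WU (s t : k) (g : P) {u : P} (hu : u ∈ U) :
    W ρ s t 0 (g * u) = W ρ s t 0 g ∧ W ρ s t 1 (g * u) = W ρ s t 1 g := by
  simp only [W, map_mul]
  rw [sh x hu]
  simp [mul_apply, Fin.sum_univ_five, M.uu]

theorem XU (j : Fin 5) (g : P) {u : P} (hu : u ∈ U) : ρ (g * u)⁻¹ 4 j = ρ g⁻¹ 4 j := by
  rw [_root_.mul_inv_rev, (ent x (inv_mem hu) _ j).2.2.2.2]

variable [CharP k 3]

theorem tpW (s t : k) (j : Fin 5) (g : P) : Tp 2 (fun u : U => W ρ s t j (u * g))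
    fun u => -ρ g 4 j * (s * ρ u 2 4 ^ 2 + t * ρ u 3 4 ^ 2) := by
  have h3 : (3 : k) = 0 := CharP.cast_eq_zero k 3
  have a := add2 (x := fun u => ρ u 2 4) (addA x)
  have b := add2 (x := fun u => ρ u 3 4) (addB x)
  have a' := add2 (U := U) (x := fun u => ρ u 0 4 + ρ u 2 4 ^ 2) fun u hu v hv => by
    simp only [add x hu hv]; linear_combination ρ u 2 4 * ρ v 2 4 * h3
  have b' := add2 (U := U) (x := fun u => ρ u 1 4 + ρ u 3 4 ^ 2) fun u hu v hv => by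
    simp only [add x hu hv]; linear_combination ρ u 3 4 * ρ v 3 4 * h3
  have h1 := ((((a.mul a).cmul s).add ((b.mul b).cmul t)).cmul (-ρ g 4 j)).congr
    (f' := fun u : U => -ρ g 4 j * (s * ρ u 2 4 ^ 2 + t * ρ u 3 4 ^ 2)) fun u => by ring
  have h2 := (((((Dg.const (W ρ s t j g)).succ.add (a.cmul (s * ρ g 2 j))).add
    (b.cmul (t * ρ g 3 j))).add (a'.cmul (s * ρ g 4 j))).add (b'.cmul (t * ρ g 4 j))).congr
    (f' := fun u : U => W ρ s t j (u * g) - -ρ g 4 j * (s * ρ u 2 4 ^ 2 + t * ρ u 3 4 ^ 2))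
    fun u => by simp only [W, ent x u.2]; ring
  exact ⟨(h2.succ.add h1).congr fun u => by ring, h1, h2⟩

variable [Finite P] (h : Hy0 ρ) (c : Gx 3 r U H)
include c

theorem act {g u : P} (hg : g ∈ H) (hu : u ∈ U) (i : Fin 5) :
    (ρ g *ᵥ ![ρ u 0 4, ρ u 1 4, ρ u 2 4, ρ u 3 4, 1]) i = ρ (g * u * g⁻¹) i 4 * ρ g 4 4 := by
  have : ρ (g * u) i 4 = ρ (g * u * g⁻¹ * g) i 4 := by simp
  rw [map_mul, sh x hu, map_mul] at this
  generalize g * u * g⁻¹ = w at *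
  obtain ⟨l, a, b, e | e⟩ := cs x hg <;>
    simpa [mv5, mul_apply, Fin.sum_univ_five, M.uu, e, dg, sw] using this

include h

theorem act_dg {g : P} (hg : g ∈ H) {l a b : k} (e : ρ g = dg l a b) : l ^ 5 * (a * b) ^ 3 = 1 ∧
    ∀ u ∈ U, ρ (g * u * g⁻¹) 2 4 = a * ρ u 2 4 ∧ ρ (g * u * g⁻¹) 3 4 = b * ρ u 3 4 := by
  have d : l ^ 5 * (a * b) ^ 3 = 1 := by rw [← M.dg_det, ← e, h.det]
  have hl : l ≠ 0 := by rintro rfl; simp at d
  refine ⟨d, fun u hu => ?_⟩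
  have h2 := act x c hg hu 2
  have h3 := act x c hg hu 3
  generalize g * u * g⁻¹ = w at *
  rw [e, dg_vec] at h2 h3
  have h2 : l * a * ρ u 2 4 = ρ w 2 4 * l := h2
  have h3 : l * b * ρ u 3 4 = ρ w 3 4 * l := h3
  exact ⟨mul_left_cancel₀ hl (by linear_combination -h2), mul_left_cancel₀ hl (by linear_combination -h3)⟩

theorem act_sw {g : P} (hg : g ∈ H) {l a b : k} (e : ρ g = sw l a b) : l ^ 5 * (a * b) ^ 3 = 1 ∧
    ∀ u ∈ U, ρ (g * u * g⁻¹) 2 4 = a * ρ u 3 4 ∧ ρ (g * u * g⁻¹) 3 4 = b * ρ u 2 4 := by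
  have d : l ^ 5 * (a * b) ^ 3 = 1 := by rw [← M.sw_det, ← e, h.det]
  have hl : l ≠ 0 := by rintro rfl; simp at d
  refine ⟨d, fun u hu => ?_⟩
  have h2 := act x c hg hu 2
  have h3 := act x c hg hu 3
  generalize g * u * g⁻¹ = w at *
  rw [e, sw_vec] at h2 h3
  have h2 : l * a * ρ u 3 4 = ρ w 2 4 * l := h2
  have h3 : l * b * ρ u 2 4 = ρ w 3 4 * l := h3
  exact ⟨mul_left_cancel₀ hl (by linear_combination -h2), mul_left_cancel₀ hl (by linear_combination -h3)⟩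

theorem kill (s t : k) {R : P → k} (RU : ∀ g, ∀ u ∈ U, R (g * u) = R g) {n : ℕ} (hR : DgA U n R)
    (hn : n ≤ r * 2) (test : ∀ g, ∑ᶠ u : U, W ρ s t 0 (u * g) * R (u * g) = 0) {z : k}
    (hd : ∀ g ∈ H, ∀ l a b, ρ g = dg l a b → W ρ s t 0 g * R g = z)
    (hs : ∀ g ∈ H, ∀ l a b, ρ g = sw l a b → W ρ s t 0 g * R g = 0) : z = 0 := by
  classical
  haveI : Fact (Nat.Prime 3) := ⟨by norm_num⟩
  have e : ∀ g, (![s, t, 0, 0, 0] ⬝ᵥ ρ g *ᵥ ![1, 0, 0, 0, 0]) ^ 3 ^ 0 = W ρ s t 0 g := fun g => by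
    simp [W, mv5, dotProduct, Fin.sum_univ_five]
  have h1 := AT h c 0 ![1, 0, 0, 0, 0] R (fun u hu => by rw [sh x hu, uu_vec]; simp) RU
    (s := ![0, 0, 0, 0, 1]) (fun e => by simpa using congrFun e 4)
    (fun u hu => by rw [sh x hu]; ext i; fin_cases i <;> simp [M.vm5, M.uu])
    (fun g hg => by
      obtain ⟨l, a, b, e | e⟩ := cs x hg <;> simp [e, dg_vec, sw_vec])
    (hR.sum_zero c hn) ![s, t, 0, 0, 0] (by simpa only [e] using test)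
  have f : ∀ g ∈ H, ∀ l a b, ρ g = sw l a b → ρ g 1 0 ≠ 0 := fun g hg l a b e h0 => by
    have d := (act_sw x h c hg e).1
    rw [e] at h0
    have h0 : l * b ^ 2 = 0 := h0
    grind
  let K : Subgroup H := fsub (fun g => ρ g 1 0 = 0) (by simp) fun g g' h0 h0' => by
    obtain ⟨l, a, b, e | e⟩ := cs x g.2
    · simp [e, h0', mul_apply, Fin.sum_univ_five, dg]
    · exact absurd h0 (f _ g.2 _ _ _ e)
  letI := Fintype.ofFinite H
  rw [finsum_congr (g := fun g : H => if g ∈ K then z else 0) fun g => by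
    obtain ⟨l, a, b, e' | e'⟩ := cs x g.2
    · rw [e, hd _ g.2 _ _ _ e', if_pos (show g ∈ K from (show ρ g 1 0 = 0 by rw [e']; rfl))]
    · rw [e, hs _ g.2 _ _ _ e', if_neg (show ¬ g ∈ K from f _ g.2 _ _ _ e')],
    finsum_eq_sum_of_fintype, ← Finset.sum_filter, Finset.sum_const, ← Fintype.card_subtype,
    ← Nat.card_eq_fintype_card, nsmul_eq_mul, mul_eq_zero, CharP.cast_eq_zero_iff k 3] at h1
  exact h1.resolve_left fun e => c.cop (e.trans K.card_subgroup_dvd_card)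

theorem killY (s t : k) (L : List ℕ) (hL : L.length + 1 ≤ r)
    (hd : ∀ g ∈ H, ∀ l a b, ρ g = dg l a b → (l * a ^ 2) ^ ((L.map (3 ^ ·)).sum + 1) = 1)
    (hs : t = 0 ∨ ∀ g ∈ H, ∀ l a b, ρ g ≠ sw l a b)
    (top : ∑ᶠ u : U, (s * ρ u 2 4 ^ 2 + t * ρ u 3 4 ^ 2) ^ ((L.map (3 ^ ·)).sum + 1) = 0) : s = 0 := by
  haveI : Fact (Nat.Prime 3) := ⟨by norm_num⟩
  refine eq_zero_of_pow_eq_zero (n := (L.map (3 ^ ·)).sum + 1) (kill x h c s t
    (fun g u hu => by rw [(WU x s t g hu).1]) ((dgW x s t 0).pw 3 L) (by omega) (fun g => ?_)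
    (fun g hg l a b e => ?_) fun g hg l a b e => ?_)
  · rw [((tpW x s t 0 g).mul ((tpW x s t 0 g).pw L)).sum c (by omega)]
    simp only [← pow_succ']
    simp only [mul_pow]
    rw [← mul_finsum, top, mul_zero]
  · rw [← pow_succ', show W ρ s t 0 g = s * (l * a ^ 2) by simp [W, e, dg], mul_pow, hd g hg l a b e,
      mul_one]
  · rcases hs with rfl | hs
    · simp [W, e, sw]
    · exact absurd e (hs g hg l a b)

theorem killXY {j : ℕ} (hj : 2 * (j + 1) < r)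
    (hd : ∀ g ∈ H, ∀ l a b, ρ g = dg l a b → a ^ (3 ^ (j + 1) - 1) = 1) : False := by
  haveI : Fact (Nat.Prime 3) := ⟨by norm_num⟩
  obtain ⟨L, rfl, e⟩ := geo j
  have hR := ((dgW x 1 0 0).pw 3 L).mul ((dgX x 4).pw 3 (0 :: L))
  refine one_ne_zero (kill x h c 1 0 (fun g u hu => by rw [(WU x 1 0 g hu).1, XU x 4 g hu]) hR
    (by simp only [List.length_cons]; omega) (fun g => ?_) (fun g hg l a b e' => ?_)
    fun g hg l a b e' => by simp [W, e', sw])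
  · simpa only [one_mul] using ((dgW x 1 0 0).mul hR).sum_zero c
      (by simp only [List.length_cons]; omega) 1 g
  · have := row4 x (inv_mem hg) g 4
    rw [inv_mul_cancel, map_one, one_apply_eq, e', show dg l a b 4 4 = l from rfl] at this
    rw [show W ρ 1 0 0 g = l * a ^ 2 by simp [W, e', dg], List.map_cons, List.sum_cons, pow_zero,
      ← mul_assoc, ← pow_succ', add_comm 1, ← mul_pow, mul_right_comm, mul_comm l, ← this, one_mul,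
      ← pow_mul, ← hd g hg l a b e', ← e, Nat.add_sub_cancel]

theorem killYZ [IsAlgClosed k] (L : List ℕ) (hL : 2 * (L.length + 1) ≤ r) {T : ℕ}
    (hT : (L.map (3 ^ ·)).sum + 1 = 5 * T)
    (hd : ∀ g ∈ H, ∀ l a b, ρ g = dg l a b → (a * b) ^ (4 * T) = 1) : False := by
  haveI : Fact (Nat.Prime 3) := ⟨by norm_num⟩
  have h3 : (3 : k) = 0 := CharP.cast_eq_zero k 3
  haveI : NeZero (2 : k) := ⟨fun e => by grind⟩
  obtain ⟨t, top⟩ : ∃ t : k, ∑ᶠ u : U, (ρ u 2 4 ^ 2 + t * ρ u 3 4 ^ 2) *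
      (t * ρ u 2 4 ^ 2 + ρ u 3 4 ^ 2) * (ρ u 2 4 ^ 2 * ρ u 3 4 ^ 2) ^ (L.map (3 ^ ·)).sum = 0 := by
    letI := Fintype.ofFinite U
    generalize (L.map (3 ^ ·)).sum = m
    have : ∀ t : k, ∑ᶠ u : U, (ρ u 2 4 ^ 2 + t * ρ u 3 4 ^ 2) * (t * ρ u 2 4 ^ 2 + ρ u 3 4 ^ 2) *
        (ρ u 2 4 ^ 2 * ρ u 3 4 ^ 2) ^ m = (∑ u : U, (ρ u 2 4 ^ 2 * ρ u 3 4 ^ 2) ^ (m + 1)) * (t * t) +
        (∑ u : U, (ρ u 2 4 ^ 4 + ρ u 3 4 ^ 4) * (ρ u 2 4 ^ 2 * ρ u 3 4 ^ 2) ^ m) * t +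
        ∑ u : U, (ρ u 2 4 ^ 2 * ρ u 3 4 ^ 2) ^ (m + 1) := fun t => by
      simp only [finsum_eq_sum_of_fintype, Finset.sum_mul, ← Finset.sum_add_distrib]
      exact Finset.sum_congr rfl fun u _ => by ring
    simp only [this]
    generalize ∑ u : U, (ρ u 2 4 ^ 2 * ρ u 3 4 ^ 2) ^ (m + 1) = A
    by_cases hA : A = 0
    · exact ⟨0, by simp [hA]⟩
    · exact exists_quadratic_eq_zero hA (IsAlgClosed.exists_eq_mul_self _)
  refine one_ne_zero (kill x h c 1 t (fun g u hu => by simp only [WU x _ _ g hu])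
    (((dgW x t 1 1).mul ((dgW x 1 0 0).pw 3 L)).mul ((dgW x 0 1 1).pw 3 L)) (by omega) (fun g => ?_)
    (fun g hg l a b e => ?_) fun g hg l a b e => ?_)
  · rw [((tpW x 1 t 0 g).mul (((tpW x t 1 1 g).mul ((tpW x 1 0 0 g).pw L)).mul
      ((tpW x 0 1 1 g).pw L))).sum c (by omega)]
    refine (finsum_congr fun u => ?_).trans ((mul_finsum _ (ρ g 4 0 * ρ g 4 1 *
      (ρ g 4 0 * ρ g 4 1) ^ (L.map (3 ^ ·)).sum)).symm.trans (by rw [top, mul_zero]))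
    simp only [one_mul, zero_mul, add_zero, zero_add]
    rw [mul_assoc (_ * _), ← mul_pow, show ∀ a b y z : k, -a * y * (-b * z) = a * b * (y * z) from
      fun _ _ _ _ => by ring, mul_pow]
    ring
  · have d := (act_dg x h c hg e).1
    have : (l * a ^ 2 * (l * b ^ 2)) ^ 5 = (a * b) ^ 4 := by grind
    simp only [W, e, dg, of_apply, cons_val', cons_val_zero, cons_val_one, mul_zero, one_mul,
      zero_mul, add_zero, zero_add]
    rw [← hd g hg l a b e, pow_mul, ← this, ← pow_mul, ← hT, mul_pow]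
    ring
  · simp [W, e, sw, show (L.map (3 ^ ·)).sum ≠ 0 by omega]

theorem ninj [IsAlgClosed k] (hS : NoS ρ) {u : P} (hu : u ∈ U) (ha : ρ u 2 4 = 0) : u = 1 := by
  by_contra u1
  have hK : kr U (fun u => ρ u 2 4) (addA x) ≤ U := fun w hw => (mem_kr.1 hw).1
  obtain ⟨s, hs, e⟩ := (Nat.dvd_prime_pow Nat.prime_three).1 (c.card ▸ card_dvd_of_le hK)
  have s0 : s ≠ 0 := by
    rintro rfl
    exact u1 (mem_bot.1 (card_eq_one.1 e ▸ mem_kr.2 ⟨hu, ha⟩))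
  have s1 : s ≠ r := by
    rintro rfl
    obtain ⟨v, hv, e'⟩ := (exA x).1
    exact e' (mem_kr.1 ((eq_of_le_of_card_ge hK (by rw [e, c.card])).ge hv)).2
  obtain ⟨s, rfl⟩ := Nat.exists_eq_succ_of_ne_zero s0
  obtain ⟨t, rfl⟩ : ∃ t, r = t + 1 + (s + 1) := ⟨r - s - 2, by omega⟩
  have hd : ∀ g ∈ H, ∀ l a b, ρ g = dg l a b → a ^ (3 ^ (t + 1) - 1) = 1 ∧ b ^ (3 ^ (s + 1) - 1) = 1 :=
    fun g hg l a b e' => by
      obtain ⟨d, f⟩ := act_dg x h c hg e'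
      refine ⟨wt_root (a := fun u => ρ u 2 4) (addA x) (by rintro rfl; simp at d) (fun _ => c.conj hg) (fun u hu => (f u hu).1)
        (by rw [e, c.card, ← pow_add]), e ▸ wt_root' (a := fun u => ρ u 3 4)
        (fun u hu v hv => addB x u (hK hu) v (hK hv)) (fun u hu => inj x hS (hK hu) (mem_kr.1 hu).2)
        (g := g) (by rintro rfl; simp at d) (fun u hu => mem_kr.2 ⟨c.conj hg (hK hu), ?_⟩)
        fun u hu => (f u (hK hu)).2⟩
      rw [(f u (hK hu)).1, (mem_kr.1 hu).2, mul_zero]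
  rcases lt_trichotomy s t with hl | rfl | hl
  · exact killXY (swp x) (h.cj Pm) c (j := s) (by omega) fun g hg l a b e' =>
      (hd g hg l b a (cj_cj (ρ := ρ) g ▸ cj_dg e')).2
  · obtain ⟨L, S, e1, e2, e3⟩ := geo2 s
    refine one_ne_zero (killY x h c 1 0 L (by omega) (fun g hg l a b e' => ?_) (.inl rfl) ?_)
    · obtain ⟨f1, f2⟩ := hd g hg l a b e'
      rw [← e3, Nat.add_sub_cancel] at f1 f2
      rw [e2, ypow (act_dg x h c hg e').1 (f2.trans f1.symm) (by rw [f1, one_pow])]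
    · have hb : ρ u 3 4 ≠ 0 := fun hb => u1 (inj x hS hu ha hb)
      generalize (L.map (3 ^ ·)).sum + 1 = m
      have hs := fsum_shift (fun v => ρ v 3 4 * (1 * ρ v 2 4 ^ 2 + 0 * ρ v 3 4 ^ 2) ^ m) hu
      letI := Fintype.ofFinite U
      simp only [finsum_eq_sum_of_fintype, add x hu (SetLike.coe_mem _), ha, zero_add, zero_mul,
        add_zero, add_mul, Finset.sum_add_distrib, ← Finset.mul_sum, add_eq_right, mul_eq_zero, hb,
        false_or] at hs ⊢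
      exact hs
  · exact killXY x h c (j := t) (by omega) fun g hg l a b e' => (hd g hg l a b e').1

theorem nosw [IsAlgClosed k] (hr : 3 ≤ r) (ha : ∀ u ∈ U, ρ u 2 4 = 0 → u = 1)
    (hs : ∀ g ∈ H, ∀ l a b, ρ g ≠ sw l a b) : False := by
  have h3 : (3 : k) = 0 := CharP.cast_eq_zero k 3
  obtain ⟨L, S, o, e1, e2, e3⟩ := twist hr
  have hd : ∀ g ∈ H, ∀ l a b, ρ g = dg l a b → b ^ (S * o) = a ^ (S * o) ∧ (a ^ (S * o)) ^ 2 = 1 :=
    fun g hg l a b e => by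
      obtain ⟨d, f⟩ := act_dg x h c hg e
      have h1 := wt_root' (a := fun u => ρ u 2 4) (addA x) ha (g := g) (l := a) (by rintro rfl; simp at d)
        (fun _ => c.conj hg) fun u hu => (f u hu).1
      rw [c.card, ← e3, Nat.add_sub_cancel, pow_mul'] at h1
      have h2 : ∀ n : ℕ, a ^ S = n → b ^ S = a ^ S := fun n e => (wt_rel (a := fun u => ρ u 2 4)
        (x := fun u => ρ u 3 4) (addA x) ha (addB x) (exA x).2
        (fun _ => c.conj hg) (fun u hu => (f u hu).1) (fun u hu => (f u hu).2) e).trans e.symm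
      rw [pow_mul, pow_mul, (sq_eq_one_iff.1 h1).elim (fun e => h2 1 (by simp [e]))
        fun e => h2 2 (by rw [e]; push_cast; linear_combination -h3), pow_right_comm (a ^ S), h1, one_pow]
      exact ⟨rfl, rfl⟩
  by_cases hb : ∑ᶠ u : U, (ρ u 3 4 ^ 2) ^ ((L.map (3 ^ ·)).sum + 1) = 0
  · refine one_ne_zero (killY (swp x) (h.cj Pm) c 1 0 L e1.le (fun g hg l a b e => ?_) (.inl rfl) ?_)
    · obtain ⟨f1, f2⟩ := hd g hg l b a (cj_cj (ρ := ρ) g ▸ cj_dg e)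
      rw [e2, ypow (act_dg (swp x) (h.cj Pm) c hg e).1 f1.symm (f1 ▸ f2)]
    · refine (finsum_congr fun u => ?_).trans hb
      rw [cj_uu x u.2]; simp [M.uu]
  letI := Fintype.ofFinite U
  rw [finsum_eq_sum_of_fintype] at hb
  obtain ⟨t, ht⟩ := IsAlgClosed.exists_root (∑ u : U, (Polynomial.C (ρ u 3 4 ^ 2) * Polynomial.X +
    Polynomial.C (ρ u 2 4 ^ 2)) ^ ((L.map (3 ^ ·)).sum + 1)) fun e => hb (by
      generalize (L.map (3 ^ ·)).sum = m at e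
      have := Polynomial.coeff_eq_zero_of_degree_lt (n := (m + 1) * 1)
        (e.trans_lt (by norm_cast; omega))
      simp only [Polynomial.finsetSum_coeff, Polynomial.coeff_pow_of_natDegree_le
        Polynomial.natDegree_linear_le] at this
      simpa only [Polynomial.coeff_add, Polynomial.coeff_C_mul,
        Polynomial.coeff_X_one, Polynomial.coeff_C_succ, mul_one, add_zero] using this)
  refine one_ne_zero (killY x h c 1 t L e1.le (fun g hg l a b e => ?_) (.inr hs) ?_)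
  · rw [e2, ypow (act_dg x h c hg e).1 (hd g hg l a b e).1 (hd g hg l a b e).2]
  · rw [finsum_eq_sum_of_fintype, ← ht.eq_zero, Polynomial.eval_finsetSum]
    exact Finset.sum_congr rfl fun u _ => by simp; ring

theorem line (ha : ∀ u ∈ U, ρ u 2 4 = 0 → u = 1) : ∃ i, 2 * (i + 1) ≤ r ∧ ∀ (g : P) (γ : k), γ ≠ 0 →
    (∀ u ∈ U, g * u * g⁻¹ ∈ U ∧ ρ (g * u * g⁻¹) 2 4 = γ * ρ u 2 4 ∧ ρ (g * u * g⁻¹) 3 4 = γ * ρ u 3 4) →
    γ ^ (3 ^ (i + 1) - 1) = 1 := by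
  obtain ⟨u, hu, v, hv, e'⟩ := x.ind
  have hf : ∀ a ∈ U, ∀ b ∈ U, ρ u 2 4 * ρ (a * b) 3 4 - ρ (a * b) 2 4 * ρ u 3 4 =
      ρ u 2 4 * ρ a 3 4 - ρ a 2 4 * ρ u 3 4 + (ρ u 2 4 * ρ b 3 4 - ρ b 2 4 * ρ u 3 4) :=
    fun a ha b hb => by simp only [add x ha hb]; ring
  have hK : kr U (fun a => ρ u 2 4 * ρ a 3 4 - ρ a 2 4 * ρ u 3 4) hf ≤ U := fun w hw => (mem_kr.1 hw).1
  obtain ⟨s, hs, e⟩ := (Nat.dvd_prime_pow Nat.prime_three).1 (c.card ▸ card_dvd_of_le hK)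
  have s0 : s ≠ 0 := by
    rintro rfl
    rw [mem_bot.1 (card_eq_one.1 e ▸ mem_kr.2 ⟨hu, sub_self _⟩ : u ∈ ⊥)] at e'
    simp at e'
  have s1 : s ≠ r := by
    rintro rfl
    exact e' (sub_eq_zero.1
      (mem_kr.1 ((eq_of_le_of_card_ge hK (by rw [e, c.card])).ge hv)).2)
  obtain ⟨s, rfl⟩ := Nat.exists_eq_succ_of_ne_zero s0
  obtain ⟨t, rfl⟩ : ∃ t, r = t + 1 + (s + 1) := ⟨r - s - 2, by omega⟩
  rcases le_total s t with hl | hl
  · refine ⟨s, by omega, fun g γ h0 f => e ▸ wt_root' (a := fun u => ρ u 2 4)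
      (fun u hu v hv => addA x u (hK hu) v (hK hv)) (fun u hu => ha u (hK hu)) (g := g) h0
      (fun w hw => mem_kr.2 ⟨(f w (hK hw)).1, ?_⟩) fun u hu => (f u (hK hu)).2.1⟩
    rw [(f w (hK hw)).2.1, (f w (hK hw)).2.2]
    linear_combination γ * (mem_kr.1 hw).2
  · exact ⟨t, by omega, fun g γ h0 f => wt_root
      (a := fun a => ρ u 2 4 * ρ a 3 4 - ρ a 2 4 * ρ u 3 4) hf h0 (fun u hu => (f u hu).1)
      (fun w hw => by rw [(f w hw).2.1, (f w hw).2.2]; ring) (by rw [e, c.card, ← pow_add])⟩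

theorem hassw [IsAlgClosed k] (hr : 3 ≤ r) (ha : ∀ u ∈ U, ρ u 2 4 = 0 → u = 1) {σ : P} (hσ : σ ∈ H)
    {l₀ a₀ b₀ : k} (e₀ : ρ σ = sw l₀ a₀ b₀) : False := by
  haveI : Fact (Nat.Prime 3) := ⟨by norm_num⟩
  obtain ⟨i, hi, hγ⟩ := line x h c ha
  have hd : ∀ g ∈ H, ∀ l a b, ρ g = dg l a b → (a * b) ^ (3 ^ (i + 1) - 1) = 1 := fun g hg l a b e => by
    obtain ⟨d, f⟩ := act_dg x h c hg e
    obtain ⟨-, f₀⟩ := act_sw x h c hσ e₀
    refine hγ (g * σ * g * σ⁻¹) _ (fun e => by simp [e] at d) fun u hu => ?_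
    have m1 := c.conj' hσ hu
    have m2 := c.conj hg m1
    have m3 := c.conj hσ m2
    have q := f₀ _ m1
    rw [show σ * (σ⁻¹ * u * σ) * σ⁻¹ = u by group] at q
    rw [show g * σ * g * σ⁻¹ * u * (g * σ * g * σ⁻¹)⁻¹ =
      g * (σ * (g * (σ⁻¹ * u * σ) * g⁻¹) * σ⁻¹) * g⁻¹ by group]
    refine ⟨c.conj hg m3, ?_⟩
    rw [(f _ m3).1, (f _ m3).2, (f₀ _ m2).1, (f₀ _ m2).2, (f _ m1).1, (f _ m1).2, q.1, q.2]
    constructor <;> ring
  rcases i with _ | _ | i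
  · have h1 : ∀ g ∈ H, ρ g 4 4 * ρ g 4 4 ^ 3 ^ 2 = 1 := fun g hg => by
      obtain ⟨l, a, b, e | e⟩ := cs x hg
      · have d := (act_dg x h c hg e).1
        have : (a * b) ^ 2 = 1 := hd g hg l a b e
        rw [e, show dg l a b 4 4 = l from rfl]; grind
      · obtain ⟨d, f⟩ := act_sw x h c hg e
        have : (a * b) ^ 2 = 1 := hγ (g * g) _ (fun e => by simp [e] at d) fun u hu => by
          have m := c.conj hg hu
          rw [show g * g * u * (g * g)⁻¹ = g * (g * u * g⁻¹) * g⁻¹ by group]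
          refine ⟨c.conj hg m, ?_⟩
          rw [(f _ m).1, (f _ m).2, (f _ hu).1, (f _ hu).2]
          constructor <;> ring
        rw [e, show sw l a b 4 4 = l from rfl]; grind
    obtain ⟨g, hg⟩ := col_ne h 4 0
    refine hg (inv_inv g ▸ KC c (dgX x 0) ((dgX x 4).frob 3 2) (by omega) (fun n hn => ?_) (by simp)
      (by simp) g⁻¹)
    obtain ⟨u, hu, y, hy, rfl⟩ := c.fac n hn
    refine ⟨_, _, h1 y⁻¹ (inv_mem hy), fun g => ?_, fun g => ?_⟩ <;>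
      rw [← mul_assoc, _root_.mul_inv_rev, row4 x (inv_mem hy), XU x _ g hu]
    rw [mul_pow]
  · exact killYZ x h c [2] (by simpa using hi) (T := 2) rfl hd
  · obtain ⟨L, S, o, e1, e2, e3⟩ := twist (j := i + 1 + 1 + 1) (by omega)
    refine killYZ x h c L (by omega) e2 fun g hg l a b e => ?_
    have := hd g hg l a b e
    rw [← e3, Nat.add_sub_cancel] at this
    rw [show 4 * (S * o) = 2 * S * (2 * o) by ring, pow_mul, this, one_pow]

end X3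

open X3 in
/-- The case `XY = 0` in characteristic three. -/
theorem xy3 {P k : Type*} [Group P] [Field k] {ρ : P →* M5 k} {U H : Subgroup P} {r : ℕ} [Finite P]
    [IsAlgClosed k] [CharP k 3] (h : Hy0 ρ) (hS : NoS ρ) (c : Gx 3 r U H) (hr : 2 ≤ r)
    (x : XY ρ U H) :
    Spor.IsoM11 (P ⧸ Subgroup.center P) ∧ ∀ g, (ρ g).trace ^ 3 = (ρ g).trace := by
  have ha : ∀ u ∈ U, ρ u 2 4 = 0 → u = 1 := fun _ => ninj x h c hS
  obtain rfl | hr := hr.eq_or_lt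
  · exact M.m11 h ⟨c.card, c.syl, x.sh, fun u hu u1 => ⟨mt (ha u hu) u1, fun hb =>
      u1 (ninj (swp x) (h.cj Pm) c (hS.cj Pm) hu (by rw [cj_uu x hu]; exact hb))⟩, x.ind⟩
  · exact (nosw x h c hr ha fun g hg l a b => hassw x h c hr ha hg).elim

end Cfsg.Agent.L5.R
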