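import Cfsg.Agent.L5.S4

/-!
A quasisimple irreducible non-self-dual subgroup of `SL₅` in odd characteristic without transvections
has no quadratic unipotent elements.
-/

set_option autoImplicit false

namespace Cfsg.Agent.L5.S

open Matrix Cfsg.Agent.L4.S

variable {k : Type*} [Field k]

theorem span4 (h3 : (3 : k) = 0) {L : Submodule k (M5 k)} {X : Rm 5 2 k} {Y : Rm 2 5 k}
    (h0 : X * ((1 : M2 k) * Y) ∈ L) (h1 : X * ((q1 : M2 k) * Y) ∈ L) (h2 : X * ((q2 : M2 k) * Y) ∈ L)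
    (h4 : X * ((q1 * q2 : M2 k) * Y) ∈ L) (A : M2 k) : X * (A * Y) ∈ L := by
  have : A = -(A 0 0 + A 1 1) • (1 : M2 k) + (-A 0 0 + A 1 1 - A 0 1 - A 1 0) • (q1 : M2 k) +
      (A 0 1 - A 1 0) • (q2 : M2 k) + (-A 0 0 + A 1 1 + A 0 1 + A 1 0) • (q1 * q2 : M2 k) := by
    ext i j
    fin_cases i <;> fin_cases j <;> simp [q1, q2] <;> grind
  rw [this]
  simp only [Matrix.add_mul, Matrix.mul_add, Matrix.smul_mul, Matrix.mul_smul]
  exact L.add_mem (L.add_mem (L.add_mem (L.smul_mem _ h0) (L.smul_mem _ h1)) (L.smul_mem _ h2))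
    (L.smul_mem _ h4)

theorem scal0 {G : M2 k} (h : ∀ B, B * G = G * B) (hd : G.det = 0) : G = 0 := by
  have h1 := h !![0, 1; 0, 0]
  have h2 := h !![0, 0; 1, 0]
  clear h
  simp [← Matrix.ext_iff, Fin.forall_fin_two, mul_apply, det_fin_two, vecMul, dotProduct] at h1 h2 hd ⊢
  grind

theorem la {c c₃ T : Rm 5 2 k} {γ γ₃ U : Rm 2 5 k} {e : Rm 5 1 k} {f : Rm 1 5 k}
    (h : γ * c = 1) (h₃ : γ₃ * c₃ = 1) (hd : (U * T).det ≠ 0) (fe : f * e = 1) (γe : γ * e = 0)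
    (fc : f * c = 0) (ce : c₃ * (γ₃ * e) = e) (γT : γ * T = 0) (Uc : U * c = 0) (Ue : U * e = 0)
    (fT : f * T = 0) (key : ∀ A B : M2 k,
      (γ₃ * (c * (A * U) * (T * (B * γ)) - T * (B * γ) * (c * (A * U))) * c₃).trace = 0) : False := by
  have i1 := Matrix.nonsing_inv_mul _ hd.isUnit
  have k1 : ∀ B : M2 k, U * T * (B * (γ * (c₃ * (γ₃ * c)))) = U * (c₃ * (γ₃ * T)) * B := fun B => by
    refine Matrix.ext_iff_trace_mul_left.2 fun A => ?_
    have := key A B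
    rw [Matrix.mul_sub, Matrix.sub_mul, trace_sub, sub_eq_zero] at this
    simp only [mx, asc h] at this
    rw [← Matrix.mul_assoc γ₃ c, trace_mul_comm, ← Matrix.mul_assoc γ₃ T,
      ← Matrix.mul_assoc (γ₃ * T) B, trace_mul_comm (γ₃ * T * B)] at this
    simpa only [mx] using this
  have e0 : γ₃ * e ≠ 0 := fun e' => by
    rw [e', Matrix.mul_zero] at ce
    rw [← ce, Matrix.mul_zero] at fe
    exact zero_ne_one fe
  have k2 : γ * (c₃ * (γ₃ * c)) = 0 := scal0 (fun B => by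
    have := k1 B
    rw [← mul_one (U * (c₃ * (γ₃ * T))), ← k1 1, one_mul, mul_assoc] at this
    simpa only [asc i1, one_mul] using congrArg ((U * T)⁻¹ * ·) this) (by
      rw [← Matrix.mul_assoc, det_mul, det_ker (by rw [Matrix.mul_assoc, ce, γe]) e0, zero_mul])
  have k3 : U * (c₃ * (γ₃ * T)) = 0 := by simpa only [k2, mul_zero, mul_one] using (k1 1).symm
  have k4 : fromRows (fromRows γ ((U * T)⁻¹ * U)) f * fromCols (fromCols c T) e = 1 := by
    rw [fromRows_mul_fromCols, fromRows_mul_fromCols, fromRows_mul, mul_fromCols, Matrix.mul_assoc,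
      Matrix.mul_assoc, Matrix.mul_assoc, h, γT, Uc, i1, γe, Ue, fc, fT, fe]
    simp
  replace k4 := (mul_eq_one_comm_of_card_eq _ _ _ (by simp)).1 k4
  rw [fromCols_mul_fromRows, fromCols_mul_fromRows] at k4
  have k5 := congrArg (fun Z => (γ₃ * (Z * c₃)).trace) k4
  simp only [mx, h₃, trace_add] at k5
  rw [← Matrix.mul_assoc γ₃ c, trace_mul_comm, ← Matrix.mul_assoc γ₃ T, trace_mul_comm (γ₃ * T),
    ← Matrix.mul_assoc γ₃ e, trace_mul_comm (γ₃ * e)] at k5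
  simp [Matrix.mul_assoc, k2, k3, ce, fe] at k5
  exact one_ne_zero (α := k) (by linear_combination -k5)

variable {P : Type*} [Group P] {ρ : P →* M5 k} [Finite P] [IsAlgClosed k]

theorem Hs.rf (H : Hs ρ) (p : ℕ) [Fact p.Prime] [CharP k p] :
    ∃ (e : Rm 5 1 k) (f : Rm 1 5 k), RF ρ e f := by
  obtain ⟨N, M, hN, hM, h0⟩ := H.exists_pair p
  obtain ⟨a, φ, rfl, F⟩ := H.fc hN (by rintro rfl; simp at h0)
  obtain ⟨b, ψ, rfl, F'⟩ := H.fc hM (by rintro rfl; simp at h0)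
  by_cases hd : (φ * b * (ψ * a)).det = 0
  swap
  · obtain ⟨e, f, R, -⟩ := H.p3 p F F' hd
    exact ⟨e, f, R⟩
  have h1 : (φ * b * (ψ * a)).trace ≠ 0 := fun e => h0 (by
    simpa only [mx] using congrArg (fun Z => a * Z * φ) (H.p1 F F' hd e))
  obtain ⟨h3, s1, s2⟩ := H.p2 F F' p hd rfl h1
  generalize hσ : (φ * b * (ψ * a)).trace = σ at *
  have F'' : Fc ρ (-σ • b) ψ := F'.smul (neg_ne_zero.2 h1) (by
    rcases mul_self_eq_one_iff.1 s1 with e | e
    · simpa [e] using hM.neg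
    · simpa [e] using hM)
  obtain ⟨c, γ, X, -⟩ := Hs.xq F F'' h3 (by
      rw [Matrix.mul_smul, Matrix.smul_mul, det_smul, hd, mul_zero])
    (by rw [Matrix.mul_smul, Matrix.smul_mul, trace_smul, hσ, smul_eq_mul, neg_mul, s1]) (by
      simp only [mx, smul_smul, neg_mul_neg, s1, one_smul] at s2 ⊢
      linear_combination (norm := module) s2)
  obtain ⟨-, e, f, -, -, R, -⟩ := H.xrf p X
  exact ⟨e, f, R⟩

theorem Hs.false (H : Hs ρ) (p : ℕ) [Fact p.Prime] [CharP k p] : False := by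
  obtain ⟨e₁, f₁, R₁⟩ := H.rf p
  obtain ⟨c, γ, X, t, tt, ct, -⟩ := H.xr p R₁
  obtain ⟨N, e, f, hN, hd, R, Ne, fN, γe, fc⟩ := H.xrf p X
  obtain ⟨c₃, γ₃, X₃, -, -, -, ce⟩ := H.xr p R
  rw [Matrix.mul_assoc] at ce
  have e0 : γ₃ * e ≠ 0 := fun e' => by
    have fe := R.h
    rw [e', Matrix.mul_zero] at ce
    rw [← ce, Matrix.mul_zero] at fe
    exact zero_ne_one fe
  obtain ⟨L, hL⟩ : ∃ L, L = Submodule.span k {y | Nq ρ y ∧ y * e = 0} := ⟨_, rfl⟩
  have l1 : ∀ y ∈ L, (γ₃ * y * c₃).trace = 0 := fun y hy => by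
    rw [hL] at hy
    induction hy using Submodule.span_induction with
    | mem N hN => exact H.d0 p X₃ hN.1 (det_ker (by simp only [mx, ce, hN.2]) e0)
    | zero => simp
    | add x y _ _ h1 h2 => rw [Matrix.mul_add, Matrix.add_mul, trace_add, h1, h2, add_zero]
    | smul c x _ h1 => rw [Matrix.mul_smul, Matrix.smul_mul, trace_smul, h1, smul_zero]
  have l2 : ∀ x ∈ L, ∀ y ∈ L, x * y - y * x ∈ L := fun x hx y hy => by
    rw [hL] at hx hy ⊢
    refine lie H.two (S := {y | Nq ρ y ∧ y * e = 0})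
      (fun N hN M hM => ⟨⟨(hN.1.conj hM.1).1, ?_⟩, (hN.1.conj hM.1).2, ?_⟩) hx hy <;>
      simp only [mx, hN.2, hM.2] <;> simp
  have l3 : ∀ u u', Cj ρ (emb X.h u) (emb X.h u') → emb X.h u * N * emb X.h u' ∈ L := fun u u' hu =>
    hL ▸ Submodule.subset_span ⟨hu.2 N hN, by simp only [emb_apply, mx, γe, Ne]; simp⟩
  obtain ⟨U, hU⟩ : ∃ U, U = γ * N * (1 - c * γ) := ⟨_, rfl⟩
  obtain ⟨T, hT⟩ : ∃ T, T = (1 - c * γ) * N * c := ⟨_, rfl⟩
  have h3 := X.three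
  have l4 : ∀ u u', Cj ρ (emb X.h u) (emb X.h u') → c * (u * U) ∈ L ∧ T * (u' * γ) ∈ L :=
    fun u u' hu => by
    have m1 := L.sub_mem (l3 _ _ (X.neg hu)) (l3 _ _ hu)
    have hu' := cj_emb X.h ct hu
    have m2 := L.smul_mem t (L.sub_mem (l3 _ _ (X.neg hu')) (l3 _ _ hu'))
    constructor
    · convert L.neg_mem (L.add_mem m1 m2) using 1
      simp only [hU, emb_apply, mx, smul_smul]
      match_scalars <;> grind
    · convert L.sub_mem m2 m1 using 1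
      simp only [hT, emb_apply, mx, smul_smul]
      match_scalars <;> grind
  have c0 := l4 1 1 (by rw [map_one]; exact cj_of 1 (map_one ρ) (one_mul 1))
  have c1 := l4 _ _ (X.neg X.c1)
  have c2 := l4 _ _ (X.neg X.c2)
  have c3 := l4 _ _ (X.neg X.c3)
  rw [neg_neg] at c1 c2 c3
  refine la (U := U) (T := T) X.h X₃.h ?_ R.h γe fc ce ?_ ?_ ?_ ?_ fun A B => l1 _ (l2 _
    (span4 h3 c0.1 (l4 _ _ X.c1).1 (l4 _ _ X.c2).1 (l4 _ _ X.c3).1 A) _
    (span4 h3 c0.2 c1.2 c2.2 c3.2 B))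
  · rw [show U * T = -(γ * N * c * (γ * N * c)) by
      simp only [hU, hT, mx, asc hN.1, asc X.h]; abel, det_neg, det_mul]
    simpa using hd
  · simp only [hT, mx, asc X.h, sub_self]
  · simp only [hU, mx, X.h, sub_self]
  · simp only [hU, mx, γe, Ne, sub_self]
  · simp only [hT, mx, asc fc, asc fN, sub_self]

theorem caseS (p : ℕ) [Fact p.Prime] [CharP k p] (hp : p ≠ 2) (h : Hy ρ) (hT : NoT ρ) : NoS ρ :=
  fun g hg => by_contra fun g1 => Hs.false ⟨h, fun e => hp ((Nat.prime_dvd_prime_iff_eq Fact.out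
    Nat.prime_two).1 ((CharP.cast_eq_zero_iff k p 2).1 e)), hT, ρ g - 1, ⟨hg, g, by simp⟩,
    fun e => g1 (h.inj (by rw [map_one, sub_eq_zero.1 e]))⟩ p

end Cfsg.Agent.L5.S
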