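import Cfsg.Agent.L5.Defs
import Cfsg.Agent.L4.S3
import Cfsg.Agent.SE.CPbaer

/-!
Quadratic unipotent elements in dimension five: basic notions.
-/

set_option autoImplicit false

namespace Cfsg.Agent.L5.S

open Matrix Cfsg.Agent.L4.S

variable {k : Type*} [Field k]

/-- rectangular matrices -/
abbrev Rm (m n : ℕ) (k : Type*) := Matrix (Fin m) (Fin n) k

theorem rankfac (M : M5 k) {r : ℕ} (h : M.rank = r) : ∃ (a : Rm 5 r k) (φ : Rm r 5 k)
    (a' : Rm r 5 k) (φ' : Rm 5 r k), M = a * φ ∧ a' * a = 1 ∧ φ * φ' = 1 := by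
  subst h
  obtain ⟨V, U, e, ⟨V, rfl⟩, ⟨U, rfl⟩, h⟩ := exists_rank_normal_form M
  obtain ⟨I, hI⟩ : ∃ I : Rm 5 M.rank k, I = (fromRows 1 0).submatrix e id := ⟨_, rfl⟩
  obtain ⟨J, hJ⟩ : ∃ J : Rm M.rank 5 k, J = (fromCols 1 0).submatrix id e := ⟨_, rfl⟩
  have h1 : I * J = (fromBlocks 1 0 0 0).submatrix e e := by
    rw [hI, hJ, ← submatrix_mul _ _ _ _ _ Function.bijective_id, fromRows_mul_fromCols]; simp
  have h2 : J * I = 1 := by
    rw [hI, hJ, submatrix_mul_equiv, fromCols_mul_fromRows]; simp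
  refine ⟨V.inv * I, J * U.inv, J * V.val, U.val * I, ?_, ?_, ?_⟩
  · rw [Matrix.mul_assoc, ← Matrix.mul_assoc I, h1, ← h]
    simp only [← Matrix.mul_assoc, V.inv_val, one_mul]
    rw [mul_assoc, U.val_inv, mul_one]
  · rw [Matrix.mul_assoc, ← Matrix.mul_assoc V.val, V.val_inv, Matrix.one_mul, h2]
  · rw [Matrix.mul_assoc, ← Matrix.mul_assoc U.inv, U.inv_val, Matrix.one_mul, h2]

theorem le_rank {m n : Type} [Fintype m] [DecidableEq m] [Fintype n] {S : Matrix m n k}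
    {T : Matrix n m k} (h : S * T = 1) : Fintype.card m ≤ S.rank ∧ Fintype.card m ≤ T.rank :=
  ⟨by rw [← rank_one (R := k), ← h]; exact rank_mul_le_left _ _,
    by rw [← rank_one (R := k), ← h]; exact rank_mul_le_right _ _⟩

theorem det0 {C : M2 k} (h : C.det = 0) : ∃ u v, C = vecMulVec u v := by
  obtain ⟨a, b, c, d, rfl⟩ := ex2 C
  rw [det_fin_two_of] at h
  by_cases ha : a = 0
  · by_cases hb : b = 0
    · exact ⟨![0, 1], ![c, d], by ext i j; fin_cases i <;> fin_cases j <;> simp [ha, hb, vecMulVec]⟩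
    · refine ⟨![b, d], ![0, 1], ?_⟩
      ext i j; fin_cases i <;> fin_cases j <;> simp [ha, vecMulVec]
      grind
  · refine ⟨![1, c / a], ![a, b], ?_⟩
    ext i j; fin_cases i <;> fin_cases j <;> simp [vecMulVec] <;> field_simp
    linear_combination h

theorem rank_det0 {C : M2 k} (h : C.det = 0) (X : Rm 5 2 k) (Y : Rm 2 5 k) :
    (X * C * Y).rank ≤ 1 := by
  obtain ⟨u, v, rfl⟩ := det0 h
  exact (rank_mul_le_left _ _).trans ((rank_mul_le_right _ _).trans (rank_vecMulVec_le _ _))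

theorem canc {m n : ℕ} {a : Rm 5 m k} {a' : Rm m 5 k} {φ : Rm n 5 k} {φ' : Rm 5 n k}
    (h1 : a' * a = 1) (h2 : φ * φ' = 1) {C : Rm m n k} (h : a * C * φ = 0) : C = 0 := by
  have := congrArg (fun X => a' * X * φ') h
  simpa only [Matrix.mul_assoc, h2, Matrix.mul_one, ← Matrix.mul_assoc a', h1, Matrix.one_mul,
    Matrix.mul_zero, Matrix.zero_mul] using this

/-- normal form of products of rectangular matrices -/
theorem mx {ι : Type} [Fintype ι] [DecidableEq ι] :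
    (∀ {l m n : Type} [Fintype m] (a : Matrix l ι k) (b : Matrix ι m k) (c : Matrix m n k),
      a * b * c = a * (b * c)) ∧
    (∀ {l n : Type} (a : Matrix l ι k) (b c : Matrix ι n k), a * (b + c) = a * b + a * c) ∧
    (∀ {l n : Type} (a b : Matrix l ι k) (c : Matrix ι n k), (a + b) * c = a * c + b * c) ∧
    (∀ {l n : Type} (a : Matrix l ι k) (b c : Matrix ι n k), a * (b - c) = a * b - a * c) ∧
    (∀ {l n : Type} (a b : Matrix l ι k) (c : Matrix ι n k), (a - b) * c = a * c - b * c) ∧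
    (∀ {l n : Type} (a : Matrix l ι k) (b : Matrix ι n k), a * -b = -(a * b)) ∧
    (∀ {l n : Type} (a : Matrix l ι k) (b : Matrix ι n k), -a * b = -(a * b)) ∧
    (∀ {l n : Type} (c : k) (a : Matrix l ι k) (b : Matrix ι n k), a * c • b = c • (a * b)) ∧
    (∀ {l n : Type} (c : k) (a : Matrix l ι k) (b : Matrix ι n k), c • a * b = c • (a * b)) ∧
    (∀ {l : Type} (a : Matrix l ι k), a * (1 : Matrix ι ι k) = a) ∧
    (∀ {l : Type} (a : Matrix ι l k), (1 : Matrix ι ι k) * a = a) ∧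
    (∀ {l n : Type} (a : Matrix l ι k), a * (0 : Matrix ι n k) = 0) ∧
    (∀ {l n : Type} (a : Matrix ι n k), (0 : Matrix l ι k) * a = 0) :=
  ⟨Matrix.mul_assoc, Matrix.mul_add, Matrix.add_mul, Matrix.mul_sub, Matrix.sub_mul,
    Matrix.mul_neg, Matrix.neg_mul, fun c a b => Matrix.mul_smul a c b, Matrix.smul_mul,
    Matrix.mul_one, Matrix.one_mul, Matrix.mul_zero, Matrix.zero_mul⟩

theorem asc {l m n : Type} [Fintype m] [Fintype n] {a : Matrix l m k} {b : Matrix m n k}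
    {c : Matrix l n k} (h : a * b = c) {o : Type} (X : Matrix n o k) : a * (b * X) = c * X := by
  rw [← Matrix.mul_assoc, h]

section Emb
variable {ι : Type} [Fintype ι] [DecidableEq ι] {T : Matrix (Fin 5) ι k} {S : Matrix ι (Fin 5) k}

/-- Extension by the identity. -/
def emb (h : S * T = 1) : Matrix ι ι k →* M5 k where
  toFun A := 1 + T * (A - 1) * S
  map_one' := by simp
  map_mul' A B := by simp only [mx, h, asc h]; abel

theorem emb_apply (h : S * T = 1) (A : Matrix ι ι k) : emb h A = 1 + T * (A - 1) * S := rfl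

theorem emb_T (h : S * T = 1) (A : Matrix ι ι k) : emb h A * T = T * A := by
  simp only [emb_apply, mx, h]; abel

theorem S_emb (h : S * T = 1) (A : Matrix ι ι k) : S * emb h A = A * S := by
  simp only [emb_apply, mx, asc h]; abel

theorem emb_inj (h : S * T = 1) {A B : Matrix ι ι k} (e : emb h A = emb h B) : A = B := by
  have := congrArg (fun X => S * X * T) e
  simpa only [S_emb, Matrix.mul_assoc, h, Matrix.mul_one] using this

end Emb

theorem lie {R : Type*} [Ring R] [Algebra k R] (h2 : (2 : k) ≠ 0) {S : Set R}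
    (h : ∀ N ∈ S, ∀ M ∈ S, (1 + N) * M * (1 - N) ∈ S ∧ (1 - N) * M * (1 + N) ∈ S) {x y : R}
    (hx : x ∈ Submodule.span k S) (hy : y ∈ Submodule.span k S) :
    x * y - y * x ∈ Submodule.span k S := by
  induction hx, hy using Submodule.span_induction₂ with
  | mem_mem N M hN hM =>
    have := Submodule.smul_mem _ (2 : k)⁻¹ (sub_mem (Submodule.subset_span (R := k) (h N hN M hM).1)
      (Submodule.subset_span (h N hN M hM).2))
    convert this using 1
    rw [eq_inv_smul_iff₀ h2]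
    simp only [rg (k := k)]
    module
  | zero_left => simp
  | zero_right => simp
  | add_left x y z _ _ _ h1 h2 => convert add_mem h1 h2 using 1; noncomm_ring
  | add_right x y z _ _ _ h1 h2 => convert add_mem h1 h2 using 1; noncomm_ring
  | smul_left c x y _ _ h1 => convert Submodule.smul_mem _ c h1 using 1; simp [smul_sub]
  | smul_right c x y _ _ h1 => convert Submodule.smul_mem _ c h1 using 1; simp [smul_sub]

variable {P : Type*} [Group P]

/-- `1 + N` is a quadratic element. -/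
def Nq (ρ : P →* M5 k) (N : M5 k) : Prop := N * N = 0 ∧ ∃ g, ρ g = 1 + N

/-- Conjugation by `A` preserves the quadratic elements. -/
def Cj (ρ : P →* M5 k) (A A' : M5 k) : Prop := A' * A = 1 ∧ ∀ N, Nq ρ N → Nq ρ (A * N * A')

variable {ρ : P →* M5 k} {N M A A' B B' : M5 k}

theorem inv_of {g : P} (h : N * N = 0) (e : ρ g = 1 + N) : ρ g⁻¹ = 1 - N := by
  have h1 : ρ g⁻¹ * ρ g = 1 := by rw [← map_mul, inv_mul_cancel, map_one]
  rw [e] at h1
  linear_combination (norm := noncomm_ring) h1 * (1 - N) + ρ g⁻¹ * h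

theorem Nq.neg (h : Nq ρ N) : Nq ρ (-N) :=
  let ⟨g, e⟩ := h.2
  ⟨by rw [neg_mul_neg, h.1], g⁻¹, by rw [inv_of h.1 e, sub_eq_add_neg]⟩

theorem Nq.nat (h : Nq ρ N) (n : ℕ) : Nq ρ ((n : k) • N) :=
  let ⟨g, e⟩ := h.2
  ⟨by rw [smul_mul_smul_comm, h.1, smul_zero], g ^ n, by rw [map_pow, e, nil_pow (k := k) h.1]⟩

theorem cj_smul (g : P) {c : k} (e : ρ g = c • A) (h : A' * A = 1) : Cj ρ A A' := by
  have h1 : ρ g⁻¹ * ρ g = 1 := by rw [← map_mul, inv_mul_cancel, map_one]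
  have h3 := mul_eq_one_comm.1 h
  have h2 : A' = c • ρ g⁻¹ := by
    rw [← one_mul A', ← h1, e, mul_smul_comm, smul_mul_assoc, mul_assoc, h3, mul_one]
  refine ⟨h, fun N ⟨n, u, hu⟩ => ⟨?_, g * u * g⁻¹, ?_⟩⟩
  · rw [mul_assoc, ← mul_assoc A', ← mul_assoc A', h, one_mul, mul_assoc, ← mul_assoc N, n]; simp
  · rw [map_mul, map_mul, hu, mul_add, add_mul, mul_one, ← map_mul, mul_inv_cancel, map_one, e, h2]
    simp

theorem cj_of (g : P) (e : ρ g = A) (h : A' * A = 1) : Cj ρ A A' :=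
  cj_smul g (c := 1) (by rw [e, one_smul]) h

theorem Cj.mul (h : Cj ρ A A') (h' : Cj ρ B B') : Cj ρ (A * B) (B' * A') :=
  ⟨by rw [mul_assoc, ← mul_assoc A', h.1, one_mul, h'.1], fun N hN => by
    simpa only [mul_assoc] using h.2 _ (h'.2 N hN)⟩

theorem Nq.cj (h : Nq ρ N) : Cj ρ (1 + N) (1 - N) :=
  let ⟨g, e⟩ := h.2
  cj_of g e (by linear_combination (norm := noncomm_ring) -h.1)

theorem Nq.conj (h : Nq ρ N) (h' : Nq ρ M) :
    Nq ρ ((1 + N) * M * (1 - N)) ∧ Nq ρ ((1 - N) * M * (1 + N)) :=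
  ⟨h.cj.2 M h', by simpa only [← sub_eq_add_neg, sub_neg_eq_add] using h.neg.cj.2 M h'⟩

/-- The span of the quadratic elements. -/
def LL (ρ : P →* M5 k) : Submodule k (M5 k) := Submodule.span k {N | Nq ρ N}

theorem Cj.ll (h : Cj ρ A A') {x : M5 k} (hx : x ∈ LL ρ) : A * x * A' ∈ LL ρ := by
  induction hx using Submodule.span_induction with
  | mem N hN => exact Submodule.subset_span (h.2 N hN)
  | zero => simp
  | add x y _ _ h1 h2 => rw [mul_add, add_mul]; exact add_mem h1 h2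
  | smul c x _ h1 => rw [mul_smul_comm, smul_mul_assoc]; exact Submodule.smul_mem _ c h1

theorem ll_lie (h2 : (2 : k) ≠ 0) {x y : M5 k} (hx : x ∈ LL ρ) (hy : y ∈ LL ρ) :
    x * y - y * x ∈ LL ρ := lie h2 (S := {N | Nq ρ N}) (fun _ h _ h' => Nq.conj h h') hx hy

/-- The hypotheses. -/
structure Hs (ρ : P →* M5 k) : Prop extends Hy ρ where
  two : (2 : k) ≠ 0
  nt : NoT ρ
  ex : ∃ N, Nq ρ N ∧ N ≠ 0

/-- A factorisation of a quadratic element. -/
structure Fc (ρ : P →* M5 k) (a : Rm 5 2 k) (φ : Rm 2 5 k) : Prop where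
  nq : Nq ρ (a * φ)
  z : φ * a = 0
  l : ∃ a' : Rm 2 5 k, a' * a = 1
  r : ∃ φ' : Rm 5 2 k, φ * φ' = 1

theorem Fc.canc {a : Rm 5 2 k} {φ : Rm 2 5 k} (h : Fc ρ a φ) {C : M2 k} (e : a * C * φ = 0) :
    C = 0 :=
  let ⟨_, h1⟩ := h.l
  let ⟨_, h2⟩ := h.r
  S.canc h1 h2 e

theorem Fc.cj {a : Rm 5 2 k} {φ : Rm 2 5 k} (h : Fc ρ a φ) (c : Cj ρ A A') :
    Fc ρ (A * a) (φ * A') :=
  let ⟨a', h1⟩ := h.l
  let ⟨φ', h2⟩ := h.r
  ⟨by simpa only [Matrix.mul_assoc] using c.2 _ h.nq, by simp only [mx, asc c.1, h.z],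
    ⟨a' * A', by simp only [mx, asc c.1, h1]⟩, A * φ', by simp only [mx, asc c.1, h2]⟩

namespace Hs
variable (H : Hs ρ)
include H

theorem nt1 {g : P} (e : ρ g = 1 + N) (h : N.rank ≤ 1) : N = 0 := by
  have := H.nt g (by rwa [e, add_sub_cancel_left])
  rwa [this, map_one, left_eq_add] at e

theorem nt2 {g : P} {C : M2 k} (h : C.det = 0) {X : Rm 5 2 k} {Y : Rm 2 5 k}
    (e : ρ g = 1 + X * C * Y) : X * C * Y = 0 := H.nt1 e (rank_det0 h X Y)

theorem fc (h : Nq ρ N) (h0 : N ≠ 0) : ∃ (a : Rm 5 2 k) (φ : Rm 2 5 k), N = a * φ ∧ Fc ρ a φ := by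
  have h1 := rank_add_rank_le_card_of_mul_eq_zero h.1
  obtain ⟨g, e⟩ := h.2
  have h2 : ¬ N.rank ≤ 1 := fun e' => h0 (H.nt1 e e')
  rw [Fintype.card_fin] at h1
  obtain ⟨a, φ, a', φ', rfl, h3, h4⟩ := rankfac N (r := 2) (by omega)
  exact ⟨a, φ, rfl, h, canc h3 h4 (by simpa only [Matrix.mul_assoc] using h.1), ⟨_, h3⟩, _, h4⟩

theorem gen (X : Subgroup P) (h : ∀ g N, N * N = 0 → ρ g = 1 + N → g ∈ X) : X = ⊤ := by
  obtain ⟨N, ⟨n, u, e⟩, h0⟩ := H.ex
  rcases H.simp (Subgroup.normalClosure {u}) inferInstance with c | c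
  · have c := Subgroup.mem_center_iff.1 (c (Subgroup.subset_normalClosure rfl))
    rcases H.irr (LinearMap.ker N.mulVecLin) (fun g x hx => by
      have := congrArg ρ (c g)
      rw [map_mul, map_mul, e, mul_add, add_mul, mul_one, one_mul, add_right_inj] at this
      rw [LinearMap.mem_ker, mulVecLin_apply] at hx ⊢
      rw [mulVec_mulVec, ← this, ← mulVec_mulVec, hx, mulVec_zero]) with c | c
    · refine (h0 (Matrix.ext fun i j => ?_)).elim
      have : N *ᵥ Pi.single j 1 ∈ LinearMap.ker N.mulVecLin := by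
        rw [LinearMap.mem_ker, mulVecLin_apply, mulVec_mulVec, n, zero_mulVec]
      rw [c, Submodule.mem_bot] at this
      simpa using congrFun this i
    · refine (h0 (Matrix.ext fun i j => ?_)).elim
      simpa using congrFun (c.ge (Submodule.mem_top (x := Pi.single j 1))) i
  · rw [eq_top_iff, ← c]
    refine (Subgroup.closure_le X).2 fun x hx => ?_
    obtain ⟨y, hy, hx⟩ := Group.mem_conjugatesOfSet_iff.1 hx
    obtain ⟨g, rfl⟩ := isConj_iff.1 hx
    rw [show y = u from hy]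
    refine h _ (ρ g * N * ρ g⁻¹) ((cj_of g rfl (by
      rw [← map_mul, inv_mul_cancel, map_one])).2 N ⟨n, u, e⟩).1 ?_
    rw [map_mul, map_mul, e, mul_add, add_mul, mul_one, ← map_mul, mul_inv_cancel, map_one]

theorem exists_pair [Finite P] (p : ℕ) [hp : Fact p.Prime] [CharP k p] :
    ∃ N M, Nq ρ N ∧ Nq ρ M ∧ N * M * N ≠ 0 := by
  by_contra! hc
  have h3 : 3 ≤ p := by
    have := hp.out.two_le
    have : p ≠ 2 := by rintro rfl; exact H.two (CharP.cast_eq_zero k 2)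
    omega
  haveI : CharP (M5 k) p := Matrix.charP p
  have h1 := SE.CPr.baer_set (p := p) (X := {g | ∃ N, N * N = 0 ∧ ρ g = 1 + N})
    (fun g x ⟨N, n, e⟩ => ⟨ρ g * N * ρ g⁻¹, ((cj_of g rfl (by
      rw [← map_mul, inv_mul_cancel, map_one])).2 N ⟨n, x, e⟩).1, by
      rw [map_mul, map_mul, e, mul_add, add_mul, mul_one, ← map_mul, mul_inv_cancel, map_one]⟩)
    fun x ⟨N, n, e⟩ y ⟨M, m, e'⟩ => by
      have n1 := hc N M ⟨n, x, e⟩ ⟨m, y, e'⟩
      have m1 := hc M N ⟨m, y, e'⟩ ⟨n, x, e⟩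
      rw [mul_assoc] at n1 m1
      let X := H1.Sp4.sub (⊤ : Subgroup P)
        (fun g => ∃ a b c d : k, ρ g = 1 + (a • N + b • M + c • (N * M) + d • (M * N)))
        ⟨0, 0, 0, 0, by simp⟩ fun g _ g' _ ⟨a, b, c, d, e⟩ ⟨a', b', c', d', e'⟩ =>
          ⟨a + a', b + b', c + c' + a * b', d + d' + b * a', by
            simp only [map_mul, e, e', rg (k := k), n, m, n1, m1, asc n, asc m, smul_zero]
            module⟩
      refine IsPGroup.to_le (K := X) (fun ⟨g, _, a, b, c, d, e⟩ => ⟨1, Subtype.ext (H.inj ?_)⟩)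
        ((Subgroup.closure_le X).2 ?_)
      · obtain ⟨j, rfl⟩ := Nat.exists_eq_add_of_le h3
        change ρ (g ^ (3 + j) ^ 1) = ρ 1
        rw [pow_one, map_pow, e, add_pow_char_of_commute _ (Commute.one_left _), one_pow, pow_add,
          pow_three, map_one]
        simp only [rg (k := k), n, m, n1, m1, asc n, asc m, smul_zero, add_zero]
      · rintro _ (rfl | rfl)
        · exact ⟨trivial, 1, 0, 0, 0, by simp [e]⟩
        · exact ⟨trivial, 0, 1, 0, 0, by simp [e']⟩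
  rw [H.gen (Subgroup.closure {g | ∃ N, N * N = 0 ∧ ρ g = 1 + N}) fun g N n e =>
    Subgroup.subset_closure ⟨N, n, e⟩] at h1
  haveI := (h1.of_equiv Subgroup.topEquiv).isNilpotent
  obtain ⟨N, ⟨n, u, e⟩, h0⟩ := H.ex
  haveI : Nontrivial P := ⟨u, 1, fun e' => h0 (by rwa [e', map_one, left_eq_add] at e)⟩
  exact (IsSolvable.commutator_lt_top_of_nontrivial P).ne H.perf

end Hs

end Cfsg.Agent.L5.S
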