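import Cfsg.Agent.L5.S0

/-!
Construction of an invariant form.
-/

set_option autoImplicit false

namespace Cfsg.Agent.L5.S

open Matrix Cfsg.Agent.L4.S

variable {k : Type*} [Field k] {P : Type*} [Group P] {ρ : P →* M5 k} (H : Hs ρ) {m : ℕ}
  {a : Rm 5 m k} {α : Rm m 5 k} (h1 : α * a = 1) {J : Rm m m k} (hJ : J ≠ 0)
include H h1 hJ

theorem Hs.sd (h : ∀ g, J * (α * ρ g * a) = (α * ρ g⁻¹ * a)ᵀ * J) : False := by
  obtain ⟨u, hu⟩ : ∃ u, J *ᵥ u ≠ 0 := by
    by_contra! e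
    exact hJ (Matrix.ext fun i j => by simpa using congrFun (e (Pi.single j 1)) i)
  have au : a *ᵥ u ≠ 0 := fun e => hu (by
    rw [← one_mulVec u, ← h1, ← mulVec_mulVec, e, mulVec_zero, mulVec_zero])
  have uq : ∀ w : Fin 5 → k, (∀ g, w ᵥ* (ρ g * a) = 0) → w = 0 := fun w hw => by
    let X : Submodule k (Fin 5 → k) :=
      { carrier := {v | ∀ g, w ⬝ᵥ ρ g *ᵥ v = 0}
        add_mem' := fun h h' g => by rw [mulVec_add, dotProduct_add, h g, h' g, add_zero]
        zero_mem' := fun g => by simp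
        smul_mem' := fun c v h g => by rw [mulVec_smul, dotProduct_smul, h g, smul_zero] }
    rcases H.irr X (fun g x hx g' => by rw [mulVec_mulVec, ← map_mul]; exact hx _) with e | e
    · refine (au ((Submodule.mem_bot k).1 (e.le fun g => ?_))).elim
      rw [mulVec_mulVec, dotProduct_mulVec, hw, zero_dotProduct]
    · refine funext fun i => ?_
      have := e.ge (Submodule.mem_top (x := Pi.single i 1)) 1
      rw [map_one, one_mulVec] at this
      simpa using this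
  let Γ : Submodule k ((Fin 5 → k) × (Fin 5 → k)) :=
    { carrier := {γ | ∀ g, (J * α * ρ g⁻¹) *ᵥ γ.1 = γ.2 ᵥ* (ρ g * a)}
      add_mem' := fun h h' g => by rw [Prod.fst_add, Prod.snd_add, mulVec_add, add_vecMul, h g, h' g]
      zero_mem' := fun g => by simp
      smul_mem' := fun c v h g => by
        rw [Prod.smul_fst, Prod.smul_snd, mulVec_smul, smul_vecMul, h g] }
  have inv : ∀ g v w, (v, w) ∈ Γ → (ρ g *ᵥ v, w ᵥ* ρ g⁻¹) ∈ Γ := fun g v w e g' => by
    have := e (g⁻¹ * g')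
    simpa only [_root_.mul_inv_rev, inv_inv, map_mul, mulVec_mulVec, vecMul_vecMul,
      Matrix.mul_assoc] using this
  have base : (a *ᵥ u, (J *ᵥ u) ᵥ* α) ∈ Γ := fun g => by
    have := h g⁻¹
    rw [inv_inv] at this
    simp only [mulVec_mulVec, vecMul_vecMul, Matrix.mul_assoc] at this ⊢
    rw [this, ← mulVec_mulVec, mulVec_transpose]
  have un : ∀ v w w', (v, w) ∈ Γ → (v, w') ∈ Γ → w = w' := fun v w w' e e' =>
    sub_eq_zero.1 (uq _ fun g => by rw [sub_vecMul, ← e g, ← e' g, sub_self])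
  obtain ⟨f, hf⟩ := Submodule.exists_eq_graph (G := Γ) ⟨fun ⟨⟨v, w⟩, e⟩ ⟨⟨v', w'⟩, e'⟩ e2 => by
      obtain rfl : v = v' := e2
      obtain rfl := un _ _ _ e e'
      rfl, fun v => by
    rcases H.irr (Γ.map (LinearMap.fst k _ _)) (by
      rintro g _ ⟨⟨v, w⟩, e, rfl⟩
      exact ⟨_, inv g v w e, rfl⟩) with e | e
    · exact (au ((Submodule.mem_bot k).1 (e.le ⟨_, base, rfl⟩))).elim
    · obtain ⟨γ, e1, e2⟩ := e.ge (Submodule.mem_top (x := v))
      exact ⟨⟨γ, e1⟩, e2⟩⟩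
  have gr : ∀ v, (v, f v) ∈ Γ := fun v => hf.ge rfl
  have eq : ∀ g v, f (ρ g *ᵥ v) = f v ᵥ* ρ g⁻¹ := fun g v => un _ _ _ (gr _) (inv g _ _ (gr v))
  have e1 : LinearMap.ker f = ⊥ := (H.irr _ fun g x hx => by
    rw [LinearMap.mem_ker] at hx ⊢
    rw [eq, hx, zero_vecMul]).resolve_right fun e => hu (by
      have e2 := un _ _ _ base (gr _)
      rw [show f (a *ᵥ u) = 0 from e.ge Submodule.mem_top] at e2
      rw [← vecMul_one (J *ᵥ u), ← h1, ← vecMul_vecMul, e2, zero_vecMul])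
  obtain ⟨B, rfl⟩ := Matrix.toLin'.surjective f
  have e2 : IsUnit B.det := by
    rw [isUnit_iff_ne_zero, Ne, ← exists_mulVec_eq_zero_iff]
    exact fun ⟨v, n, e⟩ => n ((Submodule.mem_bot k).1 (e1.le e))
  obtain ⟨g, hg⟩ := H.nsd
  have e3 : B * ρ g = (ρ g⁻¹)ᵀ * B := Matrix.toLin'.injective (LinearMap.ext fun v => by
    have := eq g v
    simp only [toLin'_apply] at this ⊢
    rw [← mulVec_mulVec, this, ← mulVec_mulVec, mulVec_transpose])
  refine hg ?_
  rw [← trace_transpose, ← Matrix.mul_nonsing_inv_cancel_right B (ρ g⁻¹)ᵀ e2, ← e3, trace_mul_cycle,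
    Matrix.nonsing_inv_mul _ e2, one_mul]

theorem Hs.form [Finite P] (hz : Cj ρ (1 - (2 : k) • (a * α)) (1 - (2 : k) • (a * α)))
    (s1 : ∀ x ∈ LL ρ, J * (α * x * a) = -((α * x * a)ᵀ * J))
    (s2 : ∀ x ∈ LL ρ, ∀ y ∈ LL ρ, a * α * x + x * (a * α) = x → a * α * y + y * (a * α) = y →
      J * (α * (x * y) * a) = (α * (y * x) * a)ᵀ * J) : False := by
  have dec : ∀ x ∈ LL ρ, ∃ p ∈ LL ρ, ∃ b ∈ LL ρ, x = p + b ∧ a * α * p = p * (a * α) ∧
      a * α * b + b * (a * α) = b := fun x hx => by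
    have : a * α * x + x * (a * α) - (2 : k) • (a * α * x * (a * α)) ∈ LL ρ := by
      convert Submodule.smul_mem _ (2 : k)⁻¹ (sub_mem hx (hz.ll hx)) using 1
      rw [eq_inv_smul_iff₀ H.two]
      simp only [mx]
      module
    refine ⟨_, sub_mem hx this, _, this, (sub_add_cancel _ _).symm, ?_, ?_⟩ <;>
      simp only [mx, asc h1] <;> module
  have cm : ∀ x : M5 k, a * α * x = x * (a * α) → α * x = α * x * a * α ∧ x * a = a * (α * x * a) :=
    fun x e => ⟨by simpa only [mx, asc h1] using congrArg (α * ·) e,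
      by simpa only [mx, h1] using (congrArg (· * a) e).symm⟩
  have key : ∀ (V : Rm 5 m k) (W : Rm m 5 k), J * (α * V) = (W * a)ᵀ →
      (∀ x ∈ LL ρ, J * (α * (x * V)) = -(W * (x * a))ᵀ) → ∀ x ∈ LL ρ, ∀ y ∈ LL ρ,
      J * (α * (x * (y * V))) = (W * (y * (x * a)))ᵀ := fun V W e1 e2 x hx y hy => by
    have k1 : ∀ p ∈ LL ρ, a * α * p = p * (a * α) → ∀ y ∈ LL ρ,
        J * (α * (p * (y * V))) = (W * (y * (p * a)))ᵀ := fun p hp e y hy => by
      rw [← Matrix.mul_assoc α, (cm p e).1, (cm p e).2, Matrix.mul_assoc _ α, ← Matrix.mul_assoc J,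
        s1 p hp, Matrix.neg_mul, Matrix.mul_assoc _ J, e2 y hy, Matrix.mul_neg, neg_neg,
        ← transpose_mul]
      simp only [Matrix.mul_assoc]
    obtain ⟨p, hp, b, hb, rfl, c1, c2⟩ := dec x hx
    have k2 := k1 p hp c1 y hy
    obtain ⟨p', hp', b', hb', rfl, c3, c4⟩ := dec y hy
    have k3 := k1 p' hp' c3 b hb
    have k4 := e2 _ (ll_lie H.two hb hp')
    have c5 : ∀ x y : M5 k, a * α * x + x * (a * α) = x → a * α * y + y * (a * α) = y →
        a * α * (x * y) = x * y * (a * α) := fun x y e e' => by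
      linear_combination (norm := noncomm_ring) e * y - x * e'
    have k5 : J * (α * (b * (b' * V))) = (W * (b' * (b * a)))ᵀ := by
      rw [← Matrix.mul_assoc b, ← Matrix.mul_assoc α, (cm _ (c5 _ _ c2 c4)).1, ← Matrix.mul_assoc b',
        (cm _ (c5 _ _ c4 c2)).2, Matrix.mul_assoc _ α, ← Matrix.mul_assoc J, s2 b hb b' hb' c2 c4,
        Matrix.mul_assoc _ J, e1, ← transpose_mul]
      simp only [Matrix.mul_assoc]
    simp only [mx, transpose_add, transpose_sub] at k2 k4 ⊢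
    linear_combination (norm := abel) k2 + k3 + k4 + k5
  let X := H1.Sp4.sub (⊤ : Subgroup P) (fun g => ∀ (V : Rm 5 m k) (W : Rm m 5 k),
    J * (α * V) = (W * a)ᵀ ∧ (∀ x ∈ LL ρ, J * (α * (x * V)) = -(W * (x * a))ᵀ) →
    J * (α * (ρ g * V)) = (W * ρ g⁻¹ * a)ᵀ ∧
      ∀ x ∈ LL ρ, J * (α * (x * (ρ g * V))) = -(W * ρ g⁻¹ * (x * a))ᵀ) (fun V W e => by simpa using e)
    fun g _ g' _ e e' V W e1 => by
      simpa only [_root_.mul_inv_rev, map_mul, Matrix.mul_assoc] using e _ _ (e' V W e1)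
  have hX := H.gen X fun g N n e => ⟨trivial, fun V W ⟨e1, e2⟩ => by
    have hN : N ∈ LL ρ := Submodule.subset_span ⟨n, g, e⟩
    have k1 := e2 N hN
    rw [inv_of n e, e]
    refine ⟨?_, fun x hx => ?_⟩
    · simp only [mx, transpose_sub]
      linear_combination (norm := abel) e1 + k1
    · simp only [mx, transpose_sub]
      linear_combination (norm := abel) e2 x hx + key V W e1 e2 x hx N hN⟩
  refine H.sd h1 hJ fun g => ?_
  simpa only [Matrix.mul_assoc, transpose_mul, transpose_transpose] using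
    ((hX.ge (Subgroup.mem_top g)).2 a (Jᵀ * α) ⟨by simp [Matrix.mul_assoc, h1], fun x hx => by
      simpa only [Matrix.mul_assoc, transpose_mul, transpose_transpose] using s1 x hx⟩).1

end Cfsg.Agent.L5.S
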