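import Cfsg.Agent.L5.S0

/-!
Pairs of quadratic elements: the degenerate cases.
-/

set_option autoImplicit false

namespace Cfsg.Agent.L5.S

open Matrix Cfsg.Agent.L4.S

variable {k : Type*} [Field k]

theorem ch2 (X : M2 k) : X * X = X.trace • X - X.det • 1 := by
  ext i j; fin_cases i <;> fin_cases j <;> simp [mul_apply, trace_fin_two, det_fin_two] <;> ring

theorem aba (A B : M2 k) : A * (B * A) = (A * B).trace • A - A.det • adjugate B := by
  ext i j
  fin_cases i <;> fin_cases j <;> simp [mul_apply, trace_fin_two, det_fin_two, adjugate_fin_two] <;>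
    ring

theorem det_P {C : M2 k} (h : C.det = 0) (h0 : C.trace ≠ 0) : (1 - C.trace⁻¹ • C).det = 0 := by
  rw [det_fin_two] at h ⊢
  simp only [Matrix.sub_apply, Matrix.smul_apply, one_apply_eq, smul_eq_mul, one_apply_ne (zero_ne_one' (Fin 2)),
    one_apply_ne (zero_ne_one' (Fin 2)).symm]
  rw [trace_fin_two] at h0 ⊢
  field_simp
  linear_combination h

theorem xy {C : M2 k} (h : C.det = 0) : ∃ X₀ X₁ Y₀ Y₁ : M2 k,
    Y₀ * (C * X₀) + Y₁ * (C * X₁) = C.trace ^ 2 • 1 ∧ X₀ * !![0, C.trace; 0, 0] = C * X₁ ∧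
    X₁ * !![0, C.trace; 0, 0] = 0 ∧ X₀ * !![0, 0; 1, 0] = 0 ∧ X₁ * !![0, 0; 1, 0] = X₀ ∧
    !![0, C.trace; 0, 0] * Y₀ = 0 ∧ !![0, C.trace; 0, 0] * Y₁ = Y₀ * C ∧ !![0, 0; 1, 0] * Y₀ = Y₁ ∧
    !![0, 0; 1, 0] * Y₁ = 0 ∧ X₁ * Y₀ = 0 ∧ X₁ * Y₁ = C ∧ X₀ * Y₀ = C ∧ X₀ * Y₁ = 0 := by
  obtain ⟨x, y, rfl⟩ := det0 h
  refine ⟨vecMulVec x ![1, 0], vecMulVec x ![0, 1], vecMulVec ![1, 0] y, vecMulVec ![0, 1] y, ?_⟩
  refine ⟨?_, ?_, ?_, ?_, ?_, ?_, ?_, ?_, ?_, ?_, ?_, ?_, ?_⟩ <;> ext i j <;> fin_cases i <;>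
    fin_cases j <;> simp [mul_apply, trace_fin_two, vecMulVec] <;> ring

theorem dim6 {a a' φ' : Rm 5 2 k} {α φ a'' : Rm 2 5 k} (h1 : α * a = 1) (h2 : α * a' = 0)
    (h3 : φ * a = 0) (h4 : φ * a' = 0) (h5 : a'' * a' = 1) (h6 : φ * φ' = 1) : False := by
  have e1 := rank_add_rank_le_card_of_mul_eq_zero (A := fromRows α φ) (B := a')
    (by rw [fromRows_mul, h2, h4, fromRows_zero])
  have e2 := (le_rank (S := fromRows α φ) (T := fromCols a (φ' - a * (α * φ'))) (by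
    rw [fromRows_mul_fromCols, ← fromBlocks_one]
    simp only [mx, h1, h3, h6, asc h1, asc h3, sub_self, sub_zero])).1
  have e3 := (le_rank h5).2
  simp only [Fintype.card_sum, Fintype.card_fin] at e1 e2 e3
  omega

theorem pow3 {R : Type*} [Ring R] [Algebra k R] {y : R} (h : y * (y * y) = 0) (n : ℕ) :
    ∃ t : k, (1 + y) ^ n = 1 + (n : k) • y + t • (y * y) := by
  induction n with
  | zero => exact ⟨0, by simp⟩
  | succ n ih =>
    obtain ⟨t, e⟩ := ih
    refine ⟨t + n, ?_⟩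
    rw [pow_succ', e]
    simp only [rg (k := k), h]
    push_cast
    module

/-- quaternion units -/
def q1 : M2 k := !![-1, -1; -1, 1]

/-- quaternion units -/
def q2 : M2 k := !![0, -1; 1, 0]

variable {P : Type*} [Group P]

/-- A quaternion group acting on a plane and fixing a complement. -/
structure XQ (ρ : P →* M5 k) (a : Rm 5 2 k) (α : Rm 2 5 k) : Prop where
  h : α * a = 1
  three : (3 : k) = 0
  c1 : Cj ρ (emb h q1) (emb h (-q1))
  c2 : Cj ρ (emb h q2) (emb h (-q2))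

variable {ρ : P →* M5 k} {a b : Rm 5 2 k} {φ ψ : Rm 2 5 k}

theorem Fc.smul (h : Fc ρ b ψ) {c : k} (hc : c ≠ 0) (e : Nq ρ (c • (b * ψ))) : Fc ρ (c • b) ψ :=
  let ⟨b', e'⟩ := h.l
  ⟨by rwa [Matrix.smul_mul], by rw [Matrix.mul_smul, h.z, smul_zero],
    ⟨c⁻¹ • b', by simp only [mx, e', smul_smul, mul_inv_cancel₀ hc, one_smul]⟩, h.r⟩

theorem frame (h : φ * a = 0) (h' : ψ * b = 0) (hd : (φ * b * (ψ * a)).det = 0) {σ : k}
    (hσ : (φ * b * (ψ * a)).trace = σ) (h0 : σ ≠ 0) : ∃ (c : Rm 5 2 k) (γ : Rm 2 5 k), γ * c = 1 ∧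
    a * φ * c = c * !![0, σ; 0, 0] ∧ γ * (a * φ) = !![0, σ; 0, 0] * γ ∧
    b * ψ * c = c * !![0, 0; (1 : k), 0] ∧ γ * (b * ψ) = !![0, 0; (1 : k), 0] * γ ∧
    a * φ * (b * ψ) * (a * φ) = σ • (c * !![0, σ; 0, 0] * γ) ∧
    b * ψ * (a * φ) * (b * ψ) = σ • (c * !![0, 0; (1 : k), 0] * γ) := by
  obtain ⟨X₀, X₁, Y₀, Y₁, e1, e2, e3, e4, e5, e6, e7, e8, e9, e10, e11, e12, e13⟩ := xy hd
  have c1 := ch2 (φ * b * (ψ * a))
  have c2 := ch2 (ψ * a * (φ * b))
  rw [trace_mul_comm, det_mul, mul_comm, ← det_mul] at c2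
  rw [hσ] at e1 e2 e3 e6 e7
  rw [hσ, hd, zero_smul, sub_zero] at c1 c2
  generalize hA : φ * b = A at *
  generalize hB : ψ * a = B at *
  simp only [Matrix.mul_assoc] at e1 e2 e7 c1 c2
  refine ⟨a * X₀ + b * (B * X₁), (σ ^ 2)⁻¹ • (Y₀ * (A * ψ) + Y₁ * φ), ?_, ?_, ?_, ?_, ?_, ?_, ?_⟩
  · simp only [mx, asc h, asc h', asc hA, asc hB, add_zero, zero_add, ← smul_add]
    rw [e1, smul_smul, inv_mul_cancel₀ (pow_ne_zero 2 h0), one_smul]
  · simp only [mx, asc h, asc hA, e2, e3, add_zero, zero_add]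
  · simp only [mx, asc h, asc hB, asc e6, asc e7, add_zero, zero_add]
  · simp only [mx, asc h', asc hB, e4, e5, add_zero, zero_add]
  · simp only [mx, asc h', asc hA, asc e8, asc e9, add_zero, zero_add]
  · simp only [mx, asc hA, asc hB, asc e2, asc e3, asc e10, asc e11, add_zero, zero_add, smul_zero]
    rw [show A * (B * (A * (B * φ))) = σ • (A * (B * φ)) by
      simpa only [mx] using congrArg (· * φ) c1]
    simp only [mx, smul_smul]
    rw [show σ * ((σ ^ 2)⁻¹ * σ) = 1 by field_simp, one_smul]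
  · simp only [mx, asc hA, asc hB, asc e4, asc e5, asc e12, asc e13, add_zero, zero_add, smul_zero]
    rw [show B * (A * (B * (A * ψ))) = σ • (B * (A * ψ)) by
      simpa only [mx] using congrArg (· * ψ) c2]
    simp only [mx, smul_smul]
    rw [show σ * ((σ ^ 2)⁻¹ * σ) = 1 by field_simp, one_smul]

namespace Hs
variable (H : Hs ρ) (F : Fc ρ a φ) (F' : Fc ρ b ψ)
include H F F'

theorem p0 (h : φ * b = 0) (hd : (ψ * a).det = 0) : ψ * a = 0 := by
  obtain ⟨g, e⟩ := F.nq.2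
  obtain ⟨g', e'⟩ := F'.nq.2
  obtain ⟨_, h1⟩ := F'.l
  obtain ⟨_, h2⟩ := F.r
  refine canc h1 h2 (H.nt2 (g := g' * g * g'⁻¹ * g⁻¹) hd ?_)
  simp only [map_mul, inv_of F.nq.1 e, inv_of F'.nq.1 e', e, e', mx, asc h, asc F.z, asc F'.z]
  abel

theorem p1 (hd : (φ * b * (ψ * a)).det = 0) (h : (φ * b * (ψ * a)).trace = 0) :
    φ * b * (ψ * a) = 0 := by
  obtain ⟨g, e⟩ := F.nq.2
  obtain ⟨g', e'⟩ := F'.nq.2
  have c1 := ch2 (φ * b * (ψ * a))
  have c2 := ch2 (ψ * a * (φ * b))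
  have c3 := aba (φ * b) (ψ * a)
  have c4 := aba (ψ * a) (φ * b)
  rw [trace_mul_comm] at c2 c4
  rw [det_mul, mul_comm, ← det_mul] at c2
  rw [h, zero_smul, zero_sub] at c1 c2 c3 c4
  rw [hd, zero_smul, neg_zero] at c1 c2
  have hd' := hd
  rw [det_mul] at hd'
  generalize hA : φ * b = A at *
  generalize hB : ψ * a = B at *
  have d1 : ∀ X : Rm 2 5 k, A * (B * (A * (B * X))) = 0 := fun X => by
    simpa only [mx] using congrArg (· * X) c1
  have d2 : ∀ X : Rm 2 5 k, B * (A * (B * (A * X))) = 0 := fun X => by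
    simpa only [mx] using congrArg (· * X) c2
  have key : ρ (g * g' * g⁻¹ * g'⁻¹ * g * (g' * g * g'⁻¹ * g⁻¹) * g⁻¹) = 1 + ((2 : k) • (a * (A * (B * φ)))
      - a * (A * (B * (A * ψ))) + b * (B * (A * (B * φ)))) := by
    simp only [map_mul, inv_of F.nq.1 e, inv_of F'.nq.1 e', e, e', mx, asc hA, asc hB, asc F.z,
      asc F'.z, d1, d2]
    module
  refine F.canc (smul_right_injective _ H.two ?_)
  rcases mul_eq_zero.1 hd' with e1 | e1
  · rw [e1, zero_smul, neg_zero] at c3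
    have := H.nt2 hd (X := (2 : k) • a + b * B) (Y := φ) (key.trans (by
      simp only [mx, show A * (B * (A * ψ)) = 0 by simpa only [mx] using congrArg (· * ψ) c3,
        sub_zero]))
    have e2 := congrArg (b * ψ * ·) this
    simp only [mx, asc hB, asc F'.z, add_zero, smul_eq_zero, H.two, false_or] at e2 this
    simpa only [mx, e2, add_zero, smul_zero] using this
  · rw [e1, zero_smul, neg_zero] at c4
    have := H.nt2 hd (X := a) (Y := (2 : k) • φ - A * ψ) (key.trans (by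
      simp only [mx, show B * (A * (B * φ)) = 0 by simpa only [mx] using congrArg (· * φ) c4,
        add_zero]))
    have e2 := congrArg (· * (b * ψ)) this
    simp only [mx, asc hA, asc F'.z, sub_zero, smul_eq_zero, H.two, false_or] at e2 this
    simpa only [mx, e2, sub_zero, smul_zero] using this

variable [Finite P] [IsAlgClosed k] (p : ℕ) [Fact p.Prime] [CharP k p]
include p

theorem p2a (hd : (φ * b * (ψ * a)).det = 0) {σ : k} (hσ : (φ * b * (ψ * a)).trace = σ) (h0 : σ ≠ 0)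
    (h4 : σ ≠ -4) : a * φ - σ⁻¹ • (a * φ * (b * ψ) * (a * φ)) +
      (b * ψ - σ⁻¹ • (b * ψ * (a * φ) * (b * ψ))) = 0 := by
  obtain ⟨c, γ, f0, f1, f2, f3, f4, f5, f6⟩ := frame F.z F'.z hd hσ h0
  obtain ⟨g, e⟩ := F.nq.2
  obtain ⟨g', e'⟩ := F'.nq.2
  have r1 : (a * φ - σ⁻¹ • (a * φ * (b * ψ) * (a * φ))) * (b * ψ - σ⁻¹ • (b * ψ * (a * φ) * (b * ψ)))
      = 0 ∧ (∃ (X : Rm 5 2 k) (Y : Rm 2 5 k), (b * ψ - σ⁻¹ • (b * ψ * (a * φ) * (b * ψ))) *
      (a * φ - σ⁻¹ • (a * φ * (b * ψ) * (a * φ))) = X * (1 - σ⁻¹ • (φ * b * (ψ * a))) * Y) ∨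
      (b * ψ - σ⁻¹ • (b * ψ * (a * φ) * (b * ψ))) * (a * φ - σ⁻¹ • (a * φ * (b * ψ) * (a * φ))) = 0 ∧
      ∃ (X : Rm 5 2 k) (Y : Rm 2 5 k), (a * φ - σ⁻¹ • (a * φ * (b * ψ) * (a * φ))) *
      (b * ψ - σ⁻¹ • (b * ψ * (a * φ) * (b * ψ))) = X * (1 - σ⁻¹ • (φ * b * (ψ * a))) * Y := by
    have c3 := aba (φ * b) (ψ * a)
    have c4 := aba (ψ * a) (φ * b)
    rw [trace_mul_comm] at c4
    rw [hσ] at c3 c4
    rw [det_mul] at hd
    generalize hA : φ * b = A at *
    generalize hB : ψ * a = B at *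
    rcases mul_eq_zero.1 hd with e1 | e1
    · rw [e1, zero_smul, sub_zero] at c3
      refine .inl ⟨?_, b * B - σ⁻¹ • (b * (B * (A * B))), φ, by simp only [mx, asc hA, asc hB]⟩
      simp only [mx, asc hA, asc hB, show ∀ X : Rm 2 5 k, A * (B * (A * X)) = σ • (A * X) from
        fun X => by simpa only [mx] using congrArg (· * X) c3]
      match_scalars <;> field_simp <;> ring
    · rw [e1, zero_smul, sub_zero] at c4
      refine .inr ⟨?_, a, A * ψ - σ⁻¹ • (A * (B * (A * ψ))), by simp only [mx, asc hA, asc hB]⟩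
      simp only [mx, asc hA, asc hB, show ∀ X : Rm 2 5 k, B * (A * (B * X)) = σ • (B * X) from
        fun X => by simpa only [mx] using congrArg (· * X) c4]
      match_scalars <;> field_simp <;> ring
  have dP := det_P hd (hσ ▸ h0)
  rw [hσ] at dP
  generalize (1 - σ⁻¹ • (φ * b * (ψ * a))) = D at r1 dP
  have n0 := F.nq.1
  have m0 := F'.nq.1
  rw [f5, f6, smul_smul, smul_smul, inv_mul_cancel₀ h0, one_smul, one_smul] at r1 ⊢
  generalize a * φ = N at *
  generalize b * ψ = M at *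
  obtain ⟨n, hn⟩ : ∃ n : M2 k, n = !![0, σ; 0, 0] := ⟨_, rfl⟩
  obtain ⟨m, hm⟩ : ∃ n : M2 k, n = !![0, 0; 1, 0] := ⟨_, rfl⟩
  have n1 : n * n = 0 := by rw [hn]; simp [← Matrix.ext_iff, Fin.forall_fin_two]
  have m1 : m * m = 0 := by rw [hm]; simp [← Matrix.ext_iff, Fin.forall_fin_two]
  have n2 : n * (m * n) = σ • n := by
    rw [hn, hm, mul_fin_two, mul_fin_two]; simp [← Matrix.ext_iff, Fin.forall_fin_two]
  have m2 : m * (n * m) = σ • m := by
    rw [hn, hm, mul_fin_two, mul_fin_two]; simp [← Matrix.ext_iff, Fin.forall_fin_two]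
  have r0 : (1 + n) * (1 + m) * ((1 + n) * (1 + m)) = (2 + σ) • ((1 + n) * (1 + m)) - 1 := by
    rw [hn, hm, one_fin_two]; simp [← Matrix.ext_iff, Fin.forall_fin_two]; grind
  rw [← hn] at f1 f2 f5 r1 ⊢
  rw [← hm] at f3 f4 f6 r1 ⊢
  obtain ⟨x, rfl⟩ : ∃ x, N = x + c * n * γ := ⟨N - c * n * γ, by abel⟩
  obtain ⟨y, rfl⟩ : ∃ y, M = y + c * m * γ := ⟨M - c * m * γ, by abel⟩
  simp only [add_sub_cancel_right] at r1 ⊢
  have x1 : x * c = 0 := by simpa only [mx, f0, add_eq_right] using f1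
  have x2 : γ * x = 0 := by simpa only [mx, asc f0, add_eq_right] using f2
  have y1 : y * c = 0 := by simpa only [mx, f0, add_eq_right] using f3
  have y2 : γ * y = 0 := by simpa only [mx, asc f0, add_eq_right] using f4
  simp only [mx, asc x1, asc y1, x2, y2, asc x2, asc y2, asc f0, asc n1, asc m1, add_zero,
    zero_add, show n * (m * (n * γ)) = σ • (n * γ) by simpa only [mx] using congrArg (· * γ) n2,
    show m * (n * (m * γ)) = σ • (m * γ) by simpa only [mx] using congrArg (· * γ) m2,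
    add_eq_right] at n0 m0 f5 f6
  have w0 : ∀ j : ℕ, ρ ((g * g') ^ j) = emb f0 (((1 + n) * (1 + m)) ^ j) * (1 + (x + y + x * y)) ^ j :=
    fun j => by
    rw [map_pow, map_pow, ← Commute.mul_pow, map_mul, e, e']
    · congr 1
      simp only [emb_apply, mx, asc x1, x2, y2, asc x2, asc f0]
      abel
    · simp only [Commute, SemiconjBy, emb_apply, mx, asc x1, asc y1, x2, y2, asc x2]
      abel
  have w1 : ∀ j : ℕ, (1 + (x + y + x * y)) ^ j * c = c := fun j => by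
    induction j with
    | zero => simp
    | succ j ih => rw [pow_succ', Matrix.mul_assoc, ih]; simp only [mx, x1, y1, add_zero]
  obtain ⟨o, ho, w2⟩ := ord p r0 (Nat.card_pos (α := P)).ne' (by
    have := congrArg (fun X => γ * (X * c)) (w0 (Nat.card P))
    simpa only [pow_card_eq_one', map_one, Matrix.mul_assoc, w1, emb_T, asc f0, Matrix.one_mul, f0,
      eq_comm] using this) (by simpa using h0) fun e => h4 (by linear_combination e)
  obtain ⟨t, w3⟩ := pow3 (k := k) (y := x + y + x * y) (by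
    simp only [rg (k := k), n0, m0, f5, f6, asc n0, asc m0, add_zero]) o
  have w4 := w0 o
  rw [w2, map_one, one_mul, w3] at w4
  generalize (g * g') ^ o = κ at w4
  have w5 : ρ (g * κ * g⁻¹ * κ⁻¹) = 1 + (o : k) • (x * y - y * x) := by
    have : ρ g * ρ κ = (1 + (o : k) • (x * y - y * x)) * (ρ κ * ρ g) := by
      simp only [e, w4, mx, asc x1, asc y1, x2, y2, asc x2, asc y2, n0, m0, f5, f6, asc n0, asc m0,
        smul_zero, add_zero, smul_add, smul_sub, sub_zero]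
      module
    rw [map_mul, map_mul, map_mul, this, mul_assoc, mul_assoc, mul_assoc, ← map_mul, ← map_mul,
      ← map_mul]
    simp
  have w6 : x * y = 0 ∧ y * x = 0 := by
    rcases r1 with ⟨r1, X, Y, r2⟩ | ⟨r1, X, Y, r2⟩
    · have := H.nt2 dP (X := -(o : k) • X) (Y := Y) (w5.trans (by
        rw [r1, r2, zero_sub, Matrix.smul_mul, Matrix.smul_mul, smul_neg, neg_smul]))
      rw [Matrix.smul_mul, Matrix.smul_mul, ← r2, smul_eq_zero, neg_eq_zero] at this
      exact ⟨r1, this.resolve_left ho⟩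
    · have := H.nt2 dP (X := (o : k) • X) (Y := Y) (w5.trans (by
        rw [r1, r2, sub_zero, Matrix.smul_mul, Matrix.smul_mul]))
      rw [Matrix.smul_mul, Matrix.smul_mul, ← r2, smul_eq_zero] at this
      exact ⟨this.resolve_left ho, r1⟩
  by_contra w7
  obtain ⟨a', φ', w8, G⟩ := H.fc (N := (o : k) • (x + y)) ⟨by
    simp only [mx, n0, m0, w6, smul_zero, add_zero], κ, by
    simp only [w4, mx, n0, m0, w6, smul_zero, add_zero]⟩ (smul_ne_zero ho w7)
  obtain ⟨_, l1⟩ := G.l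
  obtain ⟨_, l2⟩ := G.r
  refine dim6 f0 ?_ ?_ G.z l1 l2
  · rw [← Matrix.mul_one a', ← l2, ← Matrix.mul_assoc a', ← w8]
    simp only [mx, asc x2, asc y2, add_zero, smul_zero]
  · rw [← Matrix.one_mul φ', ← l1, Matrix.mul_assoc _ a', ← w8]
    simp only [mx, x1, y1, add_zero, smul_zero]

theorem p2 (hd : (φ * b * (ψ * a)).det = 0) {σ : k} (hσ : (φ * b * (ψ * a)).trace = σ) (h0 : σ ≠ 0) :
    (3 : k) = 0 ∧ σ * σ = 1 ∧ a * φ + σ • (b * ψ) =
      σ • (a * φ * (b * ψ) * (a * φ)) + b * ψ * (a * φ) * (b * ψ) := by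
  have key : ∀ j : k, j ≠ 0 → Nq ρ (j • (b * ψ)) → j * σ ≠ -4 →
      a * φ - σ⁻¹ • (a * φ * (b * ψ) * (a * φ)) +
        j • (b * ψ - σ⁻¹ • (b * ψ * (a * φ) * (b * ψ))) = 0 := fun j hj e h4 => by
    have := H.p2a F (F'.smul hj e) p (by rw [Matrix.mul_smul, Matrix.smul_mul, det_smul, hd, mul_zero])
      (σ := j * σ) (by rw [Matrix.mul_smul, Matrix.smul_mul, trace_smul, hσ, smul_eq_mul])
      (mul_ne_zero hj h0) h4
    rw [← this]
    simp only [mx]
    match_scalars <;> field_simp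
  have two : ∀ j : k, j ≠ 0 → Nq ρ (j • (b * ψ)) → j * σ = -4 ∨ j * σ = 4 := fun j hj e => by
    by_contra! hc
    have e1 := key j hj e hc.1
    have e2 := key (-j) (neg_ne_zero.2 hj) (by rw [neg_smul]; exact e.neg) fun e => hc.2 (by
      linear_combination -e)
    have e3 : 1 - σ⁻¹ • (φ * b * (ψ * a)) = 0 := F.canc (smul_right_injective _ H.two (by
      simp only [mx] at e1 e2 ⊢
      linear_combination (norm := module) e1 + e2))
    have := congrArg det (sub_eq_zero.1 e3)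
    simp [hd] at this
  have h2 := H.two
  have t1 := two 1 one_ne_zero (by simpa using F'.nq)
  have t2 := two 2 h2 (by exact_mod_cast F'.nq.nat 2)
  have h3 : (3 : k) = 0 := by grind
  have h5 : σ * σ = 1 := by grind
  refine ⟨h3, h5, ?_⟩
  have := key σ h0 (by
    rcases mul_self_eq_one_iff.1 h5 with e | e <;> rw [e]
    · simpa using F'.nq
    · simpa using F'.nq.neg) (by grind)
  rw [← eq_inv_of_mul_eq_one_right h5, smul_sub, smul_smul, h5, one_smul] at this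
  linear_combination (norm := module) this

omit H p in
theorem xq (h3 : (3 : k) = 0) (hd : (φ * b * (ψ * a)).det = 0) (hσ : (φ * b * (ψ * a)).trace = -1)
    (h : a * φ - b * ψ = b * ψ * (a * φ) * (b * ψ) - a * φ * (b * ψ) * (a * φ)) :
    ∃ (c : Rm 5 2 k) (γ : Rm 2 5 k) (X : XQ ρ c γ), c * γ = -(a * φ * (b * ψ) + b * ψ * (a * φ)) ∧
      emb X.h q2 = (1 + a * φ) * (1 + b * ψ) * (1 + a * φ) := by
  obtain ⟨c, γ, f0, f1, f2, f3, f4, f5, f6⟩ := frame F.z F'.z hd hσ (neg_ne_zero.2 one_ne_zero)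
  have n0 := F.nq.1
  have e1 := F.nq.cj
  have e2 := F'.nq.cj
  have e3 := F'.nq.neg.cj
  rw [f5, f6] at h
  generalize a * φ = N at *
  generalize b * ψ = M at *
  obtain ⟨n, hn⟩ : ∃ n : M2 k, n = !![0, -1; 0, 0] := ⟨_, rfl⟩
  obtain ⟨m, hm⟩ : ∃ n : M2 k, n = !![0, 0; 1, 0] := ⟨_, rfl⟩
  have n1 : n * n = 0 := by rw [hn]; simp [← Matrix.ext_iff, Fin.forall_fin_two]
  have r1 : q1 = (1 + n) * (1 - m) := by
    rw [hn, hm, one_fin_two, q1]; simp [← Matrix.ext_iff, Fin.forall_fin_two]; grind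
  have r2 : -q1 = (1 + m) * (1 - n) := by
    rw [hn, hm, one_fin_two, q1]; simp [← Matrix.ext_iff, Fin.forall_fin_two]; grind
  have r3 : q2 = (1 + n) * (1 + m) * (1 + n) := by
    rw [hn, hm, one_fin_two, q2]; simp [← Matrix.ext_iff, Fin.forall_fin_two]
  have r4 : -q2 = (1 - n) * ((1 - m) * (1 - n)) := by
    rw [hn, hm, one_fin_two, q2]; simp [← Matrix.ext_iff, Fin.forall_fin_two]
  have r5 : (1 : M2 k) = -(n * m + m * n) := by
    rw [hn, hm, one_fin_two]; simp [← Matrix.ext_iff, Fin.forall_fin_two]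
  rw [← hn] at f1 f2 h
  rw [← hm] at h
  obtain ⟨x, rfl⟩ : ∃ x, N = x + c * n * γ := ⟨N - c * n * γ, by abel⟩
  obtain rfl : M = x + c * m * γ := by linear_combination (norm := module) -h
  have x1 : x * c = 0 := by simpa only [mx, f0, add_eq_right] using f1
  have x2 : γ * x = 0 := by simpa only [mx, asc f0, add_eq_right] using f2
  simp only [mx, asc x1, x2, asc f0, asc n1, add_zero] at n0
  have x3 : x + x + x = 0 := by linear_combination (norm := module) h3 • x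
  have s3 : emb f0 q2 = (1 + (x + c * n * γ)) * (1 + (x + c * m * γ)) * (1 + (x + c * n * γ)) := by
    simp only [r3, emb_apply, mx, asc x1, x2, asc x2, asc f0, n0, asc n0]
    linear_combination (norm := abel) -x3
  refine ⟨c, γ, ⟨f0, h3, ?_, ?_⟩, ?_, s3⟩
  · convert e1.mul e3 using 1
    · simp only [r1, emb_apply, mx, asc x1, x2, asc f0, n0]
      abel
    · simp only [r2, emb_apply, mx, asc x1, x2, asc f0, n0]
      abel
  · convert (e1.mul e2).mul e1 using 1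
    simp only [r4, emb_apply, mx, asc x1, x2, asc x2, asc f0, n0, asc n0]
    linear_combination (norm := abel) x3
  · rw [show c * γ = c * (1 : M2 k) * γ by rw [Matrix.mul_one], r5]
    simp only [mx, asc x1, x2, asc f0, n0]
    abel

end Hs

end Cfsg.Agent.L5.S
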