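import Cfsg.Agent.L5.S2

/-!
Pairs of quadratic elements: the generic case gives a reflection.
-/

set_option autoImplicit false

namespace Cfsg.Agent.L5.S

open Matrix Cfsg.Agent.L4.S Cfsg.Agent.L4.R Cfsg.Agent.L4.H

variable {k : Type*} [Field k] {P : Type*} [Group P]

theorem rank_of {ι : Type} [Fintype ι] [DecidableEq ι] {A : Matrix ι ι k} {v : ι → k}
    (h : ∀ y, ∃ c : k, A *ᵥ y = y + c • v) : (A - 1).rank ≤ 1 := by
  choose c hc using h
  rw [show A - 1 = vecMulVec v fun j => c (Pi.single j 1) from Matrix.ext fun i j => by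
    have := congrFun (hc (Pi.single j 1)) i
    simp only [mulVec_single_one, col_apply, Pi.add_apply, Pi.smul_apply, smul_eq_mul] at this
    rw [Matrix.sub_apply, this, vecMulVec_apply, one_apply, Pi.single_apply]
    ring]
  exact rank_vecMulVec_le _ _

theorem neg4 [Finite P] [IsAlgClosed k] (p : ℕ) [Fact p.Prime] [CharP k p] (h2 : (2 : k) ≠ 0)
    (C : P →* M4 k) (nt : ∀ g, (C g - 1).rank ≤ 1 → g = 1) {u v : P} {μ μ' : k} (hμ : μ ≠ 0)
    (hμ' : μ' ≠ 0) (hu : C u = b2 !![1, μ; 0, 1] !![1, μ'; 0, 1])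
    (hv : C v = b2 !![1, 0; 1, 1] !![1, 0; 1, 1]) : ∃ g, C g = -1 := by
  have e0 : (-1 : M4 k) = b2 (-1) (-1) := by
    ext i j; fin_cases i <;> fin_cases j <;> simp [b2]
  rcases core p h2 C (fun g _ h => nt g (rank_of h)) hμ hμ' hu hv with ⟨g, e⟩ | ⟨h3, e1, e2⟩
  · have f : ∀ x : k, x ≠ 0 → ∃ A : M2 k, !![1, 0; x⁻¹, 1] * A = 1 ∧
        !![1, x; 0, 1] * A * !![1, x; 0, 1] * (!![1, x; 0, 1] * A * !![1, x; 0, 1]) = -1 :=
      fun x hx => ⟨!![1, 0; -x⁻¹, 1], by simp [← Matrix.ext_iff, Fin.forall_fin_two], by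
        simp [← Matrix.ext_iff, Fin.forall_fin_two, hx]⟩
    obtain ⟨A, a1, a2⟩ := f μ hμ
    obtain ⟨B, b1, b3⟩ := f μ' hμ'
    have : C g⁻¹ = b2 A B := by
      rw [← mul_one (C g⁻¹), ← b2_one, ← a1]
      nth_rw 2 [a1]
      rw [← b1, ← b2_mul, ← e, ← mul_assoc, ← map_mul, inv_mul_cancel, map_one, one_mul]
    exact ⟨u * g⁻¹ * u * (u * g⁻¹ * u), by simp only [map_mul, hu, this, b2_mul, a2, b3, e0]⟩
  · have f : ∀ x : k, x ^ 2 = -1 → ∃ A : M2 k, !![1, x; 0, 1] * !![1, 0; 1, 1] = A ∧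
        A * A * A * A * A = -1 := fun x hx => ⟨!![1 + x, x; 1, 1], by simp, by
      simp only [mul_fin_two]
      ext i j; fin_cases i <;> fin_cases j <;> simp <;> grind⟩
    obtain ⟨A, a1, a2⟩ := f μ e1
    obtain ⟨B, b1, b3⟩ := f μ' e2
    exact ⟨u * v * (u * v) * (u * v) * (u * v) * (u * v), by
      simp only [map_mul, hu, hv, b2_mul, a1, a2, b1, b3, e0]⟩

variable {ρ : P →* M5 k}

theorem Hs.res [Finite P] (H : Hs ρ) {ι : Type} [Fintype ι] [DecidableEq ι] {T : Matrix (Fin 5) ι k}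
    {S : Matrix ι (Fin 5) k} (h : S * T = 1) : ∃ (X : Subgroup P) (C : X →* Matrix ι ι k),
    (∀ g, (C g - 1).rank ≤ 1 → g = 1) ∧ (∀ g : X, ρ g = emb h (C g)) ∧
      ∀ g A, ρ g = emb h A → ∃ e : g ∈ X, C ⟨g, e⟩ = A := by
  let X := H1.Sp4.sub (⊤ : Subgroup P) (fun g => ∃ A, ρ g = emb h A) ⟨1, by simp⟩
    fun g _ g' _ ⟨A, e⟩ ⟨A', e'⟩ => ⟨A * A', by rw [map_mul, map_mul, e, e']⟩
  choose C hC using fun g : X => g.2.2
  refine ⟨X, ⟨⟨C, emb_inj h (by rw [← hC]; simp)⟩, fun x y => emb_inj h (by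
    rw [map_mul, ← hC, ← hC, ← hC, Subgroup.coe_mul, map_mul])⟩, fun g e => Subtype.ext (H.nt g ?_),
    hC, fun g A e => ⟨⟨trivial, A, e⟩, emb_inj h ((hC _).symm.trans e)⟩⟩
  rw [hC, emb_apply, add_sub_cancel_left]
  exact (rank_mul_le_left _ _).trans ((rank_mul_le_right _ _).trans e)

/-- A reflection normalising the set of quadratic elements. -/
structure RF (ρ : P →* M5 k) (e : Rm 5 1 k) (f : Rm 1 5 k) : Prop where
  h : f * e = 1
  c : Cj ρ (1 - (2 : k) • (e * f)) (1 - (2 : k) • (e * f))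

/-- interleaving -/
noncomputable def σ4 : Fin 4 ≃ Fin 2 ⊕ Fin 2 :=
  Equiv.ofBijective ![.inl 0, .inr 0, .inl 1, .inr 1] (by decide)

variable (H : Hs ρ) [Finite P] [IsAlgClosed k] (p : ℕ) [Fact p.Prime] [CharP k p]
  {a b : Rm 5 2 k} {φ ψ : Rm 2 5 k}
include H p

section
variable (h : Nq ρ (a * φ)) (h' : Nq ρ (b * ψ)) (z : φ * a = 0) (z' : ψ * b = 0) (h1 : ψ * a = 1)
  {D D' : M2 k} (h2 : φ * b = D) (h3 : D' * D = 1)
include h h' z z' h1 h2 h3

omit H p h h' [Finite P] [IsAlgClosed k] in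
theorem st : fromRows ψ (D' * φ) * fromCols a b = 1 := by
  rw [fromRows_mul_fromCols, ← fromBlocks_one]
  simp only [mx, h1, h2, h3, z, z']

omit H p h h' [Finite P] [IsAlgClosed k] in
theorem st' : 1 + a * φ = emb (st z z' h1 h2 h3) (1 + fromBlocks 0 D 0 0) ∧
    1 + b * ψ = emb (st z z' h1 h2 h3) (1 + fromBlocks 0 0 1 0) := by
  simp only [emb_apply, add_sub_cancel_left, fromCols_mul_fromBlocks, fromCols_mul_fromRows, mx,
    asc (mul_eq_one_comm.1 h3), add_zero, zero_add, and_self]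

theorem Hs.p3a {μ : k} (hμ : μ ≠ 0) (h4 : μ ≠ -4) (e : (D - μ • 1).det = 0)
    (e' : (D - μ • 1) * (D - μ • 1) = 0) : D - μ • 1 = 0 := by
  obtain ⟨X, C, c1, c2, c3⟩ := H.res (st z z' h1 h2 h3)
  obtain ⟨g, hg⟩ := h.2
  obtain ⟨g', hg'⟩ := h'.2
  obtain ⟨m1, u1⟩ := c3 g _ (hg.trans (st' z z' h1 h2 h3).1)
  obtain ⟨m2, u2⟩ := c3 g' _ (hg'.trans (st' z z' h1 h2 h3).2)
  by_contra n
  have n' : (D - μ • 1) * D ≠ 0 := fun e => n (by
    have := congrArg (· * D') e
    simpa only [mul_assoc, mul_eq_one_comm.1 h3, mul_one, zero_mul] using this)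
  obtain ⟨κ, t, k1, k2⟩ := nss p C H.two (ε := fromBlocks (D - μ • 1) 0 0 (D - μ • 1)) (μ := μ)
    (by simp [fromBlocks_multiply]) (by simp [fromBlocks_multiply]) (by
      rw [← fromBlocks_one, fromBlocks_smul, fromBlocks_add]
      simp [fromBlocks_multiply, fromBlocks_add])
    (by simp [fromBlocks_multiply, e']) hμ h4 u1 u2 (by
      rw [← fromBlocks_zero, fromBlocks_multiply, Ne, fromBlocks_inj]
      simpa using n')
  have k3 := c2 t
  rw [k2, emb_apply, add_sub_cancel_left] at k3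
  simp only [fromBlocks_multiply, fromBlocks_smul, fromCols_mul_fromBlocks, fromCols_mul_fromRows,
    Matrix.mul_zero, Matrix.zero_mul, add_zero, zero_add, smul_zero] at k3
  have k4 := H.nt2 e (X := κ • a) (Y := D * (D' * φ)) (k3.trans (by simp only [mx]; module))
  refine n (smul_right_injective _ k1 ?_)
  have := congrArg (fun Y => ψ * Y * (b * D')) k4
  simp only [mx, asc h1, asc h2, asc h3, mul_eq_one_comm.1 h3] at this ⊢
  linear_combination (norm := module) this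

theorem Hs.p3b {μ μ' : k} (hμ : μ ≠ 0) (hμ' : μ' ≠ 0) (e : D = !![μ, 0; 0, μ']) :
    ∃ (e : Rm 5 1 k) (f : Rm 1 5 k), RF ρ e f ∧ φ * e = 0 ∧ ψ * e = 0 ∧ f * a = 0 ∧ f * b = 0 := by
  have s1 := st z z' h1 h2 h3
  obtain ⟨s2, s3⟩ := st' z z' h1 h2 h3
  have s4 : (fromRows ψ (D' * φ)).submatrix σ4 id * (fromCols a b).submatrix id σ4 = 1 := by
    rw [← submatrix_mul _ _ _ _ _ Function.bijective_id, s1, submatrix_one_equiv]
  have s5 : ∀ A, emb s4 (A.submatrix σ4 σ4) = emb s1 A := fun A => by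
    rw [emb_apply, emb_apply, ← submatrix_one_equiv σ4,
      show A.submatrix σ4 σ4 - submatrix 1 σ4 σ4 = (A - 1).submatrix σ4 σ4 from rfl,
      submatrix_mul_equiv, submatrix_mul_equiv, submatrix_id_id]
  obtain ⟨X, C, c1, c2, c3⟩ := H.res s4
  obtain ⟨g, hg⟩ := h.2
  obtain ⟨g', hg'⟩ := h'.2
  obtain ⟨m1, u1⟩ := c3 g _ (hg.trans (s2.trans (s5 _).symm))
  obtain ⟨m2, u2⟩ := c3 g' _ (hg'.trans (s3.trans (s5 _).symm))
  obtain ⟨t, ht⟩ := neg4 p H.two C c1 hμ hμ' (u1.trans (by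
    ext i j; fin_cases i <;> fin_cases j <;> simp [σ4, b2, e])) (u2.trans (by
    ext i j; fin_cases i <;> fin_cases j <;> simp [σ4, b2]))
  have t1 := c2 t
  rw [ht, show (-1 : M4 k) = (-1 : Matrix _ _ k).submatrix σ4 σ4 by
    rw [submatrix_neg, Pi.neg_apply, Pi.neg_apply, submatrix_one_equiv], s5, emb_apply] at t1
  have t2 : ψ * (1 - fromCols a b * fromRows ψ (D' * φ)) = 0 ∧
      φ * (1 - fromCols a b * fromRows ψ (D' * φ)) = 0 ∧
      (1 - fromCols a b * fromRows ψ (D' * φ)) * a = 0 ∧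
      (1 - fromCols a b * fromRows ψ (D' * φ)) * b = 0 := by
    simp only [fromCols_mul_fromRows, mx, asc h1, asc h2, asc z, asc z', h1, h2, z, z', h3,
      asc (mul_eq_one_comm.1 h3), add_zero, zero_add, sub_self, and_self]
  clear s5
  generalize fromCols a b = T at s1 t1 t2
  generalize fromRows ψ (D' * φ) = S at s1 t1 t2
  have t3 := rank_add_rank_le_card_of_mul_eq_zero (A := S) (B := 1 - T * S) (by
    simp only [mx, asc s1, sub_self])
  have t4 := rank_add_rank_le_card_of_mul_eq_zero (A := (1 : M5 k) - T * S) (B := T) (by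
    simp only [mx, s1, sub_self])
  have t5 := (le_rank s1).1
  have t6 : (1 - T * S).rank ≠ 0 := fun e => by
    obtain ⟨x, y, -, -, e, -⟩ := rankfac _ e
    have := congrArg trace e
    rw [trace_sub, trace_mul_comm, s1, trace_mul_comm, trace_one, trace_one] at this
    norm_num [trace] at this
  simp only [Fintype.card_sum, Fintype.card_fin] at t3 t5
  obtain ⟨x, y, x', y', t7, t8, t9⟩ := rankfac (1 - T * S) (r := 1) (by omega)
  have t10 : y * x = 1 := sub_eq_zero.1 (canc t8 t9 (by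
    simp only [Matrix.mul_sub, Matrix.sub_mul, Matrix.mul_one, Matrix.mul_assoc]
    rw [← Matrix.mul_assoc, ← t7]
    simp only [mx, asc s1]
    abel))
  rw [t7] at t2
  refine ⟨x, y, ⟨t10, cj_smul t (c := -1) ?_ ?_⟩, ?_, ?_, ?_, ?_⟩
  · rw [t1, ← t7]; simp only [mx]; module
  · simp only [mx, asc t10]; module
  · simpa only [mx, t9] using congrArg (· * y') t2.2.1
  · simpa only [mx, t9] using congrArg (· * y') t2.1
  · simpa only [mx, asc t8] using congrArg (x' * ·) t2.2.2.1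
  · simpa only [mx, asc t8] using congrArg (x' * ·) t2.2.2.2

end

theorem Hs.p3 (F : Fc ρ a φ) (F' : Fc ρ b ψ) (hd : (φ * b * (ψ * a)).det ≠ 0) :
    ∃ (e : Rm 5 1 k) (f : Rm 1 5 k), RF ρ e f ∧ φ * e = 0 ∧ ψ * e = 0 ∧ f * a = 0 ∧ f * b = 0 := by
  have hB : IsUnit (ψ * a).det := by
    rw [det_mul] at hd; exact (right_ne_zero_of_mul hd).isUnit
  have b1 := Matrix.mul_nonsing_inv _ hB
  have b2 := Matrix.nonsing_inv_mul _ hB
  have d2 := Matrix.nonsing_inv_mul _ hd.isUnit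
  generalize hB' : ψ * a = B at *
  generalize B⁻¹ = B' at *
  generalize hD : φ * b * B = D at *
  generalize D⁻¹ = D' at *
  have key : ∀ (X X' : M2 k) (μ μ' : k), X' * X = 1 → D * X = X * !![μ, 0; 0, μ'] →
      ∃ (e : Rm 5 1 k) (f : Rm 1 5 k), RF ρ e f ∧ φ * e = 0 ∧ ψ * e = 0 ∧ f * a = 0 ∧ f * b = 0 :=
    fun X X' μ μ' x1 x2 => by
    have x3 := mul_eq_one_comm.1 x1
    have x4 : μ * μ' ≠ 0 := by
      have := congrArg det x2
      rw [det_mul, det_mul, det_fin_two_of, mul_comm] at this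
      rw [mul_zero, sub_zero] at this
      rwa [← mul_left_cancel₀ (left_ne_zero_of_mul_eq_one (det_mul X X' ▸ x3 ▸ det_one)) this]
    obtain ⟨e, f, r, e1, e2, e3, e4⟩ := H.p3b p (a := a * X) (φ := X' * φ) (b := b * (B * X))
      (ψ := X' * (B' * ψ)) (by simpa only [mx, asc x3] using F.nq)
      (by simpa only [mx, asc x3, asc b1] using F'.nq) (by simp only [mx, asc F.z])
      (by simp only [mx, asc F'.z]) (by simp only [mx, asc hB', asc b2, x1]) (D' := X' * (D' * X)) rfl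
      (by rw [Matrix.mul_assoc X' φ, ← Matrix.mul_assoc φ, ← Matrix.mul_assoc _ B, hD]
          simp only [mx, asc x3, asc d2, x1])
      (left_ne_zero_of_mul x4) (right_ne_zero_of_mul x4) (by
        rw [Matrix.mul_assoc, ← Matrix.mul_assoc φ, ← Matrix.mul_assoc _ B, hD, x2, asc x1, one_mul])
    refine ⟨e, f, r, ?_, ?_, ?_, ?_⟩
    · simpa only [mx, asc x3] using congrArg (fun Y : Rm 2 1 k => X * Y) e1
    · simpa only [mx, asc x3, asc b1] using congrArg (fun Y : Rm 2 1 k => B * X * Y) e2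
    · simpa only [mx, x3] using congrArg (fun Y : Rm 1 2 k => Y * X') e3
    · simpa only [mx, asc x3, b1] using congrArg (fun Y : Rm 1 2 k => Y * (X' * B')) e4
  obtain ⟨δ, hδ⟩ := IsAlgClosed.exists_eq_mul_self (D.trace ^ 2 - 4 * D.det)
  have h2 := H.two
  obtain ⟨μ, μ', e1, e2⟩ : ∃ μ μ' : k, μ + μ' = D.trace ∧ μ * μ' = D.det :=
    ⟨(D.trace + δ) / 2, (D.trace - δ) / 2, by field_simp; ring, by field_simp; linear_combination hδ⟩
  have e3 : ∀ x, x = μ ∨ x = μ' → (D - x • 1).det = 0 := fun x hx => by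
    rw [det_fin_two] at e2 ⊢
    rw [trace_fin_two] at e1
    simp
    grind
  by_cases hμ : μ = μ'
  · subst hμ
    have e4 : (D - μ • 1) * (D - μ • 1) = 0 := by
      simp only [mx, ch2 D, ← e1, ← e2]; module
    have h0 : μ ≠ 0 := left_ne_zero_of_mul (e2 ▸ hd)
    have n1 : Nq ρ (b * B * (B' * ψ)) := by simpa only [mx, asc b1] using F'.nq
    have n2 : B' * ψ * (b * B) = 0 := by simp only [mx, asc F'.z]
    have n3 : B' * ψ * a = 1 := by simp only [mx, hB', b2]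
    have e5 : D - μ • 1 = 0 := by
      by_cases h4 : μ = -4
      · have := H.p3a p (φ := -φ) (by simpa using F.nq.neg) n1 (by simp [F.z]) n2 n3 (D := -D) (D' := -D')
          (by rw [Matrix.neg_mul, ← Matrix.mul_assoc, hD]) (by simpa using d2) (μ := -μ)
          (neg_ne_zero.2 h0) (by grind) (by
            rw [neg_smul, ← neg_sub', det_neg, e3 μ (.inl rfl), mul_zero]) (by
            rw [neg_smul, ← neg_sub', neg_mul_neg, e4])
        rwa [neg_smul, ← neg_sub', neg_eq_zero] at this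
      · exact H.p3a p F.nq n1 F.z n2 n3 (by rw [← Matrix.mul_assoc, hD]) d2 h0 h4 (e3 μ (.inl rfl)) e4
    exact key 1 1 μ μ (mul_one 1) (by rw [sub_eq_zero.1 e5, one_fin_two]; simp)
  obtain ⟨x, x1, x2⟩ := exists_mulVec_eq_zero_iff.2 (e3 μ (.inl rfl))
  obtain ⟨y, y1, y2⟩ := exists_mulVec_eq_zero_iff.2 (e3 μ' (.inr rfl))
  rw [sub_mulVec, smul_mulVec, one_mulVec, sub_eq_zero] at x2 y2
  have e6 : (!![x 0, y 0; x 1, y 1]).det ≠ 0 := fun e => by
    obtain ⟨v, v1, v2⟩ := exists_mulVec_eq_zero_iff.2 e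
    have v3 : v 0 • x + v 1 • y = 0 := by
      rw [← v2]; ext i; fin_cases i <;> simp [mulVec, dotProduct, Fin.sum_univ_two] <;> ring
    have v4 := congrArg (D *ᵥ ·) v3
    simp only [mulVec_add, mulVec_smul, x2, y2, mulVec_zero] at v4
    have v5 : (v 0 * (μ - μ')) • x = 0 := by linear_combination (norm := module) v4 - μ' • v3
    have v6 : (v 1 * (μ - μ')) • y = 0 := by linear_combination (norm := module) μ • v3 - v4
    simp only [smul_eq_zero, mul_eq_zero, sub_eq_zero, hμ, x1, y1, or_false] at v5 v6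
    exact v1 (funext fun i => by fin_cases i <;> assumption)
  refine key _ _ μ μ' (Matrix.nonsing_inv_mul _ e6.isUnit) ?_
  have x3 := congrFun x2
  have y3 := congrFun y2
  simp only [mulVec, dotProduct, Fin.sum_univ_two, Pi.smul_apply, smul_eq_mul] at x3 y3
  ext i j
  fin_cases i <;> fin_cases j <;> simp [mul_apply, Fin.sum_univ_two, x3, y3] <;> ring

end Cfsg.Agent.L5.S
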