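import Cfsg.Agent.L5.S1
import Cfsg.Agent.L5.S3

/-!
Quadratic elements against reflections and against quaternion groups.
-/

set_option autoImplicit false

namespace Cfsg.Agent.L5.S

open Matrix Cfsg.Agent.L4.S

variable {k : Type*} [Field k]

theorem yzy {Y : M2 k} (h : Y.det = 0) (Z : M2 k) : Y * (Z * Y) = (Z * Y).trace • Y := by
  rw [aba, h, zero_smul, sub_zero, trace_mul_comm]

theorem r1r1 {Φ Λ : M2 k} (h : Φ.det = 0) (h' : Λ.det = 0) (Z : M2 k) :
    (Λ * Φ).trace • (Φ * (Z * Λ)) = (Z * (Λ * Φ)).trace • (Φ * Λ) := by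
  obtain ⟨u, v, rfl⟩ := det0 h
  obtain ⟨l, m, rfl⟩ := det0 h'
  ext i j
  fin_cases i <;> fin_cases j <;> simp [mul_apply, trace_fin_two, vecMulVec] <;> ring

theorem det_21 (u : Rm 2 1 k) (v : Rm 1 2 k) : (u * v).det = 0 := by
  simp [det_fin_two, mul_apply]; ring

theorem det_ker {Y : M2 k} {v : Rm 2 1 k} (h : Y * v = 0) (h0 : v ≠ 0) : Y.det = 0 := by
  by_contra e
  exact h0 (by rw [← Matrix.one_mul v, ← Matrix.nonsing_inv_mul Y (Ne.isUnit e), Matrix.mul_assoc, h,
    Matrix.mul_zero])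

/-- a quaternion unit -/
structure QU (q : M2 k) : Prop where
  sq : q * q = -1
  tr : q.trace = 0

theorem qu (h3 : (3 : k) = 0) : QU (q1 : M2 k) ∧ QU (q2 : M2 k) ∧ QU (q1 * q2 : M2 k) := by
  refine ⟨⟨?_, ?_⟩, ⟨?_, ?_⟩, ?_, ?_⟩ <;>
    simp [q1, q2, ← Matrix.ext_iff, Fin.forall_fin_two, trace_fin_two] <;> grind

theorem QU.neg {q : M2 k} (h : QU q) : QU (-q) := ⟨by rw [neg_mul_neg, h.sq], by simp [h.tr]⟩

variable {P : Type*} [Group P] {ρ : P →* M5 k} {a c : Rm 5 2 k} {φ γ : Rm 2 5 k} {e : Rm 5 1 k}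
  {f : Rm 1 5 k}

theorem cj_emb (h : γ * c = 1) {u u' w w' : M2 k} (h1 : Cj ρ (emb h u) (emb h u'))
    (h2 : Cj ρ (emb h w) (emb h w')) : Cj ρ (emb h (u * w)) (emb h (w' * u')) := by
  rw [map_mul, map_mul]; exact h1.mul h2

theorem XQ.c3 (X : XQ ρ c γ) : Cj ρ (emb X.h (q1 * q2)) (emb X.h (-(q1 * q2))) := by
  convert cj_emb X.h X.c1 X.c2 using 2
  simp [q1, q2, ← Matrix.ext_iff, Fin.forall_fin_two]

theorem XQ.cz (X : XQ ρ c γ) : Cj ρ (emb X.h (-1)) (emb X.h (-1)) := by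
  simpa only [neg_mul_neg, (qu X.three).2.1.sq] using cj_emb X.h X.c2 X.c2

theorem XQ.neg (X : XQ ρ c γ) {u u' : M2 k} (h : Cj ρ (emb X.h u) (emb X.h u')) :
    Cj ρ (emb X.h (-u)) (emb X.h (-u')) := by
  simpa only [neg_mul, mul_neg, one_mul, mul_one] using cj_emb X.h X.cz h

namespace Hs
variable (H : Hs ρ) [Finite P]
include H

theorem f1 (R : RF ρ e f) : ∃ N, Nq ρ N ∧ f * N * e ≠ 0 := by
  by_contra! hc
  have h : ∀ x ∈ LL ρ, f * x * e = 0 := fun x hx => by
    induction hx using Submodule.span_induction with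
    | mem N hN => exact hc N hN
    | zero => simp
    | add x y _ _ h1 h2 => rw [Matrix.mul_add, Matrix.add_mul, h1, h2, add_zero]
    | smul c x _ h1 => rw [Matrix.mul_smul, Matrix.smul_mul, h1, smul_zero]
  refine H.form R.h (J := 1) one_ne_zero R.c (fun x hx => by simp [h x hx]) fun x hx y hy _ _ => ?_
  have := h _ (ll_lie H.two hx hy)
  rw [Matrix.mul_sub, Matrix.sub_mul, sub_eq_zero] at this
  rw [this, one_mul, mul_one]
  ext i j
  rw [Subsingleton.elim i j, transpose_apply]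

theorem f2 (X : XQ ρ c γ) : ∃ N, Nq ρ N ∧ (γ * N * c).trace ≠ 0 := by
  by_contra! hc
  have h : ∀ x ∈ LL ρ, (γ * x * c).trace = 0 := fun x hx => by
    induction hx using Submodule.span_induction with
    | mem N hN => exact hc N hN
    | zero => simp
    | add x y _ _ h1 h2 => rw [Matrix.mul_add, Matrix.add_mul, trace_add, h1, h2, add_zero]
    | smul c x _ h1 => rw [Matrix.mul_smul, Matrix.smul_mul, trace_smul, h1, smul_zero]
  have h2 := H.two
  refine H.form X.h (J := q2) (by simp [q2, ← Matrix.ext_iff, Fin.forall_fin_two]) (by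
    convert X.cz using 1 <;> simp only [emb_apply, mx] <;> module) (fun x hx => ?_)
    fun x hx y hy x1 y1 => ?_
  · have := h x hx
    generalize γ * x * c = Y at this
    rw [trace_fin_two] at this
    ext i j
    fin_cases i <;> fin_cases j <;> simp [q2, mul_apply] <;>
      first | linear_combination this | linear_combination -this
  have z : ∀ x : M5 k, c * γ * x + x * (c * γ) = x → γ * (x * c) = 0 := fun x e => by
    simpa only [mx, asc X.h, X.h, add_eq_left] using congrArg (fun Y => γ * (Y * c)) e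
  have key : ∀ u u', Cj ρ (emb X.h u) (emb X.h u') →
      (u * (γ * (x * y) * c)).trace = (γ * (y * x) * c * u').trace := fun u u' hu => by
    have := h _ (ll_lie H.two (hu.ll hx) hy)
    simp only [Matrix.mul_sub, Matrix.sub_mul, Matrix.mul_assoc, asc (S_emb X.h _), emb_T] at this
    simp only [emb_apply, mx, z y y1, show ∀ Z : M2 k, γ * (x * (c * Z)) = 0 from fun Z => by
      simpa only [mx] using congrArg (· * Z) (z x x1), sub_self, add_zero, trace_sub] at this
    simpa only [mx, sub_eq_zero] using this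
  have k0 := key 1 1 (by rw [map_one]; exact cj_of 1 (map_one ρ) (one_mul 1))
  have k1 := key _ _ X.c1
  have k2 := key _ _ X.c2
  have k3 := key _ _ X.c3
  generalize γ * (x * y) * c = G at k0 k1 k2 k3
  generalize γ * (y * x) * c = G' at k0 k1 k2 k3
  simp [q1, q2, mul_apply, trace_fin_two, vecMul, dotProduct] at k0 k1 k2 k3
  have h3 := X.three
  clear key z h hc x1 y1 h2
  ext i j
  fin_cases i <;> fin_cases j <;> simp [q2, mul_apply] <;> grind

variable [IsAlgClosed k] (p : ℕ) [Fact p.Prime] [CharP k p]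
include p

section
variable (F : Fc ρ a φ) (h : γ * c = 1) (hd : (γ * a * (φ * c)).det = 0) {τ : k}
  (hτ : (γ * a * (φ * c)).trace = τ) (h0 : τ ≠ 0) {q : M2 k} (hq : QU q)
  (cq : Cj ρ (emb h q) (emb h (-q))) {x : k} (hx : (q * (γ * a * (φ * c))).trace = x)
include F hd hτ h0 hq cq hx

theorem d0a : ((γ * a).det ≠ 0 → (x + τ) ^ 2 = 1) ∧ ((φ * c).det ≠ 0 → (x - τ) ^ 2 = 1) ∧
    ((γ * a).det = 0 → (φ * c).det = 0 → x ^ 2 = τ ^ 2 + 1) := by
  have F' := F.cj cq
  have hA : φ * (emb h q * a) = φ * c * ((q - 1) * (γ * a)) := by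
    simp only [emb_apply, mx, F.z, zero_add]
  have hB : φ * emb h (-q) * a = φ * c * ((-q - 1) * (γ * a)) := by
    simp only [emb_apply, mx, F.z, zero_add]
  have g1 : γ * (emb h q * a) = q * (γ * a) := by rw [asc (S_emb h q), Matrix.mul_assoc]
  have g2 : φ * emb h (-q) * c = φ * c * -q := by rw [Matrix.mul_assoc, emb_T, Matrix.mul_assoc]
  have g3 : emb h q * a = a + c * ((q - 1) * (γ * a)) := by simp only [emb_apply, mx]
  have g4 : φ * emb h (-q) = φ + φ * c * (-q - 1) * γ := by simp only [emb_apply, mx]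
  generalize emb h q * a = b at *
  generalize φ * emb h (-q) = ψ at *
  have P0 := H.p0 F F'
  have P0' := H.p0 F' F
  have P1 := H.p1 F F'
  have P1' := H.p1 F' F
  have P2 := H.p2 F F' p (σ := τ ^ 2 - x ^ 2)
  have nmn : a * φ * (b * ψ) * (a * φ) = a * (φ * b * (ψ * a)) * φ := by simp only [mx]
  have mnm : b * ψ * (a * φ) * (b * ψ) = b * (ψ * a * (φ * b)) * ψ := by simp only [mx]
  rw [nmn, mnm] at P2
  rw [hA, hB] at P0 P0' P1 P1' P2
  clear hA hB nmn mnm
  generalize hΛ : γ * a = Λ at *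
  generalize hΦ : φ * c = Φ at *
  have y1 : Λ * (Φ * ((q - 1) * (Λ * Φ))) = (x - τ) • (Λ * Φ) := by
    rw [← mul_assoc, yzy hd, sub_mul, trace_sub, one_mul, hx, hτ]
  have y2 : Λ * (Φ * ((-q - 1) * (Λ * Φ))) = (-x - τ) • (Λ * Φ) := by
    rw [← mul_assoc, yzy hd, sub_mul, trace_sub, one_mul, neg_mul, trace_neg, hx, hτ]
  have y1' : ∀ Z : M2 k, Λ * (Φ * ((q - 1) * (Λ * (Φ * Z)))) = (x - τ) • (Λ * (Φ * Z)) := fun Z => by
    simpa only [mul_assoc, smul_mul_assoc] using congrArg (· * Z) y1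
  have y2' : ∀ Z : M2 k, Λ * (Φ * ((-q - 1) * (Λ * (Φ * Z)))) = (-x - τ) • (Λ * (Φ * Z)) :=
    fun Z => by simpa only [mul_assoc, smul_mul_assoc] using congrArg (· * Z) y2
  have t1 : (Λ * (Φ * q)).trace = x := by rw [← mul_assoc, trace_mul_comm, hx]
  have t2 : (q * (Λ * (Φ * q))).trace = -τ := by
    rw [← mul_assoc Λ, ← mul_assoc, trace_mul_cycle, hq.sq, neg_mul, one_mul, trace_neg, hτ]
  have d1 : (Φ * ((q - 1) * Λ) * (Φ * ((-q - 1) * Λ))).det = 0 := by
    rw [det_mul] at hd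
    simp only [det_mul]
    linear_combination ((q - 1).det * Φ.det * (-q - 1).det * Λ.det) * hd
  have d2 : (Φ * ((-q - 1) * Λ) * (Φ * ((q - 1) * Λ))).det = 0 := by rwa [det_mul, mul_comm, ← det_mul]
  have d3 : (Φ * ((q - 1) * Λ) * (Φ * ((-q - 1) * Λ))).trace = τ ^ 2 - x ^ 2 := by
    rw [← mul_assoc, ← mul_assoc, trace_mul_comm]
    simp only [mul_assoc, y1']
    simp only [mx, trace_smul, trace_sub, trace_neg, t1, hτ, smul_eq_mul]
    ring
  have h2 := H.two
  have iq : (q - 1) * (-q - 1) = (2 : k) • 1 ∧ (-q - 1) * (q - 1) = (2 : k) • 1 := by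
    constructor <;> simp only [mx, hq.sq] <;> module
  have y0 : Λ * Φ ≠ 0 := fun e => h0 (by rw [← hτ, e, trace_zero])
  have tq : ((q - 1) * (Λ * Φ)).trace = x - τ := by rw [sub_mul, trace_sub, one_mul, hx, hτ]
  have tq' : ((-q - 1) * (Λ * Φ)).trace = -x - τ := by
    rw [sub_mul, trace_sub, one_mul, neg_mul, trace_neg, hx, hτ]
  have fin : x - τ = 0 → -x - τ = 0 → False := fun e3 e4 =>
    mul_ne_zero h2 h0 (by linear_combination -e3 - e4)
  by_cases hl : τ ^ 2 - x ^ 2 = 0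
  · have e1 := P1 d1 (d3.trans hl)
    have e2 := P1' d2 (by rw [trace_mul_comm, d3, hl])
    refine ⟨fun n => ?_, fun n => ?_, fun n n' => ?_⟩ <;> exfalso
    · have i1 := Matrix.mul_nonsing_inv _ n.isUnit
      have e3 := congrArg (fun Z => Λ * Z * (Λ⁻¹ * (q - 1))) e1
      have e4 := congrArg (fun Z => Λ * Z * (Λ⁻¹ * (-q - 1))) e2
      simp only [mul_assoc, y1', y2', asc i1, one_mul, iq, mul_smul_comm, mul_one, zero_mul,
        smul_mul_assoc, mul_zero, smul_eq_zero, h2, y0, or_false, false_or] at e3 e4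
      exact fin e3 e4
    · have i1 := Matrix.mul_nonsing_inv _ n.isUnit
      have i2 := Matrix.nonsing_inv_mul _ n.isUnit
      have e3 := congrArg (fun Z => (-q - 1) * (Φ⁻¹ * (Z * Φ))) e1
      have e4 := congrArg (fun Z => (q - 1) * (Φ⁻¹ * (Z * Φ))) e2
      simp only [mul_assoc, y1, y2, asc i2, one_mul, asc iq.1, asc iq.2, mul_smul_comm,
        smul_mul_assoc, zero_mul, mul_zero, smul_eq_zero, h2, y0, or_false, false_or] at e3 e4
      first | exact fin e3 e4 | exact fin e4 e3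
    · have e3 := r1r1 n' n (q - 1)
      have e4 := r1r1 n' n (-q - 1)
      rw [tq, hτ] at e3
      rw [tq', hτ] at e4
      have y3 : Φ * Λ ≠ 0 := fun e => h0 (by rw [← hτ, trace_mul_comm, e, trace_zero])
      rcases mul_eq_zero.1 (show (x - τ) * (-x - τ) = 0 by linear_combination hl) with e | e
      · rw [e, zero_smul, smul_eq_zero] at e3
        rw [P0 (e3.resolve_left h0) (by simp [n']), smul_zero, eq_comm, smul_eq_zero] at e4
        exact fin e (e4.resolve_right y3)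
      · rw [e, zero_smul, smul_eq_zero] at e4
        rw [P0' (e4.resolve_left h0) (by simp [n']), smul_zero, eq_comm, smul_eq_zero] at e3
        exact fin (e3.resolve_right y3) e
  obtain ⟨h3, s1, s2⟩ := P2 d1 d3 hl
  have s3 : (x - τ) * (-x - τ) = τ ^ 2 - x ^ 2 := by ring
  generalize τ ^ 2 - x ^ 2 = σ at *
  obtain ⟨a', a1⟩ := F.l
  obtain ⟨φ', a2⟩ := F.r
  refine ⟨fun n => ?_, fun n => ?_, fun n n' => ?_⟩
  · have i1 := Matrix.mul_nonsing_inv _ n.isUnit
    have e3 := congrArg (fun Z => (γ * Z * (φ' * Λ⁻¹)).trace) s2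
    have e4 : ∀ Z : M2 k, Φ * ((-q - 1) * (γ * (φ' * Z))) = Φ * ((-q - 1) * (γ * φ' * Z)) :=
      fun Z => by simp only [Matrix.mul_assoc]
    simp only [g4, Matrix.mul_add, Matrix.add_mul, Matrix.mul_smul, Matrix.smul_mul, Matrix.mul_assoc,
      asc hΛ, asc g1, asc a2, Matrix.one_mul, y1', y2', i1, e4, smul_smul, smul_add, trace_add,
      trace_smul, Matrix.mul_one, smul_eq_mul] at e3
    generalize (q * (Λ * (Φ * ((-q - 1) * (γ * φ' * Λ⁻¹))))).trace = w at e3
    simp only [mx, trace_sub, trace_neg, t1, t2, hx, hτ, hq.tr, trace_one, Fintype.card_fin] at e3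
    clear y1' y2' e4 P0 P0' P1 P1' P2 fin
    grind
  · have i2 := Matrix.nonsing_inv_mul _ n.isUnit
    have e3 := congrArg (fun Z => (Φ⁻¹ * (a' * Z * c)).trace) s2
    have e4 : ∀ Z : M2 k, Φ⁻¹ * (a' * (c * Z)) = Φ⁻¹ * (a' * c) * Z :=
      fun Z => by simp only [Matrix.mul_assoc]
    simp only [Matrix.mul_add, Matrix.add_mul, Matrix.mul_smul, Matrix.smul_mul, Matrix.mul_assoc,
      hΦ, g2] at e3
    simp only [g3, Matrix.mul_add, Matrix.add_mul, Matrix.mul_smul, Matrix.smul_mul, Matrix.mul_assoc,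
      asc a1, asc i2, Matrix.one_mul, y1, y2, y1', y2', i2, smul_smul, smul_add, trace_add,
      trace_smul, smul_eq_mul] at e3
    generalize (Φ⁻¹ * (a' * (c * ((q - 1) * (Λ * (Φ * -q)))))).trace = w at e3
    simp only [mx, trace_sub, trace_neg, t1, t2, hx, hτ, hq.tr, trace_one, Fintype.card_fin] at e3
    clear y1' y2' e4 P0 P0' P1 P1' P2 fin
    grind
  · have e3 := r1r1 n' n (q - 1)
    have e4 := r1r1 n' n (-q - 1)
    rw [tq, hτ, ← eq_inv_smul_iff₀ h0] at e3
    rw [tq', hτ, ← eq_inv_smul_iff₀ h0] at e4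
    have z1 : Λ * (Φ * Λ) = τ • Λ := by rw [yzy n, trace_mul_comm, hτ]
    have z2 : ∀ Z : Rm 2 5 k, Φ * (Λ * (Φ * Z)) = τ • (Φ * Z) := fun Z => by
      rw [← Matrix.mul_assoc Λ, ← Matrix.mul_assoc, yzy n', hτ, Matrix.smul_mul]
    have z3 : ∀ Z : Rm 2 5 k, Λ * (Φ * (Λ * Z)) = τ • (Λ * Z) := fun Z => by
      simpa only [mx] using congrArg (· * Z) z1
    rw [e3, e4, g3, g4] at s2
    generalize q - 1 = u at s2
    generalize -q - 1 = u' at s2
    have e5 : (1 + σ) • (1 - τ⁻¹ • (Φ * Λ)) = 0 := canc a1 a2 (by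
      simp only [mx, z2, z3, smul_smul, smul_add] at s2 ⊢
      have s4 : τ⁻¹ * (x - τ) * (τ⁻¹ * (-x - τ) * τ) = σ * τ⁻¹ := by field_simp; grind
      have s5 : τ⁻¹ * (-x - τ) * (τ⁻¹ * (x - τ) * τ) = σ * τ⁻¹ := by field_simp; grind
      have s6 : τ⁻¹ * τ = 1 := inv_mul_cancel₀ h0
      generalize τ⁻¹ = τ' at *
      rw [← sub_eq_zero] at s2
      rw [← s2]
      match_scalars <;> grind)
    have e6 := congrArg trace e5
    rw [trace_smul, trace_sub, trace_smul, trace_mul_comm, hτ] at e6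
    simp [h0] at e6
    clear y1' y2' z2 z3 P0 P0' P1 P1' P2 fin
    grind

end

theorem d0 (X : XQ ρ c γ) {N : M5 k} (h : Nq ρ N) (hd : (γ * N * c).det = 0) :
    (γ * N * c).trace = 0 := by
  by_contra h0
  obtain ⟨a, φ, rfl, F⟩ := H.fc h (by rintro rfl; simp at h0)
  rw [show γ * (a * φ) * c = γ * a * (φ * c) by simp only [mx]] at hd h0
  have h2 := H.two
  have h3 := X.three
  obtain ⟨κ, hκ⟩ : ∃ κ : k, ∀ q, QU q → Cj ρ (emb X.h q) (emb X.h (-q)) →
      (q * (γ * a * (φ * c))).trace ^ 2 = κ := by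
    have key := fun q (hq : QU q) (cq : Cj ρ (emb X.h q) (emb X.h (-q))) =>
      And.intro (H.d0a p F X.h hd rfl h0 hq cq rfl)
        (H.d0a p F X.h hd rfl h0 hq.neg (X.neg cq) (by rw [neg_mul, trace_neg]))
    by_cases n : (γ * a).det = 0
    · by_cases n' : (φ * c).det = 0
      · exact ⟨_, fun q hq cq => (key q hq cq).1.2.2 n n'⟩
      · exact ⟨0, fun q hq cq => by
          have := (key q hq cq).1.2.1 n'
          have := (key q hq cq).2.2.1 n'
          grind⟩
    · exact ⟨0, fun q hq cq => by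
        have := (key q hq cq).1.1 n
        have := (key q hq cq).2.1 n
        grind⟩
  have k1 := hκ _ (qu h3).1 X.c1
  have k2 := hκ _ (qu h3).2.1 X.c2
  have k3 := hκ _ (qu h3).2.2 X.c3
  generalize γ * a * (φ * c) = Y at *
  simp [q1, q2, trace_fin_two, det_fin_two, vecMul, dotProduct] at k1 k2 k3 hd h0
  grind

theorem xr (R : RF ρ e f) : ∃ (c : Rm 5 2 k) (γ : Rm 2 5 k) (X : XQ ρ c γ) (t : k), t * t = -1 ∧
    Cj ρ (emb X.h (-t • 1)) (emb X.h (t • 1)) ∧ c * γ * e = e := by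
  obtain ⟨N, hN, h0⟩ := H.f1 R
  obtain ⟨a, φ, rfl, F⟩ := H.fc hN (by rintro rfl; simp at h0)
  obtain ⟨t, ht⟩ : ∃ t : k, f * (a * (φ * e)) = t • 1 := ⟨_, Matrix.ext fun i j => by
    rw [Subsingleton.elim i 0, Subsingleton.elim j 0, Matrix.smul_apply, one_apply_eq, smul_eq_mul,
      mul_one]⟩
  have t0 : t ≠ 0 := fun e' => h0 (by simpa only [mx, e', zero_smul] using ht)
  have ht' : ∀ {m : ℕ} (Z : Rm 1 m k), f * (a * (φ * (e * Z))) = t • Z := fun Z => by
    simpa only [mx] using congrArg (· * Z) ht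
  have F' := F.cj R.c
  have d1 : (φ * ((1 - (2 : k) • (e * f)) * a) * (φ * (1 - (2 : k) • (e * f)) * a)).det = 0 := by
    rw [det_mul, show φ * ((1 - (2 : k) • (e * f)) * a) = -(2 : k) • (φ * e) * (f * a) by
      simp only [mx, F.z]; module, det_21, zero_mul]
  have d2 : (φ * ((1 - (2 : k) • (e * f)) * a) * (φ * (1 - (2 : k) • (e * f)) * a)).trace =
      4 * t * t := by
    simp only [mx, F.z, zero_sub, neg_neg, ht', trace_smul, trace_neg, smul_neg]
    rw [← Matrix.mul_assoc, trace_mul_comm, Matrix.mul_assoc, ht]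
    simp
    ring
  have h2 := H.two
  obtain ⟨h3, s1, s2⟩ := H.p2 F F' p d1 d2 (mul_ne_zero (mul_ne_zero
    (by rw [show (4 : k) = 2 * 2 by norm_num]; exact mul_ne_zero h2 h2) t0) t0)
  have tt : t * t = -1 := by
    refine (mul_self_eq_one_iff.1 (show t * t * (t * t) = 1 by grind)).resolve_left fun tt => ?_
    obtain ⟨g, hg⟩ := hN.2
    have : a * φ = t • (a * (φ * e)) * (f * (a * φ)) := by
      simp only [mx, asc R.h, asc F.z, ht', smul_zero, sub_zero, zero_sub, smul_neg, smul_sub,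
        neg_neg, smul_smul] at s2 ⊢
      rw [← sub_eq_zero] at s2 ⊢
      rw [← neg_eq_zero.2 s2]
      clear ht' s2
      match_scalars <;> grind
    exact h0 (by rw [H.nt1 hg (this ▸ (rank_mul_le_left _ _).trans (rank_le_width _))]; simp)
  obtain ⟨c, γ, X, x1, x2⟩ := xq F F' h3 d1 (d2.trans (by grind)) (by
    rw [show 4 * t * t = -1 by grind] at s2
    linear_combination (norm := module) s2)
  have x3 : 1 - (2 : k) • (e * f) = emb X.h (-t • q2) := by
    have : emb X.h (-t • q2) = 1 - c * γ - t • (emb X.h q2 - 1 + c * γ) := by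
      simp only [emb_apply, mx]; module
    rw [this, x1, x2]
    simp only [mx, asc R.h, asc F.z, ht', smul_zero, sub_zero, zero_sub, smul_neg, smul_sub,
      neg_neg, smul_smul, add_zero]
    match_scalars <;> grind
  refine ⟨c, γ, X, t, tt, ?_, ?_⟩
  · have := cj_emb X.h (x3 ▸ R.c) (X.neg X.c2)
    simpa only [mx, neg_neg, (qu h3).2.1.sq, smul_neg, neg_smul] using this
  · rw [x1]
    simp only [mx, R.h, asc R.h, asc F.z, ht', ht, smul_zero, sub_zero, zero_sub, smul_neg, smul_sub,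
      neg_neg, smul_smul, add_zero]
    match_scalars <;> grind

theorem xrf (X : XQ ρ c γ) : ∃ (N : M5 k) (e : Rm 5 1 k) (f : Rm 1 5 k), Nq ρ N ∧
    (γ * N * c).det ≠ 0 ∧ RF ρ e f ∧ N * e = 0 ∧ f * N = 0 ∧ γ * e = 0 ∧ f * c = 0 := by
  obtain ⟨N, hN, h0⟩ := H.f2 X
  have h1 : (γ * N * c).det ≠ 0 := fun e => h0 (H.d0 p X hN e)
  obtain ⟨a, φ, rfl, F⟩ := H.fc hN (by rintro rfl; simp at h0)
  have h2 : (γ * a).det * (φ * c).det ≠ 0 := by rwa [← det_mul, ← Matrix.mul_assoc, Matrix.mul_assoc γ]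
  have h3 : φ * (emb X.h (-1) * a) = -(2 : k) • (φ * c * (γ * a)) := by
    simp only [emb_apply, mx, F.z]; module
  obtain ⟨e, f, R, e1, e2, e3, e4⟩ := H.p3 p F (F.cj X.cz) (by
    rw [Matrix.mul_assoc φ _ a, h3, det_mul, det_smul, det_mul, mul_self_ne_zero, mul_comm (det _)]
    exact mul_ne_zero (pow_ne_zero _ (neg_ne_zero.2 H.two)) h2)
  refine ⟨_, e, f, hN, h1, R, by rw [Matrix.mul_assoc, e1, Matrix.mul_zero],
    by rw [← Matrix.mul_assoc, e3, Matrix.zero_mul], by_contra fun n => ?_, by_contra fun n => ?_⟩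
  · refine right_ne_zero_of_mul h2 (det_ker (smul_right_injective _ H.two ?_) n)
    simp only [emb_apply, mx, e1] at e2 ⊢
    linear_combination (norm := module) -e2
  · refine left_ne_zero_of_mul h2 ?_
    rw [← det_transpose]
    refine det_ker (v := (f * c)ᵀ) ?_ fun e => n (transpose_eq_zero.1 e)
    rw [← transpose_mul, transpose_eq_zero]
    refine smul_right_injective _ H.two ?_
    simp only [emb_apply, mx, e3] at e4 ⊢
    linear_combination (norm := module) -e4

end Hs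

end Cfsg.Agent.L5.S
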