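import Cfsg.Agent.H4.Npc

/-!
Frobenius' criterion for perfect groups, in terms of automizers of `p`-subgroups.
-/

set_option autoImplicit false

namespace Cfsg.Agent.L5.Solv

open Cfsg.Agent.H4.Npc Subgroup
open scoped Pointwise commutatorElement

variable {G : Type*} [Group G] [Finite G] {p : ℕ} [hp : Fact p.Prime]

/-- Elements of prime power order prime to `p` normalising a `p`-subgroup centralise it. -/
def NC (p : ℕ) (G : Type*) [Group G] : Prop :=
  ∀ X : Subgroup G, IsPGroup p X → ∀ r n : ℕ, r.Prime → r ≠ p → ∀ y ∈ normalizer (X : Set G),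
    y ^ r ^ n = 1 → y ∈ centralizer (X : Set G)

variable (H : NC p G)
include H

theorem fac {D : Subgroup G} (hD : IsPGroup p D) (S : Sylow p (normalizer (D : Set G)))
    (g : normalizer (D : Set G)) :
    ∃ c s : normalizer (D : Set G), (c : G) ∈ centralizer (D : Set G) ∧ s ∈ S ∧ g = c * s := by
  let K := (centralizer (D : Set G)).subgroupOf (normalizer (D : Set G))
  haveI : K.Normal := inferInstance
  have h1 : K ⊔ (S : Subgroup _) = ⊤ := by
    rw [← index_eq_one]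
    by_contra h
    obtain ⟨r, hr, hd⟩ := Nat.exists_prime_and_dvd h
    have hrp : r ≠ p := fun e => S.not_dvd_index
      ((dvd_of_eq e.symm).trans (hd.trans (index_dvd_of_le le_sup_right)))
    haveI := Fact.mk hr
    obtain ⟨R⟩ : Nonempty (Sylow r (normalizer (D : Set G))) := inferInstance
    refine R.not_dvd_index (hd.trans (index_dvd_of_le (le_trans (fun y hy => ?_) le_sup_left)))
    obtain ⟨n, hn⟩ := R.2 ⟨y, hy⟩
    exact H D hD r n hr hrp y y.2 (congrArg (fun x : R => ((x : normalizer (D : Set G)) : G)) hn)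
  obtain ⟨c, hc, s, hs, e⟩ := mem_sup_of_normal_left.1 (h1.ge (mem_top g))
  exact ⟨c, s, hc, hs, e.symm⟩

theorem conj_centralizer (D : Subgroup G) : ∀ P Q : Sylow p G, (P : Subgroup G) ⊓ Q = D →
    ∃ c ∈ centralizer (D : Set G), c • P = Q := by
  induction D using WellFoundedGT.induction with
  | ind D ih =>
  intro P Q hD
  by_cases hPQ : P = Q
  · exact ⟨1, one_mem _, by rw [one_smul, hPQ]⟩
  have hDP : D < P := lt_of_le_of_ne (hD ▸ inf_le_left) fun e => hPQ (Sylow.ext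
    (P.3 Q.2 (e ▸ hD ▸ inf_le_right)).symm)
  have hDQ : D < Q := lt_of_le_of_ne (hD ▸ inf_le_right) fun e => hPQ (Sylow.ext
    (Q.3 P.2 (e ▸ hD ▸ inf_le_left)))
  have hDp : IsPGroup p D := P.2.to_le hDP.le
  obtain ⟨S, hS⟩ := (P.2.comap_subtype (K := normalizer (D : Set G))).exists_le_sylow
  obtain ⟨T, hT⟩ := (Q.2.comap_subtype (K := normalizer (D : Set G))).exists_le_sylow
  obtain ⟨R, hR⟩ := (S.2.map (normalizer (D : Set G)).subtype).exists_le_sylow
  obtain ⟨n, hn⟩ := MulAction.exists_smul_eq (normalizer (D : Set G)) S T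
  obtain ⟨k, s, hkC, hs, rfl⟩ := fac H hDp S n
  have hsS : s • S = S := Sylow.smul_eq_iff_mem_normalizer.2 (le_normalizer hs)
  rw [mul_smul, hsS] at hn
  have h1 : D < (P : Subgroup G) ⊓ R := (lt_inf_normalizer P.2 hDP).trans_le
    (le_inf inf_le_left fun y hy => hR ⟨⟨y, hy.2⟩, hS hy.1, rfl⟩)
  obtain ⟨x, hx1, hx2⟩ := ih _ h1 P R rfl
  have h2 : D < (((k : G) • R : Sylow p G) : Subgroup G) ⊓ Q := (lt_inf_normalizer Q.2 hDQ).trans_le
    (le_inf (fun y hy => by
      have h3 : (⟨y, hy.2⟩ : normalizer (D : Set G)) ∈ k • S := hn ▸ hT hy.1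
      exact mem_smul.2 (hR ⟨_, mem_smul.1 h3, rfl⟩)) inf_le_left)
  obtain ⟨z, hz1, hz2⟩ := ih _ h2 _ Q rfl
  refine ⟨z * k * x, mul_mem (mul_mem ?_ hkC) ?_, ?_⟩
  · exact centralizer_le h2.le hz1
  · exact centralizer_le h1.le hx1
  · rw [mul_smul, mul_smul, hx2, hz2]

theorem fusion (P : Sylow p G) {x g : G} (hx : x ∈ P) (hy : g * x * g⁻¹ ∈ P) :
    ∃ u ∈ P, g * x * g⁻¹ = u * x * u⁻¹ := by
  obtain ⟨c, hc1, hc2⟩ := conj_centralizer H _ (g • P) P rfl
  have h1 := hc1 (g * x * g⁻¹) ⟨mem_smul.2 (by simpa [mul_assoc] using hx), hy⟩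
  rw [smul_smul, Sylow.smul_eq_iff_mem_normalizer] at hc2
  obtain ⟨k, s, hkC, hs, e⟩ := fac H P.2 (P.subtype le_normalizer) ⟨_, hc2⟩
  have e' : c * g = k * s := congrArg Subtype.val e
  have hs' : (s : G) ∈ P := hs
  refine ⟨s, hs', ?_⟩
  have h2 := hkC (s * x * (s : G)⁻¹) (mul_mem (mul_mem hs' hx) (inv_mem hs'))
  calc g * x * g⁻¹ = c * (g * x * g⁻¹) * c⁻¹ := by rw [← h1, mul_inv_cancel_right]
    _ = (c * g) * x * (c * g)⁻¹ := by group
    _ = k * (s * x * (s : G)⁻¹) * (k : G)⁻¹ := by rw [e']; group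
    _ = s * x * (s : G)⁻¹ := by rw [← h2, mul_inv_cancel_right]

theorem frob (hP : _root_.commutator G = ⊤) : ¬ p ∣ Nat.card G := by
  obtain ⟨P⟩ : Nonempty (Sylow p G) := inferInstance
  have h2 := commutator_inf_eq_focalSubgroup P
  rw [hP, top_inf_eq] at h2
  have h3 : (P : Subgroup G) ≤ ⁅(P : Subgroup G), (P : Subgroup G)⁆ := by
    conv_lhs => rw [h2, focalSubgroup_def]
    rw [closure_le]
    rintro _ ⟨hg, x, hx, u, rfl⟩
    have h4 : u * x⁻¹ * u⁻¹ ∈ (P : Subgroup G) := by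
      simpa [commutatorElement_def, mul_assoc] using mul_mem (inv_mem hx) hg
    obtain ⟨s, hs, e⟩ := fusion H P (inv_mem hx) h4
    have : ⁅x, u⁆ = ⁅x, s⁆ := by
      simp only [commutatorElement_def, mul_assoc] at e ⊢
      rw [e]
    rw [this]
    exact commutator_mem_commutator hx hs
  have h4 : ∀ n, (P : Subgroup G) ≤ (P : Subgroup G).lowerCentralSeries n := by
    intro n
    induction n with
    | zero => exact le_rfl
    | succ n ih => exact h3.trans (commutator_mono ih le_rfl)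
  obtain ⟨n, hn⟩ := (isNilpotent_iff_lowerCentralSeries (P : Subgroup G)).1 P.2.isNilpotent
  exact fun h => P.ne_bot_of_dvd_card h (le_bot_iff.1 (hn ▸ h4 n))

end Cfsg.Agent.L5.Solv
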