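import Cfsg.Agent.H7.LinRed
import Cfsg.Agent.H6.M1

/-!
Irreducible subgroups of `SL₅(F)` containing transvections: basic calculus.
-/

set_option autoImplicit false
set_option linter.unusedSectionVars false

namespace Cfsg.Agent.L5.T

open Module H7

variable {F V : Type*} [Field F] [AddCommGroup V] [Module F V]

/-- the transvection `x ↦ x + φ x • u` lies in `X` -/
structure Tr (X : Subgroup (V ≃ₗ[F] V)) (u : V) (φ : Dual F V) : Prop where
  z : φ u = 0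
  tv : TV X φ u

/-- basic hypotheses -/
structure Hy0 (X : Subgroup (V ≃ₗ[F] V)) : Prop where
  dim : finrank F V = 5
  irr : ∀ U : Submodule F V, (∀ g ∈ X, ∀ x ∈ U, g x ∈ U) → U = ⊥ ∨ U = ⊤
  gen : ∀ K : Subgroup (V ≃ₗ[F] V), ∀ t ∈ X, (∀ c : F, ∃ x, t x ≠ c • x) →
    (∀ g ∈ X, g * t * g⁻¹ ∈ K) → X ≤ K

/-- all hypotheses -/
structure Hy (X : Subgroup (V ≃ₗ[F] V)) : Prop extends Hy0 X where
  perf : commutator X = ⊤
  tr : ∀ L : Subfield F, (∀ g ∈ X, LinearMap.trace F V (g : V →ₗ[F] V) ∈ L) → L = ⊤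

variable {X : Subgroup (V ≃ₗ[F] V)} {u v w x : V} {φ ψ χ : Dual F V}

theorem ex_ne (h : φ ≠ 0) : ∃ x, φ x ≠ 0 := by
  by_contra c
  push Not at c
  exact h (LinearMap.ext c)

theorem ne_of_ap (h : φ x ≠ 0) : φ ≠ 0 := fun e => h (by simp [e])

theorem ne_of_ap' (h : φ x ≠ 0) : x ≠ 0 := fun e => h (by simp [e])

@[simp] theorem inv_ap (g : V ≃ₗ[F] V) (x : V) : g⁻¹ x = g.symm x := rfl

namespace Tr

theorem zero_ax (u : V) : Tr X u 0 := ⟨rfl, TV.zero_left u⟩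

theorem zero_ce (φ : Dual F V) : Tr X 0 φ := ⟨map_zero _, TV.zero_right φ⟩

theorem cast {u' : V} {φ' : Dual F V} (h : Tr X u φ) (e : ∀ x, φ x • u = φ' x • u')
    (z : φ' u' = 0) : Tr X u' φ' :=
  ⟨z, Has.congr h.tv.has fun x => by simp only [e]⟩

theorem act (h : Tr X u φ) {g : V ≃ₗ[F] V} (hg : g ∈ X) :
    Tr X (g u) (φ ∘ₗ (g.symm : V →ₗ[F] V)) :=
  ⟨by simp [h.z], h.tv.conj' hg⟩

theorem act' (h : Tr X u φ) {g : V ≃ₗ[F] V} (hg : g ∈ X) (e : ∀ x, ψ (g x) = φ x) :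
    Tr X (g u) ψ :=
  ⟨by rw [e, h.z], h.tv.conj hg e⟩

theorem conj (h : Tr X u φ) (h' : Tr X v ψ) : Tr X (v + φ v • u) (ψ - ψ u • φ) :=
  ⟨by simp [h.z, h'.z, mul_comm], h'.tv.conj_tv h.tv h.z⟩

theorem add (h : Tr X u φ) (h' : Tr X u ψ) : Tr X u (φ + ψ) :=
  ⟨by simp [h.z, h'.z], h.tv.add_left h'.tv h.z⟩

theorem add' (h : Tr X u φ) (h' : Tr X v φ) : Tr X (u + v) φ :=
  ⟨by simp [h.z, h'.z], h.tv.add_right h'.tv h'.z⟩

theorem neg (h : Tr X u φ) : Tr X u (-φ) := ⟨by simp [h.z], h.tv.neg_left h.z⟩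

theorem neg' (h : Tr X u φ) : Tr X (-u) φ := ⟨by simp [h.z], h.tv.neg_right h.z⟩

theorem sub (h : Tr X u φ) (h' : Tr X u ψ) : Tr X u (φ - ψ) := by
  rw [sub_eq_add_neg]; exact h.add h'.neg

theorem smul {c : F} (h : Tr X u (c • φ)) : Tr X (c • u) φ :=
  ⟨by simpa using h.z, (TV.smul_swap c).1 h.tv⟩

theorem smul' {c : F} (h : Tr X (c • u) φ) : Tr X u (c • φ) :=
  ⟨by simpa using h.z, (TV.smul_swap c).2 h.tv⟩

theorem scale (h : Tr X u φ) {c : F} (hc : c ≠ 0) : Tr X (c⁻¹ • u) (c • φ) :=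
  smul (by rwa [smul_smul, inv_mul_cancel₀ hc, one_smul])

theorem scale' (h : Tr X u φ) {c : F} (hc : c ≠ 0) : Tr X (c • u) (c⁻¹ • φ) :=
  smul (by rwa [smul_smul, mul_inv_cancel₀ hc, one_smul])

theorem comm (h : Tr X u φ) (h' : Tr X v ψ) (e : ψ u = 0) : Tr X u (φ v • ψ) :=
  smul' ⟨by simp [e], h.tv.comm h'.tv h.z h'.z e⟩

theorem nsmul (h : Tr X u φ) (n : ℕ) : Tr X u ((n : F) • φ) := by
  induction n with
  | zero => simpa using zero_ax u
  | succ n ih => simpa [add_smul] using ih.add h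

theorem half (p : ℕ) [Fact p.Prime] [CharP F p] (hp : p ≠ 2) (h : Tr X u ((2 : F) • φ)) :
    Tr X u φ := by
  obtain ⟨n, hn⟩ := (Fact.out : p.Prime).odd_of_ne_two hp
  have e : (2 * n + 1 : F) = 0 := by exact_mod_cast hn ▸ CharP.cast_eq_zero F p
  have := h.nsmul (n + 1)
  rwa [smul_smul, show ((n + 1 : ℕ) : F) * 2 = 1 by push_cast; linear_combination e, one_smul] at this

end Tr

/-- a submonoid of a finite group -/
def mkSub {G : Type*} [Group G] [Finite G] (S : G → Prop) (h1 : S 1)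
    (hm : ∀ a b, S a → S b → S (a * b)) : Subgroup G where
  carrier := {g | S g}
  one_mem' := h1
  mul_mem' := hm _ _
  inv_mem' {g} hg := by
    have k : ∀ n : ℕ, S (g ^ n) := fun n => by
      induction n with
      | zero => simpa using h1
      | succ n ih => rw [pow_succ]; exact hm _ _ ih hg
    have := k (orderOf g - 1)
    rwa [eq_inv_of_mul_eq_one_left (a := g ^ (orderOf g - 1)) (b := g) (by
      rw [← pow_succ, Nat.sub_add_cancel (orderOf_pos g), pow_orderOf_eq_one])] at this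

theorem mem_mkSub {G : Type*} [Group G] [Finite G] {S : G → Prop} {h1 : S 1}
    {hm : ∀ a b, S a → S b → S (a * b)} {g : G} : g ∈ mkSub S h1 hm ↔ S g := Iff.rfl

instance finLE [Finite V] : Finite (V ≃ₗ[F] V) :=
  Finite.of_injective (fun g : V ≃ₗ[F] V => (g : V → V)) DFunLike.coe_injective

/-- the field of multipliers -/
def LL [Finite F] (X : Subgroup (V ≃ₗ[F] V)) : Subfield F :=
  let s : Subring F :=
    { carrier := {l | ∀ u φ, Tr X u φ → Tr X u (l • φ)}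
      mul_mem' := fun ha hb u c t => by simpa [mul_smul] using ha _ _ (hb u c t)
      one_mem' := fun u c t => by simpa using t
      add_mem' := fun ha hb u c t => by simpa [add_smul] using (ha u c t).add (hb u c t)
      zero_mem' := fun u c _ => by simpa using Tr.zero_ax u
      neg_mem' := fun {a} ha u c t => (neg_smul a c).symm ▸ (ha u c t).neg }
  { s with inv_mem' := H6.M3.inv_mem_subring' s }

theorem mem_LL [Finite F] {l : F} : l ∈ LL X ↔ ∀ u φ, Tr X u φ → Tr X u (l • φ) := Iff.rfl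

theorem Tr.ll [Finite F] (h : Tr X u φ) {l : F} (hl : l ∈ LL X) : Tr X u (l • φ) := hl u φ h

theorem fix_mod {α : Type*} (p : ℕ) [Fact p.Prime] (f : α → α) (hf : ∀ x, f^[p] x = x) (O : Set α)
    (hO : O.Finite) (hi : ∀ y ∈ O, f y ∈ O) : O.ncard ≡ {y ∈ O | f y = y}.ncard [MOD p] := by
  classical
  have := hO.fintype
  let g : Function.End O := fun y => ⟨f y, hi y y.2⟩
  have k : ∀ n (y : O), ((g ^ n) y : α) = f^[n] y := fun n => by
    induction n with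
    | zero => intro y; rfl
    | succ n ih => intro y; rw [pow_succ, Function.iterate_succ_apply]; exact ih (g y)
  have e := Equiv.Perm.card_fixedPoints_modEq (f := g) (p := p) (n := 1)
    (by funext y; exact Subtype.ext (by rw [pow_one, k, hf]; rfl))
  rw [Set.ncard_eq_toFinset_card', Set.toFinset_card]
  convert e using 1
  rw [← Nat.card_eq_fintype_card, ← Nat.card_coe_set_eq]
  exact Nat.card_congr ⟨fun y => ⟨⟨y.1, y.2.1⟩, Subtype.ext y.2.2⟩,
    fun y => ⟨y.1.1, y.1.2, congrArg Subtype.val y.2⟩, fun _ => rfl, fun _ => rfl⟩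

theorem dec (h1 : φ u = 0) (h2 : ψ v = 0) (a : φ v ≠ 0) (b : ψ u ≠ 0) (x : V) :
    ∃ z, φ z = 0 ∧ ψ z = 0 ∧ x = (ψ x / ψ u) • u + (φ x / φ v) • v + z :=
  ⟨x - (ψ x / ψ u) • u - (φ x / φ v) • v, by simp [h1, a], by simp [h2, b], by abel⟩

theorem ext3 {W : Type*} [AddCommGroup W] [Module F W] (h1 : φ u = 0) (h2 : ψ v = 0)
    (a : φ v ≠ 0) (b : ψ u ≠ 0) {f g : V →ₗ[F] W} (e1 : f u = g u) (e2 : f v = g v)
    (e3 : ∀ z, φ z = 0 → ψ z = 0 → f z = g z) (x : V) : f x = g x := by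
  obtain ⟨z, z1, z2, e⟩ := dec h1 h2 a b x
  rw [e]
  simp only [map_add, map_smul, e1, e2, e3 z z1 z2]

section swap
variable [Finite V] (p : ℕ) [Fact p.Prime] [CharP F p]
include p

theorem swap (h : Tr X u φ) (h' : Tr X v ψ) (a : φ v ≠ 0) (b : ψ u ≠ 0) :
    ∃ g ∈ X, (∀ x, φ x = 0 → ψ x = 0 → g x = x) ∧ ∃ c : F, c ≠ 0 ∧ g u = c • v := by
  by_contra hc
  push Not at hc
  have u0 := ne_of_ap' b
  have : Finite F := Finite.of_injective (fun c : F => c • u) (smul_left_injective F u0)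
  let O : Set V := {y | (∃ α β : F, y = α • u + β • v) ∧ ∃ g ∈ X,
    (∀ x, φ x = 0 → ψ x = 0 → g x = x) ∧ ∃ c : F, c ≠ 0 ∧ y = c • g u}
  have key : ∀ {w : V} {χ : Dual F V}, Tr X w χ → (∃ α β : F, w = α • u + β • v) →
      (∀ x, φ x = 0 → ψ x = 0 → χ x = 0) →
      O.ncard ≡ {y ∈ O | y + χ y • w = y}.ncard [MOD p] := fun {w χ} t hw hχ => by
    refine fix_mod p (fun y => y + χ y • w) (fun x => ?_) O (Set.toFinite _) ?_
    · have : ∀ n : ℕ, (fun y => y + χ y • w)^[n] x = x + ((n : F) * χ x) • w := fun n => by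
        induction n with
        | zero => simp
        | succ n ih =>
          rw [Function.iterate_succ_apply', ih]
          simp only [map_add, map_smul, t.z, smul_eq_mul, mul_zero, add_zero]
          push_cast; module
      rw [this]; simp
    · rintro y ⟨⟨α, β, e⟩, g, hg, g1, c, c0, e'⟩
      obtain ⟨α', β', rfl⟩ := hw
      obtain ⟨s, hs, es⟩ := t.tv
      refine ⟨⟨α + χ y * α', β + χ y * β', by rw [e]; module⟩, s * g, mul_mem hs hg,
        fun x x1 x2 => by simp [g1 x x1 x2, es, hχ x x1 x2], c, c0, ?_⟩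
      rw [LinearEquiv.mul_apply, ← map_smul, ← e', es]
  have k1 := key h ⟨1, 0, by simp⟩ fun x a _ => a
  have k2 := key h' ⟨0, 1, by simp⟩ fun x _ a => a
  have e1 : {y ∈ O | y + φ y • u = y} = (fun c : F => c • u) '' {0}ᶜ := by
    ext y
    constructor
    · rintro ⟨⟨⟨α, β, e⟩, g, hg, g1, c, c0, e'⟩, e2⟩
      have : β = 0 := by simpa [u0, e, h.z, a] using e2
      refine ⟨α, fun e3 => ?_, by simp [e, this]⟩
      rw [Set.mem_singleton_iff] at e3
      rw [e3, this] at e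
      exact u0 (by simpa [e, c0, eq_comm (a := (0 : V))] using e')
    · rintro ⟨c, c0, rfl⟩
      exact ⟨⟨⟨c, 0, by simp⟩, 1, one_mem _, fun _ _ _ => rfl, c, c0, rfl⟩, by simp [h.z]⟩
  have e2 : {y ∈ O | y + ψ y • v = y} = ∅ := by
    ext y
    simp only [Set.mem_empty_iff_false, iff_false]
    rintro ⟨⟨⟨α, β, e⟩, g, hg, g1, c, c0, e'⟩, e2⟩
    have : α = 0 := by simpa [ne_of_ap' a, e, h'.z, b] using e2
    rw [this, zero_smul, zero_add] at e
    refine hc g hg g1 (c⁻¹ * β) (fun e3 => ?_) (by rw [mul_smul, ← e, e', inv_smul_smul₀ c0])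
    have : β = 0 := by simpa [c0] using e3
    rw [this, zero_smul] at e
    exact u0 (by simpa [e, c0, eq_comm (a := (0 : V))] using e')
  rw [e1, Set.ncard_image_of_injective _ (smul_left_injective F u0)] at k1
  rw [e2, Set.ncard_empty] at k2
  have e3 := Set.ncard_add_ncard_compl ({0} : Set F)
  rw [Set.ncard_singleton] at e3
  have e4 : p ∣ Nat.card F := by
    have := Fintype.ofFinite F
    rw [Nat.card_eq_fintype_card]
    exact (CharP.cast_eq_zero_iff F p _).1 (FiniteField.cast_card_eq_zero F)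
  have e5 : p ∣ ({0} : Set F)ᶜ.ncard := (Nat.modEq_zero_iff_dvd).1 (k1.symm.trans k2)
  rw [← e3] at e4
  exact (Fact.out : p.Prime).one_lt.ne' (Nat.dvd_one.1 ((Nat.dvd_add_left e5).1 e4))

end swap

namespace Hy0

variable (h : Hy0 X)
include h

theorem fd : FiniteDimensional F V := Module.finite_of_finrank_pos (by rw [h.dim]; norm_num)

theorem genT (t : Tr X v ψ) (v0 : v ≠ 0) (ψ0 : ψ ≠ 0) (K : Subgroup (V ≃ₗ[F] V))
    (H : ∀ g ∈ X, ∀ s ∈ X, (∀ x, s x = x + ψ (g.symm x) • g v) → s ∈ K) : X ≤ K := by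
  obtain ⟨s, hs, e⟩ := t.tv
  refine h.gen K s hs (fun c => ?_) fun g hg => H g hg _ (mul_mem (mul_mem hg hs) (inv_mem hg))
    fun x => by simp [e]
  by_cases c1 : c = 1
  · obtain ⟨x, hx⟩ := ex_ne ψ0
    exact ⟨x, by simp [e, c1, hx, v0]⟩
  · refine ⟨v, fun e1 => c1 ?_⟩
    rw [e, t.z, zero_smul, add_zero] at e1
    exact (smul_left_injective F v0 (by simpa using e1.symm))

theorem irrC (t : Tr X v ψ) (v0 : v ≠ 0) (ψ0 : ψ ≠ 0) (U : Submodule F V)
    (H : ∀ g ∈ X, ∀ x ∈ U, ψ (g.symm x) • g v ∈ U) : U = ⊥ ∨ U = ⊤ := by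
  have := h.fd
  have := h.genT t v0 ψ0 (stab U) fun g hg s _ e =>
    mem_stab_of_forall fun x hx => e x ▸ U.add_mem hx (H g hg x hx)
  exact h.irr U fun g hg x hx => (this hg x).1 hx

theorem irrT (t : Tr X v ψ) (v0 : v ≠ 0) (ψ0 : ψ ≠ 0) (U : Submodule F V)
    (H : ∀ w χ, Tr X w χ → ∀ x ∈ U, χ x ≠ 0 → w ∈ U) : U = ⊥ ∨ U = ⊤ :=
  h.irrC t v0 ψ0 U fun g hg x hx => by
    by_cases e : ψ (g.symm x) = 0
    · simp [e]
    exact U.smul_mem _ (H _ _ (t.act hg) x hx e)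

theorem orb (φ0 : φ ≠ 0) (v0 : v ≠ 0) : ∃ g ∈ X, φ (g v) ≠ 0 := by
  by_contra c
  push Not at c
  let U : Submodule F V :=
    { carrier := {y | ∀ g ∈ X, φ (g y) = 0}
      add_mem' := fun ha hb g hg => by simp [ha g hg, hb g hg]
      zero_mem' := fun g _ => by simp
      smul_mem' := fun c _ ha g hg => by simp [ha g hg] }
  rcases h.irr U fun g hg x hx g' hg' => hx (g' * g) (mul_mem hg' hg) with e | e
  · exact v0 ((Submodule.mem_bot F).1 (e ▸ (c : v ∈ U)))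
  · exact φ0 (LinearMap.ext fun y => (e ▸ Submodule.mem_top : y ∈ U) 1 (one_mem _))

theorem opp (t : Tr X v ψ) (v0 : v ≠ 0) (ψ0 : ψ ≠ 0) (φ0 : φ ≠ 0) (x0 : x ≠ 0) :
    ∃ g ∈ X, φ (g v) ≠ 0 ∧ ψ (g.symm x) ≠ 0 := by
  by_contra c
  push Not at c
  let U : Submodule F V :=
    { carrier := {y | ∀ g ∈ X, φ (g v) ≠ 0 → ψ (g.symm y) = 0}
      add_mem' := fun ha hb g hg e => by simp [ha g hg e, hb g hg e]
      zero_mem' := fun g _ _ => by simp
      smul_mem' := fun c _ ha g hg e => by simp [ha g hg e] }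
  rcases h.irrC t v0 ψ0 U fun g' hg' y hy => (by
    by_cases e : ψ (g'.symm y) = 0
    · simp [e]
    refine U.smul_mem _ fun g hg e1 => by_contra fun e2 => ?_
    have e3 : φ (g' v) = 0 := by_contra fun a => e (hy g' hg' a)
    obtain ⟨s, hs, es⟩ := (t.act hg).tv
    have e4 : s y = y := by simp [es, hy g hg e1]
    have := hy (s * g') (mul_mem hs hg') (by simp [es, e1, e2, e3])
    refine e ?_
    rwa [show (s * g').symm y = g'.symm y by
      rw [LinearEquiv.symm_apply_eq, LinearEquiv.mul_apply, LinearEquiv.apply_symm_apply, e4]] at this)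
    with e | e
  · exact x0 ((Submodule.mem_bot F).1 (e ▸ (c : x ∈ U)))
  · obtain ⟨g, hg, e1⟩ := h.orb φ0 v0
    exact ψ0 (LinearMap.ext fun y => by simpa using (e ▸ Submodule.mem_top : g y ∈ U) g hg e1)

theorem opp' (t : Tr X v ψ) (v0 : v ≠ 0) (ψ0 : ψ ≠ 0) (φ0 : φ ≠ 0) (x0 : x ≠ 0) :
    ∃ w χ, Tr X w χ ∧ φ w ≠ 0 ∧ χ x ≠ 0 :=
  let ⟨_, hg, e⟩ := h.opp t v0 ψ0 φ0 x0
  ⟨_, _, t.act hg, e⟩

theorem two (φ ψ : Dual F V) : ∃ z, z ≠ 0 ∧ φ z = 0 ∧ ψ z = 0 := by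
  have := h.fd
  have a := finrank_inf_ker_ge (⊤ : Submodule F V) φ
  have b := finrank_inf_ker_ge (⊤ ⊓ LinearMap.ker φ) ψ
  rw [finrank_top, h.dim] at a
  obtain ⟨x, hx, x0⟩ := exists_notMem_of_finrank_lt (U := ⊥) (W := ⊤ ⊓ LinearMap.ker φ ⊓ LinearMap.ker ψ)
    (by rw [finrank_bot]; omega)
  exact ⟨x, x0, hx.1.2, hx.2⟩

theorem three (φ ψ χ : Dual F V) : ∃ z, z ≠ 0 ∧ φ z = 0 ∧ ψ z = 0 ∧ χ z = 0 := by
  have := h.fd
  have a := finrank_inf_ker_ge (⊤ : Submodule F V) φ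
  have b := finrank_inf_ker_ge (⊤ ⊓ LinearMap.ker φ) ψ
  have c := finrank_inf_ker_ge (⊤ ⊓ LinearMap.ker φ ⊓ LinearMap.ker ψ) χ
  rw [finrank_top, h.dim] at a
  obtain ⟨x, hx, x0⟩ := exists_notMem_of_finrank_lt (U := ⊥)
    (W := ⊤ ⊓ LinearMap.ker φ ⊓ LinearMap.ker ψ ⊓ LinearMap.ker χ) (by rw [finrank_bot]; omega)
  exact ⟨x, x0, hx.1.1.2, hx.1.2, hx.2⟩

theorem lines (S : Set (Submodule F V)) (hne : S.Nonempty) (h2 : ∀ l ∈ S, finrank F l = 2)
    (hm : ∀ l ∈ S, ∀ l' ∈ S, ∃ x, x ≠ 0 ∧ x ∈ l ∧ x ∈ l')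
    (hi : ∀ g ∈ X, ∀ l ∈ S, l.map (g : V →ₗ[F] V) ∈ S) : False := by
  have := h.fd
  obtain ⟨l1, h1⟩ := hne
  have nb : ∀ l ∈ S, l ≠ ⊥ := fun l hl e => by
    have := h2 l hl
    rw [e, finrank_bot] at this
    omega
  have sup : ∀ U : Submodule F V, finrank F U < 5 → ∃ l ∈ S, ¬l ≤ U := fun U hU => by
    by_contra c
    push Not at c
    rcases h.irr (sSup S) fun g hg x hx => (show sSup S ≤ (sSup S).comap (g : V →ₗ[F] V) from
      sSup_le fun l hl => Submodule.map_le_iff_le_comap.1 (le_sSup (hi g hg l hl))) hx with e | e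
    · exact nb l1 h1 (eq_bot_iff.2 (e ▸ le_sSup h1))
    · have : U = ⊤ := eq_top_iff.2 (e ▸ sSup_le c)
      rw [this, finrank_top, h.dim] at hU
      omega
  have inf : ∀ x, x ≠ 0 → ∃ l ∈ S, x ∉ l := fun x x0 => by
    by_contra c
    push Not at c
    rcases h.irr (sInf S) fun g hg x hx => Submodule.mem_sInf.2 fun l hl => by
      obtain ⟨y, hy, e⟩ := Submodule.mem_sInf.1 hx _ (hi g⁻¹ (inv_mem hg) l hl)
      simpa [← e] using hy with e | e
    · exact x0 ((Submodule.mem_bot F).1 (e ▸ Submodule.mem_sInf.2 c))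
    · have : l1 = ⊤ := eq_top_iff.2 (e ▸ sInf_le h1)
      have := h2 l1 h1
      rw [‹l1 = ⊤›, finrank_top, h.dim] at this
      omega
  -- two independent vectors of a member span it
  have sp : ∀ l ∈ S, ∀ U : Submodule F V, ∀ x y, x ≠ 0 → x ∈ l → y ∈ l → x ∈ U → y ∈ U →
      y ∉ F ∙ x → l ≤ U := fun l hl U x y x0 xl yl xU yU hy => by
    have e : F ∙ x < l ⊓ U := lt_of_le_of_ne ((Submodule.span_singleton_le_iff_mem _ _).2 ⟨xl, xU⟩)
      fun e => hy (e ▸ ⟨yl, yU⟩)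
    have e1 := Submodule.finrank_lt_finrank_of_lt e
    rw [finrank_span_singleton x0] at e1
    have := Submodule.eq_of_le_of_finrank_le (inf_le_left : l ⊓ U ≤ l) (by rw [h2 l hl]; omega)
    exact this ▸ inf_le_right
  obtain ⟨l2, k2, e2⟩ := sup l1 (by rw [h2 l1 h1]; norm_num)
  obtain ⟨q, q0, q1, q2⟩ := hm l1 h1 l2 k2
  have d3 : finrank F ↥(l1 ⊔ l2) < 5 := by
    have a := Submodule.finrank_sup_add_finrank_inf_eq l1 l2
    have b : 1 ≤ finrank F ↥(l1 ⊓ l2) := by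
      rw [← finrank_span_singleton (K := F) q0]
      exact Submodule.finrank_mono ((Submodule.span_singleton_le_iff_mem _ _).2 ⟨q1, q2⟩)
    rw [h2 l1 h1, h2 l2 k2] at a
    omega
  have alt : ∀ l ∈ S, q ∉ l → l ≤ l1 ⊔ l2 := fun l hl hq => by
    obtain ⟨x, x0, xl, x1⟩ := hm l hl l1 h1
    obtain ⟨y, y0, yl, y2⟩ := hm l hl l2 k2
    refine sp l hl _ x y x0 xl yl (Submodule.mem_sup_left x1) (Submodule.mem_sup_right y2) fun e => ?_
    refine e2 (sp l2 k2 l1 y q y0 y2 q2 ((Submodule.span_singleton_le_iff_mem _ _).2 x1 e) q1 fun e' => ?_)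
    exact hq ((Submodule.span_singleton_le_iff_mem _ _).2 yl e')
  obtain ⟨l3, k3, e3⟩ := inf q q0
  obtain ⟨l4, k4, e4⟩ := sup _ d3
  have q4 : q ∈ l4 := by_contra fun e => e4 (alt l4 k4 e)
  obtain ⟨x, x0, x3, x4⟩ := hm l3 k3 l4 k4
  exact e4 (sp l4 k4 _ x q x0 x4 q4 (alt l3 k3 e3 x3) (Submodule.mem_sup_left q1)
    fun e => e3 ((Submodule.span_singleton_le_iff_mem _ _).2 x3 e))

variable [Finite V] (p : ℕ) [Fact p.Prime] [CharP F p]
include p

theorem flag (t : Tr X u φ) (u0 : u ≠ 0) (φ0 : φ ≠ 0) (s : Tr X v ψ) (v0 : v ≠ 0) (ψ0 : ψ ≠ 0) :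
    ∃ g ∈ X, ∃ c c' : F, c ≠ 0 ∧ c' ≠ 0 ∧ g u = c • v ∧ ∀ x, ψ (g x) = c' * φ x := by
  obtain ⟨g, hg, a, b⟩ := h.opp s v0 ψ0 φ0 u0
  have s' := s.act hg
  obtain ⟨g', hg', e1, c, c0, e2⟩ := swap p t s' a b
  have e3 : ∀ x, ψ (g.symm (g' x)) = ψ (g.symm (g' (g v))) / φ (g v) * φ x := fun x =>
    ext3 t.z s'.z a b (f := ψ ∘ₗ (g.symm : V →ₗ[F] V) ∘ₗ (g' : V →ₗ[F] V))
      (g := (ψ (g.symm (g' (g v))) / φ (g v)) • φ) (by simp [e2, s.z, t.z]) (by simp [a])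
      (fun z z1 z2 => by simpa [e1 z z1 z2, z1] using z2) x
  refine ⟨g⁻¹ * g', mul_mem (inv_mem hg) hg', c, _, c0, fun e => ?_, by simp [e2], e3⟩
  obtain ⟨x, hx⟩ := ex_ne ψ0
  have := e3 (g'.symm (g x))
  simp [e, hx] at this

variable [Finite F]

theorem mul_LL (t : Tr X u φ) (u0 : u ≠ 0) (φ0 : φ ≠ 0) {l : F}
    (H : ∀ a : F, Tr X u (a • φ) → Tr X u ((l * a) • φ)) : l ∈ LL X := fun v ψ s => by
  by_cases v0 : v = 0
  · exact v0 ▸ Tr.zero_ce _
  by_cases ψ0 : ψ = 0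
  · simpa [ψ0] using Tr.zero_ax v
  obtain ⟨g, hg, c, c', c0, c1, e1, e2⟩ := h.flag p t u0 φ0 s v0 ψ0
  have a : Tr X u ((c⁻¹ * c') • φ) := by
    have := s.act' (inv_mem hg) (ψ := c' • φ) fun x => by simp [← e2]
    rw [show g⁻¹ v = c⁻¹ • u by rw [inv_ap, LinearEquiv.symm_apply_eq, map_smul, e1,
      inv_smul_smul₀ c0]] at this
    simpa [mul_smul] using this.smul'
  have b := (H _ a).act' hg (ψ := (l * c⁻¹) • ψ) fun x => by simp [e2]; ring
  rw [e1] at b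
  have := b.smul'
  rwa [smul_smul, show c * (l * c⁻¹) = l by field_simp] at this

end Hy0

theorem Hy.tr_top [Finite V] (h : Hy X) (L : Subfield F) (S : Set (V × Dual F V))
    (hS : ∀ a ∈ S, ∀ b ∈ S, b.2 a.1 ∈ L)
    (hg : ∀ K : Subgroup (V ≃ₗ[F] V), (∀ g ∈ X, ∀ a ∈ S, ∀ l ∈ L,
      (∀ x, g x = x + (l * a.2 x) • a.1) → g ∈ K) → X ≤ K) : L = ⊤ := by
  have := h.fd
  let M : Submodule L (V →ₗ[F] V) :=
    Submodule.span L {f | ∃ a ∈ S, ∃ b ∈ S, f = LinearMap.smulRight b.2 a.1}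
  have m1 : ∀ f ∈ M, ∀ f' ∈ M, f * f' ∈ M := fun f hf f' hf' => by
    induction hf using Submodule.span_induction with
    | mem f hf =>
      induction hf' using Submodule.span_induction with
      | mem f' hf' =>
        obtain ⟨a, ha, b, hb, rfl⟩ := hf
        obtain ⟨a', ha', b', hb', rfl⟩ := hf'
        have := M.smul_mem ⟨_, hS a' ha' b hb⟩ (Submodule.subset_span ⟨a, ha, b', hb', rfl⟩)
        convert this using 1
        ext x
        simp [Subfield.smul_def, smul_smul, mul_comm]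
      | zero => simp
      | add y z _ _ hy hz => rw [mul_add]; exact add_mem hy hz
      | smul c y _ hy => rw [mul_smul_comm]; exact M.smul_mem c hy
    | zero => simp
    | add y z _ _ hy hz => rw [add_mul]; exact add_mem hy hz
    | smul c y _ hy => rw [smul_mul_assoc]; exact M.smul_mem c hy
  have m2 : ∀ f ∈ M, LinearMap.trace F V f ∈ L := fun f hf => by
    induction hf using Submodule.span_induction with
    | mem f hf =>
      obtain ⟨a, ha, b, hb, rfl⟩ := hf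
      rw [LinearMap.trace_smulRight]
      exact hS a ha b hb
    | zero => simp
    | add y z _ _ hy hz => rw [map_add]; exact add_mem hy hz
    | smul c y _ hy => rw [Subfield.smul_def, map_smul]; exact mul_mem c.2 hy
  have := hg (mkSub (fun g => (g : V →ₗ[F] V) - 1 ∈ M) (by
      rw [show ((1 : V ≃ₗ[F] V) : V →ₗ[F] V) - 1 = 0 from sub_self _]; exact zero_mem _)
    fun a b ha hb => by
      convert add_mem (add_mem ha hb) (m1 _ ha _ hb) using 1
      ext x; simp) fun g _ a ha l hl e => by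
    have := M.smul_mem ⟨l, hl⟩ (Submodule.subset_span ⟨a, ha, a, ha, rfl⟩)
    rw [mem_mkSub]
    convert this using 1
    ext x
    simp [Subfield.smul_def, smul_smul, e]
  refine h.tr L fun g hg => ?_
  have e := add_mem (m2 _ (this hg)) (natCast_mem L 5)
  rwa [map_sub, LinearMap.trace_one, h.dim, sub_add_cancel] at e

end Cfsg.Agent.L5.T
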