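import Cfsg.Agent.L5.T1

/-!
A centre with two axes: the group is the whole special linear group.
-/

set_option autoImplicit false
set_option linter.unusedSectionVars false

namespace Cfsg.Agent.L5.T

open Module H7

variable {F V : Type*} [Field F] [AddCommGroup V] [Module F V]
  {X : Subgroup (V ≃ₗ[F] V)} {u v w x : V} {φ ψ χ : Dual F V}

theorem Tr.pull (h : Tr X u φ) {g : V ≃ₗ[F] V} (hg : g ∈ X) :
    Tr X (g.symm u) (φ ∘ₗ (g : V →ₗ[F] V)) :=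
  h.act' (inv_mem hg) fun x => by simp

theorem two_ne (p : ℕ) [Fact p.Prime] [CharP F p] (hp : p ≠ 2) : (2 : F) ≠ 0 := fun e =>
  hp ((Nat.prime_dvd_prime_iff_eq Fact.out Nat.prime_two).1
    ((CharP.cast_eq_zero_iff F p 2).1 (by exact_mod_cast e)))

/-- `u` is the centre of a transvection -/
def Ce (X : Subgroup (V ≃ₗ[F] V)) (u : V) : Prop := u ≠ 0 ∧ ∃ φ, φ ≠ 0 ∧ Tr X u φ

theorem Ce.act (h : Ce X u) {g : V ≃ₗ[F] V} (hg : g ∈ X) : Ce X (g u) := by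
  obtain ⟨u0, φ, φ0, t⟩ := h
  obtain ⟨x, hx⟩ := ex_ne φ0
  exact ⟨by simpa using u0, _, ne_of_ap (x := g x) (by simpa using hx), t.act hg⟩

theorem Ce.smul (h : Ce X u) {c : F} (hc : c ≠ 0) : Ce X (c • u) := by
  obtain ⟨u0, φ, φ0, t⟩ := h
  exact ⟨by simp [u0, hc], _, by simp [φ0, hc], t.scale' hc⟩

/-- the common kernel of the axes -/
def ell (X : Subgroup (V ≃ₗ[F] V)) (u : V) : Submodule F V where
  carrier := {x | ∀ χ, Tr X u χ → χ x = 0}
  add_mem' ha hb χ t := by simp [ha χ t, hb χ t]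
  zero_mem' χ _ := by simp
  smul_mem' c _ ha χ t := by simp [ha χ t]

theorem mem_ell : x ∈ ell X u ↔ ∀ χ, Tr X u χ → χ x = 0 := Iff.rfl

theorem ell_act {g : V ≃ₗ[F] V} (hg : g ∈ X) : ell X (g u) = (ell X u).map (g : V →ₗ[F] V) := by
  ext x
  obtain ⟨x, rfl⟩ := g.surjective x
  simp only [Submodule.mem_map_equiv, LinearEquiv.symm_apply_apply, mem_ell]
  refine ⟨fun h χ t => by simpa using h _ (t.act hg), fun h χ t => ?_⟩
  simpa using h (χ ∘ₗ (g : V →ₗ[F] V)) (by simpa using t.pull hg)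

theorem ell_smul {c : F} (hc : c ≠ 0) : ell X (c • u) = ell X u := by
  ext x
  exact ⟨fun h χ t => by simpa [hc] using h _ (t.scale' hc),
    fun h χ t => by simpa [hc] using h _ t.smul'⟩

theorem inj_eq (inj : ∀ χ, Tr X u χ → χ v = 0 → χ = 0) (t : Tr X u φ) (t' : Tr X u χ)
    (e : φ v = χ v) : φ = χ := sub_eq_zero.1 (inj _ (t.sub t') (by simp [e]))

theorem ex_sqrt [Finite F] [CharP F 2] (c : F) : ∃ k : F, c = k ^ 2 :=
  let ⟨k, e⟩ := (Finite.injective_iff_surjective.1 (frobenius_inj F 2)) c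
  ⟨k, e.symm⟩

section
variable [Finite V] [Finite F]

/-- the contragredient action -/
noncomputable def dualHom : (V ≃ₗ[F] V) →* (Dual F V ≃ₗ[F] Dual F V) where
  toFun g := g.symm.dualMap
  map_one' := by ext; rfl
  map_mul' a b := by ext; rfl

theorem dualHom_ap (g : V ≃ₗ[F] V) (φ : Dual F V) (x : V) : dualHom g φ x = φ (g.symm x) := rfl

instance finDual : Finite (Dual F V) :=
  Finite.of_injective (fun g : Dual F V => (g : V → F)) DFunLike.coe_injective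

theorem Tr.dual (t : Tr X u φ) : Tr (X.map dualHom) φ (Dual.eval F V u) := by
  obtain ⟨g, hg, e⟩ := t.tv
  refine ⟨t.z, _, ⟨g⁻¹, inv_mem hg, rfl⟩, fun ψ => LinearMap.ext fun x => ?_⟩
  change ψ (g x) = _
  simp [e, mul_comm]

theorem Tr.of_dual (t : Tr (X.map dualHom) φ (Dual.eval F V u)) : Tr X u φ := by
  obtain ⟨z, _, ⟨g, hg, rfl⟩, e⟩ := t
  refine ⟨z, g⁻¹, inv_mem hg, fun x => sub_eq_zero.1 ((forall_dual_apply_eq_zero_iff F _).1 fun ψ => ?_)⟩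
  have := congrArg (fun f : Dual F V => f x) (e ψ)
  simp only [dualHom_ap] at this
  simp [this, mul_comm]

theorem Hy0.dual (h : Hy0 X) : Hy0 (X.map dualHom) := by
  have := h.fd
  refine ⟨by rw [Subspace.dual_finrank_eq, h.dim], fun U hU => ?_, ?_⟩
  · rw [← Subspace.dualCoannihilator_dualAnnihilator_eq (W := U)]
    rcases h.irr U.dualCoannihilator fun g hg x hx => (Submodule.mem_dualCoannihilator _).2 fun φ hφ =>
      (Submodule.mem_dualCoannihilator _).1 hx _ (hU _ ⟨g⁻¹, inv_mem hg, rfl⟩ φ hφ) with e | e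
    · exact .inr (by rw [e, Submodule.dualAnnihilator_bot])
    · exact .inl (by rw [e, Submodule.dualAnnihilator_top])
  · rintro K _ ⟨t, ht, rfl⟩ h1 h2
    rw [Subgroup.map_le_iff_le_comap]
    refine h.gen _ t ht (fun c => by_contra fun e => ?_) fun g hg => by
      simpa using h2 _ ⟨g, hg, rfl⟩
    push Not at e
    have c0 : c ≠ 0 := fun c0 => by
      obtain ⟨x, x0, -⟩ := h.two 0 0
      exact x0 (by simpa [c0] using e x)
    obtain ⟨φ, hφ⟩ := h1 c⁻¹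
    refine hφ (LinearMap.ext fun x => ?_)
    rw [dualHom_ap, show t.symm x = c⁻¹ • x by rw [LinearEquiv.symm_apply_eq, e, smul_inv_smul₀ c0]]
    simp

theorem Hy0.planes (h : Hy0 X) (S : Set (Submodule F V)) (hne : S.Nonempty)
    (h2 : ∀ l ∈ S, finrank F l = 3) (hm : ∀ l ∈ S, ∀ l' ∈ S, 2 ≤ finrank F ↥(l ⊓ l'))
    (hi : ∀ g ∈ X, ∀ l ∈ S, l.map (g : V →ₗ[F] V) ∈ S) : False := by
  have := h.fd
  refine h.dual.lines (Submodule.dualAnnihilator '' S) (hne.image _) ?_ ?_ ?_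
  · rintro _ ⟨l, hl, rfl⟩
    have := Subspace.finrank_add_finrank_dualAnnihilator_eq l
    rw [h2 l hl, h.dim] at this
    omega
  · rintro _ ⟨l, hl, rfl⟩ _ ⟨l', hl', rfl⟩
    have a := Submodule.finrank_sup_add_finrank_inf_eq l l'
    have b := hm l hl l' hl'
    rw [h2 l hl, h2 l' hl'] at a
    obtain ⟨y, -, hy⟩ := exists_notMem_of_finrank_lt (U := l ⊔ l') (W := ⊤) (by
      rw [finrank_top, h.dim]; omega)
    obtain ⟨η, η1, η2⟩ := exists_dual_one hy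
    exact ⟨η, ne_of_ap (x := y) (by simp [η1]),
      (Submodule.mem_dualAnnihilator _).2 fun x hx => η2 x (Submodule.mem_sup_left hx),
      (Submodule.mem_dualAnnihilator _).2 fun x hx => η2 x (Submodule.mem_sup_right hx)⟩
  · rintro _ ⟨g, hg, rfl⟩ _ ⟨l, hl, rfl⟩
    refine ⟨_, hi g hg l hl, ?_⟩
    ext φ
    rw [Submodule.mem_map_equiv, Submodule.mem_dualAnnihilator, Submodule.mem_dualAnnihilator]
    refine ⟨fun e x hx => e (g x) ⟨x, hx, rfl⟩, ?_⟩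
    rintro e _ ⟨x, hx, rfl⟩
    exact e x hx

theorem key2 [CharP F 2] (t : Tr X u φ) (t' : Tr X u χ) (s : Tr X v ψ) {k : F}
    (e : φ v * ψ u = k ^ 2) (k0 : k ≠ 0) :
    Tr X v ((ψ u / k) • (χ + (χ v / k) • ((ψ u / k) • φ + ψ))) := by
  have := (mid t s e k0).conj t'
  refine (this.cast (u' := (ψ u / k) • v) (fun x => ?_) ?_).smul'
  · simp only [map_add, map_smul, LinearMap.add_apply, LinearMap.smul_apply, LinearMap.sub_apply,
      t.z, t'.z, smul_eq_mul]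
    match_scalars <;> grind
  · simp only [map_smul, LinearMap.add_apply, LinearMap.smul_apply, s.z, smul_eq_mul]
    grind

theorem Hy0.P2 [CharP F 2] (h : Hy0 X) (t : Tr X u φ) (s : Tr X v ψ) (a : φ v ≠ 0) (b : ψ u = 1)
    (iu : ∀ χ, Tr X u χ → χ v = 0 → χ = 0) (iv : ∀ χ, Tr X v χ → χ u = 0 → χ = 0) :
    ∃ w, w ≠ 0 ∧ ψ w = 0 ∧ w ∈ ell X u := by
  by_cases c : ∀ χ, Tr X u χ → ∀ w, φ w = 0 → ψ w = 0 → χ w = 0
  · obtain ⟨w, w0, w1, w2⟩ := h.two φ ψ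
    exact ⟨w, w0, w2, fun χ t' => c χ t' w w1 w2⟩
  push Not at c
  obtain ⟨χ1, t1, y, y1, y2, y3⟩ := c
  obtain ⟨w, w0, w1, w2, w3⟩ := h.three φ ψ χ1
  refine ⟨w, w0, w2, fun χ2 t2 => ?_⟩
  have a1 : χ1 v ≠ 0 := fun e => y3 (by simp [iu _ t1 e])
  have a1' : χ1 v ≠ φ v := fun e => y3 (by rw [inj_eq iu t1 t e, y1])
  by_cases a2 : χ2 v = 0
  · simp [iu _ t2 a2]
  obtain ⟨k0, e0⟩ := ex_sqrt (φ v)
  obtain ⟨k1, e1⟩ := ex_sqrt (χ1 v)
  obtain ⟨k2, e2⟩ := ex_sqrt (χ2 v)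
  have n0 : k0 ≠ 0 := fun e => a (by simp [e0, e])
  have n1 : k1 ≠ 0 := fun e => a1 (by simp [e1, e])
  have n2 : k2 ≠ 0 := fun e => a2 (by simp [e2, e])
  have r1 := key2 t t1 s (k := k0) (by rw [b, e0, mul_one]) n0
  have r2 := key2 t t2 s (k := k0) (by rw [b, e0, mul_one]) n0
  have t3 := key2 s r1 t2 (k := k2) (by rw [b, e2, one_mul]) n2
  obtain ⟨χ3, hχ3, t3⟩ : ∃ χ3, _ = χ3 ∧ Tr X u χ3 := ⟨_, rfl, t3⟩
  have a3 : χ3 v = k1 ^ 2 * k2 ^ 2 / k0 ^ 2 := by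
    rw [← hχ3]
    simp only [LinearMap.add_apply, LinearMap.smul_apply, smul_eq_mul, s.z, t.z, t1.z, b, e0, e1, e2]
    grind
  have r3 := key2 t1 t3 s (k := k1) (by rw [b, e1, mul_one]) n1
  have r4 := key2 t2 t3 s (k := k2) (by rw [b, e2, mul_one]) n2
  have q3 := congrArg (fun f : Dual F V => f w) (inj_eq iv r3 r2 (by
    simp only [LinearMap.add_apply, LinearMap.smul_apply, smul_eq_mul, t.z, t1.z, t2.z, t3.z, a3, b, e2]
    grind))
  have q4 := congrArg (fun f : Dual F V => f w) (inj_eq iv r4 r1 (by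
    simp only [LinearMap.add_apply, LinearMap.smul_apply, smul_eq_mul, t.z, t1.z, t2.z, t3.z, a3, b, e1]
    grind))
  simp only [LinearMap.add_apply, LinearMap.smul_apply, smul_eq_mul, w1, w2, w3, a3, b] at q3 q4
  rw [e0, e1] at a1'
  generalize χ2 w = α at *
  generalize χ3 w = β at *
  have : (k1 + k0) * α = 0 := by
    clear * - q3 q4 n0 n1 n2
    field_simp at q3 q4
    grind
  exact (mul_eq_zero.1 this).resolve_left fun e => a1' (by grind)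

namespace Hy0

variable (h : Hy0 X) (p : ℕ) [Fact p.Prime] [CharP F p]
include h p

theorem ce_conj (hu : Ce X u) (hv : Ce X v) : ∃ g ∈ X, ∃ c : F, c ≠ 0 ∧ g u = c • v := by
  obtain ⟨u0, φ, φ0, t⟩ := hu
  obtain ⟨v0, ψ, ψ0, s⟩ := hv
  obtain ⟨g, hg, c, -, c0, -, e, -⟩ := h.flag p t u0 φ0 s v0 ψ0
  exact ⟨g, hg, c, c0, e⟩

theorem lines' (l : V → Submodule F V) (l1 : ∀ u, ∀ g ∈ X, l (g u) = (l u).map (g : V →ₗ[F] V))
    (l2 : ∀ u, ∀ c : F, c ≠ 0 → l (c • u) = l u) (l3 : ∀ u, Ce X u → u ∈ l u)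
    (l4 : ∀ u v, Ce X u → Ce X v → v ∈ l u ∨ u ∈ l v ∨
      ∃ φ ψ, Tr X u φ ∧ Tr X v ψ ∧ φ v ≠ 0 ∧ ψ u ≠ 0 ∧ ∀ x ∈ l u, φ x = 0)
    (hu : Ce X u) : finrank F (l u) ≠ 2 := fun d => by
  have := h.fd
  have d' : ∀ v, Ce X v → finrank F (l v) = 2 := fun v hv => by
    obtain ⟨g, hg, c, c0, e⟩ := h.ce_conj p hu hv
    rw [← l2 v c c0, ← e, l1 u g hg, LinearEquiv.finrank_map_eq, d]
  refine h.lines (l '' {v | Ce X v}) ⟨_, u, hu, rfl⟩ ?_ ?_ ?_
  · rintro _ ⟨v, hv, rfl⟩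
    exact d' v hv
  · rintro _ ⟨v, hv, rfl⟩ _ ⟨w, hw, rfl⟩
    rcases l4 v w hv hw with e | e | ⟨φ, ψ, t, s, a, b, e⟩
    · exact ⟨w, hw.1, e, l3 w hw⟩
    · exact ⟨v, hv.1, l3 v hv, e⟩
    obtain ⟨g, hg, e1, c, c0, e2⟩ := swap p t s a b
    have := finrank_inf_ker_ge (l v) ψ
    obtain ⟨x, hx, x0⟩ := exists_notMem_of_finrank_lt (U := ⊥) (W := l v ⊓ LinearMap.ker ψ)
      (by rw [finrank_bot]; have := d' v hv; omega)
    refine ⟨x, x0, hx.1, ?_⟩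
    rw [← l2 w c c0, ← e2, l1 v g hg]
    exact ⟨x, hx.1, e1 x (e x hx.1) hx.2⟩
  · rintro g hg _ ⟨v, hv, rfl⟩
    exact ⟨g v, Ce.act hv hg, l1 v g hg⟩

theorem planes' (l : V → Submodule F V) (l1 : ∀ u, ∀ g ∈ X, l (g u) = (l u).map (g : V →ₗ[F] V))
    (l2 : ∀ u, ∀ c : F, c ≠ 0 → l (c • u) = l u) (l3 : ∀ u, Ce X u → u ∈ l u)
    (l4 : ∀ u v, Ce X u → Ce X v → finrank F (l u) = 3 → finrank F (l v) = 3 → (v ∈ l u ∧ u ∈ l v) ∨
      ∃ φ ψ, Tr X u φ ∧ Tr X v ψ ∧ φ v ≠ 0 ∧ ψ u ≠ 0 ∧ ∀ x ∈ l u, φ x = 0)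
    (hu : Ce X u) : finrank F (l u) ≠ 3 := fun d => by
  have := h.fd
  have d' : ∀ v, Ce X v → finrank F (l v) = 3 := fun v hv => by
    obtain ⟨g, hg, c, c0, e⟩ := h.ce_conj p hu hv
    rw [← l2 v c c0, ← e, l1 u g hg, LinearEquiv.finrank_map_eq, d]
  refine h.planes (l '' {v | Ce X v}) ⟨_, u, hu, rfl⟩ ?_ ?_ ?_
  · rintro _ ⟨v, hv, rfl⟩
    exact d' v hv
  · rintro _ ⟨v, hv, rfl⟩ _ ⟨w, hw, rfl⟩
    rcases l4 v w hv hw (d' v hv) (d' w hw) with e | ⟨φ, ψ, t, s, a, b, e⟩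
    · by_cases e1 : w ∈ F ∙ v
      · obtain ⟨c, rfl⟩ := Submodule.mem_span_singleton.1 e1
        rw [l2 v c fun c0 => hw.1 (by simp [c0]), inf_idem, d' v hv]
        omega
      have := Submodule.finrank_lt_finrank_of_lt (show F ∙ v < l v ⊓ l w from lt_of_le_of_ne
        ((Submodule.span_singleton_le_iff_mem _ _).2 ⟨l3 v hv, e.2⟩) fun e2 => e1 (e2 ▸ ⟨e.1, l3 w hw⟩))
      rw [finrank_span_singleton hv.1] at this
      omega
    obtain ⟨g, hg, e1, c, c0, e2⟩ := swap p t s a b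
    have := finrank_inf_ker_ge (l v) ψ
    have := d' v hv
    refine le_trans (by omega) (Submodule.finrank_mono (show l v ⊓ LinearMap.ker ψ ≤ _ from
      fun x hx => ⟨hx.1, ?_⟩))
    rw [← l2 w c c0, ← e2, l1 v g hg]
    exact ⟨x, hx.1, e1 x (e x hx.1) hx.2⟩
  · rintro g hg _ ⟨v, hv, rfl⟩
    exact ⟨g v, Ce.act hv hg, l1 v g hg⟩

omit p in
theorem rank_two (a : φ ≠ 0) (b : φ x = 0) (c : χ x ≠ 0) :
    finrank F ↥(LinearMap.ker φ ⊓ LinearMap.ker χ) ≤ 3 := by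
  have := h.fd
  have e1 : LinearMap.ker φ ⊓ LinearMap.ker χ < LinearMap.ker φ :=
    lt_of_le_of_ne inf_le_left fun e => c (e.ge b).2
  have e2 : LinearMap.ker φ < ⊤ := lt_top_iff_ne_top.2 (by simpa using a)
  have e3 := Submodule.finrank_lt_finrank_of_lt e1
  have e4 := Submodule.finrank_lt_finrank_of_lt e2
  rw [finrank_top, h.dim] at e4
  omega

end Hy0

/-- some centre has two axes -/
def TwoAx (X : Subgroup (V ≃ₗ[F] V)) : Prop :=
  ∃ u φ χ x, u ≠ 0 ∧ φ ≠ 0 ∧ Tr X u φ ∧ Tr X u χ ∧ φ x = 0 ∧ χ x ≠ 0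

namespace Hy0

variable (h : Hy0 X) (p : ℕ) [Fact p.Prime] [CharP F p] (h2 : TwoAx X)
include h p h2

theorem ellA (hv : Ce X v) (hx : x ∈ ell X v) : x ∈ F ∙ v := by
  have := h.fd
  obtain ⟨u, φ, χ, y, u0, φ0, t, t', a, b⟩ := h2
  have hu : Ce X u := ⟨u0, φ, φ0, t⟩
  have d1 := h.lines' p (ell X) (fun u g hg => ell_act hg) (fun u c hc => ell_smul hc)
    (fun u _ χ t => t.z) (fun u v _ _ => by
      by_cases e1 : v ∈ ell X u
      · exact .inl e1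
      by_cases e2 : u ∈ ell X v
      · exact .inr (.inl e2)
      simp only [mem_ell, not_forall] at e1 e2
      obtain ⟨φ, t, a⟩ := e1
      obtain ⟨ψ, s, b⟩ := e2
      exact .inr (.inr ⟨φ, ψ, t, s, a, b, fun x hx => hx φ t⟩)) hu
  have d1' := h.planes' p (ell X) (fun u g hg => ell_act hg) (fun u c hc => ell_smul hc)
    (fun u _ χ t => t.z) (fun u v _ _ du dv => by
      have k : ∀ u v, finrank F (ell X u) = 3 → finrank F (ell X v) = 3 → v ∈ ell X u → u ∈ ell X v :=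
        fun u v du dv e => by
          by_contra e2
          simp only [mem_ell, not_forall] at e2
          obtain ⟨ψ, s, b⟩ := e2
          have := Submodule.eq_of_le_of_finrank_le (show ell X v ≤ ell X u from fun x hx φ t => by
            simpa [b] using hx _ (s.comm t (e φ t))) (by omega)
          exact b ((this.ge (fun χ t => t.z : u ∈ ell X u)) ψ s)
      by_cases e1 : v ∈ ell X u
      · exact .inl ⟨e1, k u v du dv e1⟩
      have e2 : u ∉ ell X v := fun e => e1 (k v u dv du e)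
      simp only [mem_ell, not_forall] at e1 e2
      obtain ⟨φ, t, a⟩ := e1
      obtain ⟨ψ, s, b⟩ := e2
      exact .inr ⟨φ, ψ, t, s, a, b, fun x hx => hx φ t⟩) hu
  have d2 := (Submodule.finrank_mono (show ell X u ≤ LinearMap.ker φ ⊓ LinearMap.ker χ from
    fun x hx => ⟨hx φ t, hx χ t'⟩)).trans (h.rank_two φ0 a b)
  obtain ⟨g, hg, c, c0, e⟩ := h.ce_conj p hu hv
  have d3 : finrank F (ell X v) = finrank F (ell X u) := by
    rw [← ell_smul c0, ← e, ell_act hg, LinearEquiv.finrank_map_eq]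
  rw [Submodule.eq_of_le_of_finrank_le (show F ∙ v ≤ ell X v from
    (Submodule.span_singleton_le_iff_mem _ _).2 fun χ t => t.z)
    (by rw [finrank_span_singleton hv.1]; omega)]
  exact hx

theorem ax_ne (hv : Ce X v) (hx : x ∉ F ∙ v) : ∃ χ, Tr X v χ ∧ χ x ≠ 0 := by
  simpa [mem_ell] using mt (h.ellA p h2 hv) hx

theorem oneway (t : Tr X u φ) (s : Tr X v ψ) (a : φ v ≠ 0) (b : ψ u ≠ 0) :
    ∃ χ, χ ≠ 0 ∧ Tr X u χ ∧ χ v = 0 := by
  by_contra c
  have iu : ∀ χ, Tr X u χ → χ v = 0 → χ = 0 := fun χ t' e => by_contra fun e' => c ⟨χ, e', t', e⟩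
  have iv : ∀ χ, Tr X v χ → χ u = 0 → χ = 0 := fun χ t' e => by
    simpa [a] using iu _ (t.comm t' e) (by simp [t'.z])
  obtain ⟨w, w0, w1, w2⟩ : ∃ w, w ≠ 0 ∧ ψ w = 0 ∧ w ∈ ell X u := by
    by_cases hp : p = 2
    · subst hp
      obtain ⟨w, w0, w1, w2⟩ := h.P2 t (s.scale' b) (by simp [a, b]) (by simp [b])
        (fun χ t' e => iu χ t' (by simpa [b] using e)) fun χ t' e => by
          simpa [b] using iv _ t'.smul' (by simp [e])
      exact ⟨w, w0, by simpa [b] using w1, w2⟩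
    obtain ⟨τ, t1, t2, t3, t4⟩ := h.tau p hp t s a b
    obtain ⟨w, w0, w1, w2⟩ := h.two φ ψ
    refine ⟨w, w0, w2, fun χ t' => ?_⟩
    have e1 := (t'.pull t1).neg'
    rw [show τ.symm u = -u by rw [LinearEquiv.symm_apply_eq, map_neg, t2, neg_neg], neg_neg] at e1
    have e2 := congrArg (fun f : Dual F V => f w) (iu _ (t'.add e1) (by simp [t3]))
    simpa [t4 w w1 w2, ← two_mul, two_ne p hp] using e2
  obtain ⟨c, rfl⟩ := Submodule.mem_span_singleton.1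
    (h.ellA p h2 ⟨ne_of_ap' b, φ, ne_of_ap a, t⟩ w2)
  simp [b] at w1
  simp [w1] at w0

end Hy0

end

end Cfsg.Agent.L5.T
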