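import Cfsg.Agent.L5.T6

/-!
Characteristic two, root groups of order two: the affine case dies by transfer.
-/

set_option autoImplicit false
set_option linter.unusedSectionVars false

namespace Cfsg.Agent.L5.T

open Module H7 Sp4E.Grp

variable {F V : Type*} [Field F] [AddCommGroup V] [Module F V]
  {X S : Subgroup (V ≃ₗ[F] V)} {u v w x u1 u2 : V} {φ ψ χ φ1 φ2 : Dual F V} [Finite V] [Finite F]
  [CharP F 2]

theorem Tr.mono (t : Tr S u φ) (h : S ≤ X) : Tr X u φ := ⟨t.z, t.tv.has.mono h⟩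

theorem perp_two (hS : ∀ x ∈ S, Two x) (t : Tr S u φ) (s : Tr S v ψ) : φ v * ψ u = 0 := by
  by_contra e
  have a := left_ne_zero_of_mul e
  have b := right_ne_zero_of_mul e
  obtain ⟨t', ht, et⟩ := t.tv
  obtain ⟨s', hs, es⟩ := s.tv
  have t2 := sq_one t.z et
  have s2 := sq_one s.z es
  obtain ⟨j, hj⟩ := (hS _ (mul_mem ht hs)).exists_inv fun e' => by
    have := congrArg (fun g : V ≃ₗ[F] V => ψ (g v)) e'
    simp [et, es, s.z, a, b] at this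
  have e1 := inv_conj_pow t2 (r := t' * s') (by
    rw [← mul_assoc, t2, one_mul, mul_inv_rev, inv_eq_of_mul_eq_one_right t2,
      inv_eq_of_mul_eq_one_right s2]) j
  have e2 : Commute ((t' * s') ^ j) t' := by
    rw [hj.inv_eq, ← eq_mul_inv_iff_mul_eq, inv_eq_of_mul_eq_one_right t2] at e1
    exact e1.symm
  have e3 : Commute ((t' * s') ^ j) s' := by
    simpa [← mul_assoc, t2] using e2.mul_right ((Commute.refl (t' * s')).pow_left j)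
  exact hj.1 (odd_pair t.z s.z a b et es hj.2 e2 e3 (fix_pow et es j))

theorem two_tr (li : ∀ a b : F, a • u1 + b • u2 = 0 → a = 0 ∧ b = 0) {g : V ≃ₗ[F] V} (hg : Two g)
    {a b c d : F} (e1 : g u1 = a • u1 + c • u2) (e2 : g u2 = b • u1 + d • u2) :
    a = d ∧ a * d + b * c = 1 := by
  obtain ⟨k, hk⟩ := hg
  induction k generalizing g a b c d with
  | zero =>
    rw [pow_zero, pow_one] at hk
    subst hk
    have k1 := li (a - 1) c (by linear_combination (norm := module) (show u1 = _ from e1).symm)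
    have k2 := li b (d - 1) (by linear_combination (norm := module) (show u2 = _ from e2).symm)
    grind
  | succ k ih =>
    have := ih (g := g * g) (a := a * a + b * c) (b := b * (a + d)) (c := c * (a + d))
      (d := b * c + d * d) (by simp only [LinearEquiv.mul_apply, e1, e2, map_add, map_smul]; module)
      (by simp only [LinearEquiv.mul_apply, e1, e2, map_add, map_smul]; module)
      (by rwa [← sq, ← pow_mul, ← pow_succ'])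
    grind

theorem eig_one {g : V ≃ₗ[F] V} (hg : Two g) (u0 : u ≠ 0) {c : F} (e : g u = c • u) : c = 1 := by
  obtain ⟨k, hk⟩ := hg
  induction k generalizing g c with
  | zero =>
    rw [pow_zero, pow_one] at hk
    subst hk
    exact (smul_left_injective F u0 ((one_smul F u).trans e)).symm
  | succ k ih =>
    exact eq_one_of_sq (ih (g := g * g) (by simp [e, smul_smul]) (by rwa [← sq, ← pow_mul, ← pow_succ']))

theorem no_hom (hp : commutator X = ⊤) (hS : IsSyl X S) (t : Tr S u φ) (u0 : u ≠ 0) (φ0 : φ ≠ 0)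
    (χ : (V ≃ₗ[F] V) → F) (h1 : ∀ g ∈ S, ∀ g' ∈ S, χ (g * g') = χ g + χ g')
    (h2 : ∀ g ∈ S, ∀ (v : V) (ψ : Dual F V), ψ v = 0 → v ≠ 0 → ψ ≠ 0 → (∀ x, g x = x + ψ x • v) →
      χ g = 1) : False := by
  letI := ZMod.algebra F 2
  obtain ⟨η, hη⟩ : ∃ η : Dual (ZMod 2) F, η 1 ≠ 0 := by
    simpa using mt (forall_dual_apply_eq_zero_iff (ZMod 2) (1 : F)).1 one_ne_zero
  let A : Subgroup (V ≃ₗ[F] V) := mkSub (fun g => g ∈ S ∧ η (χ g) = 0)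
    ⟨one_mem _, by
      have := h1 1 (one_mem _) 1 (one_mem _)
      rw [mul_one, left_eq_add] at this
      simp [this]⟩
    fun a b ha hb => ⟨mul_mem ha.1 hb.1, by rw [h1 _ ha.1 _ hb.1, map_add, ha.2, hb.2, add_zero]⟩
  obtain ⟨a, ha, ea⟩ := t.tv
  obtain ⟨g, hg, e⟩ := hS.thompson hp (A := A) (fun g hg => hg.1)
    (Subgroup.relIndex_eq_two_iff.2 ⟨_, ha, fun b hb => by
      show Xor (_ ∧ _) (_ ∧ _)
      simp only [hb, S.mul_mem hb ha, true_and, h1 _ hb _ ha, h2 a ha u φ t.z u0 φ0 ea, map_add]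
      revert hη
      generalize η 1 = s
      generalize η _ = t
      revert s t
      decide⟩) (hS.le ha) (sq_one t.z ea)
  obtain ⟨y, hy⟩ := ex_ne φ0
  exact hη (h2 _ e.1 (g.symm u) (φ ∘ₗ (g : V →ₗ[F] V)) (by simp [t.z]) (by simpa using u0)
    (ne_of_ap (x := g.symm y) (by simpa using hy)) (fun x => by simp [ea]) ▸ e.2)

theorem CP.act (c : CP X u1 φ1 u2 φ2) {g : V ≃ₗ[F] V} (hg : g ∈ X) :
    CP X (g u1) (φ1 ∘ₗ (g.symm : V →ₗ[F] V)) (g u2) (φ2 ∘ₗ (g.symm : V →ₗ[F] V)) :=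
  ⟨c.t1.act hg, c.t2.act hg, by simp [c.z1], by simp [c.z2],
    fun a b e => c.li a b (g.injective (by simpa using e)), fun a b e => c.li' a b
      (LinearMap.ext fun x => by simpa using congrArg (fun f : Dual F V => f (g x)) e)⟩

theorem CP.ex_syl (h : Hy0 X) (c : CP X u1 φ1 u2 φ2) (hS : IsSyl X S) :
    ∃ u1 φ1 u2 φ2, CP X u1 φ1 u2 φ2 ∧ Tr S u1 φ1 ∧ Tr S u2 φ2 := by
  obtain ⟨g, hg, e⟩ := hS.conj (T := mkSub (fun g => g ∈ X ∧ (∀ x, φ1 x = 0 → φ2 x = 0 → g x = x) ∧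
      ∀ x, φ1 (g x) = φ1 x ∧ φ2 (g x) = φ2 x) ⟨one_mem _, fun _ _ _ => rfl, fun _ => ⟨rfl, rfl⟩⟩
    fun a b ha hb => ⟨mul_mem ha.1 hb.1, fun x h1 h2 => by simp [ha.2.1 x h1 h2, hb.2.1 x h1 h2],
      fun x => by simp [ha.2.2, hb.2.2]⟩) (fun g hg => hg.1) fun g hg => ⟨1, LinearEquiv.ext fun x => by
    have := hg.2.1 (g x - x) (by simp [hg.2.2]) (by simp [hg.2.2])
    rw [map_sub] at this
    change g (g x) = x
    linear_combination (norm := module) this + add_self_V F (g x) - add_self_V F x⟩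
  obtain ⟨a, ha, ea⟩ := c.t1.tv
  obtain ⟨b, hb, eb⟩ := c.t2.tv
  exact ⟨_, _, _, _, c.act hg,
    ⟨(c.t1.act hg).z, _, e a ⟨ha, fun x h1 _ => by simp [ea, h1], fun x => by simp [ea, c.t1.z, c.z2]⟩,
      fun x => by simp [ea]⟩,
    ⟨(c.t2.act hg).z, _, e b ⟨hb, fun x _ h1 => by simp [eb, h1], fun x => by simp [eb, c.t2.z, c.z1]⟩,
      fun x => by simp [eb]⟩⟩

/-- all triples on a line are affine -/
def Aff (X : Subgroup (V ≃ₗ[F] V)) : Prop :=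
  ∀ u1 φ1 u2 φ2, CP X u1 φ1 u2 φ2 → ∀ α β γ δ : F, Tr X (α • u1 + β • u2) (γ • φ1 + δ • φ2) →
    α • u1 + β • u2 ≠ 0 → γ • φ1 + δ • φ2 ≠ 0 → α * γ + β * δ = 1

namespace H0

variable (h : H0 X)
include h

theorem perp (hS : IsSyl X S) (t : Tr S u φ) (s : Tr S v ψ) (u0 : u ≠ 0) (φ0 : φ ≠ 0) (v0 : v ≠ 0)
    (ψ0 : ψ ≠ 0) : φ v = 0 :=
  (mul_eq_zero.1 (perp_two hS.two t s)).elim id (h.sym.z (s.mono hS.le) (t.mono hS.le) ψ0 u0)

theorem coord (hS : IsSyl X S) (c : CP X u1 φ1 u2 φ2) (t1 : Tr S u1 φ1) (t2 : Tr S u2 φ2)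
    (s : Tr S v ψ) (v0 : v ≠ 0) (ψ0 : ψ ≠ 0) :
    ∃ α β γ δ : F, v = α • u1 + β • u2 ∧ ψ = γ • φ1 + δ • φ2 :=
  h.coord0 c (s.mono hS.le) v0 ψ0 (h.perp hS t1 s c.u0 c.φ0 v0 ψ0)
    (h.perp hS t2 s c.symm.u0 c.symm.φ0 v0 ψ0)

theorem aff3 (ha : Aff X) (c : CP X u1 φ1 u2 φ2) {α β γ δ α' β' γ' δ' : F}
    (t : Tr X (α • u1 + β • u2) (γ • φ1 + δ • φ2)) (h1 : α • u1 + β • u2 ≠ 0)
    (h2 : γ • φ1 + δ • φ2 ≠ 0) (t' : Tr X (α' • u1 + β' • u2) (γ' • φ1 + δ' • φ2))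
    (h1' : α' • u1 + β' • u2 ≠ 0) (h2' : γ' • φ1 + δ' • φ2 ≠ 0) :
    β * δ + β' * δ' + (α * β' + β * α') * (γ * δ' + δ * γ') = 0 := by
  by_cases e : β = 0 ∨ δ = 0
  · have := h.deg c t h1 h2 e
    grind
  push Not at e
  have e1 : α' • u1 + β' • u2 = (α' + α * β' / β) • u1 + (β' / β) • (α • u1 + β • u2) := by
    match_scalars <;> grind
  have e2 : γ' • φ1 + δ' • φ2 = (γ' + γ * δ' / δ) • φ1 + (δ' / δ) • (γ • φ1 + δ • φ2) := by
    match_scalars <;> grind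
  have := ha _ _ _ _ (c.third t e.1 e.2) _ _ _ _ (e1 ▸ e2 ▸ t') (e1 ▸ h1') (e2 ▸ h2')
  clear * - this e
  grind

theorem conj_nb (t1 : Tr X u1 φ1) (u0 : u1 ≠ 0) (φ0 : φ1 ≠ 0) (t : Tr X u φ) (s : Tr X v ψ)
    (a : φ v ≠ 0) (b : ψ u ≠ 0) (z1 : φ u1 = 0) (z2 : ψ u1 = 0) :
    ∃ g ∈ X, g u1 = u1 ∧ (∀ x, φ1 (g x) = φ1 x) ∧ ∃ k : F, k ≠ 0 ∧ g u = k • v ∧
      ∀ x, ψ (g x) = k * φ x := by
  obtain ⟨g, hg, e1, k, k0, e2⟩ := swap 2 t s a b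
  have nz : ∀ {φ : Dual F V}, φ ≠ 0 → φ ∘ₗ (g.symm : V →ₗ[F] V) ≠ 0 := fun φ0 =>
    let ⟨y, hy⟩ := ex_ne φ0
    ne_of_ap (x := g y) (by simpa using hy)
  have e3 := e1 u1 z1 z2
  have e4 := h.one_ax t1 (e3 ▸ t1.act hg) u0 φ0 (nz φ0)
  have e5 := h.one_ax s (Tr.smul' (e2 ▸ t.act hg)) (ne_of_ap' a) (ne_of_ap b)
    (smul_ne_zero k0 (nz (ne_of_ap a)))
  exact ⟨g, hg, e3, fun x => by simpa using (congrArg (fun f : Dual F V => f (g x)) e4).symm, k, k0, e2,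
    fun x => by simpa using (congrArg (fun f : Dual F V => f (g x)) e5).symm⟩

end H0

/-- the two pairings are proportional -/
def Star (X : Subgroup (V ≃ₗ[F] V)) (u1 : V) (φ1 : Dual F V) (u : V) (φ : Dual F V) (k : F) : Prop :=
  k ≠ 0 ∧ ∀ w ψ, Tr X w ψ → k * φ w * ψ u1 = φ1 w * ψ u

namespace H0

variable (h : H0 X)
include h

theorem star_third (ha : Aff X) (c : CP X u1 φ1 u2 φ2) {α β γ δ : F}
    (t : Tr X (α • u1 + β • u2) (γ • φ1 + δ • φ2)) (α0 : α ≠ 0) (β0 : β ≠ 0) (γ0 : γ ≠ 0)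
    (δ0 : δ ≠ 0) : Star X u1 φ1 u2 φ2 (α * δ / (β * γ)) := by
  refine ⟨by simp [α0, β0, γ0, δ0], fun w ψ s => ?_⟩
  by_cases w0 : w = 0
  · simp [w0]
  by_cases ψ0 : ψ = 0
  · simp [ψ0]
  by_cases a1 : ψ u1 = 0
  · simp [a1, h.sym.z s c.t1 ψ0 c.u0 a1]
  by_cases a2 : ψ u2 = 0
  · simp [a2, h.sym.z s c.t2 ψ0 c.symm.u0 a2]
  have b1 : φ1 w ≠ 0 := fun e => a1 (h.sym.z c.t1 s c.φ0 w0 e)
  have b2 : φ2 w ≠ 0 := fun e => a2 (h.sym.z c.t2 s c.symm.φ0 w0 e)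
  have n1 : α • u1 + β • u2 ≠ 0 := fun e => α0 (c.li _ _ e).1
  have n2 : γ • φ1 + δ • φ2 ≠ 0 := fun e => γ0 (c.li' _ _ e).1
  have q1 := ha _ _ _ _ c _ _ _ _ t n1 n2
  by_cases e1 : ψ u1 * φ1 w = ψ u2 * φ2 w
  swap
  · have m := c.km s e1
    have k0 : (ψ u1 * φ1 w + ψ u2 * φ2 w)⁻¹ ≠ 0 := inv_ne_zero (by grind)
    generalize (ψ u1 * φ1 w + ψ u2 * φ2 w)⁻¹ = k at m k0
    rw [smul_add, smul_smul, smul_smul] at m
    have n3 : ψ u2 • u1 + ψ u1 • u2 ≠ 0 := fun e => a2 (c.li _ _ e).1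
    have n4 : (k * φ2 w) • φ1 + (k * φ1 w) • φ2 ≠ 0 := fun e => mul_ne_zero k0 b2 (c.li' _ _ e).1
    have q2 := ha _ _ _ _ c _ _ _ _ m n3 n4
    have q3 := h.aff3 ha c t n1 n2 m n3 n4
    field_simp
    refine mul_left_cancel₀ k0 ?_
    clear * - q1 q2 q3
    grind
  by_cases e2 : ψ u1 * φ1 w = ψ (α • u1 + β • u2) * (γ • φ1 + δ • φ2) w
  · simp only [map_add, map_smul, LinearMap.add_apply, LinearMap.smul_apply, smul_eq_mul] at e2
    field_simp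
    clear * - q1 e1 e2
    grind
  have m := (c.third t β0 δ0).km s e2
  have k0 : (ψ u1 * φ1 w + ψ (α • u1 + β • u2) * (γ • φ1 + δ • φ2) w)⁻¹ ≠ 0 := inv_ne_zero (by grind)
  generalize (ψ u1 * φ1 w + ψ (α • u1 + β • u2) * (γ • φ1 + δ • φ2) w)⁻¹ = k at m k0
  have q2 := ha _ _ _ _ c (β * ψ u2) (β * ψ u1) (k * δ * φ2 w) (k * δ * φ1 w) (by
    convert m using 1 <;>
      simp only [map_add, map_smul, LinearMap.add_apply, LinearMap.smul_apply, smul_eq_mul] <;>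
      match_scalars <;> grind) (fun e => mul_ne_zero β0 a2 (c.li _ _ e).1)
    fun e => mul_ne_zero (mul_ne_zero k0 δ0) b2 (c.li' _ _ e).1
  clear * - q2 e1
  grind

theorem star_move (t1 : Tr X u1 φ1) (u0 : u1 ≠ 0) (φ0 : φ1 ≠ 0) (t : Tr X u φ) (s : Tr X v ψ)
    (a : φ v ≠ 0) (b : ψ u ≠ 0) (z1 : φ u1 = 0) (z2 : ψ u1 = 0) {k : F} (H : Star X u1 φ1 u φ k) :
    ∃ k, Star X u1 φ1 v ψ k := by
  obtain ⟨g, hg, e1, e2, κ, κ0, e3, e4⟩ := h.conj_nb t1 u0 φ0 t s a b z1 z2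
  refine ⟨k / κ ^ 2, by simp [H.1, κ0], fun w ρ r => ?_⟩
  have := H.2 _ _ (r.pull hg)
  obtain ⟨w, rfl⟩ := g.surjective w
  simp only [LinearEquiv.symm_apply_apply, LinearMap.comp_apply, LinearEquiv.coe_coe, e1, e3, map_smul,
    smul_eq_mul] at this
  rw [e2, e4]
  field_simp
  linear_combination this

theorem star_all (c : CP X u1 φ1 u2 φ2) {k : F} (H : Star X u1 φ1 u2 φ2 k) (c' : CP X u1 φ1 v ψ) :
    ∃ k, Star X u1 φ1 v ψ k := by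
  by_cases a : φ2 v = 0
  swap
  · exact h.star_move c.t1 c.u0 c.φ0 c.t2 c'.t2 a
      (fun e => a (h.sym.z c'.t2 c.t2 c'.symm.φ0 c.symm.u0 e)) c.z2 c'.z2 H
  obtain ⟨α, β, γ, δ, rfl, rfl⟩ := h.coord0 c c'.t2 c'.symm.u0 c'.symm.φ0 c'.z1 a
  have β0 : β ≠ 0 := fun e => one_ne_zero (c'.li (-α) 1 (by rw [e]; module)).2
  have δ0 : δ ≠ 0 := fun e => one_ne_zero (c'.li' (-γ) 1 (by rw [e]; module)).2
  obtain ⟨w, ρ, r, a1, b1, a2, b2⟩ := h.off c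
  obtain ⟨k', H'⟩ := h.star_move c.t1 c.u0 c.φ0 c.t2 r b2 a2 c.z2 a1 H
  exact h.star_move c.t1 c.u0 c.φ0 r c'.t2 (by simp [a1, a2, β0]) (by simp [b1, b2, δ0]) a1 c'.z2 H'

theorem star_sym (c : CP X u1 φ1 v ψ) {k k' : F} (H : Star X u1 φ1 u φ k) (H' : Star X u1 φ1 v ψ k') :
    k * φ v = k' * ψ u := by
  obtain ⟨w, ρ, r, a, b⟩ := h.opp' c.t1 c.u0 c.φ0 c.symm.φ0 c.u0
  have e1 := H.2 _ _ r
  have e2 := H'.2 _ _ r
  have e3 := H.2 _ _ (c.t2.conj r)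
  simp only [map_add, map_smul, LinearMap.sub_apply, LinearMap.smul_apply, smul_eq_mul, c.z1,
    c.z2] at e3
  refine mul_left_cancel₀ (mul_ne_zero a b) ?_
  clear * - e1 e2 e3
  grind

theorem no_third (ha : Aff X) (c : CP X u1 φ1 u2 φ2) {α β γ δ : F}
    (t : Tr X (α • u1 + β • u2) (γ • φ1 + δ • φ2)) (α0 : α ≠ 0) (β0 : β ≠ 0) (γ0 : γ ≠ 0)
    (δ0 : δ ≠ 0) : False := by
  have := h.fd
  have H2 := h.star_third ha c t α0 β0 γ0 δ0
  generalize α * δ / (β * γ) = k2 at H2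
  obtain ⟨u3, φ3, t3, a1, b1, a2, b2⟩ := h.off c
  have cp : ∀ {w ψ} (η : Dual F V), Tr X w ψ → ψ ≠ 0 → φ1 w = 0 → η u1 = 0 → η w ≠ 0 →
      CP X u1 φ1 w ψ := fun η s ψ0 e1 e2 e3 =>
    let ⟨x, hx⟩ := ex_ne ψ0
    h.cp_of c.t1 s c.u0 c.φ0 (ne_of_ap' e3) ψ0 e1 ⟨x, fun e => by
      simpa [e2, e3, hx] using congrArg η e⟩
  have c3 := cp φ2 t3 (ne_of_ap a2) b1 c.z2 b2
  have k : ∀ {U : Submodule F V} {x}, x ∉ U → finrank F U < finrank F ↥(U ⊔ F ∙ x) := fun {U x} hx =>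
    Submodule.finrank_lt_finrank_of_lt (lt_of_le_of_ne le_sup_left fun e => hx
      (e ▸ Submodule.mem_sup_right (Submodule.mem_span_singleton_self x)))
  have d1 := finrank_inf_ker_ge (⊤ : Submodule F V) φ1
  have d2 := Submodule.finrank_lt_finrank_of_lt
    (show LinearMap.ker φ1 < ⊤ from lt_top_iff_ne_top.2 (by simpa using c.φ0))
  rw [finrank_top, h.dim, top_inf_eq] at d1
  rw [finrank_top, h.dim] at d2
  obtain ⟨y, y1, y2⟩ := exists_notMem_of_finrank_lt (U := Submodule.span F {u1, u2} ⊔ F ∙ u3)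
    (W := LinearMap.ker φ1) (by
      have := finrank_sup_span_le (Submodule.span F {u1, u2}) u3
      rw [c.rank] at this
      omega)
  obtain ⟨η, η0, η1⟩ := exists_dual_one y2
  have m1 : u1 ∈ Submodule.span F {u1, u2} ⊔ F ∙ u3 :=
    Submodule.mem_sup_left (Submodule.subset_span (by simp))
  have m2 : u2 ∈ Submodule.span F {u1, u2} ⊔ F ∙ u3 :=
    Submodule.mem_sup_left (Submodule.subset_span (by simp))
  have m3 : u3 ∈ Submodule.span F {u1, u2} ⊔ F ∙ u3 :=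
    Submodule.mem_sup_right (Submodule.mem_span_singleton_self _)
  obtain ⟨u4, φ4, t4, -, ψ0, b4, η4⟩ : ∃ w ψ, Tr X w ψ ∧ w ≠ 0 ∧ ψ ≠ 0 ∧ φ1 w = 0 ∧ η w ≠ 0 := by
    by_contra e
    push Not at e
    exact one_ne_zero (η0.symm.trans (h.big c e y1))
  have c4 := cp η t4 ψ0 b4 (η1 _ m1) η4
  obtain ⟨k3, H3⟩ := h.star_all c H2 c3
  obtain ⟨k4, H4⟩ := h.star_all c H2 c4
  have top : (Submodule.span F {u1, u2} ⊔ F ∙ u3) ⊔ F ∙ u4 = LinearMap.ker φ1 := by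
    have d3 := k (U := Submodule.span F {u1, u2}) (x := u3) fun e => by
      obtain ⟨a, b, e⟩ := Submodule.mem_span_pair.1 e
      exact b2 (by simp [← e, c.z2, c.t2.z])
    have d4 := k (U := Submodule.span F {u1, u2} ⊔ F ∙ u3) (x := u4) fun e => η4 (η1 _ e)
    rw [c.rank] at d3
    exact Submodule.eq_of_le_of_finrank_le (sup_le (sup_le (Submodule.span_le.2 (Set.pair_subset
      c.t1.z c.z1)) ((Submodule.span_singleton_le_iff_mem _ _).2 b1))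
      ((Submodule.span_singleton_le_iff_mem _ _).2 b4)) (by omega)
  have s23 := h.star_sym c3 H2 H3
  have s24 := h.star_sym c4 H2 H4
  have s34 := h.star_sym c4 H3 H4
  have van : ∀ w, φ1 w = 0 → (k3 * φ3 u4) * (k2 * φ2 w) + (k2 * φ2 u4) * (k3 * φ3 w) +
      (k2 * φ2 u3) * (k4 * φ4 w) = 0 := fun w e => by
    obtain ⟨_, e1, x4, rfl⟩ := mem_sup_span_singleton.1 (top.ge e)
    obtain ⟨_, e2, x3, rfl⟩ := mem_sup_span_singleton.1 e1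
    obtain ⟨x1, x2, rfl⟩ := Submodule.mem_span_pair.1 e2
    simp only [map_add, map_smul, smul_eq_mul, c.z2, c3.z2, c4.z2, c.t2.z, t3.z, t4.z]
    clear * - s23 s24 s34
    grind
  obtain ⟨a, e⟩ := Submodule.mem_span_singleton.1 (h.big' c
    (x := (k3 * φ3 u4) • u2 + (k2 * φ2 u4) • u3 + (k2 * φ2 u3) • u4) fun w ψ s w0 ψ0 e => by
      have e1 := h.sym.z s c.t1 ψ0 c.u0 e
      by_cases e2 : ∃ x, φ1 x • u1 ≠ ψ x • w
      · have c5 := h.cp_of c.t1 s c.u0 c.φ0 w0 ψ0 e1 e2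
        obtain ⟨k5, H5⟩ := h.star_all c H2 c5
        have s2 := h.star_sym c5 H2 H5
        have s3 := h.star_sym c5 H3 H5
        have s4 := h.star_sym c5 H4 H5
        have := van w e1
        simp only [map_add, map_smul, smul_eq_mul]
        refine mul_left_cancel₀ H5.1 ?_
        linear_combination this - (k3 * φ3 u4) * s2 - (k2 * φ2 u4) * s3 - (k2 * φ2 u3) * s4
      push Not at e2
      have := e2 ((k3 * φ3 u4) • u2 + (k2 * φ2 u4) • u3 + (k2 * φ2 u3) • u4)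
      rw [show φ1 _ = 0 by simp [c.z1, b1, b4], zero_smul] at this
      exact (smul_eq_zero.1 this.symm).resolve_right w0)
  have := congrArg η e
  simp [η1 _ m1, η1 _ m2, η1 _ m3, η4, H2.1, b2] at this

end H0

/-- no isotropic line carries three centres -/
def N3 (X : Subgroup (V ≃ₗ[F] V)) : Prop :=
  ∀ u1 φ1 u2 φ2, CP X u1 φ1 u2 φ2 → ∀ α β γ δ : F, Tr X (α • u1 + β • u2) (γ • φ1 + δ • φ2) →
    α • u1 + β • u2 ≠ 0 → γ • φ1 + δ • φ2 ≠ 0 → α = 0 ∨ β = 0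

/-- the span of the neighbouring centres -/
def Nb (X : Subgroup (V ≃ₗ[F] V)) (u : V) : Submodule F V :=
  Submodule.span F {w | Ce X w ∧ w ∈ ell X u ∧ w ∉ F ∙ u}

omit [CharP F 2] in
theorem Nb_act {g : V ≃ₗ[F] V} (hg : g ∈ X) : Nb X (g u) = (Nb X u).map (g : V →ₗ[F] V) := by
  rw [Nb, Nb, Submodule.map_span]
  congr 1
  ext x
  obtain ⟨x, rfl⟩ := g.surjective x
  have : F ∙ g u = (F ∙ u).map (g : V →ₗ[F] V) := by simp [Submodule.map_span]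
  simp only [ell_act hg, this, Set.mem_setOf_eq, Submodule.mem_map_equiv, LinearEquiv.symm_apply_apply,
    LinearEquiv.coe_coe, g.injective.mem_set_image]
  exact and_congr_left fun _ => ⟨fun e => by simpa using e.act (inv_mem hg), fun e => e.act hg⟩

omit [CharP F 2] in
theorem Nb_smul {a : F} (a0 : a ≠ 0) : Nb X (a • u) = Nb X u := by
  rw [Nb, Nb, ell_smul a0, Submodule.span_singleton_smul_eq (IsUnit.mk0 a a0)]

namespace H0

variable (h : H0 X)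
include h

theorem n3_of (ha : Aff X) : N3 X := fun u1 φ1 u2 φ2 c α β γ δ t h1 h2 => by
  by_contra e
  push Not at e
  refine h.no_third ha c t e.1 e.2 (fun γ0 => e.1 ?_) fun δ0 => e.2 (h.deg c t h1 h2 (.inr δ0)).1
  exact (h.deg c.symm (α := β) (β := α) (γ := δ) (δ := γ) (by rwa [add_comm, add_comm (δ • φ2)])
    (by rwa [add_comm]) (by rwa [add_comm]) (.inr γ0)).1

theorem proj (h3 : N3 X) (c : CP X u1 φ1 u2 φ2) :
    ∃ π : V →ₗ[F] V, π u1 = u1 ∧ ∀ v ψ, CP X u1 φ1 v ψ → π v = 0 := by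
  classical
  let C : Subgroup (V ≃ₗ[F] V) := mkSub (fun g => g ∈ X ∧ g u1 = u1 ∧ ∀ x, φ1 (g x) = φ1 x)
    ⟨one_mem _, rfl, fun _ => rfl⟩ fun a b ha hb => ⟨mul_mem ha.1 hb.1, by simp [ha.2.1, hb.2.1],
      fun x => by simp [ha.2.2, hb.2.2]⟩
  obtain ⟨a, ha, ea⟩ := c.t2.tv
  have aC : a ∈ C := ⟨ha, by simp [ea, c.z2], fun x => by simp [ea, c.z1]⟩
  have a2 : a * a = 1 := sq_one c.t2.z ea
  obtain ⟨y, hy, y1⟩ := c.symm.ex_y
  have u0 := c.symm.u0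
  have φ0 := c.symm.φ0
  have a1 : a ≠ 1 := fun e => by simpa [e, hy, u0] using ea y
  have cj : ∀ (g : V ≃ₗ[F] V) x, (g * a * g⁻¹) x = x + φ2 (g.symm x) • g u2 := fun g x => by simp [ea]
  obtain ⟨O, hO, odd, hm⟩ := ZS.zstar (⟨a, aC⟩ : C) ⟨fun e => a1 (congrArg Subtype.val e), Subtype.ext a2⟩
    fun g e => by
      have s := c.t2.act g.2.1
      have v0 : g.1 u2 ≠ 0 := by simpa using u0
      have ψ0 : φ2 ∘ₗ (g.1.symm : V →ₗ[F] V) ≠ 0 := ne_of_ap (x := g.1 y) (by simp [hy])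
      have z : φ2 (g.1 u2) = 0 := by
        have := congrArg (fun f : C => φ2 (f.1 y)) e.eq
        change φ2 (a ((g.1 * a * g.1⁻¹) y)) = φ2 ((g.1 * a * g.1⁻¹) (a y)) at this
        simp only [cj, ea, map_add, map_smul, c.t2.z, smul_eq_mul, hy] at this
        have e1 : φ2 (g.1.symm u2) * φ2 (g.1 u2) = 0 := by linear_combination -this
        exact (mul_eq_zero.1 e1).elim (fun e => h.sym.z s c.t2 ψ0 u0 e) id
      obtain ⟨α, β, γ, δ, e1, e2⟩ := h.coord0 c s v0 ψ0 (by rw [g.2.2.2, c.z1]) z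
      have β0 : β ≠ 0 := fun b0 => one_ne_zero (c.li (-α) 1 (g.1.injective (by
        simp [e1, b0, g.2.2.1]))).2
      have α0 := (h3 _ _ _ _ c _ _ _ _ (e1 ▸ e2 ▸ s) (e1 ▸ v0) (e2 ▸ ψ0)).resolve_right β0
      rw [α0, zero_smul, zero_add] at e1
      have e3 := h.one_ax c.t2 (Tr.smul' (e1 ▸ s)) u0 φ0 (smul_ne_zero β0 ψ0)
      refine Subtype.ext (LinearEquiv.ext fun x => ?_)
      simp only [Subgroup.coe_mul, InvMemClass.coe_inv, cj, ea, e1, smul_smul]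
      rw [← congrArg (fun f : Dual F V => f x) e3]
      simp [mul_comm]
  have := Fintype.ofFinite O
  let π : V →ₗ[F] V := ∑ o : O, (o.1.1 : V →ₗ[F] V)
  have π1 : ∀ x, π x = ∑ o : O, o.1.1 x := fun x => by simp [π]
  have π2 : ∀ o ∈ O, ∀ x, π (o.1 x) = π x := fun o ho x => by
    rw [π1, π1]
    exact Fintype.sum_equiv (Equiv.mulRight (⟨o, ho⟩ : O)) _ _ fun _ => rfl
  have π3 : ∀ v ψ, Tr X v ψ → φ2 v ≠ 0 → ψ u2 ≠ 0 → ψ u1 = 0 → π v = 0 ∧ π u2 = 0 :=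
    fun v ψ s b1 b2 b3 => by
      obtain ⟨g, hg, e1, e2, k, k0, e3, e4⟩ := h.conj_nb c.t1 c.u0 c.φ0 c.t2 s b1 b2 c.z2 b3
      have e5 : ∀ x, π (a x + ψ (a x) • v) = π x := fun x => by
        have := π2 _ (hm ⟨g, hg, e1, e2⟩) x
        change π ((g * a * g⁻¹) (a x)) = _ at this
        rwa [cj, e3, smul_smul, mul_comm, ← e4, LinearEquiv.apply_symm_apply] at this
      have e6 : π v = 0 := by simpa [ea, c.t2.z, b2] using e5 u2
      exact ⟨e6, by simpa [ea, e6, b1] using e5 v⟩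
  refine ⟨π, ?_, fun v ψ c' => ?_⟩
  · rw [π1, Finset.sum_congr rfl fun (o : O) _ => o.1.2.2.1, Finset.sum_const, Finset.card_univ,
      ← Nat.card_eq_fintype_card]
    obtain ⟨n, e⟩ := odd
    rw [e, add_smul, one_smul, mul_comm, mul_smul, two_smul, add_self_V F, smul_zero, zero_add]
  by_cases b1 : φ2 v = 0
  swap
  · exact (π3 v ψ c'.t2 b1 (fun e => b1 (h.sym.z c'.t2 c.t2 c'.symm.φ0 u0 e)) c'.z2).1
  obtain ⟨α, β, γ, δ, rfl, rfl⟩ := h.coord0 c c'.t2 c'.symm.u0 c'.symm.φ0 c'.z1 b1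
  have β0 : β ≠ 0 := fun e => one_ne_zero (c'.li (-α) 1 (by rw [e]; module)).2
  have α0 := (h3 _ _ _ _ c _ _ _ _ c'.t2 c'.symm.u0 c'.symm.φ0).resolve_right β0
  obtain ⟨w, ρ, r, a1, -, a2, b2⟩ := h.off c
  simp [α0, (π3 w ρ r b2 a2 a1).2]

theorem nb_facts (h3 : N3 X) (c : CP X u1 φ1 u2 φ2) : 3 ≤ finrank F (Nb X u1) ∧
    (∀ x ∈ Nb X u1, φ1 x = 0) ∧ ∀ a b : F, a • u1 + b • u2 ∈ Nb X u1 → a = 0 := by
  have := h.fd
  refine ⟨?_, fun x hx => (show _ ≤ ell X u1 from Submodule.span_le.2 fun w hw => hw.2.1) hx φ1 c.t1,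
    fun a b e => ?_⟩
  · have d1 := finrank_inf_ker_ge (⊤ : Submodule F V) φ1
    rw [finrank_top, h.dim, top_inf_eq] at d1
    have d2 := finrank_sup_span_le (Nb X u1) u1
    have d3 := Submodule.finrank_mono (show LinearMap.ker φ1 ≤ Nb X u1 ⊔ F ∙ u1 from fun y hy => by
      by_contra e
      obtain ⟨η, η0, η1⟩ := exists_dual_one e
      refine one_ne_zero (η0.symm.trans (h.big c (fun w ψ s w0 ψ0 e => η1 w ?_) hy))
      by_cases e1 : w ∈ F ∙ u1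
      · exact Submodule.mem_sup_right e1
      exact Submodule.mem_sup_left (Submodule.subset_span
        ⟨⟨w0, ψ, ψ0, s⟩, h.mem_ell' c.t1 c.u0 c.φ0 e, e1⟩))
    omega
  obtain ⟨π, π1, π2⟩ := h.proj h3 c
  have := (show Nb X u1 ≤ LinearMap.ker π from Submodule.span_le.2 fun w ⟨⟨w0, ψ, ψ0, s⟩, e1, e2⟩ => by
    obtain ⟨x, hx⟩ := ex_ne ψ0
    exact π2 w ψ (h.cp_of c.t1 s c.u0 c.φ0 w0 ψ0 (e1 φ1 c.t1) ⟨x, fun e => e2
      (Submodule.mem_span_singleton.2 ⟨(ψ x)⁻¹ * φ1 x, by rw [mul_smul, e, inv_smul_smul₀ hx]⟩)⟩)) e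
  simpa [π1, π2 u2 φ2 c, c.u0] using this

theorem fixz (ha : Aff X) (hS : IsSyl X S) (c : CP X u1 φ1 u2 φ2) (t1 : Tr S u1 φ1) (t2 : Tr S u2 φ2) :
    ∃ z, φ1 z = 0 ∧ φ2 z = 0 ∧ (∀ a b : F, z ≠ a • u1 + b • u2) ∧ ∀ g ∈ S, g z = z := by
  have := h.fd
  have h3 := h.n3_of ha
  obtain ⟨d1, p1, q1⟩ := h.nb_facts h3 c
  obtain ⟨d2, p2, q2⟩ := h.nb_facts h3 c.symm
  have d3 := Submodule.finrank_sup_add_finrank_inf_eq (Nb X u1) (Nb X u2)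
  have d4 := Submodule.finrank_le (Nb X u1 ⊔ Nb X u2)
  rw [h.dim] at d4
  obtain ⟨z, hz, z0⟩ := exists_notMem_of_finrank_lt (U := ⊥) (W := Nb X u1 ⊓ Nb X u2)
    (by rw [finrank_bot]; omega)
  have nA : ∀ a b : F, a • u1 + b • u2 ∈ Nb X u1 ⊓ Nb X u2 → a • u1 + b • u2 = 0 := fun a b e => by
    simp [q1 a b e.1, q2 b a (add_comm (a • u1) _ ▸ e.2)]
  have n : ∀ a b : F, z ≠ a • u1 + b • u2 := fun a b e => z0 (e ▸ nA a b (e ▸ hz))
  refine ⟨z, p1 z hz.1, p2 z hz.2, n, fun g hg => ?_⟩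
  have k : ∀ {u φ}, Tr S u φ → u ≠ 0 → φ ≠ 0 → ∃ a : F, a ≠ 0 ∧ (g u = a • u1 ∨ g u = a • u2) :=
    fun {u φ} t u0 φ0 => by
      have s := t.act hg
      have v0 : g u ≠ 0 := by simpa using u0
      have ψ0 : φ ∘ₗ (g.symm : V →ₗ[F] V) ≠ 0 :=
        let ⟨y, hy⟩ := ex_ne φ0
        ne_of_ap (x := g y) (by simpa using hy)
      obtain ⟨α, β, γ, δ, e1, e2⟩ := h.coord hS c t1 t2 s v0 ψ0
      rcases h3 _ _ _ _ c _ _ _ _ (e1 ▸ e2 ▸ s.mono hS.le) (e1 ▸ v0) (e2 ▸ ψ0) with rfl | rfl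
      · exact ⟨β, fun e => v0 (by simp [e1, e]), .inr (by simpa using e1)⟩
      · exact ⟨α, fun e => v0 (by simp [e1, e]), .inl (by simpa using e1)⟩
  have m : g z ∈ Nb X u1 ⊓ Nb X u2 := by
    have m1 : g z ∈ Nb X (g u1) := Nb_act (hS.le hg) ▸ ⟨z, hz.1, rfl⟩
    have m2 : g z ∈ Nb X (g u2) := Nb_act (hS.le hg) ▸ ⟨z, hz.2, rfl⟩
    obtain ⟨a, a0, e1⟩ := k t1 c.u0 c.φ0
    obtain ⟨b, b0, e2⟩ := k t2 c.symm.u0 c.symm.φ0
    have nn : ∀ x, g u1 = a • x → g u2 = b • x → False := fun x e1 e2 =>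
      b0 (c.li b (-a) (g.injective (by simp only [map_add, map_smul, e1, e2, map_zero]; module))).1
    rcases e1 with e1 | e1 <;> rcases e2 with e2 | e2
    · exact (nn _ e1 e2).elim
    · rw [e1, Nb_smul a0] at m1
      rw [e2, Nb_smul b0] at m2
      exact ⟨m1, m2⟩
    · rw [e1, Nb_smul a0] at m1
      rw [e2, Nb_smul b0] at m2
      exact ⟨m2, m1⟩
    · exact (nn _ e1 e2).elim
  obtain ⟨a, b, e, e1⟩ := c.mem3 h.toHy0 (p1 z hz.1) (p2 z hz.2) n (p1 _ m.1) (p2 _ m.2)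
  rw [nA a b (by
    rw [← sub_eq_iff_eq_add] at e1
    exact e1 ▸ sub_mem m (Submodule.smul_mem _ _ hz)), zero_add] at e1
  rw [e1, eig_one (hS.two g hg) z0 e1, one_smul]

end H0

/-- the small case for a perfect group -/
structure H2 (X : Subgroup (V ≃ₗ[F] V)) : Prop extends H0 X where
  perf : commutator X = ⊤

namespace H2

variable (h : H2 X)
include h

theorem case_fix (ha : Aff X) (hS : IsSyl X S) (c : CP X u1 φ1 u2 φ2) (t1 : Tr S u1 φ1)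
    (t2 : Tr S u2 φ2) (H : ∀ g ∈ S, ∀ u φ, Tr S u φ → ∀ x, φ (g.symm x) • g u = φ x • u) : False := by
  have k : ∀ g ∈ S, ∀ u φ, Tr S u φ → u ≠ 0 → φ ≠ 0 → g u = u ∧ ∀ x, φ (g x) = φ x :=
    fun g hg u φ t u0 φ0 => by
      obtain ⟨y, hy⟩ := ex_ne φ0
      have e := H g hg u φ t (g y)
      rw [LinearEquiv.symm_apply_apply] at e
      have e1 : g u = ((φ y)⁻¹ * φ (g y)) • u := by rw [mul_smul, ← e, inv_smul_smul₀ hy]
      rw [eig_one (hS.two g hg) u0 e1, one_smul] at e1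
      refine ⟨e1, fun x => ?_⟩
      have := H g hg u φ t (g x)
      rw [LinearEquiv.symm_apply_apply, e1] at this
      exact (smul_left_injective F u0 this).symm
  obtain ⟨y1, a1, a2⟩ := c.ex_y
  obtain ⟨y2, a3, a4⟩ := c.symm.ex_y
  obtain ⟨e1, b1, b2⟩ := c.ex_e
  obtain ⟨e2, b3, b4⟩ := c.symm.ex_e
  obtain ⟨z, z1, z2, z3, z4⟩ := h.fixz ha hS c t1 t2
  have k1 : ∀ g ∈ S, ∀ g' ∈ S, ∀ y, g (g' y) - y = (g y - y) + (g' y - y) := fun g hg g' hg' y => by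
    obtain ⟨a, b, a', e⟩ := c.mem3 h.toHy0 z1 z2 z3 (x := g' y - y)
      (by simp [(k g' hg' _ _ t1 c.u0 c.φ0).2]) (by simp [(k g' hg' _ _ t2 c.symm.u0 c.symm.φ0).2])
    have : g (g' y - y) = g' y - y := by
      simp [e, (k g hg _ _ t1 c.u0 c.φ0).1, (k g hg _ _ t2 c.symm.u0 c.symm.φ0).1, z4 g hg]
    rw [map_sub] at this
    linear_combination (norm := module) this
  refine no_hom h.perf hS t1 c.u0 c.φ0 (fun g => e1 (g y1 - y1) + e2 (g y2 - y2))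
    (fun g hg g' hg' => ?_) fun g hg v ψ z v0 ψ0 e => ?_
  · simp only [LinearEquiv.mul_apply, k1 g hg g' hg', map_add]
    ring
  · have s : Tr S v ψ := ⟨z, g, hg, e⟩
    obtain ⟨α, β, γ, δ, rfl, rfl⟩ := h.coord hS c t1 t2 s v0 ψ0
    have := ha _ _ _ _ c _ _ _ _ (s.mono hS.le) v0 ψ0
    simp only [e, add_sub_cancel_left, map_add, map_smul, LinearMap.add_apply, LinearMap.smul_apply,
      smul_eq_mul, a1, a2, a3, a4, b1, b2, b3, b4]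
    linear_combination this

theorem case_move (ha : Aff X) (hS : IsSyl X S) (t1 : Tr S u1 φ1) {g0 : V ≃ₗ[F] V} (hg0 : g0 ∈ S)
    (H : φ1 (g0.symm x) • g0 u1 ≠ φ1 x • u1) : False := by
  have u0 : u1 ≠ 0 := fun e => H (by simp [e])
  have φ0 : φ1 ≠ 0 := fun e => H (by simp [e])
  have nz : ∀ {φ : Dual F V} (g : V ≃ₗ[F] V), φ ≠ 0 → φ ∘ₗ (g.symm : V →ₗ[F] V) ≠ 0 := fun g φ0 =>
    let ⟨y, hy⟩ := ex_ne φ0
    ne_of_ap (x := g y) (by simpa using hy)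
  have nz' : ∀ {u : V} (g : V ≃ₗ[F] V), u ≠ 0 → g u ≠ 0 := fun g u0 => by simpa using u0
  have t2 := t1.act hg0
  have c := h.cp_of (t1.mono hS.le) (t2.mono hS.le) u0 φ0 (nz' g0 u0) (nz g0 φ0)
    (h.perp hS t1 t2 u0 φ0 (nz' g0 u0) (nz g0 φ0)) ⟨x, H.symm⟩
  obtain ⟨u2, g1⟩ : ∃ u2, g0 u1 = u2 := ⟨_, rfl⟩
  obtain ⟨φ2, g2⟩ : ∃ φ2, φ1 ∘ₗ (g0.symm : V →ₗ[F] V) = φ2 := ⟨_, rfl⟩
  rw [g1, g2] at c t2
  have co := fun {v ψ} => h.coord hS c t1 t2 (v := v) (ψ := ψ)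
  have k0 : ∀ g ∈ S, ∃ a b c d : F, g u1 = a • u1 + c • u2 ∧ g u2 = b • u1 + d • u2 := fun g hg => by
    obtain ⟨a, c', -, -, e1, -⟩ := co (t1.act hg) (nz' g u0) (nz g φ0)
    obtain ⟨b, d, -, -, e2, -⟩ := co (t2.act hg) (nz' g c.symm.u0) (nz g c.symm.φ0)
    exact ⟨a, b, c', d, e1, e2⟩
  have g3 : g0 u2 = u1 := by
    obtain ⟨-, b, -, d, -, e⟩ := k0 g0 hg0
    have := two_tr c.li (hS.two g0 hg0) (a := 0) (c := 1) (by simp [g1]) e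
    rw [e, ← this.1, show b = 1 by simpa using this.2]
    simp
  have g4 : φ2 ∘ₗ (g0.symm : V →ₗ[F] V) = φ1 :=
    h.one_ax c.t1 (g3 ▸ c.t2.act (hS.le hg0)) u0 φ0 (nz g0 c.symm.φ0)
  have k1 : ∀ g ∈ S, ∃ a : F, g u1 = a • u1 + (1 + a) • u2 ∧ g u2 = (1 + a) • u1 + a • u2 :=
    fun g hg => by
      obtain ⟨a, b, c', d, e1, e2⟩ := k0 g hg
      have q1 := two_tr c.li (hS.two g hg) e1 e2
      have q2 := two_tr c.li (hS.two _ (mul_mem hg0 hg)) (a := c') (c := a) (b := d) (d := b)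
        (by simp [e1, g1, g3, add_comm]) (by simp [e2, g1, g3, add_comm])
      have q3 : b = 1 + a := by grind
      exact ⟨a, by rw [e1, q2.1, q3], by rw [e2, ← q1.1, q3]⟩
  have k2 : ∀ α β γ δ : F, Tr S (α • u1 + β • u2) (γ • φ1 + δ • φ2) → α • u1 + β • u2 ≠ 0 →
      γ • φ1 + δ • φ2 ≠ 0 → (α + β) * (γ + δ) = 1 ∧ α * γ + β * δ = 1 := fun α β γ δ s v0 ψ0 => by
    have q1 := ha _ _ _ _ c _ _ _ _ (s.mono hS.le) v0 ψ0
    have e1 : g0 (α • u1 + β • u2) = β • u1 + α • u2 := by simp [g1, g3, add_comm]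
    have e2 : (γ • φ1 + δ • φ2) ∘ₗ (g0.symm : V →ₗ[F] V) = δ • φ1 + γ • φ2 := by
      rw [LinearMap.add_comp, LinearMap.smul_comp, LinearMap.smul_comp, g2, g4, add_comm]
    have q2 := h.aff3 ha c (s.mono hS.le) v0 ψ0 (e1 ▸ e2 ▸ (s.mono hS.le).act (hS.le hg0))
      (e1 ▸ nz' g0 v0) (e2 ▸ nz g0 ψ0)
    exact ⟨eq_one_of_sq (by grind), q1⟩
  obtain ⟨y1, a1, a2⟩ := c.ex_y
  obtain ⟨y2, a3, a4⟩ := c.symm.ex_y
  obtain ⟨e1, b1, b2⟩ := c.ex_e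
  obtain ⟨e2, b3, b4⟩ := c.symm.ex_e
  obtain ⟨y, a5, a6⟩ : ∃ y, φ1 y = 1 ∧ φ2 y = 1 := ⟨y1 + y2, by simp [a1, a4], by simp [a2, a3]⟩
  obtain ⟨e, b5, b6⟩ : ∃ e : Dual F V, e u1 = 1 ∧ e u2 = 1 :=
    ⟨e1 + e2, by simp [b1, b4], by simp [b2, b3]⟩
  have k3 : ∀ g ∈ S, φ1 (g y) = 1 ∧ φ2 (g y) = 1 := fun g hg => by
    obtain ⟨a, q1, q2⟩ := k1 _ (inv_mem hg)
    have k : ∀ {u φ}, Tr S u φ → u ≠ 0 → φ ≠ 0 → ∀ α β : F, α + β = 1 → g⁻¹ u = α • u1 + β • u2 →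
        φ (g y) = 1 := fun {u φ} t u0 φ0 α β e e' => by
      have s := t.act (inv_mem hg)
      obtain ⟨-, -, γ, δ, -, e2⟩ := co s (nz' _ u0) (nz _ φ0)
      have := (k2 α β γ δ (e' ▸ e2 ▸ s) (e' ▸ nz' _ u0) (e2 ▸ nz _ φ0)).1
      rw [e, one_mul] at this
      exact (congrArg (fun f : Dual F V => f y) e2).trans (by simpa [a5, a6] using this)
    exact ⟨k t1 u0 φ0 _ _ (by grind) q1, k t2 c.symm.u0 c.symm.φ0 _ _ (by grind) q2⟩
  refine no_hom h.perf hS t1 u0 φ0 (fun g => e (g y - y)) (fun g hg g' hg' => ?_)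
    fun g hg v ψ z v0 ψ0 eg => ?_
  · obtain ⟨z, z1, z2, z3, z4⟩ := h.fixz ha hS c t1 t2
    obtain ⟨α, β, ε, q⟩ := c.mem3 h.toHy0 z1 z2 z3 (x := g' y - y) (by simp [(k3 g' hg').1, a5])
      (by simp [(k3 g' hg').2, a6])
    obtain ⟨a, q1, q2⟩ := k1 g hg
    have : e (g (g' y - y)) = e (g' y - y) := by
      simp only [q, map_add, map_smul, q1, q2, b5, b6, smul_eq_mul, z4 g hg]
      grind
    simp only [map_sub, LinearEquiv.mul_apply] at this ⊢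
    linear_combination this
  · have s : Tr S v ψ := ⟨z, g, hg, eg⟩
    obtain ⟨α, β, γ, δ, rfl, rfl⟩ := co s v0 ψ0
    have := (k2 _ _ _ _ s v0 ψ0).1
    simp only [eg, add_sub_cancel_left, map_add, map_smul, LinearMap.add_apply, LinearMap.smul_apply,
      smul_eq_mul, a5, a6, b5, b6]
    linear_combination this

theorem ex_alpha (t : Tr X u φ) (u0 : u ≠ 0) (φ0 : φ ≠ 0) :
    ∃ u1 φ1 u2 φ2, CP X u1 φ1 u2 φ2 ∧ Tr X (u1 + u2) (φ1 + φ2) := by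
  by_contra hc
  have ha : Aff X := fun u1 φ1 u2 φ2 c α β γ δ t h1 h2 => (h.tri c t h1 h2).resolve_right fun e =>
    hc ⟨_, _, _, _, c.scale (left_ne_zero_of_mul_eq_one e.1) (left_ne_zero_of_mul_eq_one e.2), by
      rwa [inv_eq_of_mul_eq_one_right e.1, inv_eq_of_mul_eq_one_right e.2]⟩
  obtain ⟨v, ψ, c⟩ := h.ex_cp t u0 φ0
  obtain ⟨S, hS⟩ := exists_isSyl X
  obtain ⟨u1, φ1, u2, φ2, c, t1, t2⟩ := c.ex_syl h.toHy0 hS
  exact h.case_fix ha hS c t1 t2 fun g hg u φ t x => by_contra (h.case_move ha hS t hg)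

end H2

omit [CharP F 2] in
theorem Hy.kap (h : Hy X) (p : ℕ) [Fact p.Prime] [CharP F p] (hs : Sym X) : Kap X := by
  by_cases hp : p = 2
  swap
  · exact h.kap_odd p hp hs
  subst hp
  intro u φ v ψ t s
  by_contra c
  have H : H2 X := ⟨⟨h.toHy0, hs,
    (((h.kappa 2 t s).resolve_left c).resolve_right fun e => by omega).2⟩, h.perf⟩
  obtain ⟨_, _, _, _, c', t3⟩ := H.ex_alpha t (fun e => c (by simp [e])) fun e => c (by simp [e])
  exact c (H.kap c' t3 _ _ _ _ t s)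

end Cfsg.Agent.L5.T
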