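import Cfsg.Agent.L5.T7
import Cfsg.Agent.H1.U4A

/-!
The unitary case: every isotropic point is a centre.
-/

set_option autoImplicit false
set_option linter.unusedSectionVars false

namespace Cfsg.Agent.L5.T

open Module H7

variable {F V : Type*} [Field F] [AddCommGroup V] [Module F V]
  {X : Subgroup (V ≃ₗ[F] V)} {u v w x y : V} {φ ψ χ : Dual F V} [Finite V] [Finite F]

/-- an invariant skew-hermitian form -/
structure SH (X : Subgroup (V ≃ₗ[F] V)) (σ : F →+* F) (θ : V → Dual F V) : Prop where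
  σσ : ∀ a, σ (σ a) = a
  ne : ∃ a, σ a ≠ a
  add : ∀ x y, θ (x + y) = θ x + θ y
  smul : ∀ (c : F) x, θ (c • x) = σ c • θ x
  skew : ∀ x y, θ y x = -σ (θ x y)
  nd : ∀ y, θ y = 0 → y = 0
  inv : ∀ g ∈ X, ∀ x y, θ (g y) (g x) = θ y x

namespace SH

variable {σ : F →+* F} {θ : V → Dual F V} (H : SH X σ θ)
include H

theorem sub (x y : V) : θ (x - y) = θ x - θ y := by
  rw [sub_eq_add_neg, ← neg_one_smul F y, H.add, H.smul]
  simp only [map_neg, map_one]
  module

theorem axis (t : Tr X v ψ) (v0 : v ≠ 0) (ψ0 : ψ ≠ 0) :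
    θ v v = 0 ∧ ∃ c : F, c ≠ 0 ∧ σ c = c ∧ ψ = c • θ v := by
  obtain ⟨g, hg, e⟩ := t.tv
  obtain ⟨y, hy⟩ := ex_ne ψ0
  have k : ∀ x, σ (ψ y) * θ v x + ψ x * θ y v + σ (ψ y) * ψ x * θ v v = 0 := fun x => by
    have := H.inv g hg x y
    simp only [e, H.add, H.smul, map_add, map_smul, LinearMap.add_apply, LinearMap.smul_apply,
      smul_eq_mul] at this
    linear_combination this
  obtain ⟨a, ea⟩ := prop_of (χ := θ v) ψ0 fun x hx => by simpa [hx, hy] using k x
  have a0 : a ≠ 0 := fun e => v0 (H.nd v (by simp [ea, e]))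
  have e1 : θ v v = 0 := by simp [ea, t.z]
  refine ⟨e1, a⁻¹, inv_ne_zero a0, ?_, by simp [ea, a0]⟩
  have := k y
  rw [e1, H.skew v y, ea] at this
  simp only [LinearMap.smul_apply, smul_eq_mul, map_mul] at this
  rw [map_inv₀, mul_left_cancel₀ (mul_ne_zero hy (show σ (ψ y) ≠ 0 by simpa using hy))
    (show _ * σ a = _ * a by linear_combination -this)]

theorem sym : Sym X := fun u φ v ψ t s e => by
  by_contra c
  push Not at c
  obtain ⟨-, a, a0, -, rfl⟩ := H.axis t (ne_of_ap' c.2.2) c.1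
  obtain ⟨-, b, b0, -, rfl⟩ := H.axis s c.2.1 (ne_of_ap c.2.2)
  exact c.2.2 (by simp [H.skew u v, show θ u v = 0 by simpa [a0] using e])

theorem ll (h : Hy X) (t : Tr X u φ) (u0 : u ≠ 0) (φ0 : φ ≠ 0) (l : F) : l ∈ LL X ↔ σ l = l := by
  obtain ⟨p, hp⟩ := CharP.exists F
  have := Fact.mk (CharP.char_is_prime F p)
  have k : ∀ l ∈ LL X, σ l = l := fun l hl => by
    by_cases l0 : l = 0
    · simp [l0]
    obtain ⟨-, a, a0, a1, rfl⟩ := H.axis t u0 φ0
    obtain ⟨-, b, -, b1, e⟩ := H.axis (t.ll hl) u0 (smul_ne_zero l0 φ0)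
    rw [smul_smul] at e
    rw [← smul_left_injective F (right_ne_zero_of_smul φ0) e, map_mul, a1] at b1
    exact mul_right_cancel₀ a0 b1
  refine ⟨k l, fun e => ?_⟩
  obtain ⟨τ, h1, h2, -⟩ := h.form p H.sym (h.kap p H.sym) t u0 φ0
  have h3 : ∀ x, τ x = x → σ x = x := fun x e => k x (Sp4E.mem_iff_pow.2 (h1 x ▸ e))
  obtain ⟨a, ha⟩ := H.ne
  have a1 : τ a - a ≠ 0 := sub_ne_zero.2 (mt (h3 a) ha)
  rw [Sp4E.mem_iff_pow, ← h1]
  have e1 := h3 ((τ l - l) / (τ a - a)) (by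
    rw [map_div₀, map_sub, map_sub, h2, h2, ← neg_sub (τ l), ← neg_sub (τ a), neg_div_neg_eq])
  have e2 := h3 (l - (τ l - l) / (τ a - a) * a) (by
    rw [map_sub, map_mul, map_div₀, map_sub, map_sub, h2, h2, ← neg_sub (τ l), ← neg_sub (τ a),
      neg_div_neg_eq]
    field_simp
    ring)
  rw [map_sub, map_mul, e1, e, sub_right_inj] at e2
  by_contra c
  exact ha (mul_left_cancel₀ (div_ne_zero (sub_ne_zero.2 c) a1) e2)

variable (hl : ∀ l, l ∈ LL X ↔ σ l = l)
include hl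

theorem pt (t : Tr X v ψ) (ψ0 : ψ ≠ 0) : Tr X v (θ v) := by
  by_cases v0 : v = 0
  · exact v0 ▸ Tr.zero_ce _
  obtain ⟨-, c, c0, c1, rfl⟩ := H.axis t v0 ψ0
  simpa [c0] using t.ll (inv_mem ((hl c).2 c1))

theorem pt_smul (t : Tr X v (θ v)) (a : F) : Tr X (a • v) (θ (a • v)) := by
  rw [H.smul]
  exact Tr.smul (by simpa [smul_smul] using t.ll ((hl (a * σ a)).2 (by simp [H.σσ, mul_comm])))

omit hl in
theorem pt_act (t : Tr X v (θ v)) {g : V ≃ₗ[F] V} (hg : g ∈ X) : Tr X (g v) (θ (g v)) :=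
  t.act' hg fun x => H.inv g hg x v

theorem step (t : Tr X v (θ v)) (s : Tr X y (θ y)) {l : F} (e : σ l = l) :
    Tr X (v + (l * θ y v) • y) (θ (v + (l * θ y v) • y)) := by
  obtain ⟨g, hg, eg⟩ := (s.ll ((hl l).2 e)).tv
  simpa [eg] using H.pt_act t hg

end SH

/-- centres opposite to `u`, modulo `u` -/
def Om (X : Subgroup (V ≃ₗ[F] V)) (θ : V → Dual F V) (u w : V) : Prop :=
  θ u w = 1 ∧ ∃ c : F, Tr X (w + c • u) (θ (w + c • u))

namespace SH

variable {σ : F →+* F} {θ : V → Dual F V} (H : SH X σ θ) (hl : ∀ l, l ∈ LL X ↔ σ l = l)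
  (t : Tr X u (θ u))
include H hl t

theorem of_om (o : Om X θ u w) (z : θ w w = 0) : Tr X w (θ w) := by
  obtain ⟨o1, c, s⟩ := o
  have e := s.z
  simp only [H.add, H.smul, map_add, map_smul, LinearMap.add_apply, LinearMap.smul_apply,
    smul_eq_mul, z, o1, t.z, H.skew u w, map_one] at e
  simpa [o1, t.z] using H.step hl s t (l := -c) (by rw [map_neg]; linear_combination -e)

theorem line0 {d : V} (o : Om X θ u w) (o' : Om X θ u (w + d)) (hd : θ d d ≠ 0) {m : F}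
    (hm : σ m ≠ m) : Om X θ u (w + m • d) := by
  obtain ⟨o1, c, s⟩ := o
  obtain ⟨o2, c', s'⟩ := o'
  have d0 : θ u d = 0 := by simpa [o1] using o2
  have m0 : m ≠ 0 := fun e => hm (by simp [e])
  refine ⟨by simp [o1, d0], ?_⟩
  obtain ⟨v, hv⟩ : ∃ v, v = w + c • u := ⟨_, rfl⟩
  obtain ⟨v', hv'⟩ : ∃ v', v' = w + d + c' • u := ⟨_, rfl⟩
  rw [← hv] at s
  rw [← hv'] at s'
  have a1 : θ u v = 1 := by simp [hv, o1, t.z]
  have a2 : θ u v' = 1 := by rw [hv', map_add, o2]; simp [t.z]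
  have g0 : σ (θ v v') - θ v v' ≠ 0 := by
    have : d = v' - v + (c - c') • u := by rw [hv, hv']; module
    rw [this] at hd
    simp only [H.add, H.sub, H.smul, map_add, map_sub, map_smul, LinearMap.add_apply,
      LinearMap.sub_apply, LinearMap.smul_apply, smul_eq_mul, a1, a2, s.z, s'.z, t.z, H.skew u v,
      H.skew u v', H.skew v v', map_one] at hd
    exact fun e => hd (by linear_combination e)
  have l0 : σ m⁻¹ - m⁻¹ ≠ 0 := by simpa [sub_eq_zero] using hm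
  obtain ⟨l, l1, l2⟩ : ∃ l, σ l = l ∧ l * (σ (θ v v') - θ v v') = σ m⁻¹ - m⁻¹ :=
    ⟨(σ m⁻¹ - m⁻¹) / (σ (θ v v') - θ v v'), by
      rw [map_div₀, map_sub, map_sub, H.σσ, H.σσ, ← neg_sub (σ m⁻¹), ← neg_sub (σ (θ v v')),
        neg_div_neg_eq], div_mul_cancel₀ _ g0⟩
  have l3 : l ≠ 0 := fun e => l0 (by rw [← l2, e, zero_mul])
  obtain ⟨k, k1, k2⟩ : ∃ k, σ k = k ∧ l * (θ v v' + k) = m⁻¹ - 1 :=
    ⟨(m⁻¹ - 1) / l - θ v v', by
      rw [map_sub, map_div₀, map_sub, map_one, l1, sub_eq_sub_iff_sub_eq_sub, ← sub_div,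
        div_eq_iff l3]
      linear_combination -l2, by field_simp; ring⟩
  have r := H.pt_smul hl (H.step hl s' (H.step hl s t k1) l1) m
  simp only [a1, mul_one, H.add v, H.smul k, LinearMap.add_apply, LinearMap.smul_apply, smul_eq_mul,
    a2, k1, k2] at r
  refine ⟨m * c' + (1 - m) * (c + k), ?_⟩
  convert r using 2 <;> rw [hv, hv'] <;> match_scalars <;> field_simp <;> ring

theorem line {d : V} (o : Om X θ u w) (o' : Om X θ u (w + d)) (hd : θ d d ≠ 0) (m : F) :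
    Om X θ u (w + m • d) := by
  by_cases hm : σ m = m
  swap
  · exact H.line0 hl t o o' hd hm
  by_cases m0 : m = 0
  · simpa [m0] using o
  obtain ⟨a, ha⟩ := H.ne
  have a0 : a ≠ 0 := fun e => ha (by simp [e])
  have := H.line0 hl t o (H.line0 hl t o o' hd ha) (by simp [H.smul, a0, hd]) (m := m / a) (by
    rw [map_div₀, hm]
    exact fun e => ha (by field_simp [show σ a ≠ 0 by simpa using a0] at e; exact e.symm))
  rwa [smul_smul, div_mul_cancel₀ _ a0] at this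

theorem om_add (o : Om X θ u w) (a : F) : Om X θ u (w + a • u) :=
  let ⟨o1, c, s⟩ := o
  ⟨by simp [o1, t.z], c - a, by rwa [show w + a • u + (c - a) • u = w + c • u by module]⟩

theorem fill {d : V} (hd : θ d d ≠ 0) {a b : F} (e : a ≠ b) (o : Om X θ u (w + a • d))
    (o' : Om X θ u (w + b • d)) (m : F) : Om X θ u (w + m • d) := by
  have e1 : b - a ≠ 0 := sub_ne_zero.2 e.symm
  have := H.line hl t o (d := (b - a) • d) (by convert o' using 1; module) (by
    simp only [H.smul, map_smul, LinearMap.smul_apply, smul_eq_mul]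
    exact mul_ne_zero e1 (mul_ne_zero (by rwa [map_ne_zero]) hd)) ((m - a) / (b - a))
  convert this using 1
  match_scalars <;> field_simp
  ring

theorem plane {o d d' : V} (o1 : Om X θ u o) (o2 : Om X θ u (o + d)) (o3 : Om X θ u (o + d'))
    (hd : θ d d ≠ 0) (dd : θ d d' = 0)
    (hx : θ d' d' ≠ 0 → ∃ α β : F, α ≠ 0 ∧ β ≠ 0 ∧ Om X θ u (o + α • d + β • d')) (x y : F) :
    Om X θ u (o + x • d + y • d') := by
  have dd' : θ d' d = 0 := by simp [H.skew d d', dd]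
  have l1 := H.line hl t o1 o2 hd
  by_cases hd' : θ d' d' = 0
  swap
  · obtain ⟨α, β, α0, β0, o4⟩ := hx hd'
    have l2 := H.line hl t o1 o3 hd'
    have k1 := H.line hl t (l1 α) o4 (by simp [H.smul, β0, hd']) (y / β)
    have k2 := H.line hl t (l2 y) (d := α • d) (by
      convert k1 using 1; match_scalars <;> field_simp) (by simp [H.smul, α0, hd]) (x / α)
    convert k2 using 1
    match_scalars <;> field_simp
  obtain ⟨a, ha⟩ := H.ne
  have a0 : a ≠ 0 := fun e => ha (by simp [e])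
  have a1 : a ≠ 1 := fun e => ha (by simp [e])
  have k : ∀ x y : F, x ≠ 0 → y ≠ 1 → Om X θ u (o + y • d' + x • d) := fun x y x0 y1 => by
    have e : 1 - y ≠ 0 := sub_ne_zero.2 y1.symm
    have := H.line hl t o3 (d := (x / (1 - y)) • d - d') (by convert l1 (x / (1 - y)) using 1; module)
      (by
        have m0 : x / (1 - y) ≠ 0 := div_ne_zero x0 e
        generalize x / (1 - y) = m at m0
        simp [H.sub, H.smul, dd, dd', hd', hd, m0]) (1 - y)
    convert this using 1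
    match_scalars <;> field_simp
    ring
  rw [add_right_comm]
  by_cases y1 : y = 1
  swap
  · exact H.fill hl t hd a1.symm (k 1 y one_ne_zero y1) (k a y a0 y1) x
  subst y1
  refine H.fill hl t hd (inv_ne_zero a0).symm (by simpa using o3) ?_ x
  have := H.line hl t o1 (d := a • d' + d) (by simpa [add_assoc] using k 1 a one_ne_zero a1)
    (by simp [H.add, H.smul, dd, dd', hd', hd]) a⁻¹
  convert this using 1
  match_scalars <;> field_simp

theorem extra {o d d' : V} (o1 : Om X θ u o) (o2 : Om X θ u (o + d)) (o3 : Om X θ u (o + d'))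
    (hd : θ d d ≠ 0) (dd : θ d d' = 0) {l : F} (q1 : σ l = l) (q2 : l ≠ 0) (q3 : l ≠ 1)
    (hd' : θ d' d' ≠ 0) : ∃ α β : F, α ≠ 0 ∧ β ≠ 0 ∧ Om X θ u (o + α • d + β • d') := by
  have dd' : θ d' d = 0 := by simp [H.skew d d', dd]
  have l1 := H.line hl t o1 o2 hd
  have l2 := H.line hl t o1 o3 hd'
  obtain ⟨n, n0, n1, n2⟩ : ∃ n : F, n ≠ 0 ∧ 1 + n ≠ 0 ∧ n * σ n * θ d d + θ d' d' ≠ 0 := by
    have k : ∀ l, σ l = l → l ≠ 0 → l ≠ 1 → l * θ d d + θ d' d' ≠ 0 →
        ∃ n : F, n ≠ 0 ∧ 1 + n ≠ 0 ∧ n * σ n * θ d d + θ d' d' ≠ 0 := fun l q1 q2 q3 q4 => by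
      obtain ⟨n, e⟩ := exists_norm_eq σ H.σσ H.ne q1
      exact ⟨n, fun c => q2 (by simp [← e, c]), fun c => q3 (by
        simp [← e, eq_neg_of_add_eq_zero_right c]), e ▸ q4⟩
    by_cases c : l * θ d d + θ d' d' = 0
    swap
    · exact k l q1 q2 q3 c
    by_cases c2 : (1 : F) + 1 = 0
    · refine k l⁻¹ (by simp [q1]) (inv_ne_zero q2) (by simpa using q3) fun c' => q3 ?_
      have : l = l⁻¹ := mul_right_cancel₀ hd (by linear_combination c - c')
      field_simp at this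
      exact sub_eq_zero.1 (pow_eq_zero_iff two_ne_zero |>.1 (by
        linear_combination this + (1 - l) * c2))
    · exact ⟨1, one_ne_zero, c2, fun c' => q3 (mul_right_cancel₀ hd (by
        simp only [map_one] at c'; linear_combination c - c'))⟩
  refine ⟨n, n, n0, n0, ?_⟩
  have := H.line hl t (l1 (n * (1 + n))) (d := (1 + n) • (d' - n • d)) (by
    convert l2 (1 + n) using 1; module) (by
    simp only [H.sub, H.smul, map_sub, map_smul, LinearMap.sub_apply, LinearMap.smul_apply,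
      smul_eq_mul, dd, dd']
    refine mul_ne_zero n1 (fun c => mul_ne_zero (show σ (1 + n) ≠ 0 by rwa [map_ne_zero]) n2 ?_)
    linear_combination c) (n / (1 + n))
  convert this using 1
  match_scalars <;> field_simp <;> ring

theorem planeQ {o d e : V} (o1 : Om X θ u o) (o2 : Om X θ u (o + d)) (o3 : Om X θ u (o + e))
    (hd : θ d d ≠ 0) {l : F} (q1 : σ l = l) (q2 : l ≠ 0) (q3 : l ≠ 1) (x y : F) :
    Om X θ u (o + x • d + y • e) := by
  obtain ⟨m, hm⟩ : ∃ m : F, θ d (e - m • d) = 0 := ⟨θ d e / θ d d, by simp [hd]⟩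
  have p1 := H.line hl t o1 o2 hd m
  have p2 : Om X θ u (o + m • d + d) := by
    convert H.line hl t o1 o2 hd (m + 1) using 1; module
  have p3 : Om X θ u (o + m • d + (e - m • d)) := by convert o3 using 1; module
  convert H.plane hl t p1 p2 p3 hd hm (H.extra hl t p1 p2 p3 hd hm q1 q2 q3) (x - m + y * m) y using 1
  module

section z
variable {z : V} (z1 : θ u z = 0) (z3 : Tr X z (θ z)) (z4 : Tr X (u + z) (θ (u + z)))
include z1 z3 z4

theorem zstep (o : Om X θ u w) : ∃ k : F, k ≠ 0 ∧ Om X θ u (w + k • z) := by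
  obtain ⟨o1, c, s⟩ := o
  by_cases c1 : θ z (w + c • u) = 0
  · have r := H.step hl s z4 (map_one σ)
    rw [H.add u z, LinearMap.add_apply, c1, show θ u (w + c • u) = 1 by simp [o1, t.z]] at r
    exact ⟨1, one_ne_zero, by simp [o1, z1], c + 1, by
      rwa [show w + (1 : F) • z + (c + 1) • u = w + c • u + ((1 : F) * (1 + 0)) • (u + z) by module]⟩
  have r := H.step hl s z3 (map_one σ)
  generalize θ z (w + c • u) = k at r c1
  exact ⟨k, c1, by simp [o1, z1], c, by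
    rwa [show w + k • z + c • u = w + c • u + (1 * k) • z by module]⟩

theorem planeZ {o d : V} (o1 : Om X θ u o) (o2 : Om X θ u (o + d)) (hd : θ d d ≠ 0) (x y : F) :
    Om X θ u (o + x • d + y • z) := by
  obtain ⟨α, hm⟩ : ∃ m : F, θ d (z - m • d) = 0 := ⟨θ d z / θ d d, by simp [hd]⟩
  obtain ⟨k, k0, o3⟩ := H.zstep hl t z1 z3 z4 o1
  have p1 := H.line hl t o1 o2 hd (k * α)
  have p2 : Om X θ u (o + (k * α) • d + d) := by
    convert H.line hl t o1 o2 hd (k * α + 1) using 1; module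
  have p3 : Om X θ u (o + (k * α) • d + k • (z - α • d)) := by convert o3 using 1; module
  have := H.plane hl t p1 p2 p3 hd (by rw [map_smul, hm, smul_zero]) (fun e => by
    obtain ⟨k', k1, o4⟩ := H.zstep hl t z1 z3 z4 p1
    refine ⟨k' * α, k' / k, mul_ne_zero k1 fun a0 => e (by simp [a0, H.smul, z3.z]), div_ne_zero k1 k0, ?_⟩
    convert o4 using 1
    match_scalars <;> field_simp
    ring) (x - k * α + y * α) (y / k)
  convert this using 1
  match_scalars <;> field_simp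
  ring

theorem noniso (h : Hy X) (u0 : u ≠ 0) (z2 : z ∉ F ∙ u) (v1 : θ u v = 0)
    (n : ∀ a b : F, v ≠ a • u + b • z) : ∃ β : F, θ (v + β • z) (v + β • z) ≠ 0 := by
  by_contra c
  push Not at c
  obtain ⟨a, ha⟩ := H.ne
  have e0 := c 0
  have e1 := c 1
  have e2 := c a
  simp only [H.add, H.smul, map_add, map_smul, LinearMap.add_apply, LinearMap.smul_apply, smul_eq_mul,
    z3.z, map_zero, map_one] at e0 e1 e2
  have e3 : θ z v = 0 := mul_left_cancel₀ (sub_ne_zero.2 ha) (by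
    linear_combination e2 - a * e1 + (a - 1) * e0)
  have li : ∀ a b : F, a • u + b • z = 0 → a = 0 ∧ b = 0 := fun a b e => by
    by_cases b0 : b = 0
    · simpa [b0, u0] using e
    exact (z2 (Submodule.mem_span_singleton.2 ⟨-(b⁻¹ * a), by
      rw [← inv_smul_smul₀ b0 z, eq_neg_of_add_eq_zero_right e]; module⟩)).elim
  have cp : CP X u (θ u) z (θ z) := ⟨t, z3, z1, by simp [H.skew u z, z1], li, fun a b e => by
    simpa using li (σ a) (σ b) (H.nd _ (by rwa [H.add, H.smul, H.smul, H.σσ, H.σσ]))⟩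
  obtain ⟨a, b, e⟩ := cp.mem' (ζ := θ v) fun x x1 x2 => by
    obtain ⟨a, b, k, rfl⟩ := cp.mem3 h.toHy0 v1 e3 n x1 x2
    simp [H.skew u v, H.skew z v, v1, e3, show θ v v = 0 by simpa using e0]
  exact n (σ a) (σ b) (sub_eq_zero.1 (H.nd _ (by
    rw [H.sub, H.add, H.smul, H.smul, H.σσ, H.σσ, e, sub_self])))

end z

variable (h : Hy X) (u0 : u ≠ 0)
include h u0

theorem frame : (∃ o d, Om X θ u o ∧ Om X θ u (o + d) ∧ θ d d ≠ 0) ∧
    Submodule.span F {w | Om X θ u w} = ⊤ := by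
  have := h.fd
  obtain ⟨p, hp⟩ := CharP.exists F
  have := Fact.mk (CharP.char_is_prime F p)
  have φ0 : θ u ≠ 0 := mt (H.nd u) u0
  have hk := h.kap p H.sym
  have k : ∀ a ∈ Op X u (θ u), a.2 = -θ a.1 ∧ Om X θ u a.1 := fun a ⟨s, a1, a2⟩ => by
    have ψ0 : a.2 ≠ 0 := ne_of_ap (x := u) (by simp [a2])
    obtain ⟨-, c, -, -, e⟩ := H.axis s (ne_of_ap' (φ := θ u) (by simp [a1])) ψ0
    refine ⟨?_, a1, 0, by simpa using H.pt hl s ψ0⟩
    rw [e, LinearMap.smul_apply, H.skew u, a1] at a2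
    rw [e, show c = -1 by simpa [neg_eq_iff_eq_neg] using a2]
    module
  refine ⟨?_, eq_top_iff.2 (h.span_op H.sym hk t u0 φ0 ▸ Submodule.span_mono (by
    rintro _ ⟨a, ha, rfl⟩; exact (k a ha).2))⟩
  · by_contra c
    push Not at c
    obtain ⟨a, ha⟩ := H.ne
    refine ha ((hl a).1 (h.tr_top (LL X) (Op X u (θ u)) (fun a ha b hb => ?_)
      (h.gen_op H.sym hk t u0 φ0) ▸ Subfield.mem_top a))
    have e := c a.1 (b.1 - a.1) (k a ha).2 (by simpa using (k b hb).2)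
    have e1 := ha.1.z
    have e2 := hb.1.z
    rw [(k a ha).1] at e1
    rw [(k b hb).1] at e2 ⊢
    simp only [H.sub, map_sub, LinearMap.sub_apply, LinearMap.neg_apply, neg_eq_zero,
      H.skew b.1 a.1] at e e1 e2
    rw [hl, LinearMap.neg_apply, map_neg]
    linear_combination -e + e1 + e2

theorem closed (hq : (∃ l, σ l = l ∧ l ≠ 0 ∧ l ≠ 1) ∨ ∃ z, θ u z = 0 ∧ z ∉ F ∙ u ∧ Tr X z (θ z) ∧
    Tr X (u + z) (θ (u + z))) {e : V} (o : Om X θ u w) (o' : Om X θ u (w + e)) (m : F) :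
    Om X θ u (w + m • e) := by
  obtain ⟨⟨o0, d, o1, o2, hd⟩, -⟩ := H.frame hl t h u0
  rcases hq with ⟨l, q1, q2, q3⟩ | ⟨z, z1, z2, z3, z4⟩
  · have := H.planeQ hl t o1 o2 (e := w - o0) (by simpa using o) hd q1 q2 q3 1 1
    simpa using H.planeQ hl t o (d := d) (by convert this using 1; module) o' hd q1 q2 q3 0 m
  have zl : ∀ w, Om X θ u w → ∀ y : F, Om X θ u (w + y • z) := fun w o y => by
    have p := H.planeZ hl t z1 z3 z4 o1 o2 hd 0
    by_cases n : ∀ a b : F, w - o0 ≠ a • u + b • z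
    · obtain ⟨β, hβ⟩ := H.noniso hl t z1 z3 z4 h u0 z2 (by simp [o.1, o1.1]) n
      convert H.planeZ hl t z1 z3 z4 (p (-β)) (by convert o using 1; module) hβ 1 y using 1
      module
    push Not at n
    obtain ⟨a, b, n⟩ := n
    convert H.om_add hl t (p (b + y)) a using 1
    linear_combination (norm := module) n
  by_cases n : ∀ a b : F, e ≠ a • u + b • z
  · obtain ⟨β, hβ⟩ := H.noniso hl t z1 z3 z4 h u0 z2 (by simpa [o.1] using o'.1) n
    convert H.planeZ hl t z1 z3 z4 o (by simpa [add_assoc] using zl _ o' β) hβ m (-(m * β)) using 1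
    module
  push Not at n
  obtain ⟨a, b, rfl⟩ := n
  convert H.om_add hl t (zl w o (m * b)) (m * a) using 1
  module

theorem om_all (hq : (∃ l, σ l = l ∧ l ≠ 0 ∧ l ≠ 1) ∨ ∃ z, θ u z = 0 ∧ z ∉ F ∙ u ∧ Tr X z (θ z) ∧
    Tr X (u + z) (θ (u + z))) (e : θ u w = 1) : Om X θ u w := by
  obtain ⟨⟨o, -, o1, -, -⟩, sp⟩ := H.frame hl t h u0
  obtain ⟨a, ha⟩ := H.ne
  have a0 : a ≠ 0 := fun e => ha (by simp [e])
  have a1 : a - 1 ≠ 0 := fun e => ha (by simp [sub_eq_zero.1 e])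
  have cl := fun {w e} => H.closed hl t h u0 hq (w := w) (e := e)
  let E : Submodule F V :=
    { carrier := {e | Om X θ u (o + e)}
      add_mem' := fun {e e'} p p' => by
        have := cl (cl o1 p a) (e := (a / (a - 1)) • e' - a • e) (by
          convert cl o1 p' (a / (a - 1)) using 1; module) ((a - 1) / a)
        change Om X θ u _
        convert this using 1
        match_scalars <;> field_simp
        ring
      zero_mem' := by simpa using o1
      smul_mem' := fun c _ p => cl o1 p c }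
  have : Submodule.span F {w | Om X θ u w} ≤ E ⊔ F ∙ o := Submodule.span_le.2 fun w p =>
    mem_sup_span_singleton.2 ⟨w - o, (by simpa using p : Om X θ u (o + (w - o))), 1, by simp⟩
  obtain ⟨x, hx, c, rfl⟩ := mem_sup_span_singleton.1 (this (sp ▸ Submodule.mem_top (x := w)))
  have p : Om X θ u (o + x) := hx
  have e1 : θ u x = 0 := by simpa [o1.1] using p.1
  obtain rfl : c = 1 := by simpa [e1, o1.1] using e
  simpa [add_comm] using p

end SH

theorem SH.all {σ : F →+* F} {θ : V → Dual F V} (H : SH X σ θ) (h : Hy X) (t : Tr X u φ) (u0 : u ≠ 0)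
    (φ0 : φ ≠ 0) (z : θ x x = 0) {l : F} (e : σ l = l) : Tr X x (l • θ x) := by
  have hl := H.ll h t u0 φ0
  refine Tr.ll ?_ ((hl l).2 e)
  obtain ⟨u, u0, t, hq⟩ : ∃ u, u ≠ 0 ∧ Tr X u (θ u) ∧ ((∃ l, σ l = l ∧ l ≠ 0 ∧ l ≠ 1) ∨
      ∃ z, θ u z = 0 ∧ z ∉ F ∙ u ∧ Tr X z (θ z) ∧ Tr X (u + z) (θ (u + z))) := by
    by_cases c : ∃ l, σ l = l ∧ l ≠ 0 ∧ l ≠ 1
    · exact ⟨u, u0, H.pt hl t φ0, .inl c⟩
    have c' : ∀ l ∈ LL X, l = 0 ∨ l = 1 := fun l h => by
      by_contra e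
      push Not at e
      exact c ⟨l, (hl l).1 h, e⟩
    have : CharP F 2 := CharTwo.of_one_ne_zero_of_two_eq_zero one_ne_zero
      ((c' 2 (by simpa using natCast_mem (LL X) 2)).resolve_right (by
        rw [← one_add_one_eq_two]; simp))
    obtain ⟨u1, φ1, u2, φ2, c, t3⟩ := H2.ex_alpha ⟨⟨h.toHy0, H.sym, c'⟩, h.perf⟩ t u0 φ0
    obtain ⟨-, a, a0, -, e⟩ := H.axis c.t1 c.u0 c.φ0
    refine ⟨u1, c.u0, H.pt hl c.t1 c.φ0, .inr ⟨u2, by simpa [e, a0] using c.z1, fun e => ?_,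
      H.pt hl c.t2 c.symm.φ0, H.pt hl t3 fun e => one_ne_zero (c.li' 1 1 (by simpa using e)).1⟩⟩
    obtain ⟨a, e⟩ := Submodule.mem_span_singleton.1 e
    exact one_ne_zero (c.li (-a) 1 (by rw [← e]; module)).2
  have k : ∀ x, θ x x = 0 → θ u x ≠ 0 → Tr X x (θ x) := fun x z a => by
    simpa [a] using H.pt_smul hl (H.of_om hl t (H.om_all hl t h u0 hq (w := (θ u x)⁻¹ • x)
      (by simp [a])) (by simp [H.smul, z])) (θ u x)
  by_cases a : θ u x = 0
  swap
  · exact k x z a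
  by_cases x0 : x = 0
  · exact x0 ▸ Tr.zero_ce _
  have φ0 := mt (H.nd u) u0
  obtain ⟨w, ρ, r, a1, a2⟩ := h.opp' t u0 φ0 φ0 x0
  obtain ⟨g, hg, eg⟩ := r.tv
  simpa using H.pt_act (k (g x) (by rw [H.inv g hg, z]) (by simp [eg, a, a1, a2])) (inv_mem hg)

open H9.UDec in
/-- a subgroup of a unitary group containing a transvection -/
theorem Hy.unitary (h : Hy X) {P : Polar F V} (hP : Un P) (hX : ∀ g ∈ X, ∀ x y, P.B (g x) (g y) = P.B x y)
    (t : Tr X u φ) (u0 : u ≠ 0) (φ0 : φ ≠ 0) : P.E ≤ X := by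
  have := h.fd
  obtain ⟨δ, δ0, δ1⟩ := exists_skew P.σ P.σσ hP.σ
  have H : SH X P.σ fun y => δ • P.B.flip y :=
    ⟨P.σσ, hP.σ, fun x y => by simp, fun c x => by ext; simp; ring,
      fun x y => by simp [P.σ_herm, hP.ε, δ1], fun y e => P.nondeg y fun x => by
        simpa [δ0] using congrArg (fun f : Dual F V => f x) e, fun g hg x y => by simp [hX g hg]⟩
  refine H1.U4.E_le_of_TX hP (by rw [h.dim]; omega) fun v hv => ⟨hv, fun c hc => ?_⟩
  have e : P.σ c = -c := by simpa [hP.ε] using Polar.lam_σ hc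
  refine (H.all h t u0 φ0 (x := v) (by simp [Polar.sing_B hv]) (l := c / δ)
    (by simp [e, δ1, neg_div_neg_eq])).tv.has.congr fun x => ?_
  simp [H8.eich_tv, e, δ0, ← mul_assoc]

end Cfsg.Agent.L5.T
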