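import Mathlib

/-!
The classes of `SL₂(11)`.
-/

set_option autoImplicit false
set_option maxRecDepth 100000

namespace Cfsg.Agent.L5.Tr

open Matrix

/-- Square matrices of size two modulo eleven. -/
abbrev Mz := Matrix (Fin 2) (Fin 2) (ZMod 11)

/-- The special linear group. -/
abbrev Sz := Matrix.SpecialLinearGroup (Fin 2) (ZMod 11)

/-- Equal up to sign. -/
def pm (X Y : Mz) : Prop := X = Y ∨ X = -Y

instance ipm (X Y : Mz) : Decidable (pm X Y) := inferInstanceAs (Decidable (_ ∨ _))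

/-- Unipotent elements. -/
def Um (x y : ZMod 11) : Mz := !![1 - x * y, x * x; -(y * y), 1 + x * y]

/-- Elements of Borel subgroups. -/
def Bm (s : Fin 12) : Mz := if s = 11 then !![2, 0; 0, 6] else !![6, (s.1 : ZMod 11); 0, 2]

/-- Matrices as four natural numbers. -/
structure TrQ where
  /-- entry -/
  a : ℕ
  /-- entry -/
  b : ℕ
  /-- entry -/
  c : ℕ
  /-- entry -/
  d : ℕ

/-- Product. -/
def TrQ.mul (x y : TrQ) : TrQ := ⟨(x.a * y.a + x.b * y.c) % 11, (x.a * y.b + x.b * y.d) % 11,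
  (x.c * y.a + x.d * y.c) % 11, (x.c * y.b + x.d * y.d) % 11⟩

/-- Power. -/
def TrQ.pw (x : TrQ) : ℕ → TrQ
  | 0 => ⟨1, 0, 0, 1⟩
  | n + 1 => (x.pw n).mul x

/-- The matrix. -/
def TrQ.M (x : TrQ) : Mz := !![(x.a : ZMod 11), (x.b : ZMod 11); (x.c : ZMod 11), (x.d : ZMod 11)]

/-- Equality test. -/
def TrQ.eq (x y : TrQ) : Bool :=
  x.a % 11 == y.a % 11 && x.b % 11 == y.b % 11 && x.c % 11 == y.c % 11 && x.d % 11 == y.d % 11

/-- Negative. -/
def TrQ.ng (x : TrQ) : TrQ := ⟨10 * x.a, 10 * x.b, 10 * x.c, 10 * x.d⟩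

/-- Equality up to sign. -/
def TrQ.pmb (x y : TrQ) : Bool := x.eq y || x.eq y.ng

/-- Unipotent elements. -/
def TrQ.U (x y : ℕ) : TrQ := ⟨1 + 10 * x * y, x * x, 10 * y * y, 1 + x * y⟩

/-- Elements of Borel subgroups. -/
def TrQ.B (s : ℕ) : TrQ := if s = 11 then ⟨2, 0, 0, 6⟩ else ⟨6, s, 0, 2⟩

theorem tr_ten : (10 : ZMod 11) = -1 := by decide

theorem TrQ.M_mul (x y : TrQ) : (x.mul y).M = x.M * y.M := by
  simp only [TrQ.mul, TrQ.M, Matrix.mul_fin_two, ZMod.natCast_mod]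
  push_cast
  rfl

theorem TrQ.M_one : (⟨1, 0, 0, 1⟩ : TrQ).M = 1 := by
  simp [TrQ.M, Matrix.one_fin_two]

theorem TrQ.M_pw (x : TrQ) : ∀ n, (x.pw n).M = x.M ^ n
  | 0 => by rw [TrQ.pw, TrQ.M_one, pow_zero]
  | n + 1 => by rw [TrQ.pw, TrQ.M_mul, TrQ.M_pw x n, pow_succ]

theorem TrQ.eq_iff (x y : TrQ) : x.eq y = true ↔ x.M = y.M := by
  simp only [TrQ.eq, TrQ.M, Bool.and_eq_true, beq_iff_eq, ← ZMod.natCast_eq_natCast_iff']
  constructor
  · rintro ⟨⟨⟨h1, h2⟩, h3⟩, h4⟩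
    rw [h1, h2, h3, h4]
  · intro h
    exact ⟨⟨⟨congrFun (congrFun h 0) 0, congrFun (congrFun h 0) 1⟩, congrFun (congrFun h 1) 0⟩,
      congrFun (congrFun h 1) 1⟩

theorem TrQ.M_ng (x : TrQ) : x.ng.M = -x.M := by
  ext i j
  fin_cases i <;> fin_cases j <;> simp [TrQ.ng, TrQ.M, tr_ten]

theorem TrQ.pmb_ok {x y : TrQ} (h : x.pmb y = true) : pm x.M y.M := by
  simp only [TrQ.pmb, Bool.or_eq_true, TrQ.eq_iff, TrQ.M_ng] at h
  exact h

theorem TrQ.M_U (x y : ℕ) : (TrQ.U x y).M = Um x y := by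
  ext i j
  fin_cases i <;> fin_cases j <;> simp [TrQ.U, TrQ.M, Um, tr_ten, sub_eq_add_neg]

theorem TrQ.M_B (s : ℕ) (h : s < 12) : (TrQ.B s).M = Bm ⟨s, h⟩ := by
  by_cases e : s = 11
  · subst e
    simp [TrQ.B, TrQ.M, Bm]
  · have : (⟨s, h⟩ : Fin 12) ≠ 11 := fun e' => e (congrArg Fin.val e')
    simp [TrQ.B, TrQ.M, Bm, e, this]

/-- The test. -/
def TrQ.chk (X : TrQ) : Bool :=
  !((X.a * X.d + 10 * (X.b * X.c)) % 11 == 1 % 11) ||
  ((X.pw 11).pmb ⟨1, 0, 0, 1⟩ &&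
    (List.range 12).any fun s => ((TrQ.B s).mul X).pmb ((X.pw 4).mul (TrQ.B s))) ||
  (((List.range 11).any fun x => (List.range 11).any fun y => (List.range 11).any fun z =>
      (10 * (x * x) + 10 * (y * z)) % 11 == 1 % 11 &&
      (x * (X.a + 10 * X.d) + y * X.c + z * X.b) % 11 == 0 % 11) &&
    ((X.pw 6).pmb ⟨1, 0, 0, 1⟩ || (X.pw 5).pmb ⟨1, 0, 0, 1⟩ &&
      [0, 1].any fun y => (List.range 11).any fun x =>
        !((TrQ.U x y).mul X).eq (X.mul (TrQ.U x y)) &&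
        [3, 4, 5, 9].any fun m => ((TrQ.U x y).mul X).eq (X.mul ((TrQ.U x y).pw m))))

theorem TrQ.chk_all : ((List.range 11).all fun a => (List.range 11).all fun b =>
    (List.range 11).all fun c => (List.range 11).all fun d => TrQ.chk ⟨a, b, c, d⟩) = true := by
  decide +kernel

theorem TrQ.um_all : ((List.range 11).all fun x => (List.range 11).all fun y =>
    ((TrQ.U x y).pw 11).eq ⟨1, 0, 0, 1⟩) = true := by
  decide +kernel

theorem Um_facts : (∀ x y, (Um x y).det = 1 ∧ Um x y ^ 11 = 1) ∧ ∀ s, (Bm s).det = 1 := by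
  refine ⟨fun x y => ⟨?_, ?_⟩, fun s => ?_⟩
  · rw [Um, det_fin_two_of]
    ring
  · have h := TrQ.um_all
    simp only [List.all_eq_true, List.mem_range] at h
    have h := h x.val (ZMod.val_lt x) y.val (ZMod.val_lt y)
    rwa [TrQ.eq_iff, TrQ.M_pw, TrQ.M_U, TrQ.M_one, ZMod.natCast_zmod_val,
      ZMod.natCast_zmod_val] at h
  · unfold Bm
    split_ifs <;> rw [det_fin_two_of] <;> simp <;> decide

theorem cls0 : ∀ a b c d : ZMod 11, a * d - b * c = 1 →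
    (pm (!![a, b; c, d] ^ 11) 1 ∧ ∃ s, pm (Bm s * !![a, b; c, d]) (!![a, b; c, d] ^ 4 * Bm s)) ∨
    (∃ x y z, x * -x - y * z = 1 ∧ x * (a - d) + y * c + z * b = 0) ∧
      (pm (!![a, b; c, d] ^ 6) 1 ∨ pm (!![a, b; c, d] ^ 5) 1 ∧ ∃ y, y * y = y ∧ ∃ x,
        Um x y * !![a, b; c, d] ≠ !![a, b; c, d] * Um x y ∧
        ∃ m ∈ [3, 4, 5, 9], Um x y * !![a, b; c, d] = !![a, b; c, d] * Um x y ^ m) := by
  intro a b c d hd
  have h := TrQ.chk_all
  simp only [List.all_eq_true, List.mem_range] at h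
  have h := h a.val (ZMod.val_lt a) b.val (ZMod.val_lt b) c.val (ZMod.val_lt c) d.val
    (ZMod.val_lt d)
  have hM : (⟨a.val, b.val, c.val, d.val⟩ : TrQ).M = !![a, b; c, d] := by
    simp only [TrQ.M, ZMod.natCast_zmod_val]
  simp only [TrQ.chk, Bool.or_eq_true, Bool.and_eq_true, List.any_eq_true, List.mem_range,
    Bool.not_eq_true', beq_iff_eq, beq_eq_false_iff_ne, ne_eq,
    ← ZMod.natCast_eq_natCast_iff'] at h
  rcases h with (h | ⟨h1, s, hs, h2⟩) | ⟨⟨x, -, y, -, z, -, h1, h2⟩, h3⟩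
  · refine absurd ?_ h
    push_cast
    simp only [ZMod.natCast_zmod_val, tr_ten]
    linear_combination hd
  · have h1 := TrQ.pmb_ok h1
    have h2 := TrQ.pmb_ok h2
    rw [TrQ.M_pw, TrQ.M_one, hM] at h1
    rw [TrQ.M_mul, TrQ.M_mul, TrQ.M_pw, TrQ.M_B s hs, hM] at h2
    exact .inl ⟨h1, _, h2⟩
  · push_cast at h1 h2
    simp only [ZMod.natCast_zmod_val, tr_ten] at h1 h2
    refine .inr ⟨⟨x, y, z, by linear_combination h1, by linear_combination h2⟩, ?_⟩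
    rcases h3 with h3 | ⟨h3, y, hy, x, -, h4, m, hm, h5⟩
    · have h3 := TrQ.pmb_ok h3
      rw [TrQ.M_pw, TrQ.M_one, hM] at h3
      exact .inl h3
    · have h3 := TrQ.pmb_ok h3
      rw [TrQ.M_pw, TrQ.M_one, hM] at h3
      rw [← Bool.not_eq_true, TrQ.eq_iff, TrQ.M_mul, TrQ.M_mul, TrQ.M_U, hM] at h4
      rw [TrQ.eq_iff, TrQ.M_mul, TrQ.M_mul, TrQ.M_pw, TrQ.M_U, hM] at h5
      refine .inr ⟨h3, y, ?_, x, h4, m, hm, h5⟩
      simp only [List.mem_cons, List.not_mem_nil, or_false] at hy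
      rcases hy with rfl | rfl <;> simp

end Cfsg.Agent.L5.Tr
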