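import Cfsg.Agent.L5.Tr0
import Cfsg.Agent.L5.K0
import Cfsg.Agent.L4.GA7
import Cfsg.Agent.H8.Count

/-!
The traces of the five-dimensional representations of `L₂(11)`.
-/

set_option autoImplicit false

namespace Cfsg.Agent.L5.Tr

open Matrix Subgroup Cfsg.Agent.L5.K Cfsg.Agent.L4.GA

/-- An element of the special linear group. -/
def mk (M : Mz) (h : M.det = 1) : Sz := ⟨M, h⟩

theorem card_Sz : Nat.card Sz = 1320 := by
  have := Fact.mk (show Nat.Prime 11 by norm_num)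
  rw [H8.card_SL_eq 2 (by omega)]
  simp [Finset.sum_range_succ]

variable {P : Type*} [Group P] {ψ : Sz →* P}

theorem pm.eq (h : ψ (-1) = 1) {A B : Sz} (e : pm A.1 B.1) : ψ A = ψ B := by
  rcases e with e | e
  · rw [Subtype.ext e]
  · rw [show A = -1 * B from Subtype.ext (by simpa using e), map_mul, h, one_mul]

theorem cls (h : ψ (-1) = 1) (hk : ∀ A, ψ A = 1 → A ∈ Subgroup.center Sz) (A : Sz) :
    (ψ A ^ 11 = 1 ∧ ∃ b, b * ψ A = ψ A ^ 4 * b) ∨ (∃ b, b * ψ A = (ψ A)⁻¹ * b) ∧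
      (ψ A ^ 6 = 1 ∨ ψ A ^ 5 = 1 ∧ ∃ u, u ≠ 1 ∧ u ^ 11 = 1 ∧
        ∃ m ∈ [3, 4, 5, 9], u * ψ A = ψ A * u ^ m) := by
  have one : ∀ n, pm (A.1 ^ n) 1 → ψ A ^ n = 1 := fun n e => by
    rw [← map_pow, pm.eq h (B := 1) e, map_one]
  have := cls0 (A 0 0) (A 0 1) (A 1 0) (A 1 1) (by rw [← det_fin_two]; exact A.2)
  rw [← eta_fin_two A.1] at this
  rcases this with ⟨h1, s, h2⟩ | ⟨⟨x, y, z, h1, h2⟩, h3⟩
  · refine .inl ⟨one _ h1, ψ (mk _ (Um_facts.2 s)), ?_⟩
    rw [← map_pow, ← map_mul, ← map_mul]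
    exact pm.eq h h2
  refine .inr ⟨⟨ψ (mk !![x, y; z, -x] (by rw [det_fin_two_of, h1])), ?_⟩, h3.imp (one _) ?_⟩
  · rw [← map_inv, ← map_mul, ← map_mul]
    refine congrArg ψ (Subtype.ext ?_)
    rw [Matrix.SpecialLinearGroup.coe_mul, Matrix.SpecialLinearGroup.coe_mul,
      Matrix.SpecialLinearGroup.SL2_inv_expl]
    change !![x, y; z, -x] * A.1 = !![A.1 1 1, -A.1 0 1; -A.1 1 0, A.1 0 0] * !![x, y; z, -x]
    ext i j
    fin_cases i <;> fin_cases j <;> simp [Matrix.mul_apply, Fin.sum_univ_two] <;>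
      first | ring1 | linear_combination h2
  · rintro ⟨h4, y, -, x, h5, m, h6, h7⟩
    refine ⟨one _ h4, ψ (mk _ (Um_facts.1 x y).1), fun e => h5 (congrArg Subtype.val
      (Subgroup.mem_center_iff.1 (hk _ e) A)).symm, ?_, m, h6, ?_⟩
    · rw [← map_pow, ← map_one ψ]
      exact congrArg ψ (Subtype.ext (Um_facts.1 x y).2)
    · rw [← map_pow, ← map_mul, ← map_mul]
      exact congrArg ψ (Subtype.ext h7)

variable {k : Type*} [Field k] [IsAlgClosed k] {ρ : P →* M5 k}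

theorem ex_ψ [Finite P] (h : Hy0 ρ) (e : IsL211 (P ⧸ center P)) : ∃ ψ : Sz →* P,
    Function.Surjective ψ ∧ ψ (-1) = 1 ∧ ∀ A, ψ A = 1 → A ∈ center Sz := by
  obtain ⟨e⟩ := e
  let e' := eqv h e fun d => by
    have := d.trans (card_quotient_dvd_card _)
    rw [card_Sz] at this
    omega
  refine ⟨e'.symm.toMonoidHom.comp (QuotientGroup.mk' _),
    e'.symm.surjective.comp (QuotientGroup.mk'_surjective _),
    e'.symm.map_eq_one_iff.2 ((QuotientGroup.eq_one_iff _).2 (mem_center_iff.2 fun g => by simp)),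
    fun A hA => (QuotientGroup.eq_one_iff _).1 (e'.symm.map_eq_one_iff.1 hA)⟩

/-- a Frobenius group of order `55` -/
theorem frob {X U : M5 k} (h11 : (11 : k) ≠ 0) (x5 : X ^ 5 = 1) (u1 : U ≠ 1) (u11 : U ^ 11 = 1)
    {m : ℕ} (hm : m ∈ [3, 4, 5, 9]) (e : U * X = X * U ^ m) : X.trace = 0 ∧ ∃ μ : k, μ ≠ 1 ∧
      μ ^ 11 = 1 ∧ ∀ f : Polynomial k, (∀ i, f.eval (μ ^ m ^ i) = 0) → Polynomial.aeval U f = 0 := by
  obtain ⟨l, v, l1, v0, hv⟩ := K.ex_eig_ne (n := 11) (by simpa using h11) u11 u1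
  have l11 := K.eig_one hv v0 u11
  have := Fact.mk (show Nat.Prime 11 by norm_num)
  have pr : IsPrimitiveRoot l 11 := orderOf_eq_prime l11 l1 ▸ IsPrimitiveRoot.orderOf l
  have he : ∀ i : ℕ, U *ᵥ (X ^ i *ᵥ v) = l ^ m ^ i • (X ^ i *ᵥ v) := fun i => by
    induction i with
    | zero => simpa using hv
    | succ n ih =>
      rw [pow_succ' X, ← mulVec_mulVec, mulVec_mulVec _ U, e, ← mulVec_mulVec, K.eig_pow ih,
        mulVec_smul, ← pow_mul, ← pow_succ]
  obtain ⟨t, b⟩ := cyc5 (T := U) (μ := fun i => l ^ m ^ i.1) (fun i j e => by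
    simp only [] at e
    rw [pow_eq_pow_mod _ l11, pow_eq_pow_mod (m ^ j.1) l11] at e
    have := pr.pow_inj (Nat.mod_lt _ (by omega)) (Nat.mod_lt _ (by omega)) e
    exact (by decide : ∀ m ∈ [3, 4, 5, 9], ∀ i j : Fin 5, m ^ i.1 % 11 = m ^ j.1 % 11 → i = j)
      m hm i j this) v0 x5 fun i => he i
  refine ⟨t, l, l1, l11, fun f hf => b _ fun i => ?_⟩
  have : ∀ f : Polynomial k, Polynomial.aeval U f *ᵥ (X ^ i.1 *ᵥ v) =
      f.eval (l ^ m ^ i.1) • (X ^ i.1 *ᵥ v) := fun f => by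
    induction f using Polynomial.induction_on' with
    | add p q hp hq => rw [map_add, add_mulVec, hp, hq, Polynomial.eval_add, add_smul]
    | monomial n a =>
      rw [Polynomial.aeval_monomial, ← Algebra.smul_def, smul_mulVec, K.eig_pow (he i), smul_smul,
        Polynomial.eval_monomial]
  rw [this, hf, zero_smul]

theorem l211_tr [Finite P] {p : ℕ} [hp : Fact p.Prime] [CharP k p] (h : Hy ρ)
    (e : IsL211 (P ⧸ center P)) : p ≠ 11 ∧
    (p % 11 = 1 ∨ p % 11 = 3 ∨ p % 11 = 4 ∨ p % 11 = 5 ∨ p % 11 = 9 →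
      ∀ g, (ρ g).trace ^ p = (ρ g).trace) ∧
    (p % 11 = 2 ∨ p % 11 = 6 ∨ p % 11 = 7 ∨ p % 11 = 8 ∨ p % 11 = 10 →
      ∀ g, (ρ g⁻¹).trace = (ρ g).trace ^ p) := by
  obtain ⟨ψ, s, h1, hk⟩ := ex_ψ h.toHy0 e
  have fp : ∀ g : P, (ρ (g ^ p)).trace = (ρ g).trace ^ p := fun g => by rw [map_pow, trace_pow_char]
  have h11 : p ≠ 11 := by
    rintro rfl
    obtain ⟨g, hg⟩ := h.nsd
    obtain ⟨A, rfl⟩ := s g
    rcases cls h1 hk A with ⟨e, -⟩ | ⟨⟨b, e⟩, -⟩
    · exact hg (frobenius_inj k 11 (by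
        rw [frobenius_def, frobenius_def, ← fp, ← fp, inv_pow, e, inv_one]))
    · exact hg (tr_conj e)
  have key : ∀ g : P, (∃ f : ℕ → k, (∀ n, f (4 * n) = f n) ∧ (∀ n, f n = f (n % 11)) ∧
      (ρ g).trace = f 1 ∧ (ρ g⁻¹).trace = f 10 ∧ (ρ g).trace ^ p = f p) ∨
      (ρ g⁻¹).trace = (ρ g).trace ∧ (ρ g).trace ^ p = (ρ g).trace := fun g => by
    obtain ⟨A, rfl⟩ := s g
    rcases cls h1 hk A with ⟨e, b, hb⟩ | ⟨⟨b, hb⟩, e | ⟨e, u, u1, u11, m, hm, hu⟩⟩
    all_goals generalize ψ A = g at *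
    · exact .inl ⟨fun n => (ρ (g ^ n)).trace, fun n => by
        simp only [pow_mul]; exact tr_conj (SemiconjBy.pow_right hb n), fun n => by
        simp only [← pow_eq_pow_mod n e], by simp only [pow_one], by
        rw [inv_eq_of_mul_eq_one_right (show g * g ^ 10 = 1 by rw [← pow_succ', e])], (fp g).symm⟩
    · refine .inr ⟨tr_conj hb, ?_⟩
      have r : ∀ n, (ρ (g ^ n)⁻¹).trace = (ρ (g ^ n)).trace := fun n => by
        rw [← inv_pow]; exact tr_conj (SemiconjBy.pow_right hb n)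
      have r' : ∀ a b, a + b = 6 → (ρ (g ^ a)).trace = (ρ (g ^ b)).trace := fun a b f => by
        rw [← r, inv_eq_of_mul_eq_one_right (show g ^ a * g ^ b = 1 by rw [← pow_add, f, e])]
      by_cases p2 : p = 2
      · subst p2
        exact frobenius_inj k 2 (by
          rw [frobenius_def, frobenius_def, ← fp, ← fp, ← pow_mul, r' _ 2 rfl])
      by_cases p3 : p = 3
      · subst p3
        exact frobenius_inj k 3 (by
          rw [frobenius_def, frobenius_def, ← fp, ← fp, ← pow_mul, pow_eq_pow_mod _ e])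
      have d2 := mt (Nat.prime_dvd_prime_iff_eq Nat.prime_two hp.out).1 (Ne.symm p2)
      have d3 := mt (Nat.prime_dvd_prime_iff_eq Nat.prime_three hp.out).1 (Ne.symm p3)
      rw [← fp, pow_eq_pow_mod _ e]
      obtain f | f : p % 6 = 1 ∨ p % 6 = 5 := by omega
      · rw [f, pow_one]
      · rw [f, r' 5 1 rfl, pow_one]
    · refine .inr ⟨tr_conj hb, ?_⟩
      rw [(frob (X := ρ g) (U := ρ u) (by simpa using cast_ne (k := k) p (n := 11) (by norm_num) h11)
        (by rw [← map_pow, e, map_one]) (fun f => u1 (h.inj (f.trans (map_one ρ).symm)))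
        (by rw [← map_pow, u11, map_one]) hm (by rw [← map_pow, ← map_mul, hu, map_mul])).1,
        zero_pow hp.out.ne_zero]
  refine ⟨h11, fun c g => ?_, fun c g => ?_⟩ <;>
    rcases key g with ⟨f, f4, fm, e1, e2, e3⟩ | ⟨e1, e2⟩
  · have a4 := f4 1
    have a5 := (fm 16).symm.trans (f4 4)
    have a9 := (fm 20).symm.trans (f4 5)
    have a3 := (fm 36).symm.trans (f4 9)
    rw [e3, e1, fm p]
    rcases c with c | c | c | c | c <;> rw [c]
    exacts [a3.trans (a9.trans (a5.trans a4)), a4, a5.trans a4, a9.trans (a5.trans a4)]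
  · exact e2
  · have a7 := (fm 40).symm.trans (f4 10)
    have a6 := (fm 28).symm.trans (f4 7)
    have a2 := (fm 24).symm.trans (f4 6)
    have a8 := f4 2
    rw [e3, e2, fm p]
    symm
    rcases c with c | c | c | c | c <;> rw [c]
    exacts [a2.trans (a6.trans a7), a6.trans a7, a7, a8.trans (a2.trans (a6.trans a7))]
  · rw [e1, e2]

end Cfsg.Agent.L5.Tr
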