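import Cfsg.Agent.L5.RI

/-!
Reflections of order two in dimension five.
-/

set_option autoImplicit false

namespace Cfsg.Agent.L5.Tr

open Matrix Module Cfsg.Agent.L5.K

variable {k : Type*} [Field k] {A B : M5 k} {v φ w ψ : Fin 5 → k}

/-- The negative of a reflection. -/
def Rf (A : M5 k) (v φ : Fin 5 → k) : Prop := A = vecMulVec v φ - 1 ∧ φ ⬝ᵥ v = 2

theorem vv (v φ w ψ : Fin 5 → k) : vecMulVec v φ * vecMulVec w ψ = (φ ⬝ᵥ w) • vecMulVec v ψ := by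
  rw [vecMulVec_mul_vecMulVec, vecMulVec_smul]

theorem Rf.ex (a : A * A = 1) (a1 : A ≠ -1) {W : Submodule k (Fin 5 → k)}
    (hW : ∀ v, v ∈ W ↔ A *ᵥ v = -v) (h : 4 ≤ finrank k W) : ∃ v φ, Rf A v φ := by
  have h1 := (A + 1).mulVecLin.finrank_range_add_finrank_ker
  rw [show LinearMap.ker (A + 1).mulVecLin = W from Submodule.ext fun v => by
    simp [hW, add_eq_zero_iff_eq_neg], finrank_fin_fun] at h1
  obtain ⟨u, hu⟩ := finrank_le_one_iff.1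
    (show finrank k (LinearMap.range (A + 1).mulVecLin) ≤ 1 by omega)
  choose c hc using fun j => hu ⟨_, Pi.single j 1, rfl⟩
  have e : A + 1 = vecMulVec u.1 c := by
    ext i j
    simpa [vecMulVec_apply, mul_comm, one_apply, Pi.single_apply] using
      (congrFun (congrArg Subtype.val (hc j)) i).symm
  refine ⟨u, c, eq_sub_of_add_eq e, smul_left_injective k (show vecMulVec u.1 c ≠ 0 from
    fun f => a1 (eq_neg_of_add_eq_zero_left (e.trans f))) ?_⟩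
  show (c ⬝ᵥ u.1) • _ = (2 : k) • _
  rw [← vv, ← e, mul_add, add_mul, a, two_smul, mul_one, one_mul]
  abel

theorem Rf.ne (h : Rf A v φ) (h' : Rf B w ψ) (n : A ≠ B) : vecMulVec v φ - vecMulVec w ψ ≠ 0 :=
  fun e => n (by rw [h.1, h'.1, sub_eq_zero.1 e])

theorem Rf.cm (h2 : (2 : k) ≠ 0) (h : Rf A v φ) (h' : Rf B w ψ) (n : A ≠ B) (e : A * B = B * A) :
    φ ⬝ᵥ w = 0 := by
  have e1 : (φ ⬝ᵥ w) • vecMulVec v ψ = (ψ ⬝ᵥ v) • vecMulVec w φ := by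
    rw [h.1, h'.1] at e
    simp only [mul_sub, sub_mul, vv, mul_one, one_mul] at e
    linear_combination (norm := module) e
  have e2 := congrArg (vecMulVec v φ * ·) e1
  have e3 := congrArg (vecMulVec w ψ * ·) e1
  simp only [mul_smul_comm, vv, h.2, h'.2] at e2 e3
  have e4 : (φ ⬝ᵥ w * ψ ⬝ᵥ v) • (vecMulVec v φ - vecMulVec w ψ) = 0 := by
    linear_combination (norm := module) (2 : k) • e1 - e2 - e3
  have e5 := (smul_eq_zero.1 e4).resolve_right (h.ne h' n)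
  have e6 := congrArg (φ ⬝ᵥ · *ᵥ w) e1
  simp only [smul_mulVec, vecMulVec_mulVec, dotProduct_smul, h.2, h'.2, op_smul_eq_smul,
    smul_eq_mul] at e6
  exact mul_left_cancel₀ (mul_ne_zero h2 h2) (by linear_combination e6 + φ ⬝ᵥ w * e5)

theorem Rf.bd (h : Rf A v φ) (h' : Rf B w ψ) (n : A ≠ B) (e : A * B * A = B * (A * B)) :
    φ ⬝ᵥ w * ψ ⬝ᵥ v = 1 := by
  have e4 : (φ ⬝ᵥ w * ψ ⬝ᵥ v - 1) • (vecMulVec v φ - vecMulVec w ψ) = 0 := by
    rw [h.1, h'.1] at e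
    simp only [mul_sub, sub_mul, vv, mul_one, one_mul, smul_mul_assoc, mul_smul_comm, h.2, h'.2] at e
    linear_combination (norm := module) e
  exact sub_eq_zero.1 ((smul_eq_zero.1 e4).resolve_right (h.ne h' n))

theorem Rf.br (h : Rf A v φ) (a : A * A = 1) (b : B * B = 1) (n : A ≠ B)
    (e : A * B * A = B * (A * B)) : ∃ w ψ, Rf B w ψ ∧ φ ⬝ᵥ w = 1 ∧ ψ ⬝ᵥ v = 1 := by
  have i : A * B * (B * A) = 1 := by rw [mul_assoc, ← mul_assoc B, b, one_mul, a]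
  have r : Rf B ((A * B) *ᵥ v) (φ ᵥ* (B * A)) := ⟨by
    rw [← mul_vecMulVec, ← vecMulVec_mul, ← i, ← mul_assoc, ← sub_mul, ← mul_sub_one, ← h.1, e,
      mul_assoc, i, mul_one], by
    rw [← dotProduct_mulVec, mulVec_mulVec, mul_eq_one_comm.1 i, one_mulVec, h.2]⟩
  have c := h.bd r n e
  generalize (A * B) *ᵥ v = w at r c
  generalize φ ᵥ* (B * A) = ψ at r c
  refine ⟨(ψ ⬝ᵥ v) • w, (φ ⬝ᵥ w) • ψ, ⟨?_, ?_⟩, ?_, ?_⟩
  · rw [vecMulVec_smul, smul_vecMulVec, smul_smul, c, one_smul, r.1]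
  · rw [smul_dotProduct, dotProduct_smul, smul_smul, c, one_smul, r.2]
  · rw [dotProduct_smul, smul_eq_mul, mul_comm, c]
  · rw [smul_dotProduct, smul_eq_mul, c]

variable (p : ℕ) [Fact p.Prime] [CharP k p]

/-- Rational, or unitary. -/
def Gd (A : M5 k) : Prop := (p % 3 = 1 → A.map (frobenius k p) = A) ∧
  (p % 3 = 2 → (A.map (frobenius k p))ᵀ * A = 1)

/-- A pair of conjugate scalars. -/
def Fx (a b : k) : Prop := (p % 3 = 1 → a ^ p = a ∧ b ^ p = b) ∧ (p % 3 = 2 → a ^ p = b ∧ b ^ p = a)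

variable {p}

theorem Gd.one : Gd p (1 : M5 k) := by simp [Gd]

theorem Gd.mul (h : Gd p A) (h' : Gd p B) : Gd p (A * B) :=
  ⟨fun e => by rw [Matrix.map_mul, h.1 e, h'.1 e], fun e => by
    rw [Matrix.map_mul, transpose_mul, mul_assoc, ← mul_assoc _ A, h.2 e, one_mul, h'.2 e]⟩

theorem Gd.rf (a : A * A = 1) (e : A = (2 : k)⁻¹ • vecMulVec v φ - 1) (h : ∀ i, Fx p (v i) (φ i)) :
    Gd p A := by
  have e1 : A.map (frobenius k p) =
      (2 : k)⁻¹ • vecMulVec (fun i => v i ^ p) (fun i => φ i ^ p) - 1 := by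
    ext i j
    by_cases h : i = j <;> simp [e, vecMulVec_apply, h, map_ofNat] <;> exact .inl rfl
  refine ⟨fun c => ?_, fun c => ?_⟩ <;> rw [e1]
  · simp only [((h _).1 c).1, ((h _).1 c).2, ← e]
  · simp only [((h _).2 c).1, ((h _).2 c).2, transpose_sub, transpose_smul, transpose_vecMulVec,
      transpose_one, ← e, a]

theorem Fx.nat (n : ℕ) : Fx p (n : k) n :=
  have := map_natCast (frobenius k p) n
  ⟨fun _ => ⟨this, this⟩, fun _ => ⟨this, this⟩⟩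

omit [Fact p.Prime] [CharP k p] in
theorem Fx.cube {a b : k} (h : a ^ 2 + a + 1 = 0) (e : a * b = 1) : Fx p a b := by
  have a3 : a ^ 3 = 1 := by linear_combination (a - 1) * h
  have b3 : b ^ 3 = 1 := by grind
  rw [Fx, pow_eq_pow_mod p a3, pow_eq_pow_mod p b3]
  refine ⟨fun c => by simp [c], fun c => ?_⟩
  rw [c]
  constructor <;> grind

/-- The braid graph. -/
def br (i j : Fin 7) : Bool := (i, j) ∈ [(0, 5), (1, 5), (2, 5), (3, 5), (5, 0), (5, 1), (5, 2), (5, 3),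
  (1, 6), (2, 6), (3, 6), (4, 6), (6, 1), (6, 2), (6, 3), (6, 4)]

theorem nf (h2 : (2 : k) ≠ 0) (X : Fin 7 → M5 k) (a : ∀ i, X i * X i = 1)
    (n : ∀ i j, i ≠ j → X i ≠ X j)
    (b : ∀ i j, br i j = true → X i * X j * X i = X j * (X i * X j))
    (c : ∀ i j, br i j = false → X i * X j = X j * X i) (h : Rf (X 0) v φ) :
    ∃ B B' : M5 k, B * B' = 1 ∧ ∀ i, Gd p (B' * X i * B) := by
  have s : ∀ {i : Fin 7} {v φ}, Rf (X i) v φ → ∀ j, br i j = true →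
      ∃ w ψ, Rf (X j) w ψ ∧ φ ⬝ᵥ w = 1 ∧ ψ ⬝ᵥ v = 1 := fun {i v φ} h j e =>
    h.br (a i) (a j) (n i j (by rintro rfl; exact absurd e ((by decide : ∀ i, br i i ≠ true) i))) (b i j e)
  obtain ⟨w, ψ, h5, a0, b0⟩ := s h 5 rfl
  obtain ⟨v1, φ1, h1, b1, a1⟩ := s h5 1 rfl
  obtain ⟨v2, φ2, g2, b2, a2⟩ := s h5 2 rfl
  obtain ⟨v3, φ3, h3, b3, a3⟩ := s h5 3 rfl
  obtain ⟨w', ψ', h6, c1, d1⟩ := s h1 6 rfl
  obtain ⟨v4, φ4, h4, d4, c4⟩ := s h6 4 rfl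
  have z : ∀ {i j : Fin 7} {v φ w ψ}, Rf (X i) v φ → Rf (X j) w ψ → i ≠ j ∧ br i j = false →
      φ ⬝ᵥ w = 0 := fun h h' e => h.cm h2 h' (n _ _ e.1) (c _ _ e.2)
  have e2 := g2.bd h6 (n _ _ (by decide)) (b _ _ rfl)
  have e3 := h3.bd h6 (n _ _ (by decide)) (b _ _ rfl)
  let V : Fin 5 → Fin 5 → k := ![v, v1, v2, v3, v4]
  let Φ : Fin 5 → Fin 5 → k := ![φ, φ1, φ2, φ3, φ4]
  have hV : ∀ i : Fin 5, Rf (X (i.castLE (by omega))) (V i) (Φ i) := fun i => by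
    fin_cases i
    exacts [h, h1, g2, h3, h4]
  have o : ∀ i j, Φ i ⬝ᵥ V j = ((if i = j then 2 else 0 : ℕ) : k) := fun i j => by
    split_ifs with e
    · rw [e, (hV j).2]; rfl
    · rw [z (hV i) (hV j) (by revert i j; decide)]; simp
  have i1 : ((2 : k)⁻¹ • of Φ) * (of V)ᵀ = 1 := by
    ext i j
    rw [smul_mul_assoc, Matrix.smul_apply, show (of Φ * (of V)ᵀ) i j = _ from o i j]
    by_cases e : i = j <;> simp [e, h2, Matrix.one_apply]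
  have i2 := mul_eq_one_comm.1 i1
  have g : ∀ {i : Fin 7} {w ψ}, Rf (X i) w ψ → (∀ j, Fx p (Φ j ⬝ᵥ w) (ψ ⬝ᵥ V j)) →
      Gd p ((2 : k)⁻¹ • of Φ * X i * (of V)ᵀ) := fun {i w ψ} h e => Gd.rf (by
    rw [mul_assoc, ← mul_assoc (of V)ᵀ, ← mul_assoc (of V)ᵀ, i2, one_mul, mul_assoc,
      ← mul_assoc (X i), a, one_mul, i1]) (by
    rw [h.1, mul_sub, sub_mul, mul_one, i1, smul_mul_assoc, smul_mul_assoc, mul_vecMulVec,
      vecMulVec_mul]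
    rfl) e
  have d : ∀ x y : Fin 5 → k, 2 * x ⬝ᵥ y = ∑ i, x ⬝ᵥ V i * Φ i ⬝ᵥ y := fun x y => by
    conv_lhs => rw [← one_mulVec y, ← i2, ← mulVec_mulVec, dotProduct_mulVec, smul_mulVec,
      dotProduct_smul, smul_eq_mul, mul_inv_cancel_left₀ h2]
    rfl
  have f1 := d ψ w'
  have f2 := d ψ' w
  have a4 := z h4 h5 (by decide)
  have b4 := z h5 h4 (by decide)
  have c0 := z h h6 (by decide)
  have d0 := z h6 h (by decide)
  rw [z h5 h6 (by decide), Fin.sum_univ_five] at f1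
  rw [z h6 h5 (by decide), Fin.sum_univ_five] at f2
  change _ = ψ ⬝ᵥ v * φ ⬝ᵥ w' + ψ ⬝ᵥ v1 * φ1 ⬝ᵥ w' + ψ ⬝ᵥ v2 * φ2 ⬝ᵥ w' + ψ ⬝ᵥ v3 * φ3 ⬝ᵥ w' +
    ψ ⬝ᵥ v4 * φ4 ⬝ᵥ w' at f1
  change _ = ψ' ⬝ᵥ v * φ ⬝ᵥ w + ψ' ⬝ᵥ v1 * φ1 ⬝ᵥ w + ψ' ⬝ᵥ v2 * φ2 ⬝ᵥ w + ψ' ⬝ᵥ v3 * φ3 ⬝ᵥ w +
    ψ' ⬝ᵥ v4 * φ4 ⬝ᵥ w at f2
  rw [c0, b1, c1, b2, b3, b4] at f1
  rw [d0, a1, d1, a2, a3, a4] at f2
  have cb : ∀ {x y x' y' : k}, x * x' = 1 → y * y' = 1 → 1 + x + y = 0 → 1 + x' + y' = 0 →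
      Fx p x x' := fun h1 h2 h3 h4 => Fx.cube (by grind) h1
  have F2 := cb e2 e3 (by linear_combination -f1) (by linear_combination -f2)
  have F3 := cb e3 e2 (by linear_combination -f1) (by linear_combination -f2)
  have F0 : ∀ {x y : k}, x = 0 → y = 0 → Fx p x y := fun h h' => by
    simpa [h, h'] using Fx.nat (k := k) (p := p) 0
  have F1 : ∀ {x y : k}, x = 1 → y = 1 → Fx p x y := fun h h' => by
    simpa [h, h'] using Fx.nat (k := k) (p := p) 1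
  have k5 : ∀ i : Fin 5, Gd p ((2 : k)⁻¹ • of Φ * X (i.castLE (by omega)) * (of V)ᵀ) := fun i =>
    g (hV i) fun j => by rw [o, o]; simpa only [eq_comm] using Fx.nat _
  refine ⟨_, _, i2, fun i => ?_⟩
  fin_cases i
  exacts [k5 0, k5 1, k5 2, k5 3, k5 4, g h5 fun j => by
      fin_cases j
      exacts [F1 a0 b0, F1 a1 b1, F1 a2 b2, F1 a3 b3, F0 a4 b4],
    g h6 fun j => by
      fin_cases j
      exacts [F0 c0 d0, F1 c1 d1, F2, F3, F1 c4 d4]]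

end Cfsg.Agent.L5.Tr
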