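import Cfsg.Agent.L5.Tr2
import Cfsg.Agent.L5.K1
import Cfsg.Agent.L4.GA7

/-!
The traces of the five-dimensional representations of `U₄(2)`.
-/

set_option autoImplicit false
set_option maxRecDepth 100000

namespace Cfsg.Agent.L5.Tr

open Matrix Subgroup Cfsg.Agent.L5.K Cfsg.Agent.L4.GA
open Cfsg.Agent.L4.GU (Q4 vec)

/-- Unitary transvections. -/
def Tv (a : Fin 4 → Q4) : Matrix (Fin 4) (Fin 4) Q4 := 1 + vecMulVec a fun i => a i ^ 2

/-- How to reach all the transvections. -/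
def chain : List (ℕ × ℕ × ℕ) :=
  [(24, 5, 18), (66, 80, 18), (122, 80, 111), (72, 80, 24), (118, 85, 18), (112, 85, 111),
  (121, 85, 24), (107, 85, 66), (96, 85, 122), (110, 85, 72), (127, 165, 111), (101, 165, 122),
  (106, 165, 112), (117, 165, 96), (89, 18, 122), (65, 18, 112), (67, 18, 96), (109, 18, 127),
  (119, 18, 101), (91, 18, 106), (86, 111, 72), (68, 111, 121), (103, 111, 107), (76, 5, 67),
  (125, 5, 119), (94, 5, 91), (17, 80, 65), (19, 80, 67), (123, 80, 109), (105, 80, 119),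
  (20, 80, 68), (126, 80, 103), (28, 80, 76), (102, 80, 125), (93, 85, 89), (7, 85, 91),
  (87, 85, 86), (6, 85, 94)]

/-- The check of the chain. -/
def ok : List ℕ → List (ℕ × ℕ × ℕ) → Bool
  | L, [] => decide (∀ a : Fin 4 → Q4, hermForm 4 Q4 2 a a = 0 → ∃ n ∈ L, Tv (vec n) = Tv a)
  | L, (a, b, c) :: T => decide (b ∈ L ∧ c ∈ L ∧
      Tv (vec b) * Tv (vec c) * Tv (vec b) = Tv (vec a)) && ok (a :: L) T

theorem chain_ok : ok [0, 5, 80, 85, 165, 245, 18, 111] chain = true := by decide +kernel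

theorem reach (Ω : Matrix (Fin 4) (Fin 4) Q4 → Prop) (h : ∀ A B, Ω A → Ω B → Ω (A * B * A)) :
    ∀ (T : List (ℕ × ℕ × ℕ)) (L : List ℕ), (∀ n ∈ L, Ω (Tv (vec n))) → ok L T = true →
      ∀ a, hermForm 4 Q4 2 a a = 0 → Ω (Tv a)
  | [], L, h1, h2, a, ha => by
    obtain ⟨n, hn, e⟩ := of_decide_eq_true h2 a ha
    exact e ▸ h1 n hn
  | (a, b, c) :: T, L, h1, h2, x, hx => by
    rw [ok, Bool.and_eq_true, decide_eq_true_iff] at h2
    exact reach Ω h T (a :: L) (List.forall_mem_cons.2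
      ⟨h2.1.2.2 ▸ h _ _ (h1 b h2.1.1) (h1 c h2.1.2.1), h1⟩) h2.2 x hx

/-- Seven generators. -/
def gn (i : Fin 7) : Matrix (Fin 4) (Fin 4) Q4 := Tv (vec (![5, 80, 85, 165, 245, 18, 111] i))

theorem gn_facts : (∀ i, UN (gn i) ∧ gn i ^ 2 = 1) ∧
    (∀ i j, i ≠ j → ∃ l, gn i * gn j * gn l ≠ gn l * (gn i * gn j)) ∧
    (∀ i j, br i j = true → gn i * gn j * gn i = gn j * (gn i * gn j)) ∧
    (∀ i j, br i j = false → gn i * gn j = gn j * gn i) ∧
    Ex (gn 0) (fun i : Fin 2 => mat 4 (![1158696523, 1075125787] i))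
      (fun i => mat 4 (![1242615499, 1075461691] i)) ∧ gn 0 * gn 5 ≠ gn 5 * gn 0 ∧
    Tv (vec 0) = 1 ∧ hermForm 4 Q4 2 (vec 5) (vec 5) = 0 := by
  unfold Ex
  decide +kernel

theorem Tv_conj {M : Matrix (Fin 4) (Fin 4) Q4}
    (h : ∀ u v, hermForm 4 Q4 2 (M *ᵥ u) (M *ᵥ v) = hermForm 4 Q4 2 u v) (a : Fin 4 → Q4) :
    M * Tv a = Tv (M *ᵥ a) * M := by
  have k : ∀ a x, Tv a *ᵥ x = x + hermForm 4 Q4 2 x a • a := fun a x => by
    rw [Tv, add_mulVec, one_mulVec, vecMulVec_mulVec, op_smul_eq_smul, dotProduct_comm]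
    rfl
  exact mat_ext fun x => by simp only [← mulVec_mulVec, k, h, mulVec_add, mulVec_smul]

variable {P k : Type*} [Group P] [Finite P] [Field k] [IsAlgClosed k] {ρ : P →* M5 k}

theorem u42_tr {p : ℕ} [Fact p.Prime] [CharP k p] (h : Hy0 ρ) (e : IsU2 4 (P ⧸ center P))
    (hp : p ≠ 2) : (p % 3 = 1 → ∀ g, (ρ g).trace ^ p = (ρ g).trace) ∧
      (p % 3 = 2 → ∀ g, (ρ g⁻¹).trace = (ρ g).trace ^ p) := by
  obtain ⟨f, hf, hk⟩ := IsU2.ex e
  obtain ⟨t1, t2, t3, t4, t5, t6, t7, t8⟩ := gn_facts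
  have h2 : (2 : k) ≠ 0 := cast_ne p Nat.prime_two hp
  have c2 : Nat.Coprime 2 5 := by decide
  choose x hx x2 using fun i => Ov.ex (f := f) h c2 (t1 i)
  have nc : x 0 ∉ center P := fun e => t6 ((hx 0).cent hk e (t1 5).1)
  have a : ∀ i, ρ (x i) * ρ (x i) = 1 := fun i => by rw [← map_mul, ← sq, x2, map_one]
  obtain ⟨W, hW, d⟩ := extra h h2 t5 (hx 0) (x2 0) fun e => nc (e ▸ one_mem _)
  obtain ⟨v, φ, r⟩ := Rf.ex (a 0) (fun e => nc ((center_iff h).2 ⟨-1, by simp [e]⟩)) hW d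
  obtain ⟨B, B', hB, gd⟩ := nf (p := p) h2 (fun i => ρ (x i)) a (fun i j n e => by
      obtain ⟨l, hl⟩ := t2 i j n
      exact hl (((hx i).mul (hx j)).cent hk (by
        rw [h.inj e, ← sq, x2]; exact one_mem _) (t1 l).1))
    (fun i j e => by
      simp only [← map_mul]
      rw [((hx i).mul (hx j)).rel h c2 (hx i) (hx j) (t3 i j e) (x2 i) (x2 j)])
    (fun i j e => by
      simp only [← map_mul]
      rw [(hx i).rel h c2 (hx j) (hx j) (t4 i j e) (x2 j) (x2 j)]) r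
  let M0 : Submonoid P :=
    { carrier := {g | Gd p (R.cj hB ρ g)}
      mul_mem' := fun {a b} ha hb => by simpa using Gd.mul ha hb
      one_mem' := by simpa using Gd.one }
  let M : Subgroup P := { M0 with
    inv_mem' := fun {y} hy => Submonoid.powers_le.2 (show y ∈ M0 from hy)
      (mem_powers_iff_mem_zpowers.2 (inv_mem (mem_zpowers y))) }
  have gx : ∀ i, ∃ y ∈ M, Ov f y (gn i) ∧ y ^ 2 = 1 := fun i => ⟨_, gd i, hx i, x2 i⟩
  have all := reach (fun N => ∃ y ∈ M, Ov f y N ∧ y ^ 2 = 1) (by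
    rintro A B ⟨a, a1, a2, a3⟩ ⟨b, b1, b2, b3⟩
    refine ⟨_, mul_mem (mul_mem a1 b1) a1, (a2.mul b2).mul a2, ?_⟩
    nth_rewrite 2 [eq_inv_of_mul_eq_one_right (show a * a = 1 by rw [← a3, sq])]
    rw [conj_pow, b3, mul_one, mul_inv_cancel]) chain _ (by
    simp only [List.forall_mem_cons]
    exact ⟨⟨1, one_mem _, t7 ▸ Ov.one, one_pow _⟩, gx 0, gx 1, gx 2, gx 3, gx 4, gx 5, gx 6,
      by simp⟩) chain_ok
  have G : ∀ g, Gd p (R.cj hB ρ g) := fun g => by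
    rcases h.simp (normalClosure {x 0}) inferInstance with e | e
    · exact (nc (e (subset_normalClosure rfl))).elim
    refine (closure_le M).2 (fun a ha => ?_) (e.ge (mem_top g))
    obtain ⟨_, rfl, ha⟩ := Group.mem_conjugatesOfSet_iff.1 ha
    obtain ⟨a, rfl⟩ := isConj_iff.1 ha
    obtain ⟨N, hN⟩ := hf a
    obtain ⟨b, b1, b2, b3⟩ := all _ ((N.2 _ _).trans t8)
    rwa [mul_inv_eq_iff_eq_mul.2 (Ov.rel h c2 ⟨N, rfl, hN⟩ (hx 0) b2 (Tv_conj N.2 _) (x2 0) b3)]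
  have t : ∀ g, ((R.cj hB ρ g).map (frobenius k p)).trace = (ρ g).trace ^ p := fun g => by
    rw [← AddMonoidHom.map_trace, R.cj_trace, frobenius_def]
  refine ⟨fun c g => by rw [← t, (G g).1 c, R.cj_trace], fun c g => ?_⟩
  rw [← t, ← R.cj_trace hB, left_inv_eq_left_inv (inv_l g) ((G g).2 c), trace_transpose]

end Cfsg.Agent.L5.Tr
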